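import Mathlib

/-!
# Central extensions: commutators of lifts

For a surjective homomorphism `ψ : E →* Γ` with central kernel, the commutator of lifts of two
elements of `Γ` does not depend on the lifts; if `Γ` is perfect, the lifts of central elements of
`Γ` are central in `E`.  Also: uniqueness of lifts of homomorphisms from a perfect group, the
pullback construction, and the triviality of stem extensions through which an isomorphism lifts.
-/

set_option autoImplicit false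

namespace Cfsg.Agent.Lib.Helper18.CExt

variable {E Γ : Type*} [Group E] [Group Γ]

section basic

variable (ψ : E →* Γ) (hs : Function.Surjective ψ)

/-- a set-theoretic section -/
noncomputable def lf (g : Γ) : E := Function.surjInv hs g

theorem psi_lf (g : Γ) : ψ (lf ψ hs g) = g := Function.surjInv_eq hs g

/-- the commutator of lifts -/
noncomputable def cc (x y : Γ) : E :=
  lf ψ hs x * lf ψ hs y * (lf ψ hs x)⁻¹ * (lf ψ hs y)⁻¹

theorem psi_cc (x y : Γ) : ψ (cc ψ hs x y) = x * y * x⁻¹ * y⁻¹ := by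
  unfold cc
  rw [map_mul, map_mul, map_mul, map_inv, map_inv, psi_lf, psi_lf]

variable (hc : ψ.ker ≤ Subgroup.center E)

include hc

theorem ker_comm (k : E) (hk : ψ k = 1) (e : E) : k * e = e * k :=
  (Subgroup.mem_center_iff.mp (hc (MonoidHom.mem_ker.mpr hk)) e).symm

omit hc in
theorem central_swap (a z b : E) (hz : ∀ e : E, z * e = e * z) :
    (a * z) * b * (a * z)⁻¹ = a * b * a⁻¹ := by
  have h1 := hz b
  calc (a * z) * b * (a * z)⁻¹ = a * (z * b) * z⁻¹ * a⁻¹ := by group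
    _ = a * (b * z) * z⁻¹ * a⁻¹ := by rw [h1]
    _ = a * b * a⁻¹ := by group

theorem conj_eq (a a' e : E) (ha : ψ a = ψ a') : a * e * a⁻¹ = a' * e * a'⁻¹ := by
  have hz : ψ (a⁻¹ * a') = 1 := by rw [map_mul, map_inv, ha, inv_mul_cancel]
  have h1 := central_swap a (a⁻¹ * a') e (ker_comm ψ hc _ hz)
  have h2 : a * (a⁻¹ * a') = a' := by group
  rw [h2] at h1
  exact h1.symm

theorem comm_eq (a a' b b' : E) (ha : ψ a = ψ a') (hb : ψ b = ψ b') :
    a * b * a⁻¹ * b⁻¹ = a' * b' * a'⁻¹ * b'⁻¹ := by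
  have h1 := conj_eq ψ hc a a' b' ha
  have h2 := conj_eq ψ hc b b' a⁻¹ hb
  calc a * b * a⁻¹ * b⁻¹ = a * (b * a⁻¹ * b⁻¹) := by group
    _ = a * (b' * a⁻¹ * b'⁻¹) := by rw [h2]
    _ = (a * b' * a⁻¹) * b'⁻¹ := by group
    _ = a' * b' * a'⁻¹ * b'⁻¹ := by rw [h1]

theorem cc_eq (a b : E) (x y : Γ) (ha : ψ a = x) (hb : ψ b = y) :
    cc ψ hs x y = a * b * a⁻¹ * b⁻¹ := by
  unfold cc
  apply comm_eq ψ hc
  · rw [psi_lf, ha]
  · rw [psi_lf, hb]

theorem cc_conj (a : E) (x y : Γ) :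
    a * cc ψ hs x y * a⁻¹ = cc ψ hs (ψ a * x * (ψ a)⁻¹) (ψ a * y * (ψ a)⁻¹) := by
  have h := cc_eq ψ hs hc (a * lf ψ hs x * a⁻¹) (a * lf ψ hs y * a⁻¹) (ψ a * x * (ψ a)⁻¹)
    (ψ a * y * (ψ a)⁻¹) (by rw [map_mul, map_mul, map_inv, psi_lf])
    (by rw [map_mul, map_mul, map_inv, psi_lf])
  rw [h]
  unfold cc
  group

theorem cc_mul_right (x y z : Γ) :
    cc ψ hs x (y * z) = cc ψ hs x y * (lf ψ hs y * cc ψ hs x z * (lf ψ hs y)⁻¹) := by
  have h := cc_eq ψ hs hc (lf ψ hs x) (lf ψ hs y * lf ψ hs z) x (y * z) (psi_lf ψ hs x)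
    (by rw [map_mul, psi_lf, psi_lf])
  rw [h]
  unfold cc
  group

theorem cc_mul_left (x y z : Γ) :
    cc ψ hs (x * y) z = (lf ψ hs x * cc ψ hs y z * (lf ψ hs x)⁻¹) * cc ψ hs x z := by
  have h := cc_eq ψ hs hc (lf ψ hs x * lf ψ hs y) (lf ψ hs z) (x * y) z
    (by rw [map_mul, psi_lf, psi_lf]) (psi_lf ψ hs z)
  rw [h]
  unfold cc
  group

theorem cc_comm_of_comm (x y : Γ) (hxy : x * y = y * x) (e : E) :
    cc ψ hs x y * e = e * cc ψ hs x y := by
  apply ker_comm ψ hc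
  rw [psi_cc, hxy]
  group

/-- for commuting elements the commutator of lifts is multiplicative on the right -/
theorem cc_mul_right' (x y z : Γ) (hxz : x * z = z * x) :
    cc ψ hs x (y * z) = cc ψ hs x y * cc ψ hs x z := by
  rw [cc_mul_right ψ hs hc, mul_assoc (lf ψ hs y), cc_comm_of_comm ψ hs hc x z hxz]
  group

theorem cc_mul_left' (x y z : Γ) (hyz : y * z = z * y) :
    cc ψ hs (x * y) z = cc ψ hs y z * cc ψ hs x z := by
  rw [cc_mul_left ψ hs hc, mul_assoc (lf ψ hs x), cc_comm_of_comm ψ hs hc y z hyz]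
  group

omit hc in
/-- a homomorphism into the centre kills the commutator subgroup -/
theorem comm_le_ker_of_center {G : Type*} [Group G] (f : G →* Subgroup.center E) :
    commutator G ≤ f.ker := by
  rw [commutator_eq_closure, Subgroup.closure_le]
  rintro g ⟨a, b, rfl⟩
  rw [SetLike.mem_coe, MonoidHom.mem_ker, commutatorElement_def, map_mul, map_mul, map_mul,
    map_inv, map_inv]
  have h1 : f a * f b = f b * f a := by
    apply Subtype.ext
    exact (Subgroup.mem_center_iff.mp (f a).2 (f b : E)).symm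
  rw [h1]
  group

include hs in
/-- lifts of central elements of a perfect group are central -/
theorem central_of_psi (hperf : commutator Γ = ⊤) (e : E) (he : ψ e ∈ Subgroup.center Γ) :
    e ∈ Subgroup.center E := by
  have hmem : ∀ y : E, e * y * e⁻¹ * y⁻¹ ∈ Subgroup.center E := by
    intro y
    apply hc
    rw [MonoidHom.mem_ker, map_mul, map_mul, map_mul, map_inv, map_inv]
    have h1 := Subgroup.mem_center_iff.mp he (ψ y)
    rw [← h1]
    group
  have hmul : ∀ y y' : E, e * (y * y') * e⁻¹ * (y * y')⁻¹ =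
      (e * y * e⁻¹ * y⁻¹) * (e * y' * e⁻¹ * y'⁻¹) := by
    intro y y'
    have hcy : y * (e * y' * e⁻¹ * y'⁻¹) = (e * y' * e⁻¹ * y'⁻¹) * y :=
      Subgroup.mem_center_iff.mp (hmem y') y
    have key : e * (y * y') * e⁻¹ * (y * y')⁻¹ =
        e * y * e⁻¹ * y⁻¹ * (y * (e * y' * e⁻¹ * y'⁻¹) * y⁻¹) := by group
    rw [key, hcy]
    generalize e * y' * e⁻¹ * y'⁻¹ = c
    group
  let f : E →* Subgroup.center E := MonoidHom.mk' (fun y => ⟨e * y * e⁻¹ * y⁻¹, hmem y⟩)
    (fun y y' => Subtype.ext (hmul y y'))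
  have hf : ∀ y : E, (f y : E) = e * y * e⁻¹ * y⁻¹ := fun _ => rfl
  have hker : commutator E ≤ f.ker := comm_le_ker_of_center f
  have hall : ∀ y : E, f y = 1 := by
    intro y
    have h1 : ψ y ∈ (commutator E).map ψ := by
      rw [commutator_def, Subgroup.map_commutator, Subgroup.map_top_of_surjective ψ hs,
        ← commutator_def, hperf]
      exact Subgroup.mem_top _
    obtain ⟨y', hy', hyy⟩ := h1
    have h2 : f y' = 1 := MonoidHom.mem_ker.mp (hker hy')
    have h3 : ψ (y'⁻¹ * y) = 1 := by rw [map_mul, map_inv, hyy, inv_mul_cancel]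
    have h4 : f (y'⁻¹ * y) = 1 := by
      apply Subtype.ext
      rw [hf]
      have h5 := ker_comm ψ hc _ h3 e
      show e * (y'⁻¹ * y) * e⁻¹ * (y'⁻¹ * y)⁻¹ = 1
      rw [← h5]
      group
    have h6 : y = y' * (y'⁻¹ * y) := by group
    rw [h6, map_mul, h2, h4, mul_one]
  rw [Subgroup.mem_center_iff]
  intro g
  have h1 : e * g * e⁻¹ * g⁻¹ = 1 := by
    have := congrArg Subtype.val (hall g)
    rwa [hf] at this
  have h2 : e * g = (e * g * e⁻¹ * g⁻¹) * (g * e) := by group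
  rw [h2, h1, one_mul]

include hs in
theorem cc_mul_central (hperf : commutator Γ = ⊤) (x z y : Γ) (hz : z ∈ Subgroup.center Γ) :
    cc ψ hs (x * z) y = cc ψ hs x y := by
  have h := cc_eq ψ hs hc (lf ψ hs x * lf ψ hs z) (lf ψ hs y) (x * z) y
    (by rw [map_mul, psi_lf, psi_lf]) (psi_lf ψ hs y)
  rw [h]
  have hz' : lf ψ hs z ∈ Subgroup.center E :=
    central_of_psi ψ hs hc hperf _ (by rw [psi_lf]; exact hz)
  rw [central_swap (lf ψ hs x) (lf ψ hs z) (lf ψ hs y)
    (fun e => (Subgroup.mem_center_iff.mp hz' e).symm)]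
  rfl

end basic

/-! ### Lifting homomorphisms from a perfect group -/

section lifting

variable {Δ G₁ : Type*} [Group Δ] [Group G₁]

/-- a homomorphism from a perfect group has at most one lift through a central extension -/
theorem lift_unique (hperf : commutator Δ = ⊤) (π₁ : E →* G₁) (hc : π₁.ker ≤ Subgroup.center E)
    (τ τ' : Δ →* E) (h : π₁.comp τ = π₁.comp τ') : τ = τ' := by
  have hmem : ∀ d : Δ, τ d * (τ' d)⁻¹ ∈ Subgroup.center E := by
    intro d
    apply hc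
    rw [MonoidHom.mem_ker, map_mul, map_inv]
    have := DFunLike.congr_fun h d
    simp only [MonoidHom.comp_apply] at this
    rw [this, mul_inv_cancel]
  have hmul : ∀ d d' : Δ, τ (d * d') * (τ' (d * d'))⁻¹ =
      (τ d * (τ' d)⁻¹) * (τ d' * (τ' d')⁻¹) := by
    intro d d'
    have hcy : (τ' d)⁻¹ * (τ d' * (τ' d')⁻¹) = (τ d' * (τ' d')⁻¹) * (τ' d)⁻¹ :=
      Subgroup.mem_center_iff.mp (hmem d') _
    rw [map_mul, map_mul, mul_assoc (τ d) ((τ' d)⁻¹), hcy]
    group
  let f : Δ →* Subgroup.center E := MonoidHom.mk' (fun d => ⟨τ d * (τ' d)⁻¹, hmem d⟩)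
    (fun d d' => Subtype.ext (hmul d d'))
  have hker : commutator Δ ≤ f.ker := comm_le_ker_of_center f
  ext d
  have h1 : f d = 1 := MonoidHom.mem_ker.mp (hker (by rw [hperf]; exact Subgroup.mem_top d))
  have h2 : τ d * (τ' d)⁻¹ = 1 := congrArg Subtype.val h1
  exact mul_inv_eq_one.mp h2

/-- if every central extension of `Δ` splits, homomorphisms from `Δ` lift through central
extensions -/
theorem lift_of_section
    (hsec : ∀ (P : Subgroup (E × Δ)) (ψ : P →* Δ), Function.Surjective ψ →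
      ψ.ker ≤ Subgroup.center P → ∃ φ : Δ →* P, ψ.comp φ = MonoidHom.id Δ)
    (π₁ : E →* G₁) (hπ : Function.Surjective π₁) (hc : π₁.ker ≤ Subgroup.center E)
    (σ : Δ →* G₁) : ∃ τ : Δ →* E, π₁.comp τ = σ := by
  let P : Subgroup (E × Δ) :=
    (π₁.comp (MonoidHom.fst E Δ)).eqLocus (σ.comp (MonoidHom.snd E Δ))
  have hP : ∀ p : E × Δ, p ∈ P ↔ π₁ p.1 = σ p.2 := fun p => Iff.rfl
  let ψ : P →* Δ := (MonoidHom.snd E Δ).comp P.subtype
  have hψ : ∀ p : P, ψ p = (p : E × Δ).2 := fun _ => rfl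
  have hsurj : Function.Surjective ψ := by
    intro d
    obtain ⟨e, he⟩ := hπ (σ d)
    exact ⟨⟨(e, d), (hP _).mpr he⟩, rfl⟩
  have hker : ψ.ker ≤ Subgroup.center P := by
    intro p hp
    rw [MonoidHom.mem_ker, hψ] at hp
    have h1 : π₁ (p : E × Δ).1 = 1 := by
      have := (hP _).mp p.2
      rw [this, hp, map_one]
    have h2 : (p : E × Δ).1 ∈ Subgroup.center E := hc (MonoidHom.mem_ker.mpr h1)
    rw [Subgroup.mem_center_iff]
    intro g
    apply Subtype.ext
    apply Prod.ext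
    · exact Subgroup.mem_center_iff.mp h2 _
    · show (g : E × Δ).2 * (p : E × Δ).2 = (p : E × Δ).2 * (g : E × Δ).2
      rw [hp, mul_one, one_mul]
  obtain ⟨φ, hφ⟩ := hsec P ψ hsurj hker
  refine ⟨((MonoidHom.fst E Δ).comp P.subtype).comp φ, ?_⟩
  ext d
  have h1 := (hP _).mp (φ d).2
  have h2 : ψ (φ d) = d := DFunLike.congr_fun hφ d
  rw [hψ] at h2
  show π₁ ((φ d : E × Δ).1) = σ d
  rw [h1, h2]

/-- a stem extension through which an isomorphism lifts is trivial -/
theorem stem_trivial {Γ' : Type*} [Group Γ'] (θ : Δ →* G₁) (hθ : Function.Injective θ)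
    (hθs : Function.Surjective θ) (σ : Γ' →* G₁) (hc : σ.ker ≤ Subgroup.center Γ')
    (hcomm : σ.ker ≤ commutator Γ') (τ : Δ →* Γ') (hτ : σ.comp τ = θ) : σ.ker = ⊥ := by
  have hτ' : ∀ d, σ (τ d) = θ d := fun d => DFunLike.congr_fun hτ d
  have h1 : commutator Γ' ≤ τ.range := by
    rw [commutator_eq_closure, Subgroup.closure_le]
    rintro g ⟨g₁, g₂, rfl⟩
    obtain ⟨d₁, hd₁⟩ := hθs (σ g₁)
    obtain ⟨d₂, hd₂⟩ := hθs (σ g₂)
    refine ⟨d₁ * d₂ * d₁⁻¹ * d₂⁻¹, ?_⟩
    rw [commutatorElement_def, map_mul, map_mul, map_mul, map_inv, map_inv]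
    exact comm_eq σ hc _ _ _ _ (by rw [hτ', hd₁]) (by rw [hτ', hd₂])
  rw [eq_bot_iff]
  intro z hz
  obtain ⟨d, rfl⟩ := h1 (hcomm hz)
  rw [MonoidHom.mem_ker, hτ'] at hz
  have : d = 1 := hθ (by rw [hz, map_one])
  rw [this, map_one]
  exact Subgroup.mem_bot.mpr rfl

end lifting

end Cfsg.Agent.Lib.Helper18.CExt
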