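import Cfsg.Agent.Lib.Helper18.ChevE6TwCore
import Cfsg.Agent.Lib.Helper36.ChevBruhat

set_option autoImplicit false

namespace Cfsg.Agent.Lib.Helper18

open Cfsg Cfsg.Lie

section

variable {K : Type*} [Field K]

theorem e6nC_nil : (e6nC [] : GL chevE6.Idx K) = 1 := rfl

theorem e6nC_cons (k : ℕ) (c : List ℕ) :
    (e6nC (k :: c) : GL chevE6.Idx K) = e6nC [k] * e6nC c := by
  unfold e6nC
  rw [List.flatMap_cons, List.map_append, List.prod_append, List.flatMap_singleton]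

/-- The orbit reflections are involutions on the roots, they are pairwise distinct, and a proper
non-empty part of an orbit does not commute with the graph automorphism. -/
theorem e6_orb_refl_chk :
    (∀ k < 4, ∀ s < 72, Cfsg.Agent.Lib.Helper36.wordF chevE6 (e6Orb k ++ e6Orb k) s = s) ∧
    (∀ k < 4, ∀ k' < 4, (∀ s < 72, Cfsg.Agent.Lib.Helper36.wordF chevE6 (e6Orb k) s =
      Cfsg.Agent.Lib.Helper36.wordF chevE6 (e6Orb k') s) → k = k') ∧
    (∀ j ∈ [0, 5, 2, 4], chevE6.reflectRoot j (e6ρ (chevE6.simple j)) ≠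
      e6ρ (chevE6.reflectRoot j (chevE6.simple j))) ∧
    (∀ k < 4, ∀ i ∈ e6Orb k, chevE6.IsNegRoot
      (Cfsg.Agent.Lib.Helper36.wordF chevE6 (e6Orb k) (chevE6.simple i.val))) := by
  decide +kernel

theorem wordPerm_eq_wordF (D : ChevalleyDatum)
    (hD : D ∈ [chevG2, chevB2, chevD4, chevF4, chevE6, chevE7, chevE8]) (l : List (Fin D.rank))
    (s : ℕ) (hs : s < D.nroots) :
    wordPerm D hD l s = Cfsg.Agent.Lib.Helper36.wordF D l s := by
  induction l with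
  | nil => rfl
  | cons i l ih =>
    rw [wordPerm_cons, Equiv.Perm.mul_apply, ih,
      reflPerm_apply _ _ _ _ _ (Cfsg.Agent.Lib.Helper36.wordF_lt D hD l s hs)]
    rfl

theorem nU36_eq (D : ChevalleyDatum)
    (hD : D ∈ [chevG2, chevB2, chevD4, chevF4, chevE6, chevE7, chevE8]) (i : Fin D.rank) :
    (Cfsg.Agent.Lib.Helper36.nU D hD i : GL D.Idx K) = nU D hD (D.simple i.val) := by
  apply Units.ext
  rw [Cfsg.Agent.Lib.Helper36.coe_nU, coe_nU]

theorem nU36_mem_monomial (i : Fin chevE6.rank) :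
    (Cfsg.Agent.Lib.Helper36.nU chevE6 e6mem i : GL chevE6.Idx K) ∈ chevE6.monomialSubgroup K := by
  rw [nU36_eq]
  exact nU_mem_monomial chevE6 e6mem _ (simple_lt_nroots chevE6 e6mem i.val i.isLt)

/-- `n_J n_J ∈ H`. -/
theorem e6nC_sq_mem (k : ℕ) (hk : k < 4) :
    (e6nC [k] : GL chevE6.Idx K) * e6nC [k] ∈ chevE6.diagonalSubgroup K := by
  have h1 := Cfsg.Agent.Lib.Helper36.word_eq_mod_diag (F := K) chevE6 e6mem []
    (e6Orb k ++ e6Orb k) (fun s hs => (e6_orb_refl_chk.1 k hk s hs).symm)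
  rw [List.map_nil, List.prod_nil, inv_one, one_mul, List.map_append, List.prod_append] at h1
  unfold e6nC
  rw [List.flatMap_singleton]
  exact h1

/-- distinct orbit reflections are distinct modulo `B`. -/
theorem e6nC_inj (k k' : ℕ) (hk : k < 4) (hk' : k' < 4)
    (h : (e6nC [k] : GL chevE6.Idx K)⁻¹ * e6nC [k'] ∈ chevE6.borelSubgroup K) : k = k' := by
  have hN : (e6nC [k] : GL chevE6.Idx K)⁻¹ * e6nC [k'] ∈ chevE6.monomialSubgroup K :=
    Subgroup.mul_mem _ (Subgroup.inv_mem _ (e6nC_mem_monomial _)) (e6nC_mem_monomial _)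
  have hH : (e6nC [k] : GL chevE6.Idx K)⁻¹ * e6nC [k'] ∈ chevE6.diagonalSubgroup K := by
    rw [← (Cfsg.Agent.S1040.result (F := K) chevE6 e6mem).2]
    exact Subgroup.mem_inf.mpr ⟨h, hN⟩
  have h1 := rootAct_of_mem_diagonal chevE6 e6mem _ hH
  have h2 := (e6nC_rootAct (K := K) [k]).inv.mul (e6nC_rootAct (K := K) [k'])
  have h3 := RootAct.unique h2 h1
  rw [List.flatMap_singleton, List.flatMap_singleton, inv_mul_eq_one] at h3
  apply e6_orb_refl_chk.2.1 k hk k' hk'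
  intro s hs
  rw [← wordPerm_eq_wordF chevE6 e6mem _ s hs, ← wordPerm_eq_wordF chevE6 e6mem _ s hs, h3]

/-- A single reflection of a two-element orbit cannot relate two elements of `N¹` modulo `H`. -/
theorem e6_bn_excl (q : ℕ) (φ : K →+* K) (hφ : ∀ t, φ t = t ^ q) (hφφ : ∀ t, φ (φ t) = t)
    (j : Fin chevE6.rank) (hj : j.val ∈ [0, 5, 2, 4]) (n : GL chevE6.Idx K)
    (hn : n ∈ chevE6.monomialSubgroup K ⊓ twistedE6 K q) (c : List ℕ)
    (h : (Cfsg.Agent.Lib.Helper36.nU chevE6 e6mem j * n)⁻¹ * e6nC c ∈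
      chevE6.diagonalSubgroup K) : False := by
  obtain ⟨hnN, hnG⟩ := Subgroup.mem_inf.mp hn
  have hxG : (e6nC c : GL chevE6.Idx K) * n⁻¹ ∈ twistedE6 K q :=
    Subgroup.mul_mem _ (e6nC_mem_tw q φ hφ c) (Subgroup.inv_mem _ hnG)
  have hfix := e6σ_fixed q φ hφ hφφ _ hxG
  have e1 : (e6nC c : GL chevE6.Idx K) * n⁻¹ = Cfsg.Agent.Lib.Helper36.nU chevE6 e6mem j *
      (n * ((Cfsg.Agent.Lib.Helper36.nU chevE6 e6mem j * n)⁻¹ * e6nC c) * n⁻¹) := by group
  have h1 : n * ((Cfsg.Agent.Lib.Helper36.nU chevE6 e6mem j * n)⁻¹ * e6nC c) * n⁻¹ ∈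
      chevE6.diagonalSubgroup K :=
    (Subgroup.mem_normalizer_iff.mp (monomialSubgroup_le_normalizer chevE6 e6mem hnN) _).mp h
  have h2 := rootAct_of_mem_diagonal chevE6 e6mem _ h1
  have h3 : RootAct chevE6 e6mem (Cfsg.Agent.Lib.Helper36.nU chevE6 e6mem j : GL chevE6.Idx K)
      (reflPerm chevE6 e6mem j.val j.isLt) := by
    rw [nU36_eq]
    exact rootAct_nU chevE6 e6mem j.val j.isLt
  have h4 := h3.mul h2
  rw [← e1, mul_one] at h4
  have hs : chevE6.simple j.val < 72 := simple_lt_nroots chevE6 e6mem j.val j.isLt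
  have h5 := e6_rootAct_comm φ _ _ h4 hfix (chevE6.simple j.val) hs
  rw [reflPerm_apply _ _ _ _ _ (e6ρ_chk _ hs).1, reflPerm_apply _ _ _ _ _ hs] at h5
  exact e6_orb_refl_chk.2.2.1 j.val hj h5

/-- The ambient double coset of `n_J b n`: one of `n_J n`, `n`, or a single reflection of a
two-element orbit times `n`. -/
theorem e6_bn_amb (k : ℕ) (hk : k < 4) (n : GL chevE6.Idx K)
    (hn : n ∈ chevE6.monomialSubgroup K) (b : GL chevE6.Idx K)
    (hb : b ∈ chevE6.borelSubgroup K) :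
    ∃ m : GL chevE6.Idx K, (m = e6nC [k] * n ∨ m = n ∨ ∃ j : Fin chevE6.rank,
      j.val ∈ [0, 5, 2, 4] ∧ m = Cfsg.Agent.Lib.Helper36.nU chevE6 e6mem j * n) ∧
      ∃ b₁ ∈ chevE6.borelSubgroup K, ∃ b₂ ∈ chevE6.borelSubgroup K,
        (e6nC [k] : GL chevE6.Idx K) * b * n = b₁ * m * b₂ := by
  have hsingle : ∀ i : Fin chevE6.rank, ∃ m : GL chevE6.Idx K,
      (m = Cfsg.Agent.Lib.Helper36.nU chevE6 e6mem i * n ∨ m = n) ∧
      ∃ b₁ ∈ chevE6.borelSubgroup K, ∃ b₂ ∈ chevE6.borelSubgroup K,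
        Cfsg.Agent.Lib.Helper36.nU chevE6 e6mem i * b * n = b₁ * m * b₂ := by
    intro i
    rcases Cfsg.Agent.Lib.Helper36.bn_key chevE6 e6mem i n hn b hb with
      ⟨b₁, hb₁, b₂, hb₂, e⟩ | ⟨b₁, hb₁, b₂, hb₂, e⟩
    · exact ⟨_, Or.inl rfl, b₁, hb₁, b₂, hb₂, e⟩
    · exact ⟨_, Or.inr rfl, b₁, hb₁, b₂, hb₂, e⟩
  have hpair : ∀ i j : Fin chevE6.rank, i.val ∈ [0, 5, 2, 4] → j.val ∈ [0, 5, 2, 4] →
      ∃ m : GL chevE6.Idx K, (m = Cfsg.Agent.Lib.Helper36.nU chevE6 e6mem i *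
        Cfsg.Agent.Lib.Helper36.nU chevE6 e6mem j * n ∨ m = n ∨ ∃ j' : Fin chevE6.rank,
        j'.val ∈ [0, 5, 2, 4] ∧ m = Cfsg.Agent.Lib.Helper36.nU chevE6 e6mem j' * n) ∧
      ∃ b₁ ∈ chevE6.borelSubgroup K, ∃ b₂ ∈ chevE6.borelSubgroup K,
        Cfsg.Agent.Lib.Helper36.nU chevE6 e6mem i * Cfsg.Agent.Lib.Helper36.nU chevE6 e6mem j *
          b * n = b₁ * m * b₂ := by
    intro i j hi hj
    rcases Cfsg.Agent.Lib.Helper36.bn_key chevE6 e6mem j n hn b hb with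
      ⟨b₁, hb₁, b₂, hb₂, e⟩ | ⟨b₁, hb₁, b₂, hb₂, e⟩
    · have hn' : Cfsg.Agent.Lib.Helper36.nU chevE6 e6mem j * n ∈ chevE6.monomialSubgroup K :=
        Subgroup.mul_mem _ (nU36_mem_monomial j) hn
      rcases Cfsg.Agent.Lib.Helper36.bn_key chevE6 e6mem i _ hn' b₁ hb₁ with
        ⟨b₃, hb₃, b₄, hb₄, e'⟩ | ⟨b₃, hb₃, b₄, hb₄, e'⟩
      · refine ⟨_, Or.inl rfl, b₃, hb₃, b₄ * b₂, Subgroup.mul_mem _ hb₄ hb₂, ?_⟩
        calc Cfsg.Agent.Lib.Helper36.nU chevE6 e6mem i * Cfsg.Agent.Lib.Helper36.nU chevE6 e6mem j *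
              b * n = Cfsg.Agent.Lib.Helper36.nU chevE6 e6mem i *
                (Cfsg.Agent.Lib.Helper36.nU chevE6 e6mem j * b * n) := by group
          _ = (Cfsg.Agent.Lib.Helper36.nU chevE6 e6mem i * b₁ *
                (Cfsg.Agent.Lib.Helper36.nU chevE6 e6mem j * n)) * b₂ := by rw [e]; group
          _ = _ := by rw [e']; group
      · refine ⟨_, Or.inr (Or.inr ⟨j, hj, rfl⟩), b₃, hb₃, b₄ * b₂, Subgroup.mul_mem _ hb₄ hb₂, ?_⟩
        calc Cfsg.Agent.Lib.Helper36.nU chevE6 e6mem i * Cfsg.Agent.Lib.Helper36.nU chevE6 e6mem j *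
              b * n = Cfsg.Agent.Lib.Helper36.nU chevE6 e6mem i *
                (Cfsg.Agent.Lib.Helper36.nU chevE6 e6mem j * b * n) := by group
          _ = (Cfsg.Agent.Lib.Helper36.nU chevE6 e6mem i * b₁ *
                (Cfsg.Agent.Lib.Helper36.nU chevE6 e6mem j * n)) * b₂ := by rw [e]; group
          _ = _ := by rw [e']; group
    · rcases Cfsg.Agent.Lib.Helper36.bn_key chevE6 e6mem i n hn b₁ hb₁ with
        ⟨b₃, hb₃, b₄, hb₄, e'⟩ | ⟨b₃, hb₃, b₄, hb₄, e'⟩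
      · refine ⟨_, Or.inr (Or.inr ⟨i, hi, rfl⟩), b₃, hb₃, b₄ * b₂, Subgroup.mul_mem _ hb₄ hb₂, ?_⟩
        calc Cfsg.Agent.Lib.Helper36.nU chevE6 e6mem i * Cfsg.Agent.Lib.Helper36.nU chevE6 e6mem j *
              b * n = Cfsg.Agent.Lib.Helper36.nU chevE6 e6mem i *
                (Cfsg.Agent.Lib.Helper36.nU chevE6 e6mem j * b * n) := by group
          _ = (Cfsg.Agent.Lib.Helper36.nU chevE6 e6mem i * b₁ * n) * b₂ := by rw [e]; group
          _ = _ := by rw [e']; group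
      · refine ⟨_, Or.inr (Or.inl rfl), b₃, hb₃, b₄ * b₂, Subgroup.mul_mem _ hb₄ hb₂, ?_⟩
        calc Cfsg.Agent.Lib.Helper36.nU chevE6 e6mem i * Cfsg.Agent.Lib.Helper36.nU chevE6 e6mem j *
              b * n = Cfsg.Agent.Lib.Helper36.nU chevE6 e6mem i *
                (Cfsg.Agent.Lib.Helper36.nU chevE6 e6mem j * b * n) := by group
          _ = (Cfsg.Agent.Lib.Helper36.nU chevE6 e6mem i * b₁ * n) * b₂ := by rw [e]; group
          _ = _ := by rw [e']; group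
  have e0 : (e6nC [0] : GL chevE6.Idx K) =
      Cfsg.Agent.Lib.Helper36.nU chevE6 e6mem ⟨1, by decide⟩ := by
    unfold e6nC
    simp [e6Orb]
  have e1 : (e6nC [1] : GL chevE6.Idx K) =
      Cfsg.Agent.Lib.Helper36.nU chevE6 e6mem ⟨3, by decide⟩ := by
    unfold e6nC
    simp [e6Orb]
  have e2 : (e6nC [2] : GL chevE6.Idx K) =
      Cfsg.Agent.Lib.Helper36.nU chevE6 e6mem ⟨0, by decide⟩ *
        Cfsg.Agent.Lib.Helper36.nU chevE6 e6mem ⟨5, by decide⟩ := by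
    unfold e6nC
    simp [e6Orb]
  have e3 : (e6nC [3] : GL chevE6.Idx K) =
      Cfsg.Agent.Lib.Helper36.nU chevE6 e6mem ⟨2, by decide⟩ *
        Cfsg.Agent.Lib.Helper36.nU chevE6 e6mem ⟨4, by decide⟩ := by
    unfold e6nC
    simp [e6Orb]
  interval_cases k
  · rw [e0]
    obtain ⟨m, hm | hm, h⟩ := hsingle ⟨1, by decide⟩
    · exact ⟨m, Or.inl hm, h⟩
    · exact ⟨m, Or.inr (Or.inl hm), h⟩
  · rw [e1]
    obtain ⟨m, hm | hm, h⟩ := hsingle ⟨3, by decide⟩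
    · exact ⟨m, Or.inl hm, h⟩
    · exact ⟨m, Or.inr (Or.inl hm), h⟩
  · rw [e2]
    exact hpair ⟨0, by decide⟩ ⟨5, by decide⟩ (by decide) (by decide)
  · rw [e3]
    exact hpair ⟨2, by decide⟩ ⟨4, by decide⟩ (by decide) (by decide)

/-- The double coset axiom in the twisted group. -/
theorem e6_bn_tw [Fintype K] (q : ℕ) (φ : K →+* K) (hφ : ∀ t, φ t = t ^ q)
    (hφφ : ∀ t, φ (φ t) = t) (k : ℕ) (hk : k < 4) (n : GL chevE6.Idx K)
    (hn : n ∈ chevE6.monomialSubgroup K ⊓ twistedE6 K q) (b : GL chevE6.Idx K)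
    (hb : b ∈ chevE6.borelSubgroup K ⊓ twistedE6 K q) :
    (∃ b₁ ∈ chevE6.borelSubgroup K ⊓ twistedE6 K q,
      ∃ b₂ ∈ chevE6.borelSubgroup K ⊓ twistedE6 K q,
        (e6nC [k] : GL chevE6.Idx K) * b * n = b₁ * (e6nC [k] * n) * b₂) ∨
    (∃ b₁ ∈ chevE6.borelSubgroup K ⊓ twistedE6 K q,
      ∃ b₂ ∈ chevE6.borelSubgroup K ⊓ twistedE6 K q,
        (e6nC [k] : GL chevE6.Idx K) * b * n = b₁ * n * b₂) := by
  obtain ⟨hnN, hnG⟩ := Subgroup.mem_inf.mp hn
  obtain ⟨hbB, hbG⟩ := Subgroup.mem_inf.mp hb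
  have hHB : chevE6.diagonalSubgroup K ≤ chevE6.borelSubgroup K := le_sup_right
  have hUB : chevE6.posUnipotent K ≤ chevE6.borelSubgroup K := le_sup_left
  have hsG : (e6nC [k] : GL chevE6.Idx K) ∈ twistedE6 K q := e6nC_mem_tw q φ hφ [k]
  have hgG : (e6nC [k] : GL chevE6.Idx K) * b * n ∈ twistedE6 K q :=
    Subgroup.mul_mem _ (Subgroup.mul_mem _ hsG hbG) hnG
  obtain ⟨u', hu', h, hh, c, hc, u, hu, e⟩ := e6_tw_bruhat q φ hφ hφφ _ hgG
  obtain ⟨hu'U, hu'G⟩ := Subgroup.mem_inf.mp hu'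
  obtain ⟨huU, huG⟩ := Subgroup.mem_inf.mp hu
  obtain ⟨hhH, hhG⟩ := Subgroup.mem_inf.mp hh
  obtain ⟨m, hm, b₁, hb₁, b₂, hb₂, e'⟩ := e6_bn_amb k hk n hnN b hbB
  have hmN : m ∈ chevE6.monomialSubgroup K := by
    rcases hm with rfl | rfl | ⟨j, -, rfl⟩
    · exact Subgroup.mul_mem _ (e6nC_mem_monomial _) hnN
    · exact hnN
    · exact Subgroup.mul_mem _ (nU36_mem_monomial j) hnN
  have e3 : (e6nC c : GL chevE6.Idx K) = ((u' * h)⁻¹ * b₁) * m * (b₂ * u⁻¹) := by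
    have : (e6nC c : GL chevE6.Idx K) = (u' * h)⁻¹ * (u' * h * e6nC c * u) * u⁻¹ := by group
    rw [this, ← e, e']
    group
  have hd : m⁻¹ * e6nC c ∈ chevE6.diagonalSubgroup K :=
    Cfsg.Agent.Lib.Helper36.bruhat_unique chevE6 e6mem m (e6nC c) _ _ hmN (e6nC_mem_monomial c)
      (Subgroup.mul_mem _ (Subgroup.inv_mem _ (Subgroup.mul_mem _ (hUB hu'U) (hHB hhH))) hb₁)
      (Subgroup.mul_mem _ hb₂ (Subgroup.inv_mem _ (hUB huU))) e3
  have hb1' : u' * h ∈ chevE6.borelSubgroup K ⊓ twistedE6 K q :=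
    Subgroup.mem_inf.mpr ⟨Subgroup.mul_mem _ (hUB hu'U) (hHB hhH), Subgroup.mul_mem _ hu'G hhG⟩
  rcases hm with rfl | rfl | ⟨j, hj, rfl⟩
  · left
    refine ⟨u' * h, hb1', (e6nC [k] * n)⁻¹ * e6nC c * u, Subgroup.mem_inf.mpr
      ⟨Subgroup.mul_mem _ (hHB hd) (hUB huU), Subgroup.mul_mem _ (Subgroup.mul_mem _
        (Subgroup.inv_mem _ (Subgroup.mul_mem _ hsG hnG)) (e6nC_mem_tw q φ hφ c)) huG⟩, ?_⟩
    rw [e]
    group
  · right
    refine ⟨u' * h, hb1', m⁻¹ * e6nC c * u, Subgroup.mem_inf.mpr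
      ⟨Subgroup.mul_mem _ (hHB hd) (hUB huU), Subgroup.mul_mem _ (Subgroup.mul_mem _
        (Subgroup.inv_mem _ hnG) (e6nC_mem_tw q φ hφ c)) huG⟩, ?_⟩
    rw [e]
    group
  · exact (e6_bn_excl q φ hφ hφφ j hj n hn c hd).elim

/-- `n_J x_a(1) x_b(1) n_J ∉ B` when `w_J` makes `a ≠ b` negative. -/
theorem e6_conj_pair_not_mem (k : ℕ) (hk : k < 4) (a b : ℕ) (ha : a < 72) (hb : b < 72)
    (hab : a ≠ b)
    (hna : chevE6.IsNegRoot (Cfsg.Agent.Lib.Helper36.wordF chevE6 (e6Orb k) a))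
    (hnb : chevE6.IsNegRoot (Cfsg.Agent.Lib.Helper36.wordF chevE6 (e6Orb k) b)) (t : K) :
    (e6nC [k] : GL chevE6.Idx K) * (xU chevE6 e6mem a 1 * xU chevE6 e6mem b t) * e6nC [k] ∉
      chevE6.borelSubgroup K := by
  intro hB
  have hHB : chevE6.diagonalSubgroup K ≤ chevE6.borelSubgroup K := le_sup_right
  have hR := e6nC_rootAct (K := K) [k]
  rw [List.flatMap_singleton] at hR
  obtain ⟨ca, hca, ea⟩ := hR.conj a ha
  obtain ⟨cb, -, eb⟩ := hR.conj b hb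
  rw [wordPerm_eq_wordF chevE6 e6mem _ a ha] at ea
  rw [wordPerm_eq_wordF chevE6 e6mem _ b hb] at eb
  set a' := Cfsg.Agent.Lib.Helper36.wordF chevE6 (e6Orb k) a with ha'
  set b' := Cfsg.Agent.Lib.Helper36.wordF chevE6 (e6Orb k) b with hb'
  have e1 : (e6nC [k] : GL chevE6.Idx K) * (xU chevE6 e6mem a 1 * xU chevE6 e6mem b t) * e6nC [k] =
      xU chevE6 e6mem a' (ca * 1) * xU chevE6 e6mem b' (cb * t) * (e6nC [k] * e6nC [k]) := by
    calc (e6nC [k] : GL chevE6.Idx K) * (xU chevE6 e6mem a 1 * xU chevE6 e6mem b t) * e6nC [k]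
        = (e6nC [k] * xU chevE6 e6mem a 1) * xU chevE6 e6mem b t * e6nC [k] := by group
      _ = xU chevE6 e6mem a' (ca * 1) * (e6nC [k] * xU chevE6 e6mem b t) * e6nC [k] := by
          rw [ea]; group
      _ = _ := by rw [eb]; group
  have hv : xU chevE6 e6mem a' (ca * 1) * xU chevE6 e6mem b' (cb * t) ∈
      chevE6.borelSubgroup K ⊓ chevE6.negUnipotent K := by
    refine Subgroup.mem_inf.mpr ⟨?_, ?_⟩
    · have : xU chevE6 e6mem a' (ca * 1) * xU chevE6 e6mem b' (cb * t) =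
          ((e6nC [k] : GL chevE6.Idx K) * (xU chevE6 e6mem a 1 * xU chevE6 e6mem b t) * e6nC [k]) *
            (e6nC [k] * e6nC [k])⁻¹ := by
        rw [e1]; group
      rw [this]
      exact Subgroup.mul_mem _ hB (Subgroup.inv_mem _ (hHB (e6nC_sq_mem k hk)))
    · exact Subgroup.mul_mem _ (Subgroup.subset_closure ⟨_, _, hna, coe_xU chevE6 e6mem _ _⟩)
        (Subgroup.subset_closure ⟨_, _, hnb, coe_xU chevE6 e6mem _ _⟩)
  rw [(Cfsg.Agent.S1037.result (F := K) chevE6 e6mem).1, Subgroup.mem_bot] at hv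
  have e2 : xU chevE6 e6mem a' (ca * 1) = xU chevE6 e6mem b' (-(cb * t)) := by
    rw [← xU_inv]
    exact eq_inv_of_mul_eq_one_left hv
  have h3 := e6_xU_root_inj a' b' (hna.1) (hnb.1) _ _ (by rw [mul_one]; exact hca) e2
  apply hab
  have h4 : wordPerm chevE6 e6mem (e6Orb k) a = wordPerm chevE6 e6mem (e6Orb k) b := by
    rw [wordPerm_eq_wordF chevE6 e6mem _ a ha, wordPerm_eq_wordF chevE6 e6mem _ b hb]
    exact h3
  exact (wordPerm chevE6 e6mem (e6Orb k)).injective h4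

/-- `n_J B¹ n_J ⊄ B`. -/
theorem e6nC_conj_not_mem (q : ℕ) (k : ℕ) (hk : k < 4) :
    ∃ b ∈ chevE6.borelSubgroup K ⊓ twistedE6 K q,
      (e6nC [k] : GL chevE6.Idx K) * b * e6nC [k] ∉ chevE6.borelSubgroup K := by
  have hS := Cfsg.Agent.Lib.Helper36.sgnOK_all chevE6 e6mem
  have hone : (1 : K) ^ q = 1 := one_pow q
  have hchk := e6_orb_refl_chk.2.2.2
  have hbor : ∀ r : ℕ, chevE6.IsPosRoot r → ∀ t : K,
      xU chevE6 e6mem r t ∈ chevE6.borelSubgroup K :=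
    fun r hr t => Cfsg.Agent.Lib.Helper36.xU_mem_borel chevE6 e6mem r hr t
  interval_cases k
  · refine ⟨xU chevE6 e6mem 46 1, Subgroup.mem_inf.mpr
      ⟨hbor 46 (hS.pos_simple 1 (by decide)) 1, e6_single_mem q 46 (by decide) 1 hone⟩, ?_⟩
    have e0 : (e6nC [0] : GL chevE6.Idx K) =
        Cfsg.Agent.Lib.Helper36.nU chevE6 e6mem ⟨1, by decide⟩ := by
      unfold e6nC
      simp [e6Orb]
    rw [e0]
    exact Cfsg.Agent.Lib.Helper36.nU_conj_not_mem chevE6 e6mem ⟨1, by decide⟩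
  · refine ⟨xU chevE6 e6mem 39 1, Subgroup.mem_inf.mpr
      ⟨hbor 39 (hS.pos_simple 3 (by decide)) 1, e6_single_mem q 39 (by decide) 1 hone⟩, ?_⟩
    have e1 : (e6nC [1] : GL chevE6.Idx K) =
        Cfsg.Agent.Lib.Helper36.nU chevE6 e6mem ⟨3, by decide⟩ := by
      unfold e6nC
      simp [e6Orb]
    rw [e1]
    exact Cfsg.Agent.Lib.Helper36.nU_conj_not_mem chevE6 e6mem ⟨3, by decide⟩
  · refine ⟨xU chevE6 e6mem 56 1 * xU chevE6 e6mem 36 1, ?_, ?_⟩
    · refine Subgroup.mem_inf.mpr ⟨Subgroup.mul_mem _ (hbor 56 (hS.pos_simple 0 (by decide)) 1)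
        (hbor 36 (hS.pos_simple 5 (by decide)) 1), ?_⟩
      have := e6_pair_mem (K := K) q (e6p1, e6p6) (by simp) 1
      rw [hone] at this
      exact this
    · exact e6_conj_pair_not_mem 2 (by decide) 56 36 (by decide) (by decide) (by decide)
        (hchk 2 (by decide) ⟨0, by decide⟩ (by decide))
        (hchk 2 (by decide) ⟨5, by decide⟩ (by decide)) 1
  · refine ⟨xU chevE6 e6mem 42 1 * xU chevE6 e6mem 37 1, ?_, ?_⟩
    · refine Subgroup.mem_inf.mpr ⟨Subgroup.mul_mem _ (hbor 42 (hS.pos_simple 2 (by decide)) 1)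
        (hbor 37 (hS.pos_simple 4 (by decide)) 1), ?_⟩
      have := e6_pair_mem (K := K) q (e6p3, e6p5) (by simp) 1
      rw [hone] at this
      exact this
    · exact e6_conj_pair_not_mem 3 (by decide) 42 37 (by decide) (by decide) (by decide)
        (hchk 3 (by decide) ⟨2, by decide⟩ (by decide))
        (hchk 3 (by decide) ⟨4, by decide⟩ (by decide)) 1

theorem e6nC_eq_prod (c : List ℕ) :
    (e6nC c : GL chevE6.Idx K) = (c.map (fun k => (e6nC [k] : GL chevE6.Idx K))).prod := by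
  induction c with
  | nil => rfl
  | cons k c ih => rw [e6nC_cons, List.map_cons, List.prod_cons, ih]

/-- The twisted group `²E₆(q)` has a `(B, N)`-pair with the orbit reflections as generators. -/
theorem e6_exists_bnpair [Fintype K] (q : ℕ) (φ : K →+* K) (hφ : ∀ t, φ t = t ^ q)
    (hφφ : ∀ t, φ (φ t) = t) :
    ∃ P : Cfsg.BNPair ↥(twistedE6 K q),
      P.B = (chevE6.borelSubgroup K ⊓ twistedE6 K q).subgroupOf (twistedE6 K q) ∧
      P.N = (chevE6.monomialSubgroup K ⊓ twistedE6 K q).subgroupOf (twistedE6 K q) ∧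
      P.S = {s : ↥(twistedE6 K q) | ∃ k < 4, (s : GL chevE6.Idx K) = e6nC [k]} := by
  have hHB : chevE6.diagonalSubgroup K ≤ chevE6.borelSubgroup K := le_sup_right
  have hUB : chevE6.posUnipotent K ≤ chevE6.borelSubgroup K := le_sup_left
  have hHN : chevE6.diagonalSubgroup K ≤ chevE6.monomialSubgroup K := e6_diag_le_monomial
  have hBN := (Cfsg.Agent.S1040.result (F := K) chevE6 e6mem).2
  have hSN : {s : ↥(twistedE6 K q) | ∃ k < 4, (s : GL chevE6.Idx K) = e6nC [k]} ⊆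
      ((((chevE6.monomialSubgroup K ⊓ twistedE6 K q).subgroupOf (twistedE6 K q) :
        Subgroup ↥(twistedE6 K q))) : Set ↥(twistedE6 K q)) := by
    rintro s ⟨k, hk, hs⟩
    rw [SetLike.mem_coe, Subgroup.mem_subgroupOf, hs]
    exact Subgroup.mem_inf.mpr ⟨e6nC_mem_monomial _, e6nC_mem_tw q φ hφ _⟩
  refine ⟨{ B := (chevE6.borelSubgroup K ⊓ twistedE6 K q).subgroupOf (twistedE6 K q)
            N := (chevE6.monomialSubgroup K ⊓ twistedE6 K q).subgroupOf (twistedE6 K q)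
            S := {s : ↥(twistedE6 K q) | ∃ k < 4, (s : GL chevE6.Idx K) = e6nC [k]}
            sup_eq_top := ?_
            conj_mem := ?_
            subset := hSN
            sq_mem := ?_
            inj := ?_
            closure_sup := ?_
            mul_mem_union := ?_
            conj_ne := ?_ }, rfl, rfl, rfl⟩
  · -- sup_eq_top
    rw [eq_top_iff]
    intro g _
    obtain ⟨u', hu', h, hh, c, hc, u, hu, e⟩ := e6_tw_bruhat q φ hφ hφφ g.1 g.2
    obtain ⟨hu'U, hu'G⟩ := Subgroup.mem_inf.mp hu'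
    obtain ⟨huU, huG⟩ := Subgroup.mem_inf.mp hu
    obtain ⟨hhH, hhG⟩ := Subgroup.mem_inf.mp hh
    have hcG := e6nC_mem_tw (K := K) q φ hφ c
    have e' : g = (⟨u' * h, Subgroup.mul_mem _ hu'G hhG⟩ : ↥(twistedE6 K q)) *
        ⟨e6nC c, hcG⟩ * ⟨u, huG⟩ := Subtype.ext e
    rw [e']
    refine Subgroup.mul_mem _ (Subgroup.mul_mem _ (Subgroup.mem_sup_left ?_)
      (Subgroup.mem_sup_right ?_)) (Subgroup.mem_sup_left ?_)
    · rw [Subgroup.mem_subgroupOf]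
      exact Subgroup.mem_inf.mpr ⟨Subgroup.mul_mem _ (hUB hu'U) (hHB hhH),
        Subgroup.mul_mem _ hu'G hhG⟩
    · rw [Subgroup.mem_subgroupOf]
      exact Subgroup.mem_inf.mpr ⟨e6nC_mem_monomial c, hcG⟩
    · rw [Subgroup.mem_subgroupOf]
      exact Subgroup.mem_inf.mpr ⟨hUB huU, huG⟩
  · -- conj_mem
    intro n hn t ht
    rw [Subgroup.mem_subgroupOf] at hn ⊢
    have ht1 := Subgroup.mem_subgroupOf.mp ht.1
    have ht2 := Subgroup.mem_subgroupOf.mp ht.2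
    have ht' : (t : GL chevE6.Idx K) ∈ chevE6.diagonalSubgroup K := by
      rw [← hBN]
      exact Subgroup.mem_inf.mpr ⟨(Subgroup.mem_inf.mp ht1).1, (Subgroup.mem_inf.mp ht2).1⟩
    refine Subgroup.mem_inf.mpr ⟨?_, (n * t * n⁻¹).2⟩
    have := (Subgroup.mem_normalizer_iff.mp
      (monomialSubgroup_le_normalizer chevE6 e6mem (Subgroup.mem_inf.mp hn).1) _).mp ht'
    exact hHB this
  · -- sq_mem
    rintro s ⟨k, hk, hs⟩
    rw [Subgroup.mem_subgroupOf, Subgroup.coe_mul, hs]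
    exact Subgroup.mem_inf.mpr ⟨hHB (e6nC_sq_mem k hk),
      Subgroup.mul_mem _ (e6nC_mem_tw q φ hφ _) (e6nC_mem_tw q φ hφ _)⟩
  · -- inj
    rintro s ⟨k, hk, hs⟩ s' ⟨k', hk', hs'⟩ hB
    rw [Subgroup.mem_subgroupOf, Subgroup.coe_mul, Subgroup.coe_inv, hs, hs'] at hB
    have hkk := e6nC_inj k k' hk hk' (Subgroup.mem_inf.mp hB).1
    apply Subtype.ext
    rw [hs, hs', hkk]
  · -- closure_sup
    apply le_antisymm
    · refine sup_le ?_ inf_le_right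
      rw [Subgroup.closure_le]
      exact hSN
    · intro n hn
      rw [Subgroup.mem_subgroupOf] at hn
      obtain ⟨c, hc, h, hh, e⟩ := e6_N_tw q φ hφ hφφ _ hn
      obtain ⟨hhH, hhG⟩ := Subgroup.mem_inf.mp hh
      have hcG := e6nC_mem_tw (K := K) q φ hφ c
      have e' : n = (⟨h, hhG⟩ : ↥(twistedE6 K q)) * ⟨e6nC c, hcG⟩ := Subtype.ext e
      rw [e']
      refine Subgroup.mul_mem _ (Subgroup.mem_sup_right ⟨?_, ?_⟩) (Subgroup.mem_sup_left ?_)
      · exact Subgroup.mem_subgroupOf.mpr (Subgroup.mem_inf.mpr ⟨hHB hhH, hhG⟩)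
      · exact Subgroup.mem_subgroupOf.mpr (Subgroup.mem_inf.mpr ⟨hHN hhH, hhG⟩)
      · have e2 : (⟨e6nC c, hcG⟩ : ↥(twistedE6 K q)) =
            (c.attach.map (fun k => (⟨e6nC [k.1], e6nC_mem_tw q φ hφ [k.1]⟩ :
              ↥(twistedE6 K q)))).prod := by
          apply Subtype.ext
          rw [Subgroup.val_list_prod, List.map_map]
          show (e6nC c : GL chevE6.Idx K) = _
          rw [e6nC_eq_prod]
          conv_lhs => rw [← List.attach_map_subtype_val c]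
          rw [List.map_map]
          rfl
        rw [e2]
        apply Subgroup.list_prod_mem
        intro x hx
        obtain ⟨k, -, rfl⟩ := List.mem_map.mp hx
        exact Subgroup.subset_closure ⟨k.1, hc k.1 k.2, rfl⟩
  · -- mul_mem_union
    rintro s ⟨k, hk, hs⟩ n hn b hb
    rw [Subgroup.mem_subgroupOf] at hn hb
    rcases e6_bn_tw q φ hφ hφφ k hk _ hn _ hb with ⟨b₁, hb₁, b₂, hb₂, e⟩ | ⟨b₁, hb₁, b₂, hb₂, e⟩
    · left
      rw [DoubleCoset.mem_doubleCoset]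
      refine ⟨⟨b₁, (Subgroup.mem_inf.mp hb₁).2⟩, Subgroup.mem_subgroupOf.mpr hb₁,
        ⟨b₂, (Subgroup.mem_inf.mp hb₂).2⟩, Subgroup.mem_subgroupOf.mpr hb₂, Subtype.ext ?_⟩
      simp only [Subgroup.coe_mul]
      rw [hs]
      exact e
    · right
      rw [DoubleCoset.mem_doubleCoset]
      refine ⟨⟨b₁, (Subgroup.mem_inf.mp hb₁).2⟩, Subgroup.mem_subgroupOf.mpr hb₁,
        ⟨b₂, (Subgroup.mem_inf.mp hb₂).2⟩, Subgroup.mem_subgroupOf.mpr hb₂, Subtype.ext ?_⟩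
      simp only [Subgroup.coe_mul]
      rw [hs]
      exact e
  · -- conj_ne
    rintro s ⟨k, hk, hs⟩ hEq
    obtain ⟨b, hb, hnot⟩ := e6nC_conj_not_mem (K := K) q k hk
    have h1 : (s * (⟨b, (Subgroup.mem_inf.mp hb).2⟩ : ↥(twistedE6 K q)) * s) ∈
        ((((chevE6.borelSubgroup K ⊓ twistedE6 K q).subgroupOf (twistedE6 K q) :
          Subgroup ↥(twistedE6 K q))) : Set ↥(twistedE6 K q)) := by
      rw [← hEq]
      exact ⟨⟨b, (Subgroup.mem_inf.mp hb).2⟩, Subgroup.mem_subgroupOf.mpr hb, rfl⟩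
    rw [SetLike.mem_coe, Subgroup.mem_subgroupOf] at h1
    simp only [Subgroup.coe_mul] at h1
    rw [hs] at h1
    exact hnot (Subgroup.mem_inf.mp h1).1

end

end Cfsg.Agent.Lib.Helper18
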