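import Cfsg.Agent.Lib.Helper18.ChevE6TwN
import Cfsg.Agent.Lib.Helper18.ChevE6TwWeyl
import Cfsg.Agent.Lib.Helper17.TwFam
import Cfsg.Agent.Lib.Helper17.ChevOrder
import Cfsg.Agent.S1040

set_option autoImplicit false

/-!
# Cells of the twisted group of type `²E₆`

`B¹ = H¹ U¹`, `|B¹| = |H¹| q³⁶`, and `|B¹ n_w B¹| = |B¹| q^{N(w)}` for the words `w` in the orbit
reflections, `N(w)` the number of positive roots of `E₆` made negative by `w`.
-/

namespace Cfsg.Agent.Lib.Helper18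

open Cfsg Cfsg.Lie Cfsg.Lie.ChevalleyDatum

set_option maxRecDepth 100000 in
theorem e6_blockOK :
    ∀ B ∈ e6Blocks, Cfsg.Agent.Lib.Helper17.blockOK chevE6 e6ρ e6ε 2 B = true := by
  decide +kernel

set_option maxRecDepth 100000 in
theorem e6_ordChk : Cfsg.Agent.Lib.Helper17.ordChk chevE6 e6O = true := by decide +kernel

theorem e6O_all (r : ℕ) (hr : chevE6.IsPosRoot r) : r ∈ e6O := by
  rw [e6O_perm.mem_iff]
  unfold ChevalleyDatum.posRoots
  rw [List.mem_filter, List.mem_range]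
  exact ⟨hr.1, decide_eq_true hr⟩

set_option maxRecDepth 100000 in
theorem e6_orb_rho_chk : ∀ k < 4, ∀ s < 72,
    Cfsg.Agent.Lib.Helper36.wordF chevE6 (e6Orb k) (e6ρ s) =
      e6ρ (Cfsg.Agent.Lib.Helper36.wordF chevE6 (e6Orb k) s) ∧
    Cfsg.Agent.Lib.Helper36.wordF chevE6 (e6Orb k) s < 72 := by decide +kernel

set_option maxRecDepth 100000 in
theorem e6ρ_half : ∀ x < 72, (e6ρ x < 36 ↔ x < 36) := by decide +kernel

theorem e6_wordF_rho (c : List ℕ) (hc : ∀ i ∈ c, i < 4) (s : ℕ) (hs : s < 72) :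
    Cfsg.Agent.Lib.Helper36.wordF chevE6 (c.flatMap e6Orb) (e6ρ s) =
      e6ρ (Cfsg.Agent.Lib.Helper36.wordF chevE6 (c.flatMap e6Orb) s) ∧
    Cfsg.Agent.Lib.Helper36.wordF chevE6 (c.flatMap e6Orb) s < 72 := by
  induction c with
  | nil => exact ⟨rfl, hs⟩
  | cons i c ih =>
    obtain ⟨ih1, ih2⟩ := ih (fun j hj => hc j (List.mem_cons_of_mem _ hj))
    have e : ∀ x, Cfsg.Agent.Lib.Helper36.wordF chevE6 ((i :: c).flatMap e6Orb) x =
        Cfsg.Agent.Lib.Helper36.wordF chevE6 (e6Orb i)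
          (Cfsg.Agent.Lib.Helper36.wordF chevE6 (c.flatMap e6Orb) x) := by
      intro x
      rw [List.flatMap_cons]
      unfold Cfsg.Agent.Lib.Helper36.wordF
      rw [List.foldr_append]
    obtain ⟨k1, k2⟩ := e6_orb_rho_chk i (hc i List.mem_cons_self) _ ih2
    rw [e, e, ih1]
    exact ⟨k1, k2⟩

section

variable {K : Type*} [Field K]

/-- The twisting data of `²E₆` in the format of `Helper17.TwData`. -/
noncomputable def e6Tw (φ : K →+* K) (hφφ : ∀ t, φ (φ t) = t) :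
    Cfsg.Agent.Lib.Helper17.TwData chevE6 e6mem K where
  σ := e6σ φ
  τ := φ
  ρ := e6ρ
  ε := e6ε
  m := 2
  blocks := e6Blocks
  hσ := fun r hr t => e6σ_xU φ r hr t
  hτ := fun x => by
    show φ (φ x) = x
    exact hφφ x
  hblk := fun B hB => Cfsg.Agent.Lib.Helper17.blockOK_spec _ _ _ _ B (e6_blockOK B hB)
  hpos := e6O_pos
  hnd := e6O_nodup
  hall := e6O_all
  hchk := e6_ordChk

theorem e6nC_mem_normalizer (c : List ℕ) : (e6nC c : GL chevE6.Idx K) ∈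
    Subgroup.normalizer (chevE6.diagonalSubgroup K : Set (GL chevE6.Idx K)) := by
  unfold e6nC
  apply Subgroup.list_prod_mem
  intro x hx
  obtain ⟨i, -, rfl⟩ := List.mem_map.mp hx
  exact Cfsg.Agent.Lib.Helper36.nU_mem_normalizer chevE6 e6mem i

theorem e6_diag_le_monomial : chevE6.diagonalSubgroup K ≤ chevE6.monomialSubgroup K := by
  have h := (Cfsg.Agent.S1040.result (F := K) chevE6 e6mem).2
  rw [← h]
  exact inf_le_right

/-- An element `h u` of `B` fixed by `σ` has both factors fixed. -/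
theorem e6_fixed_split (φ : K →+* K) (h u : GL chevE6.Idx K)
    (hh : h ∈ chevE6.diagonalSubgroup K) (hu : u ∈ chevE6.posUnipotent K)
    (hfix : e6σ φ (h * u) = h * u) : e6σ φ h = h ∧ e6σ φ u = u := by
  rw [map_mul] at hfix
  have h1 : e6σ φ h ∈ chevE6.monomialSubgroup K := e6σ_monomial φ h (e6_diag_le_monomial hh)
  have h2 : e6σ φ u ∈ chevE6.posUnipotent K := e6σ_posUnipotent φ u hu
  have h3 : u * (e6σ φ u)⁻¹ = h⁻¹ * e6σ φ h := by
    have : e6σ φ h = h * u * (e6σ φ u)⁻¹ := by rw [← hfix]; group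
    rw [this]; group
  have h4 : u * (e6σ φ u)⁻¹ ∈ chevE6.posUnipotent K ⊓ chevE6.monomialSubgroup K :=
    Subgroup.mem_inf.mpr ⟨Subgroup.mul_mem _ hu (Subgroup.inv_mem _ h2),
      by rw [h3]; exact Subgroup.mul_mem _ (Subgroup.inv_mem _ (e6_diag_le_monomial hh)) h1⟩
  rw [(Cfsg.Agent.S1040.result (F := K) chevE6 e6mem).1, Subgroup.mem_bot] at h4
  have hu' : e6σ φ u = u := by
    have : e6σ φ u = (u * (e6σ φ u)⁻¹)⁻¹ * u := by group
    rw [this, h4]; group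
  refine ⟨?_, hu'⟩
  have : e6σ φ h = h * (h⁻¹ * e6σ φ h) := by group
  rw [this, ← h3, h4, mul_one]

/-- `B¹ = H¹ U¹`. -/
theorem e6_borel_split [Fintype K] (q : ℕ) (φ : K →+* K) (hφ : ∀ t, φ t = t ^ q)
    (hφφ : ∀ t, φ (φ t) = t) (b : GL chevE6.Idx K)
    (hb : b ∈ chevE6.borelSubgroup K ⊓ twistedE6 K q) :
    ∃ h ∈ chevE6.diagonalSubgroup K ⊓ twistedE6 K q,
      ∃ u ∈ chevE6.posUnipotent K ⊓ twistedE6 K q, b = h * u := by
  obtain ⟨hbB, hbG⟩ := Subgroup.mem_inf.mp hb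
  obtain ⟨h, hh, u, hu, rfl⟩ := Cfsg.Agent.Lib.Helper17.borel_decomp_HU chevE6 e6mem b hbB
  obtain ⟨-, hu'⟩ := e6_fixed_split φ h u hh hu (e6σ_fixed q φ hφ hφφ _ hbG)
  have huG : u ∈ twistedE6 K q := e6_fixed_U_mem q φ hφ hφφ u hu hu'
  have hhG : h ∈ twistedE6 K q := by
    have : h = (h * u) * u⁻¹ := by group
    rw [this]; exact Subgroup.mul_mem _ hbG (Subgroup.inv_mem _ huG)
  exact ⟨h, Subgroup.mem_inf.mpr ⟨hh, hhG⟩, u, Subgroup.mem_inf.mpr ⟨hu, huG⟩, rfl⟩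

/-- `|B¹| = |H¹| q³⁶`. -/
theorem e6_card_borel_tw [Fintype K] {q : ℕ} (hq : IsPrimePow q) (hK : Fintype.card K = q ^ 2) :
    Nat.card ↥(chevE6.borelSubgroup K ⊓ twistedE6 K q) =
      Nat.card ↥(chevE6.diagonalSubgroup K ⊓ twistedE6 K q) * q ^ 36 := by
  obtain ⟨φ, hφ, hφφ⟩ := exists_frob_sq hq hK
  rw [← e6_card_U_inf_tw hq hK]
  have hHB : chevE6.diagonalSubgroup K ≤ chevE6.borelSubgroup K := le_sup_right
  have hUB : chevE6.posUnipotent K ≤ chevE6.borelSubgroup K := le_sup_left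
  let f : ↥(chevE6.diagonalSubgroup K ⊓ twistedE6 K q) × ↥(chevE6.posUnipotent K ⊓ twistedE6 K q) →
      ↥(chevE6.borelSubgroup K ⊓ twistedE6 K q) := fun p =>
    ⟨(p.1 : GL chevE6.Idx K) * (p.2 : GL chevE6.Idx K), Subgroup.mem_inf.mpr
      ⟨Subgroup.mul_mem _ (hHB (Subgroup.mem_inf.mp p.1.2).1) (hUB (Subgroup.mem_inf.mp p.2.2).1),
        Subgroup.mul_mem _ (Subgroup.mem_inf.mp p.1.2).2 (Subgroup.mem_inf.mp p.2.2).2⟩⟩
  have hf : Function.Bijective f := by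
    constructor
    · rintro ⟨h, u⟩ ⟨h', u'⟩ e
      have e1 : (h : GL chevE6.Idx K) * (u : GL chevE6.Idx K) =
          (h' : GL chevE6.Idx K) * (u' : GL chevE6.Idx K) :=
        congrArg (fun x : ↥(chevE6.borelSubgroup K ⊓ twistedE6 K q) => (x : GL chevE6.Idx K)) e
      have e2 : (u : GL chevE6.Idx K) * (u' : GL chevE6.Idx K)⁻¹ =
          (h : GL chevE6.Idx K)⁻¹ * (h' : GL chevE6.Idx K) := by
        have : (u : GL chevE6.Idx K) =
            (h : GL chevE6.Idx K)⁻¹ * ((h : GL chevE6.Idx K) * (u : GL chevE6.Idx K)) := by group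
        rw [this, e1]; group
      have h3a : (h : GL chevE6.Idx K)⁻¹ * (h' : GL chevE6.Idx K) ∈ chevE6.diagonalSubgroup K :=
        Subgroup.mul_mem _ (Subgroup.inv_mem _ (Subgroup.mem_inf.mp h.2).1)
          (Subgroup.mem_inf.mp h'.2).1
      have h3 : (u : GL chevE6.Idx K) * (u' : GL chevE6.Idx K)⁻¹ ∈
          chevE6.posUnipotent K ⊓ chevE6.diagonalSubgroup K :=
        Subgroup.mem_inf.mpr ⟨Subgroup.mul_mem _ (Subgroup.mem_inf.mp u.2).1
          (Subgroup.inv_mem _ (Subgroup.mem_inf.mp u'.2).1), by rw [e2]; exact h3a⟩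
      rw [(Cfsg.Agent.S1036.result (F := K) chevE6 e6mem).2, Subgroup.mem_bot] at h3
      have h4 : (u : GL chevE6.Idx K) = (u' : GL chevE6.Idx K) := by
        have : (u : GL chevE6.Idx K) =
            (u : GL chevE6.Idx K) * (u' : GL chevE6.Idx K)⁻¹ * (u' : GL chevE6.Idx K) := by group
        rw [this, h3, one_mul]
      have h5 : (h : GL chevE6.Idx K) = (h' : GL chevE6.Idx K) := by
        have : (h : GL chevE6.Idx K)⁻¹ * (h' : GL chevE6.Idx K) = 1 := by rw [← e2, h3]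
        have h6 : (h' : GL chevE6.Idx K) =
            (h : GL chevE6.Idx K) * ((h : GL chevE6.Idx K)⁻¹ * (h' : GL chevE6.Idx K)) := by group
        rw [h6, this, mul_one]
      exact Prod.ext (Subtype.ext h5) (Subtype.ext h4)
    · rintro ⟨b, hb⟩
      obtain ⟨h, hh, u, hu, rfl⟩ := e6_borel_split q φ hφ hφφ b hb
      exact ⟨(⟨h, hh⟩, ⟨u, hu⟩), rfl⟩
  rw [← Nat.card_congr (Equiv.ofBijective f hf), Nat.card_prod]

end

end Cfsg.Agent.Lib.Helper18
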