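import Cfsg.Agent.Lib.Helper18.ChevE6TwH

set_option autoImplicit false

/-!
# The core of `B¹` in the twisted group of type `²E₆` is trivial
-/

namespace Cfsg.Agent.Lib.Helper18

open Cfsg Cfsg.Lie Cfsg.Lie.ChevalleyDatum

/-- A word of the longest element of the twisted Weyl group. -/
def e6w0 : List ℕ :=
  [3, 2, 1, 3, 2, 0, 1, 3, 2, 0, 1, 3, 2, 0, 1, 3, 2, 0, 1, 3, 2, 0, 1, 0]

set_option maxRecDepth 100000 in
theorem e6w0_chk : (∀ i ∈ e6w0, i < 4) ∧ ∀ r < 72, 36 ≤ r →
    Cfsg.Agent.Lib.Helper36.wordF chevE6 (e6w0.flatMap e6Orb) r < 36 := by decide +kernel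

set_option maxRecDepth 100000 in
theorem e6_cartan_lin : ∀ s < 72, ∀ i < 6, chevE6.cartan i s =
    ((List.range 6).map (fun j => (chevE6.coroot.getD s #[]).getD j 0 *
      chevE6.cartan i (chevE6.simple j))).sum := by decide +kernel

theorem e6_single_pos : ∀ p ∈ [e6p2, e6p4], chevE6.nroots / 2 ≤ p := by decide

theorem e6_pair_pos : ∀ x ∈ [((56 : ℕ), (15 : ℕ), (36 : ℕ), (35 : ℕ)), (42, 29, 37, 34)],
    chevE6.nroots / 2 ≤ x.1 ∧ chevE6.nroots / 2 ≤ x.2.2.1 ∧ x.1 ≠ x.2.2.1 := by decide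

section gen

variable {F : Type*} [Field F]

theorem hU_simple_mul_xU (D : ChevalleyDatum)
    (hD : D ∈ [chevG2, chevB2, chevD4, chevF4, chevE6, chevE7, chevE8]) (i : ℕ) (hi : i < D.rank)
    (s : ℕ) (hs : s < D.nroots) (c : F) (hc : c ≠ 0) (t : F) :
    hU D hD (D.simple i) c * xU D hD s t =
      xU D hD s (c ^ D.cartan i s * t) * hU D hD (D.simple i) c := by
  apply Units.ext
  rw [Units.val_mul, Units.val_mul, coe_hU, coe_xU, coe_xU]
  exact Cfsg.Agent.S1032.result D hD i s hi hs c hc t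

theorem prod_hU_mul_xU (D : ChevalleyDatum)
    (hD : D ∈ [chevG2, chevB2, chevD4, chevF4, chevE6, chevE7, chevE8]) (c : ℕ → F) (l : List ℕ)
    (hl : ∀ i ∈ l, i < D.rank ∧ c i ≠ 0) (r : ℕ) (hr : r < D.nroots) (t : F) :
    (l.map (fun i => hU D hD (D.simple i) (c i))).prod * xU D hD r t =
      xU D hD r ((l.map (fun i => c i ^ D.cartan i r)).prod * t) *
        (l.map (fun i => hU D hD (D.simple i) (c i))).prod := by
  induction l generalizing t with
  | nil => simp
  | cons i l ih =>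
    have hi := hl i List.mem_cons_self
    rw [List.map_cons, List.prod_cons, mul_assoc,
      ih (fun j hj => hl j (List.mem_cons_of_mem _ hj)), ← mul_assoc,
      hU_simple_mul_xU D hD i hi.1 r hr (c i) hi.2, List.map_cons, List.prod_cons, mul_assoc,
      mul_assoc]

theorem chi_eq_mono (D : ChevalleyDatum) (c : Fin D.rank → Fˣ) (s : ℕ) :
    ((List.range D.rank).map (fun i => cx D c i ^ D.cartan i s)).prod =
      ((mono c (fun i => D.cartan i s) : Fˣ) : F) := by
  rw [list_prod_range_eq_fin_prod, mono, Units.coe_prod]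
  apply Finset.prod_congr rfl
  intro i _
  have h2 : cx D c i.val = ((c i : Fˣ) : F) := by
    unfold cx
    rw [dif_pos i.isLt]
  rw [h2, Units.val_zpow_eq_zpow_val]

/-- the torus acts on the root subgroups by characters -/
theorem torusHom_mul_xU (D : ChevalleyDatum)
    (hD : D ∈ [chevG2, chevB2, chevD4, chevF4, chevE6, chevE7, chevE8]) (c : Fin D.rank → Fˣ)
    (r : ℕ) (hr : r < D.nroots) (t : F) :
    torusHom (F := F) D c * xU D hD r t =
      xU D hD r (((mono c (fun i => D.cartan i r) : Fˣ) : F) * t) * torusHom (F := F) D c := by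
  rw [torusHom_eq_prod D hD c, prod_hU_mul_xU D hD _ _
    (fun i hi => ⟨List.mem_range.mp hi, cx_ne_zero D c i⟩) r hr t, chi_eq_mono]

end gen

section

variable {K : Type*} [Field K]

theorem e6n0_conj_U (u : GL chevE6.Idx K) (hu : u ∈ chevE6.posUnipotent K) :
    (e6nC e6w0 : GL chevE6.Idx K) * u * (e6nC e6w0)⁻¹ ∈ chevE6.negUnipotent K := by
  obtain ⟨η, hη⟩ := Cfsg.Agent.Lib.Helper36.word_smap (F := K) chevE6 e6mem (e6w0.flatMap e6Orb)
  have hη' : Cfsg.Agent.Lib.Helper36.SMap chevE6 ((e6nC e6w0 : GL chevE6.Idx K) :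
      Matrix chevE6.Idx chevE6.Idx K)
      (Cfsg.Agent.Lib.Helper36.wordF chevE6 (e6w0.flatMap e6Orb)) η := hη
  have hle : chevE6.posUnipotent K ≤ (chevE6.negUnipotent K).comap
      (MulAut.conj (e6nC e6w0 : GL chevE6.Idx K)).toMonoidHom := by
    unfold ChevalleyDatum.posUnipotent
    rw [Subgroup.closure_le]
    rintro g ⟨r, t, hr, hg⟩
    show (e6nC e6w0 : GL chevE6.Idx K) * g * (e6nC e6w0)⁻¹ ∈ chevE6.negUnipotent K
    rw [eq_xU chevE6 e6mem r t g hg, Cfsg.Agent.Lib.Helper17.conj_xU chevE6 e6mem _ _ η hη' r hr.1 t]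
    exact Subgroup.subset_closure ⟨_, _,
      (Cfsg.Agent.Lib.Helper17.isNegRoot_iff chevE6 e6mem _).mpr
        (e6w0_chk.2 r hr.1 ((Cfsg.Agent.Lib.Helper17.isPosRoot_iff chevE6 e6mem r).mp hr).1),
      coe_xU chevE6 e6mem _ _⟩
  exact hle hu

/-- an element of `B` whose conjugate by `n₀⁻¹` lies in `B` is in `H` -/
theorem e6_mem_diag_of_conj (z : GL chevE6.Idx K) (hz : z ∈ chevE6.borelSubgroup K)
    (hz' : (e6nC e6w0 : GL chevE6.Idx K)⁻¹ * z * e6nC e6w0 ∈ chevE6.borelSubgroup K) :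
    z ∈ chevE6.diagonalSubgroup K := by
  obtain ⟨h, hh, u, hu, e⟩ := Cfsg.Agent.Lib.Helper17.borel_decomp_HU chevE6 e6mem _ hz'
  have e1 : z = ((e6nC e6w0 : GL chevE6.Idx K) * h * (e6nC e6w0)⁻¹) *
      ((e6nC e6w0 : GL chevE6.Idx K) * u * (e6nC e6w0)⁻¹) := by
    have : z = (e6nC e6w0 : GL chevE6.Idx K) *
        ((e6nC e6w0 : GL chevE6.Idx K)⁻¹ * z * e6nC e6w0) * (e6nC e6w0)⁻¹ := by group
    rw [this, e]
    group
  have h1 : (e6nC e6w0 : GL chevE6.Idx K) * h * (e6nC e6w0)⁻¹ ∈ chevE6.diagonalSubgroup K :=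
    (Subgroup.mem_normalizer_iff.mp (e6nC_mem_normalizer e6w0) h).mp hh
  have h2 : z ∈ chevE6.negUnipotent K ⊔ chevE6.diagonalSubgroup K := by
    rw [e1, sup_comm]
    exact Subgroup.mul_mem_sup h1 (e6n0_conj_U u hu)
  have h3 := (Cfsg.Agent.S1037.result (F := K) chevE6 e6mem).2
  rw [← h3]
  exact Subgroup.mem_inf.mpr ⟨hz, h2⟩

/-- A normal subgroup of the twisted group contained in `B` is trivial, elementwise. -/
theorem e6_core (q : ℕ) (φ : K →+* K) (hφ : ∀ t, φ t = t ^ q)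
    (z : GL chevE6.Idx K)
    (hz : ∀ g ∈ twistedE6 K q, g * z * g⁻¹ ∈ chevE6.borelSubgroup K) : z = 1 := by
  have hn0 : (e6nC e6w0 : GL chevE6.Idx K) ∈ twistedE6 K q := e6nC_mem_tw q φ hφ e6w0
  have hH : ∀ g ∈ twistedE6 K q, g * z * g⁻¹ ∈ chevE6.diagonalSubgroup K := by
    intro g hg
    apply e6_mem_diag_of_conj _ (hz g hg)
    have h1 := hz ((e6nC e6w0 : GL chevE6.Idx K)⁻¹ * g)
      (Subgroup.mul_mem _ (Subgroup.inv_mem _ hn0) hg)
    have e : (e6nC e6w0 : GL chevE6.Idx K)⁻¹ * (g * z * g⁻¹) * e6nC e6w0 =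
        (e6nC e6w0 : GL chevE6.Idx K)⁻¹ * g * z * ((e6nC e6w0 : GL chevE6.Idx K)⁻¹ * g)⁻¹ := by
      group
    rw [e]
    exact h1
  have hz0 : z ∈ chevE6.diagonalSubgroup K := by
    have := hH 1 (Subgroup.one_mem _)
    simpa using this
  rw [diagonalSubgroup_eq_range chevE6 e6mem] at hz0
  obtain ⟨c, rfl⟩ := MonoidHom.mem_range.mp hz0
  have hUH := (Cfsg.Agent.S1036.result (F := K) chevE6 e6mem).2
  -- the conjugate of the torus element by a root element
  have hconj : ∀ r < 72, ∀ a : K, torusHom (F := K) chevE6 c * xU chevE6 e6mem r a =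
      xU chevE6 e6mem r (((mono c (fun i => chevE6.cartan i r) : Kˣ) : K) * a) *
        torusHom (F := K) chevE6 c := fun r hr a => torusHom_mul_xU chevE6 e6mem c r hr a
  have hsingle : ∀ p ∈ [e6p2, e6p4], mono c (fun i => chevE6.cartan i p) = 1 := by
    intro p hp
    obtain ⟨h1, h2, -⟩ := e6_single_chk p hp
    have hx : xU chevE6 e6mem p (1 : K) ∈ twistedE6 K q := e6_single_mem q p h2 1 (one_pow q)
    have h3 := hH _ hx
    have e : xU chevE6 e6mem p (1 : K) * torusHom (F := K) chevE6 c * (xU chevE6 e6mem p (1 : K))⁻¹ =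
        xU chevE6 e6mem p (1 + ((mono c (fun i => chevE6.cartan i p) : Kˣ) : K) * (-1)) *
          torusHom (F := K) chevE6 c := by
      rw [xU_inv, mul_assoc, hconj p h1, ← mul_assoc, xU_mul]
    have h4 : xU chevE6 e6mem p (1 + ((mono c (fun i => chevE6.cartan i p) : Kˣ) : K) * (-1)) ∈
        chevE6.posUnipotent K ⊓ chevE6.diagonalSubgroup K := by
      refine Subgroup.mem_inf.mpr ⟨Subgroup.subset_closure ⟨p, _,
        (Cfsg.Agent.Lib.Helper17.isPosRoot_iff chevE6 e6mem p).mpr ⟨?_, h1⟩, coe_xU _ _ _ _⟩, ?_⟩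
      · exact e6_single_pos p hp
      · have : xU chevE6 e6mem p (1 + ((mono c (fun i => chevE6.cartan i p) : Kˣ) : K) * (-1)) =
            (xU chevE6 e6mem p (1 : K) * torusHom (F := K) chevE6 c *
              (xU chevE6 e6mem p (1 : K))⁻¹) * (torusHom (F := K) chevE6 c)⁻¹ := by
          rw [e]
          group
        rw [this]
        exact Subgroup.mul_mem _ h3 (Subgroup.inv_mem _ (by
          rw [diagonalSubgroup_eq_range chevE6 e6mem]
          exact ⟨c, rfl⟩))
    rw [hUH, Subgroup.mem_bot] at h4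
    have h5 := (Cfsg.Agent.S1024.result (F := K) chevE6 e6mem p h1 _).mp
      (by rw [← coe_xU chevE6 e6mem, h4]; rfl)
    apply Units.ext
    rw [Units.val_one]
    linear_combination -h5
  have hpair : ∀ x ∈ [((56 : ℕ), (15 : ℕ), (36 : ℕ), (35 : ℕ)), (42, 29, 37, 34)],
      mono c (fun i => chevE6.cartan i x.1) = 1 ∧
        mono c (fun i => chevE6.cartan i x.2.2.1) = 1 := by
    intro x hx
    obtain ⟨-, -, h3, -, -, -, h7, h8, -, h10, -, -⟩ := e6_pair_chk x hx
    obtain ⟨g1, g2, g3⟩ := e6_pair_pos x hx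
    have hxm : xU chevE6 e6mem x.1 (1 : K) * xU chevE6 e6mem x.2.2.1 (1 : K) ∈ twistedE6 K q := by
      have := e6_pair_mem (K := K) q (x.1, x.2.2.1) h3 1
      rwa [one_pow] at this
    have h3' := hH _ hxm
    have s1 := hconj x.2.2.1 h10 (-1)
    have s2 := hconj x.1 h8 (-1)
    have s3 : xU chevE6 e6mem x.2.2.1
          (1 + ((mono c (fun i => chevE6.cartan i x.2.2.1) : Kˣ) : K) * (-1)) *
        xU chevE6 e6mem x.1 (((mono c (fun i => chevE6.cartan i x.1) : Kˣ) : K) * (-1)) =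
        xU chevE6 e6mem x.1 (((mono c (fun i => chevE6.cartan i x.1) : Kˣ) : K) * (-1)) *
          xU chevE6 e6mem x.2.2.1
            (1 + ((mono c (fun i => chevE6.cartan i x.2.2.1) : Kˣ) : K) * (-1)) :=
      (e6_orb_comm (x.2.2.1, x.1) h7 _ _).eq
    have e : (xU chevE6 e6mem x.1 (1 : K) * xU chevE6 e6mem x.2.2.1 (1 : K)) *
        torusHom (F := K) chevE6 c *
        (xU chevE6 e6mem x.1 (1 : K) * xU chevE6 e6mem x.2.2.1 (1 : K))⁻¹ =
        xU chevE6 e6mem x.1 (1 + ((mono c (fun i => chevE6.cartan i x.1) : Kˣ) : K) * (-1)) *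
          xU chevE6 e6mem x.2.2.1
            (1 + ((mono c (fun i => chevE6.cartan i x.2.2.1) : Kˣ) : K) * (-1)) *
          torusHom (F := K) chevE6 c := by
      calc (xU chevE6 e6mem x.1 (1 : K) * xU chevE6 e6mem x.2.2.1 (1 : K)) *
            torusHom (F := K) chevE6 c *
            (xU chevE6 e6mem x.1 (1 : K) * xU chevE6 e6mem x.2.2.1 (1 : K))⁻¹
          = xU chevE6 e6mem x.1 (1 : K) * xU chevE6 e6mem x.2.2.1 (1 : K) *
              (torusHom (F := K) chevE6 c * xU chevE6 e6mem x.2.2.1 (-1)) *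
              xU chevE6 e6mem x.1 (-1) := by
            rw [mul_inv_rev, xU_inv, xU_inv]
            group
        _ = xU chevE6 e6mem x.1 (1 : K) * (xU chevE6 e6mem x.2.2.1 (1 : K) *
              xU chevE6 e6mem x.2.2.1
                (((mono c (fun i => chevE6.cartan i x.2.2.1) : Kˣ) : K) * (-1))) *
              (torusHom (F := K) chevE6 c * xU chevE6 e6mem x.1 (-1)) := by
            rw [s1]
            group
        _ = xU chevE6 e6mem x.1 (1 : K) * (xU chevE6 e6mem x.2.2.1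
                (1 + ((mono c (fun i => chevE6.cartan i x.2.2.1) : Kˣ) : K) * (-1)) *
              xU chevE6 e6mem x.1 (((mono c (fun i => chevE6.cartan i x.1) : Kˣ) : K) * (-1))) *
              torusHom (F := K) chevE6 c := by
            rw [xU_mul, s2]
            group
        _ = _ := by
            rw [s3, ← mul_assoc, xU_mul]
    have hzH : torusHom (F := K) chevE6 c ∈ chevE6.diagonalSubgroup K := by
      rw [diagonalSubgroup_eq_range chevE6 e6mem]
      exact ⟨c, rfl⟩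
    have hposU : ∀ (r : ℕ), chevE6.nroots / 2 ≤ r → r < 72 → ∀ a : K,
        xU chevE6 e6mem r a ∈ chevE6.posUnipotent K := fun r h1 h2 a =>
      Subgroup.subset_closure ⟨r, a,
        (Cfsg.Agent.Lib.Helper17.isPosRoot_iff chevE6 e6mem r).mpr ⟨h1, h2⟩, coe_xU _ _ _ _⟩
    have h4 : xU chevE6 e6mem x.1 (1 + ((mono c (fun i => chevE6.cartan i x.1) : Kˣ) : K) * (-1)) *
          xU chevE6 e6mem x.2.2.1
            (1 + ((mono c (fun i => chevE6.cartan i x.2.2.1) : Kˣ) : K) * (-1)) ∈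
        chevE6.posUnipotent K ⊓ chevE6.diagonalSubgroup K := by
      refine Subgroup.mem_inf.mpr ⟨Subgroup.mul_mem _ (hposU _ g1 h8 _) (hposU _ g2 h10 _), ?_⟩
      have e2 : xU chevE6 e6mem x.1
            (1 + ((mono c (fun i => chevE6.cartan i x.1) : Kˣ) : K) * (-1)) *
          xU chevE6 e6mem x.2.2.1
            (1 + ((mono c (fun i => chevE6.cartan i x.2.2.1) : Kˣ) : K) * (-1)) =
          ((xU chevE6 e6mem x.1 (1 : K) * xU chevE6 e6mem x.2.2.1 (1 : K)) *
            torusHom (F := K) chevE6 c *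
            (xU chevE6 e6mem x.1 (1 : K) * xU chevE6 e6mem x.2.2.1 (1 : K))⁻¹) *
            (torusHom (F := K) chevE6 c)⁻¹ := by
        rw [e]
        group
      rw [e2]
      exact Subgroup.mul_mem _ h3' (Subgroup.inv_mem _ hzH)
    rw [hUH, Subgroup.mem_bot] at h4
    have h5 : xU chevE6 e6mem x.1
          (1 + ((mono c (fun i => chevE6.cartan i x.1) : Kˣ) : K) * (-1)) =
        xU chevE6 e6mem x.2.2.1
          (-(1 + ((mono c (fun i => chevE6.cartan i x.2.2.1) : Kˣ) : K) * (-1))) := by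
      rw [← xU_inv]
      exact eq_inv_of_mul_eq_one_left h4
    have ha : (1 : K) + ((mono c (fun i => chevE6.cartan i x.1) : Kˣ) : K) * (-1) = 0 := by
      by_contra hne
      exact g3 (e6_xU_root_inj x.1 x.2.2.1 h8 h10 _ _ hne h5)
    rw [ha, xU_zero, one_mul] at h4
    have hb := (Cfsg.Agent.S1024.result (F := K) chevE6 e6mem x.2.2.1 h10 _).mp
      (by rw [← coe_xU chevE6 e6mem, h4]; rfl)
    constructor
    · apply Units.ext
      rw [Units.val_one]
      linear_combination -ha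
    · apply Units.ext
      rw [Units.val_one]
      linear_combination -hb
  have hsimple : ∀ j : Fin 6, mono c (fun i => chevE6.cartan i (chevE6.simple j)) = 1 := by
    intro j
    fin_cases j
    · exact (hpair (56, 15, 36, 35) (by decide)).1
    · exact hsingle e6p2 (by decide)
    · exact (hpair (42, 29, 37, 34) (by decide)).1
    · exact hsingle e6p4 (by decide)
    · exact (hpair (42, 29, 37, 34) (by decide)).2
    · exact (hpair (56, 15, 36, 35) (by decide)).2
  apply MonoidHom.mem_ker.mp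
  rw [mem_ker_torusHom]
  intro s
  have hlin : (fun i : Fin chevE6.rank => chevE6.cartan i s) =
      ∑ j : Fin 6, ((chevE6.coroot.getD s #[]).getD j 0) •
        (fun i : Fin chevE6.rank => chevE6.cartan i (chevE6.simple j)) := by
    funext i
    rw [e6_cartan_lin s.val s.isLt i.val i.isLt, list_sum_range_eq_fin_sum]
    simp [Finset.sum_apply, Pi.smul_apply, smul_eq_mul]
  rw [hlin, mono_sum]
  apply Finset.prod_eq_one
  intro j _
  rw [mono_smul, hsimple j, one_zpow]

end

end Cfsg.Agent.Lib.Helper18
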