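import Cfsg.Agent.Lib.Helper18.Sl2Hom
import Cfsg.Agent.Lib.Helper18.ChevBruhat2
import Cfsg.Agent.Lib.Helper18.ChevRefl

/-!
# The homomorphism `SL₂(F) → ⟨X_r, X_{-r}⟩` for every root `r`
-/

set_option autoImplicit false

namespace Cfsg.Agent.Lib.Helper18

open Cfsg Cfsg.Lie Cfsg.Lie.ChevalleyDatum

/-- Table check: `⟨r, r^∨⟩ = 2` for every root. -/
def dotSelfChk (D : ChevalleyDatum) : Bool :=
  (List.range D.nroots).all (fun r => decide (dotCA D r r = 2))

set_option maxRecDepth 100000 in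
theorem dotSelfChk_G2 : dotSelfChk chevG2 = true := by decide +kernel
set_option maxRecDepth 100000 in
theorem dotSelfChk_B2 : dotSelfChk chevB2 = true := by decide +kernel
set_option maxRecDepth 100000 in
theorem dotSelfChk_D4 : dotSelfChk chevD4 = true := by decide +kernel
set_option maxRecDepth 100000 in
theorem dotSelfChk_F4 : dotSelfChk chevF4 = true := by decide +kernel
set_option maxRecDepth 100000 in
theorem dotSelfChk_E6 : dotSelfChk chevE6 = true := by decide +kernel
set_option maxRecDepth 100000 in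
theorem dotSelfChk_E7 : dotSelfChk chevE7 = true := by decide +kernel
set_option maxRecDepth 100000 in
theorem dotSelfChk_E8 : dotSelfChk chevE8 = true := by decide +kernel

theorem dotCA_self (D : ChevalleyDatum)
    (hD : D ∈ [chevG2, chevB2, chevD4, chevF4, chevE6, chevE7, chevE8]) (r : ℕ) (hr : r < D.nroots) :
    dotCA D r r = 2 := by
  have key : dotSelfChk D = true := by
    simp only [List.mem_cons, List.mem_nil_iff, or_false] at hD
    rcases hD with rfl | rfl | rfl | rfl | rfl | rfl | rfl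
    · exact dotSelfChk_G2
    · exact dotSelfChk_B2
    · exact dotSelfChk_D4
    · exact dotSelfChk_F4
    · exact dotSelfChk_E6
    · exact dotSelfChk_E7
    · exact dotSelfChk_E8
  unfold dotSelfChk at key
  rw [List.all_eq_true] at key
  have h1 := key r (List.mem_range.mpr hr)
  simpa using h1

theorem list_sum_map_neg (l : List ℕ) (f g : ℕ → ℤ) (h : ∀ i ∈ l, f i = - g i) :
    (l.map f).sum = - (l.map g).sum := by
  induction l with
  | nil => simp
  | cons a l ih =>
    rw [List.map_cons, List.sum_cons, List.map_cons, List.sum_cons, h a (by simp),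
      ih (fun i hi => h i (by simp [hi]))]
    ring

theorem dotCA_neg (D : ChevalleyDatum)
    (hD : D ∈ [chevG2, chevB2, chevD4, chevF4, chevE6, chevE7, chevE8]) (r s : ℕ) (hs : s < D.nroots) :
    dotCA D r (D.neg s) = - dotCA D r s := by
  unfold dotCA
  apply list_sum_map_neg
  intro i hi
  rw [cartan_neg D hD s hs i (List.mem_range.mp hi), mul_neg]

/-- `h_r(t) x_s(u) = x_s(t^{⟨s, r^∨⟩} u) h_r(t)` for all roots `r`, `s`. -/
theorem hU_mul_xU {F : Type*} [Field F] (D : ChevalleyDatum)
    (hD : D ∈ [chevG2, chevB2, chevD4, chevF4, chevE6, chevE7, chevE8]) (r : ℕ) (hr : r < D.nroots)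
    (s : ℕ) (hs : s < D.nroots) (t : F) (ht : t ≠ 0) (u : F) :
    hU D hD r t * xU D hD s u = xU D hD s (t ^ dotCA D r s * u) * hU D hD r t := by
  apply Units.ext
  rw [Units.val_mul, Units.val_mul, coe_hU, coe_xU, coe_xU]
  have hl : ∀ k ∈ List.range D.rank,
      k < D.rank ∧ (fun k => t ^ (D.coroot.getD r #[]).getD k 0) k ≠ 0 :=
    fun k hk => ⟨List.mem_range.mp hk, zpow_ne_zero _ ht⟩
  have hc : chiL D (fun k => t ^ (D.coroot.getD r #[]).getD k 0) (List.range D.rank) s =
      t ^ dotCA D r s := by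
    rw [chiL, dotCA, zpow_list_sum t ht]
  rw [hMat_eq_dvecL D hD r hr t ht, dvecL_mul_x D hD _ _ hl s hs u, hc]

theorem hU_one {F : Type*} [Field F] (D : ChevalleyDatum)
    (hD : D ∈ [chevG2, chevB2, chevD4, chevF4, chevE6, chevE7, chevE8]) (r : ℕ) (hr : r < D.nroots) :
    (hU D hD r 1 : GL D.Idx F) = 1 := by
  apply Units.ext
  rw [coe_hU, hMat_one D hD r hr, Units.val_one]

theorem hU_mul {F : Type*} [Field F] (D : ChevalleyDatum)
    (hD : D ∈ [chevG2, chevB2, chevD4, chevF4, chevE6, chevE7, chevE8]) (r : ℕ) (hr : r < D.nroots)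
    (s t : F) (hs : s ≠ 0) (ht : t ≠ 0) :
    (hU D hD r s : GL D.Idx F) * hU D hD r t = hU D hD r (s * t) := by
  apply Units.ext
  rw [Units.val_mul, coe_hU, coe_hU, coe_hU, hMat_mul D hD r hr s t hs ht]

theorem nU_mul_self {F : Type*} [Field F] (D : ChevalleyDatum)
    (hD : D ∈ [chevG2, chevB2, chevD4, chevF4, chevE6, chevE7, chevE8]) (r : ℕ) (hr : r < D.nroots) :
    (nU D hD r : GL D.Idx F) * nU D hD r = hU D hD r (-1) := by
  have h1 : (hU D hD r (-1) : GL D.Idx F) * hU D hD r (-1) = 1 := by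
    rw [hU_mul D hD r hr _ _ (neg_ne_zero.mpr one_ne_zero) (neg_ne_zero.mpr one_ne_zero)]
    rw [show (-1 : F) * -1 = 1 by ring, hU_one D hD r hr]
  have h2 : (hU D hD r (-1) : GL D.Idx F) * (nU D hD r * nU D hD r) = 1 := by
    rw [← mul_assoc, ← nU_inv D hD r hr, inv_mul_cancel]
  calc (nU D hD r : GL D.Idx F) * nU D hD r
      = (hU D hD r (-1) * hU D hD r (-1)) * (nU D hD r * nU D hD r) := by rw [h1, one_mul]
    _ = hU D hD r (-1) * (hU D hD r (-1) * (nU D hD r * nU D hD r)) := by rw [mul_assoc]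
    _ = hU D hD r (-1) := by rw [h2, mul_one]

/-- `n_r x_r(u) n_r⁻¹ = x_{-r}(-u)` for every root `r`. -/
theorem nU_mul_xU_self {F : Type*} [Field F] (D : ChevalleyDatum)
    (hD : D ∈ [chevG2, chevB2, chevD4, chevF4, chevE6, chevE7, chevE8]) (r : ℕ) (hr : r < D.nroots) :
    ∀ u : F, nU D hD r * xU D hD r u = xU D hD (D.neg r) (-u) * nU D hD r := by
  have hstep : ∀ (i : ℕ) (hi : i < D.rank) (s : ℕ) (hs : s < D.nroots),
      (∀ u : F, nU D hD s * xU D hD s u = xU D hD (D.neg s) (-u) * nU D hD s) →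
      ∀ u : F, nU D hD (D.reflectRoot i s) * xU D hD (D.reflectRoot i s) u =
        xU D hD (D.neg (D.reflectRoot i s)) (-u) * nU D hD (D.reflectRoot i s) := by
    intro i hi s hs ih u
    obtain ⟨c, c', hcc, e1, e2⟩ := nU_mul_xU_pair (F := F) D hD i hi s hs
    have hc : c ≠ 0 := left_ne_zero_of_mul_eq_one hcc
    have hc' : c' = c⁻¹ := eq_inv_of_mul_eq_one_right hcc
    have hlt := (reflect_facts D hD i hi).1 s hs
    have hnlt := neg_lt_nroots D hD _ hlt
    -- `n_i n_s n_i⁻¹ = h_{s'}(c) n_{s'}`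
    have eA : nU D hD (D.simple i) * nU D hD s =
        hU D hD (D.reflectRoot i s) c * nU D hD (D.reflectRoot i s) * nU D hD (D.simple i) := by
      rw [← nT_eq_hU_mul D hD _ hlt, ← nT_one D hD s, nT_eq, nT_eq, ← mul_assoc, e1,
        mul_assoc, ← mul_assoc (nU D hD (D.simple i)), e2, mul_assoc, e1]
      rw [hc']
      simp only [mul_one, mul_neg, inv_one, mul_assoc]
    -- the conjugation formulas
    have e3 : nU D hD (D.simple i) * xU D hD s (c⁻¹ * u) =
        xU D hD (D.reflectRoot i s) u * nU D hD (D.simple i) := by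
      rw [e1, mul_inv_cancel_left₀ hc]
    have e4 : nU D hD (D.simple i) * xU D hD (D.neg s) (-(c⁻¹ * u)) =
        xU D hD (D.neg (D.reflectRoot i s)) (-(c⁻¹ * c⁻¹ * u)) * nU D hD (D.simple i) := by
      rw [e2, hc']
      congr 2
      ring
    have e5 : hU D hD (D.reflectRoot i s) c * xU D hD (D.neg (D.reflectRoot i s)) (-u) =
        xU D hD (D.neg (D.reflectRoot i s)) (-(c⁻¹ * c⁻¹ * u)) * hU D hD (D.reflectRoot i s) c := by
      rw [hU_mul_xU D hD _ hlt _ hnlt c hc, dotCA_neg D hD _ _ hlt, dotCA_self D hD _ hlt]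
      congr 2
      rw [zpow_neg, zpow_ofNat]
      field_simp
    -- assemble
    have key : hU D hD (D.reflectRoot i s) c *
        (nU D hD (D.reflectRoot i s) * xU D hD (D.reflectRoot i s) u) * nU D hD (D.simple i) =
        hU D hD (D.reflectRoot i s) c *
        (xU D hD (D.neg (D.reflectRoot i s)) (-u) * nU D hD (D.reflectRoot i s)) *
          nU D hD (D.simple i) := by
      calc hU D hD (D.reflectRoot i s) c *
            (nU D hD (D.reflectRoot i s) * xU D hD (D.reflectRoot i s) u) * nU D hD (D.simple i)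
          = hU D hD (D.reflectRoot i s) c * nU D hD (D.reflectRoot i s) *
              (xU D hD (D.reflectRoot i s) u * nU D hD (D.simple i)) := by group
        _ = hU D hD (D.reflectRoot i s) c * nU D hD (D.reflectRoot i s) *
              (nU D hD (D.simple i) * xU D hD s (c⁻¹ * u)) := by rw [e3]
        _ = (hU D hD (D.reflectRoot i s) c * nU D hD (D.reflectRoot i s) * nU D hD (D.simple i)) *
              xU D hD s (c⁻¹ * u) := by group
        _ = nU D hD (D.simple i) * (nU D hD s * xU D hD s (c⁻¹ * u)) := by rw [← eA]; group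
        _ = nU D hD (D.simple i) * (xU D hD (D.neg s) (-(c⁻¹ * u)) * nU D hD s) := by rw [ih]
        _ = (nU D hD (D.simple i) * xU D hD (D.neg s) (-(c⁻¹ * u))) * nU D hD s := by group
        _ = xU D hD (D.neg (D.reflectRoot i s)) (-(c⁻¹ * c⁻¹ * u)) *
              (nU D hD (D.simple i) * nU D hD s) := by rw [e4]; group
        _ = (xU D hD (D.neg (D.reflectRoot i s)) (-(c⁻¹ * c⁻¹ * u)) *
              hU D hD (D.reflectRoot i s) c) * nU D hD (D.reflectRoot i s) *
                nU D hD (D.simple i) := by rw [eA]; group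
        _ = hU D hD (D.reflectRoot i s) c *
              (xU D hD (D.neg (D.reflectRoot i s)) (-u) * nU D hD (D.reflectRoot i s)) *
                nU D hD (D.simple i) := by rw [← e5]; group
    exact mul_left_cancel (mul_right_cancel key)
  have hsimple : ∀ (j : ℕ) (hj : j < D.rank) (u : F),
      nU D hD (D.simple j) * xU D hD (D.simple j) u =
        xU D hD (D.neg (D.simple j)) (-u) * nU D hD (D.simple j) := by
    intro j hj u
    obtain ⟨wt, et, hN⟩ := Cfsg.Agent.Lib.Helper36.exists_ndata D hD j hj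
    apply Units.ext
    rw [Units.val_mul, Units.val_mul, coe_nU, coe_xU, coe_xU,
      hN.conj (D.simple j) (simple_lt_nroots D hD j hj) u, hN.sign_simple, reflectRoot_simple]
    simp
  have hall : ∀ r, Cfsg.Agent.Lib.Helper36.Reach D r → r < D.nroots ∧
      ∀ u : F, nU D hD r * xU D hD r u = xU D hD (D.neg r) (-u) * nU D hD r := by
    intro r h
    induction h with
    | simple j hj => exact ⟨simple_lt_nroots D hD j hj, hsimple j hj⟩
    | negSimple j hj =>
      have h1 := hstep j hj (D.simple j) (simple_lt_nroots D hD j hj) (hsimple j hj)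
      rw [reflectRoot_simple] at h1
      exact ⟨(commCheck_spec D hD j hj).2.2.1, h1⟩
    | refl i hi s hs _ ih => exact ⟨(reflect_facts D hD i hi).1 s hs, hstep i hi s hs ih.2⟩
  exact (hall r (Cfsg.Agent.Lib.Helper36.reach_all D hD r hr)).2

/-- The rank one relations hold for every root. -/
theorem chev_sl2Rel {F : Type*} [Field F] (D : ChevalleyDatum)
    (hD : D ∈ [chevG2, chevB2, chevD4, chevF4, chevE6, chevE7, chevE8]) (r : ℕ) (hr : r < D.nroots) :
    Sl2Rel (xU (F := F) D hD r) (hU D hD r) (nU D hD r) where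
  add := fun u v => xU_mul D hD r u v
  h_one := hU_one D hD r hr
  h_mul := fun s t hs ht => hU_mul D hD r hr s t hs ht
  h_conj := fun t u ht => by
    rw [hU_mul_xU D hD r hr r hr t ht u, dotCA_self D hD r hr,
      show (2 : ℤ) = ((2 : ℕ) : ℤ) from rfl, zpow_natCast]
  n_sq := nU_mul_self D hD r hr
  n_conj := fun u hu => by
    have hm1 : (-1 : F) ≠ 0 := neg_ne_zero.mpr one_ne_zero
    have hui : u⁻¹ ≠ 0 := inv_ne_zero hu
    have e1 : (xU D hD (D.neg r) (-u) : GL D.Idx F) =
        xU D hD r (-u⁻¹) * (hU D hD r u⁻¹ * nU D hD r) * xU D hD r (-u⁻¹) := by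
      rw [xU_neg_eq D hD r hr (-u), inv_neg, neg_neg]
    have e2 : (xU D hD r (-u⁻¹) : GL D.Idx F) * hU D hD r (-1) =
        hU D hD r (-1) * xU D hD r (-u⁻¹) := by
      rw [hU_mul_xU D hD r hr r hr (-1) hm1, dotCA_self D hD r hr]
      congr 2
      rw [zpow_ofNat]
      ring
    have e3 : (nU D hD r : GL D.Idx F) * hU D hD r (-1) = hU D hD r (-1) * nU D hD r := by
      rw [← nU_mul_self D hD r hr, mul_assoc]
    have e4 : (hU D hD r u⁻¹ : GL D.Idx F) * hU D hD r (-1) = hU D hD r (-u⁻¹) := by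
      rw [hU_mul D hD r hr _ _ hui hm1]
      congr 1
      ring
    calc (nU D hD r : GL D.Idx F) * xU D hD r u * nU D hD r
        = xU D hD (D.neg r) (-u) * (nU D hD r * nU D hD r) := by
          rw [nU_mul_xU_self D hD r hr u, mul_assoc]
      _ = xU D hD r (-u⁻¹) * (hU D hD r u⁻¹ * nU D hD r) * xU D hD r (-u⁻¹) * hU D hD r (-1) := by
          rw [nU_mul_self D hD r hr, e1]
      _ = xU D hD r (-u⁻¹) * hU D hD r u⁻¹ * nU D hD r * (xU D hD r (-u⁻¹) * hU D hD r (-1)) := by
          group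
      _ = xU D hD r (-u⁻¹) * hU D hD r u⁻¹ * (nU D hD r * hU D hD r (-1)) * xU D hD r (-u⁻¹) := by
          rw [e2]; group
      _ = xU D hD r (-u⁻¹) * (hU D hD r u⁻¹ * hU D hD r (-1)) * nU D hD r * xU D hD r (-u⁻¹) := by
          rw [e3]; group
      _ = xU D hD r (-u⁻¹) * hU D hD r (-u⁻¹) * nU D hD r * xU D hD r (-u⁻¹) := by rw [e4]

end Cfsg.Agent.Lib.Helper18
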