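import Cfsg.Agent.Lib.Helper18.ChevE6TwCell
import Cfsg.Agent.Lib.Helper18.ChevTorus
import Cfsg.Agent.Lib.Helper18.ChevSl2Hom

set_option autoImplicit false

/-!
# The diagonal subgroup of the twisted group of type `²E₆`

`H ∩ G¹` is the image of the twisted torus `{c : c_{π j}^q = c_j}` under the torus homomorphism, and
its order is `(q-1)⁴ (q+1)² / gcd(3, q+1)`.
-/

namespace Cfsg.Agent.Lib.Helper18

open Cfsg Cfsg.Lie Cfsg.Lie.ChevalleyDatum

section gen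

variable {F : Type*} [Field F]

theorem prod_hU_eq_diag (D : ChevalleyDatum)
    (hD : D ∈ [chevG2, chevB2, chevD4, chevF4, chevE6, chevE7, chevE8]) (c : ℕ → F) (l : List ℕ)
    (hl : ∀ i ∈ l, i < D.rank ∧ c i ≠ 0) :
    (((l.map (fun i => hU D hD (D.simple i) (c i))).prod : GL D.Idx F) :
      Matrix D.Idx D.Idx F) = Matrix.diagonal (dvecL D c l) := by
  induction l with
  | nil =>
    rw [List.map_nil, List.prod_nil, Units.val_one]
    ext u v
    simp [Matrix.one_apply, Matrix.diagonal_apply, dvecL]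
  | cons i l ih =>
    have hi := hl i List.mem_cons_self
    rw [List.map_cons, List.prod_cons, Units.val_mul, coe_hU,
      ih (fun j hj => hl j (List.mem_cons_of_mem _ hj)),
      Cfsg.Agent.S1033.result D hD i hi.1 (c i) hi.2, ← diagonal_wt_eq,
      Matrix.diagonal_mul_diagonal]
    congr 1

theorem torusHom_eq_prod (D : ChevalleyDatum)
    (hD : D ∈ [chevG2, chevB2, chevD4, chevF4, chevE6, chevE7, chevE8]) (c : Fin D.rank → Fˣ) :
    torusHom (F := F) D c =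
      ((List.range D.rank).map (fun i => hU D hD (D.simple i) (cx D c i))).prod := by
  apply Units.ext
  rw [coe_torusHom, prod_hU_eq_diag D hD _ _
    (fun i hi => ⟨List.mem_range.mp hi, cx_ne_zero D c i⟩)]

theorem dvecL_perm (D : ChevalleyDatum) (c : ℕ → F) {l l' : List ℕ} (h : l.Perm l') :
    dvecL D c l = dvecL D c l' := by
  funext idx
  unfold dvecL
  exact (h.map _).prod_eq

theorem hU_eq_nT (D : ChevalleyDatum)
    (hD : D ∈ [chevG2, chevB2, chevD4, chevF4, chevE6, chevE7, chevE8]) (r : ℕ)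
    (hr : r < D.nroots) (t : F) : hU D hD r t = nT D hD r t * (nT D hD r 1)⁻¹ := by
  rw [nT_eq_hU_mul D hD r hr t, nT_one]
  group

end gen

/-- The permutation of the nodes. -/
def e6π (i : ℕ) : ℕ := gaE6.np.getD i 0

set_option maxRecDepth 100000 in
theorem e6_simple_chk : ∀ i < 6, chevE6.simple i < 72 ∧
    e6ρ (chevE6.simple i) = chevE6.simple (e6π i) ∧ e6ε (chevE6.simple i) = 1 ∧ e6π i < 6 ∧
    e6π (e6π i) = i := by decide +kernel

theorem e6π_perm : ((List.range chevE6.rank).map e6π).Perm (List.range chevE6.rank) := by decide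

section

variable {K : Type*} [Field K]

theorem e6σ_hU (φ : K →+* K) (i : ℕ) (hi : i < 6) (t : K) :
    e6σ φ (hU chevE6 e6mem (chevE6.simple i) t) =
      hU chevE6 e6mem (chevE6.simple (e6π i)) (φ t) := by
  obtain ⟨h1, h2, h3, h4, h5⟩ := e6_simple_chk i hi
  have h6 := (e6_simple_chk (e6π i) h4).1
  rw [hU_eq_nT chevE6 e6mem _ h1, hU_eq_nT chevE6 e6mem _ h6, map_mul, map_inv,
    e6σ_nT φ _ h1, e6σ_nT φ _ h1, h2, h3, map_one, Int.cast_one, one_mul, one_mul]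

/-- The permutation of the nodes on `Fin`. -/
def e6πF (j : Fin chevE6.rank) : Fin chevE6.rank :=
  ⟨e6π j.val, (e6_simple_chk j.val j.isLt).2.2.2.1⟩

/-- The twisting map on the torus. -/
def e6σT (q : ℕ) : (Fin chevE6.rank → Kˣ) →* (Fin chevE6.rank → Kˣ) where
  toFun c := fun j => c (e6πF j) ^ q
  map_one' := by
    funext j
    simp
  map_mul' a b := by
    funext j
    simp [mul_pow]

theorem e6σT_apply (q : ℕ) (c : Fin chevE6.rank → Kˣ) (j : Fin chevE6.rank) :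
    e6σT q c j = c (e6πF j) ^ q := rfl

theorem cx_e6σT (q : ℕ) (φ : K →+* K) (hφ : ∀ t, φ t = t ^ q) (c : Fin chevE6.rank → Kˣ)
    (j : ℕ) (hj : j < 6) : cx chevE6 (e6σT q c) j = φ (cx chevE6 c (e6π j)) := by
  have hj' : j < chevE6.rank := hj
  have hj2 : e6π j < chevE6.rank := (e6_simple_chk j hj).2.2.2.1
  unfold cx
  rw [dif_pos hj', dif_pos hj2, hφ, e6σT_apply, Units.val_pow_eq_pow_val]
  rfl

/-- `σ` on the torus. -/
theorem e6σ_torusHom (q : ℕ) (φ : K →+* K) (hφ : ∀ t, φ t = t ^ q)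
    (c : Fin chevE6.rank → Kˣ) :
    e6σ φ (torusHom (F := K) chevE6 c) = torusHom (F := K) chevE6 (e6σT q c) := by
  rw [torusHom_eq_prod chevE6 e6mem c, map_list_prod, List.map_map]
  have e1 : (List.range chevE6.rank).map
      ((e6σ φ) ∘ fun i => hU chevE6 e6mem (chevE6.simple i) (cx chevE6 c i)) =
      ((List.range chevE6.rank).map e6π).map
        (fun j => hU chevE6 e6mem (chevE6.simple j) (φ (cx chevE6 c (e6π j)))) := by
    rw [List.map_map]
    apply List.map_congr_left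
    intro i hi
    have hi' : i < 6 := List.mem_range.mp hi
    simp only [Function.comp]
    rw [e6σ_hU φ i hi', (e6_simple_chk i hi').2.2.2.2]
  rw [e1]
  apply Units.ext
  rw [prod_hU_eq_diag chevE6 e6mem _ _ (fun j hj => by
      obtain ⟨i, hi, rfl⟩ := List.mem_map.mp hj
      have hi' : i < 6 := List.mem_range.mp hi
      exact ⟨(e6_simple_chk i hi').2.2.2.1,
        (map_ne_zero φ).mpr (cx_ne_zero chevE6 c _)⟩), coe_torusHom,
    dvecL_perm chevE6 _ e6π_perm]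
  congr 1
  apply dvecL_congr
  intro j hj
  exact (cx_e6σT q φ hφ c j (List.mem_range.mp hj)).symm

theorem hU_comm_xU (D : ChevalleyDatum)
    (hD : D ∈ [chevG2, chevB2, chevD4, chevF4, chevE6, chevE7, chevE8]) (r s : ℕ)
    (hr : r < D.nroots) (hs : s < D.nroots) (h0 : dotCA D r s = 0) (t : K) (ht : t ≠ 0) (u : K) :
    Commute (hU D hD r t) (xU D hD s u) := by
  show _ * _ = _ * _
  rw [hU_mul_xU D hD r hr s hs t ht u, h0, zpow_zero, one_mul]

theorem hU_comm_nT (D : ChevalleyDatum)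
    (hD : D ∈ [chevG2, chevB2, chevD4, chevF4, chevE6, chevE7, chevE8]) (r s : ℕ)
    (hr : r < D.nroots) (hs : s < D.nroots) (hns : D.neg s < D.nroots) (h0 : dotCA D r s = 0)
    (h1 : dotCA D r (D.neg s) = 0) (t : K) (ht : t ≠ 0) (u : K) :
    Commute (hU D hD r t) (nT D hD s u) := by
  rw [nT_eq]
  exact (hU_comm_xU D hD r s hr hs h0 t ht u).mul_right
    ((hU_comm_xU D hD r _ hr hns h1 t ht _).mul_right (hU_comm_xU D hD r s hr hs h0 t ht u))

set_option maxRecDepth 100000 in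
theorem e6_single_chk : ∀ p ∈ [e6p2, e6p4], p < 72 ∧ p ∈ [e6p2, e6m2, e6p4, e6m4] ∧
    chevE6.neg p ∈ [e6p2, e6m2, e6p4, e6m4] := by decide +kernel

set_option maxRecDepth 100000 in
theorem e6_pair_chk : ∀ x ∈ [((56 : ℕ), (15 : ℕ), (36 : ℕ), (35 : ℕ)), (42, 29, 37, 34)],
    chevE6.neg x.1 = x.2.1 ∧ chevE6.neg x.2.2.1 = x.2.2.2 ∧
    (x.1, x.2.2.1) ∈ [(e6p1, e6p6), (e6m1, e6m6), (e6p3, e6p5), (e6m3, e6m5)] ∧
    (x.2.1, x.2.2.2) ∈ [(e6p1, e6p6), (e6m1, e6m6), (e6p3, e6p5), (e6m3, e6m5)] ∧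
    (x.2.2.1, x.2.1) ∈ [((36 : ℕ), (15 : ℕ)), (35, 56), (36, 56), (37, 29), (34, 42), (37, 42)] ∧
    (x.2.2.2, x.1) ∈ [((36 : ℕ), (15 : ℕ)), (35, 56), (36, 56), (37, 29), (34, 42), (37, 42)] ∧
    (x.2.2.1, x.1) ∈ [((36 : ℕ), (15 : ℕ)), (35, 56), (36, 56), (37, 29), (34, 42), (37, 42)] ∧
    x.1 < 72 ∧ x.2.1 < 72 ∧ x.2.2.1 < 72 ∧ dotCA chevE6 x.2.2.1 x.1 = 0 ∧
    dotCA chevE6 x.2.2.1 x.2.1 = 0 := by decide +kernel

theorem e6_hU_single_mem (q : ℕ) (φ : K →+* K) (hφ : ∀ t, φ t = t ^ q) (p : ℕ)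
    (hp : p ∈ [e6p2, e6p4]) (t : K) (ht : φ t = t) : hU chevE6 e6mem p t ∈ twistedE6 K q := by
  obtain ⟨h1, h2, h3⟩ := e6_single_chk p hp
  have key : ∀ u : K, φ u = u → nT chevE6 e6mem p u ∈ twistedE6 K q := by
    intro u hu
    rw [nT_eq]
    have hu' : u ^ q = u := by rw [← hφ, hu]
    have hu2 : (-u⁻¹) ^ q = -u⁻¹ := by rw [← hφ, map_neg, map_inv₀, hu]
    exact Subgroup.mul_mem _ (e6_single_mem q p h2 u hu') (Subgroup.mul_mem _
      (e6_single_mem q _ h3 _ hu2) (e6_single_mem q p h2 u hu'))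
  rw [hU_eq_nT chevE6 e6mem p h1 t]
  exact Subgroup.mul_mem _ (key t ht) (Subgroup.inv_mem _ (key 1 (map_one φ)))

theorem e6_nT_pair_mem (q : ℕ) (φ : K →+* K) (hφ : ∀ t, φ t = t ^ q) (x : ℕ × ℕ × ℕ × ℕ)
    (hx : x ∈ [((56 : ℕ), (15 : ℕ), (36 : ℕ), (35 : ℕ)), (42, 29, 37, 34)]) (t : K) :
    nT chevE6 e6mem x.1 t * nT chevE6 e6mem x.2.2.1 (φ t) ∈ twistedE6 K q := by
  obtain ⟨h1, h2, h3, h4, h5, h6, h7, -⟩ := e6_pair_chk x hx
  have e : nT chevE6 e6mem x.1 t * nT chevE6 e6mem x.2.2.1 (φ t) =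
      (xU chevE6 e6mem x.1 t * xU chevE6 e6mem x.2.1 (-t⁻¹) * xU chevE6 e6mem x.1 t) *
        (xU chevE6 e6mem x.2.2.1 (φ t) * xU chevE6 e6mem x.2.2.2 (-(φ t)⁻¹) *
          xU chevE6 e6mem x.2.2.1 (φ t)) := by
    rw [nT_eq, nT_eq, h1, h2]
    group
  rw [e, six_comm _ _ _ _ (e6_orb_comm (x.2.2.1, x.2.1) h5 _ _)
    (e6_orb_comm (x.2.2.2, x.1) h6 _ _) (e6_orb_comm (x.2.2.1, x.1) h7 _ _)]
  have ha := e6_pair_mem (K := K) q (x.1, x.2.2.1) h3 t
  have hb := e6_pair_mem (K := K) q (x.2.1, x.2.2.2) h4 (-t⁻¹)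
  rw [← hφ] at ha hb
  rw [map_neg, map_inv₀] at hb
  exact Subgroup.mul_mem _ (Subgroup.mul_mem _ ha hb) ha

theorem e6_hU_pair_mem (q : ℕ) (φ : K →+* K) (hφ : ∀ t, φ t = t ^ q) (x : ℕ × ℕ × ℕ × ℕ)
    (hx : x ∈ [((56 : ℕ), (15 : ℕ), (36 : ℕ), (35 : ℕ)), (42, 29, 37, 34)]) (t : K)
    (ht : t ≠ 0) :
    hU chevE6 e6mem x.1 t * hU chevE6 e6mem x.2.2.1 (φ t) ∈ twistedE6 K q := by
  obtain ⟨h1, -, -, -, -, -, -, h8, h9, h10, h11, h12⟩ := e6_pair_chk x hx
  have hA := e6_nT_pair_mem q φ hφ x hx t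
  have hB := e6_nT_pair_mem q φ hφ x hx 1
  rw [map_one] at hB
  have hφt : φ t ≠ 0 := (map_ne_zero φ).mpr ht
  have hc : Commute (hU chevE6 e6mem x.2.2.1 (φ t)) (nT chevE6 e6mem x.1 (1 : K)) :=
    hU_comm_nT chevE6 e6mem x.2.2.1 x.1 h10 h8 (by rw [h1]; exact h9) h11 (by rw [h1]; exact h12)
      (φ t) hφt 1
  have e : hU chevE6 e6mem x.1 t * hU chevE6 e6mem x.2.2.1 (φ t) =
      (nT chevE6 e6mem x.1 t * nT chevE6 e6mem x.2.2.1 (φ t)) *
        (nT chevE6 e6mem x.1 (1 : K) * nT chevE6 e6mem x.2.2.1 1)⁻¹ := by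
    have e1 : (nT chevE6 e6mem x.1 (1 : K))⁻¹ * hU chevE6 e6mem x.2.2.1 (φ t) =
        hU chevE6 e6mem x.2.2.1 (φ t) * (nT chevE6 e6mem x.1 (1 : K))⁻¹ := hc.inv_right.eq.symm
    rw [hU_eq_nT chevE6 e6mem x.1 h8 t, mul_assoc, e1, hU_eq_nT chevE6 e6mem x.2.2.1 h10 (φ t)]
    group
  rw [e]
  exact Subgroup.mul_mem _ hA (Subgroup.inv_mem _ hB)

theorem e6_list_perm : ([1, 3, 0, 5, 2, 4] : List ℕ).Perm (List.range chevE6.rank) := by decide

/-- The image of the twisted torus lies in the twisted group. -/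
theorem e6_torus_mem_tw (q : ℕ) (φ : K →+* K) (hφ : ∀ t, φ t = t ^ q)
    (c : Fin chevE6.rank → Kˣ) (hc : e6σT q c = c) :
    torusHom (F := K) chevE6 c ∈ twistedE6 K q := by
  have hcx : ∀ j < 6, cx chevE6 c j = φ (cx chevE6 c (e6π j)) := fun j hj => by
    rw [← cx_e6σT q φ hφ c j hj, hc]
  have e : torusHom (F := K) chevE6 c = (([1, 3, 0, 5, 2, 4] : List ℕ).map
      (fun i => hU chevE6 e6mem (chevE6.simple i) (cx chevE6 c i))).prod := by
    apply Units.ext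
    rw [coe_torusHom, prod_hU_eq_diag chevE6 e6mem _ _ (fun i hi =>
      ⟨List.mem_range.mp (e6_list_perm.mem_iff.mp hi), cx_ne_zero chevE6 c i⟩),
      dvecL_perm chevE6 _ e6_list_perm]
  rw [e]
  simp only [List.map_cons, List.map_nil, List.prod_cons, List.prod_nil, mul_one]
  have h1 : φ (cx chevE6 c 1) = cx chevE6 c 1 := (hcx 1 (by norm_num)).symm
  have h3 : φ (cx chevE6 c 3) = cx chevE6 c 3 := (hcx 3 (by norm_num)).symm
  have h5 : cx chevE6 c 5 = φ (cx chevE6 c 0) := hcx 5 (by norm_num)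
  have h4 : cx chevE6 c 4 = φ (cx chevE6 c 2) := hcx 4 (by norm_num)
  refine Subgroup.mul_mem _ (e6_hU_single_mem q φ hφ _ (by decide) _ h1)
    (Subgroup.mul_mem _ (e6_hU_single_mem q φ hφ _ (by decide) _ h3) ?_)
  rw [← mul_assoc, h5, h4]
  exact Subgroup.mul_mem _
    (e6_hU_pair_mem q φ hφ (56, 15, 36, 35) (by decide) _ (cx_ne_zero chevE6 c 0))
    (e6_hU_pair_mem q φ hφ (42, 29, 37, 34) (by decide) _ (cx_ne_zero chevE6 c 2))

end

/-- The kernel of the torus homomorphism read off a kernel certificate. -/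
theorem ker_of_check {F : Type*} [Field F] (D : ChevalleyDatum)
    (hD : D ∈ [chevG2, chevB2, chevD4, chevF4, chevE6, chevE7, chevE8]) (C : KerCert)
    (h : kerCheck D C = true) :
    ∃ piv : Fin C.gens.length → Fin D.rank, (∀ g, (piv g : ℕ) = C.piv.getD g 0) ∧
      (∀ c : Fin D.rank → Fˣ, (∀ s : Fin D.nroots, mono c (fun i => D.cartan i s) = 1) →
        (∀ g, c (piv g) ^ C.k = 1) ∧ ∀ i, c i = ∏ g, c (piv g) ^ ll C.gens g i) ∧
      (∀ z : Fin C.gens.length → Fˣ, (∀ g, z g ^ C.k = 1) → ∀ s : Fin D.nroots,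
        mono (fun i : Fin D.rank => ∏ g, z g ^ ll C.gens g i) (fun i => D.cartan i s) = 1) := by
  unfold kerCheck at h
  simp only [Bool.and_eq_true, List.all_eq_true, List.mem_range, decide_eq_true_eq] at h
  obtain ⟨⟨⟨⟨hp, h1⟩, h2⟩, h3⟩, h4⟩ := h
  obtain ⟨e, he1, he2⟩ : ∃ e : {c : Fin D.rank → Fˣ // ∀ s : Fin D.nroots,
      mono c (fun i => D.cartan i s) = 1} ≃ (Fin C.gens.length → {z : Fˣ // z ^ C.k = 1}),
      (∀ c g, ((e c g : {z : Fˣ // z ^ C.k = 1}) : Fˣ) =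
        c.1 ⟨C.piv.getD g 0, hp g g.isLt⟩) ∧
      (∀ z i, (e.symm z).1 i = ∏ g, ((z g : {z : Fˣ // z ^ C.k = 1}) : Fˣ) ^ ll C.gens g i) :=
    ⟨torusKerEquiv (G := Fˣ) (fun (i : Fin D.rank) (s : Fin D.nroots) => D.cartan i s) C.k
      (fun (g : Fin C.gens.length) (i : Fin D.rank) => ll C.gens g i)
      (fun g => ⟨C.piv.getD g 0, hp g g.isLt⟩)
      (fun j => ⟨D.simple j, simple_lt_nroots D hD j j.isLt⟩)
      (fun i j => ll C.M i j) (fun g j => ll C.N g j)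
      (by
        intro g s
        have := h1 g g.isLt s s.isLt
        rwa [list_sum_range_eq_fin_sum] at this)
      (by
        intro g g'
        have := h2 g g.isLt g' g'.isLt
        rw [this]
        simp only [Fin.ext_iff])
      (by
        intro i i'
        have := h3 i i.isLt i' i'.isLt
        rw [list_sum_range_eq_fin_sum, list_sum_range_eq_fin_sum] at this
        rw [this]
        simp only [Fin.ext_iff])
      (by
        intro g i'
        have := h4 g g.isLt i' i'.isLt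
        rw [list_sum_range_eq_fin_sum] at this
        rw [this]
        simp only [Fin.ext_iff]), fun _ _ => rfl, fun _ _ => rfl⟩
  refine ⟨fun g => ⟨C.piv.getD g 0, hp g g.isLt⟩, fun g => rfl, ?_, ?_⟩
  · intro c hc
    constructor
    · intro g
      have := (e ⟨c, hc⟩ g).2
      rwa [he1] at this
    · intro i
      have h5 : (e.symm (e ⟨c, hc⟩)).1 i = c i := by rw [Equiv.symm_apply_apply]
      rw [← h5, he2]
      apply Finset.prod_congr rfl
      intro g _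
      rw [he1]
  · intro z hz s
    have h5 := (e.symm (fun g => ⟨z g, hz g⟩)).2 s
    have h6 : (e.symm (fun g => ⟨z g, hz g⟩)).1 =
        fun i : Fin D.rank => ∏ g, z g ^ ll C.gens g i := by
      funext i
      rw [he2]
    rwa [h6] at h5

/-- The exponents of the central elements. -/
def e6κe (i : ℕ) : ℕ := ([1, 0, 2, 0, 1, 2] : List ℕ).getD i 0

theorem e6_κ_chk : kerCertE6.k = 3 ∧ kerCertE6.gens.length = 1 ∧
    ∀ i < 6, ll kerCertE6.gens 0 i = ((e6κe i : ℕ) : ℤ) := by decide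

theorem e6_κπ_chk : ∀ j : Fin chevE6.rank, e6κe (e6πF j).val = (2 * e6κe j.val) % 3 := by
  decide

section

variable {K : Type*} [Field K]

/-- The central elements of the torus. -/
def e6κ (z : Kˣ) : Fin chevE6.rank → Kˣ := fun i => z ^ e6κe i.val

theorem e6_ker_torus (c : Fin chevE6.rank → Kˣ) :
    torusHom (F := K) chevE6 c = 1 ↔ ∃ z : Kˣ, z ^ 3 = 1 ∧ c = e6κ z := by
  obtain ⟨piv, -, hA, hB⟩ := ker_of_check (F := K) chevE6 e6mem kerCertE6 kerCertE6_check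
  obtain ⟨k1, k2, k3⟩ := e6_κ_chk
  have hprod : ∀ f : Fin kerCertE6.gens.length → Kˣ, ∏ g, f g = f ⟨0, by decide⟩ := by
    intro f
    apply Fintype.prod_eq_single
    intro g hg
    exfalso
    apply hg
    apply Fin.ext
    have := g.isLt
    show g.val = 0
    omega
  constructor
  · intro h
    have hc := (mem_ker_torusHom chevE6 c).mp (MonoidHom.mem_ker.mpr h)
    obtain ⟨a1, a2⟩ := hA c hc
    refine ⟨c (piv ⟨0, by decide⟩), ?_, ?_⟩
    · have := a1 ⟨0, by decide⟩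
      rwa [k1] at this
    · funext i
      rw [a2 i, hprod]
      show c (piv ⟨0, by decide⟩) ^ ll kerCertE6.gens 0 i.val = c (piv ⟨0, by decide⟩) ^ e6κe i.val
      rw [k3 i.val i.isLt, zpow_natCast]
  · rintro ⟨z, hz, rfl⟩
    apply MonoidHom.mem_ker.mp
    rw [mem_ker_torusHom]
    have h5 := hB (fun _ => z) (fun _ => by rw [k1]; exact hz)
    have h6 : (fun i : Fin chevE6.rank => ∏ g : Fin kerCertE6.gens.length,
        z ^ ll kerCertE6.gens g i) = e6κ z := by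
      funext i
      rw [hprod]
      show z ^ ll kerCertE6.gens 0 i.val = z ^ e6κe i.val
      rw [k3 i.val i.isLt, zpow_natCast]
    rwa [h6] at h5

theorem pow_q_of_cube (z : Kˣ) (q : ℕ) (hz3 : z ^ 3 = 1) (hz : z ^ (2 * q + 1) = 1) :
    z ^ q = z := by
  have h1 : z ^ (4 * q + 2) = 1 := by
    rw [show 4 * q + 2 = (2 * q + 1) * 2 by ring, pow_mul, hz, one_pow]
  have h2 : z ^ (3 * q) = 1 := by rw [pow_mul, hz3, one_pow]
  have h3 : z ^ (q + 2) = 1 := by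
    have : z ^ (q + 2) * z ^ (3 * q) = 1 := by
      rw [← pow_add, show q + 2 + 3 * q = 4 * q + 2 by ring, h1]
    rwa [h2, mul_one] at this
  have h4 : z ^ q * z ^ 2 = z * z ^ 2 := by rw [← pow_add, h3, ← pow_succ', hz3]
  exact mul_right_cancel h4

/-- Every element of `H ∩ G¹` comes from the twisted torus. -/
theorem e6_diag_tw_sub (q : ℕ) (φ : K →+* K) (hφ : ∀ t, φ t = t ^ q) (hφφ : ∀ t, φ (φ t) = t)
    (h : GL chevE6.Idx K) (hh : h ∈ chevE6.diagonalSubgroup K ⊓ twistedE6 K q) :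
    ∃ c : Fin chevE6.rank → Kˣ, e6σT q c = c ∧ torusHom (F := K) chevE6 c = h := by
  obtain ⟨hH, hG⟩ := Subgroup.mem_inf.mp hh
  rw [diagonalSubgroup_eq_range chevE6 e6mem] at hH
  obtain ⟨c, rfl⟩ := MonoidHom.mem_range.mp hH
  have hfix := e6σ_fixed q φ hφ hφφ _ hG
  rw [e6σ_torusHom q φ hφ c] at hfix
  have hd : torusHom (F := K) chevE6 (e6σT q c * c⁻¹) = 1 := by
    rw [map_mul, map_inv, hfix, mul_inv_cancel]
  obtain ⟨z, hz3, hdz⟩ := (e6_ker_torus _).mp hd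
  have hcoord : ∀ j, c (e6πF j) ^ q = c j * z ^ e6κe j.val := by
    intro j
    have h1 := congrFun hdz j
    have h2 : c (e6πF j) ^ q * (c j)⁻¹ = z ^ e6κe j.val := h1
    rw [← h2, mul_comm, inv_mul_cancel_right]
  have hpow2 : ∀ x : Kˣ, (x ^ q) ^ q = x := by
    intro x
    apply Units.ext
    rw [Units.val_pow_eq_pow_val, Units.val_pow_eq_pow_val, ← hφ, ← hφ, hφφ]
  have h0 : c ⟨5, by decide⟩ ^ q = c ⟨0, by decide⟩ * z ^ 1 := hcoord ⟨0, by decide⟩
  have h5 : c ⟨0, by decide⟩ ^ q = c ⟨5, by decide⟩ * z ^ 2 := hcoord ⟨5, by decide⟩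
  have hz : z ^ (2 * q + 1) = 1 := by
    have h6 := hpow2 (c ⟨0, by decide⟩)
    rw [h5, mul_pow, h0, ← pow_mul, pow_one, mul_assoc] at h6
    have h7 := mul_left_cancel (h6.trans (mul_one _).symm)
    rw [pow_succ', h7]
  have hzq := pow_q_of_cube z q hz3 hz
  have hz6 : (z ^ 2) ^ 3 = 1 := by rw [← pow_mul, show 2 * 3 = 3 * 2 from rfl, pow_mul, hz3, one_pow]
  refine ⟨c * e6κ (z ^ 2), ?_, ?_⟩
  · funext j
    show (c (e6πF j) * (z ^ 2) ^ e6κe (e6πF j).val) ^ q = c j * (z ^ 2) ^ e6κe j.val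
    have e1 : ((z ^ 2) ^ e6κe (e6πF j).val) ^ q = (z ^ 2) ^ (2 * e6κe j.val) := by
      rw [← pow_mul, mul_comm, pow_mul, ← pow_mul z 2 q, mul_comm 2 q, pow_mul z q 2, hzq,
        e6_κπ_chk j, ← pow_eq_pow_mod _ hz6]
    rw [mul_pow, hcoord j, e1, mul_assoc]
    congr 1
    rw [← pow_mul, ← pow_mul, ← pow_add,
      show e6κe j.val + 2 * (2 * e6κe j.val) = 3 * e6κe j.val + 2 * e6κe j.val by ring, pow_add,
      pow_mul, hz3, one_pow, one_mul]
  · rw [map_mul, (e6_ker_torus _).mpr ⟨z ^ 2, hz6, rfl⟩, mul_one]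

/-- The twisted torus. -/
def e6TS (q : ℕ) : Subgroup (Fin chevE6.rank → Kˣ) :=
  MonoidHom.eqLocus (e6σT (K := K) q) (MonoidHom.id _)

/-- The restriction of the torus homomorphism to the twisted torus. -/
def e6TH (q : ℕ) : ↥(e6TS (K := K) q) →* GL chevE6.Idx K :=
  (torusHom (F := K) chevE6).comp (e6TS q).subtype

theorem e6TH_range (q : ℕ) (φ : K →+* K) (hφ : ∀ t, φ t = t ^ q) (hφφ : ∀ t, φ (φ t) = t) :
    (e6TH (K := K) q).range = chevE6.diagonalSubgroup K ⊓ twistedE6 K q := by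
  ext h
  constructor
  · rintro ⟨⟨c, hc⟩, rfl⟩
    refine Subgroup.mem_inf.mpr ⟨?_, e6_torus_mem_tw q φ hφ c hc⟩
    rw [diagonalSubgroup_eq_range chevE6 e6mem]
    exact ⟨c, rfl⟩
  · intro hh
    obtain ⟨c, hc, rfl⟩ := e6_diag_tw_sub q φ hφ hφφ h hh
    exact ⟨⟨c, hc⟩, rfl⟩

theorem e6κ_fixed (q : ℕ) (z : Kˣ) (hz3 : z ^ 3 = 1) (hzq : z ^ (q + 1) = 1) :
    e6σT q (e6κ z) = e6κ z := by
  have h1 : z ^ q = z ^ 2 := by
    have : z ^ q * z = z ^ 2 * z := by rw [← pow_succ, hzq, ← pow_succ, hz3]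
    exact mul_right_cancel this
  have hz6 : (z ^ 2) ^ 3 = 1 := by
    rw [← pow_mul, show 2 * 3 = 3 * 2 from rfl, pow_mul, hz3, one_pow]
  funext j
  show (z ^ e6κe (e6πF j).val) ^ q = z ^ e6κe j.val
  rw [← pow_mul, mul_comm, pow_mul, h1, e6_κπ_chk j, ← pow_eq_pow_mod _ hz6, ← pow_mul,
    show 2 * (2 * e6κe j.val) = 3 * e6κe j.val + e6κe j.val by ring, pow_add, pow_mul, hz3,
    one_pow, one_mul]

theorem card_units_sq [Fintype K] (q : ℕ) (hK : Fintype.card K = q ^ 2) :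
    Nat.card Kˣ = q ^ 2 - 1 := by
  rw [Nat.card_units, Nat.card_eq_fintype_card, hK]

theorem e6TH_ker_card [Fintype K] (q : ℕ) (hq1 : 1 ≤ q) (hK : Fintype.card K = q ^ 2) :
    Nat.card ↥(e6TH (K := K) q).ker = Nat.gcd 3 (q + 1) := by
  have hdata : ∀ x : ↥(e6TH (K := K) q).ker, ∃ z : Kˣ, z ^ 3 = 1 ∧ x.1.1 = e6κ z := by
    intro x
    have hx : torusHom (F := K) chevE6 x.1.1 = 1 := MonoidHom.mem_ker.mp x.2
    exact (e6_ker_torus _).mp hx
  have hz0 : ∀ z : Kˣ, e6κ z ⟨0, by decide⟩ = z := fun z => pow_one z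
  let Fm : ↥(e6TH (K := K) q).ker → {z : Kˣ // z ^ 3 = 1 ∧ z ^ (q + 1) = 1} := fun x =>
    ⟨x.1.1 ⟨0, by decide⟩, by
      obtain ⟨z, hz3, hxz⟩ := hdata x
      rw [hxz, hz0]
      refine ⟨hz3, ?_⟩
      have h5 : e6σT q x.1.1 ⟨5, by decide⟩ = x.1.1 ⟨5, by decide⟩ := congrFun x.1.2 _
      rw [hxz] at h5
      have h6 : (z ^ 1) ^ q = z ^ 2 := h5
      rw [pow_one] at h6
      rw [pow_succ, h6, ← pow_succ, hz3]⟩
  have hFm : Function.Bijective Fm := by
    constructor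
    · intro x y hxy
      have h1 : x.1.1 ⟨0, by decide⟩ = y.1.1 ⟨0, by decide⟩ := congrArg Subtype.val hxy
      obtain ⟨z, -, hxz⟩ := hdata x
      obtain ⟨w, -, hyw⟩ := hdata y
      rw [hxz, hyw, hz0, hz0] at h1
      apply Subtype.ext
      apply Subtype.ext
      rw [hxz, hyw, h1]
    · rintro ⟨z, hz3, hzq⟩
      refine ⟨⟨⟨e6κ z, e6κ_fixed q z hz3 hzq⟩,
        MonoidHom.mem_ker.mpr ((e6_ker_torus _).mpr ⟨z, hz3, rfl⟩)⟩, ?_⟩
      exact Subtype.ext (hz0 z)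
  rw [Nat.card_congr (Equiv.ofBijective Fm hFm),
    Nat.card_congr (Equiv.subtypeEquivRight (fun z : Kˣ =>
      (pow_gcd_eq_one (a := z) (m := 3) (n := q + 1)).symm)),
    card_torsion_of_isCyclic, card_units_sq q hK]
  apply Nat.gcd_eq_right
  apply dvd_trans (Nat.gcd_dvd_right 3 (q + 1))
  obtain ⟨k, rfl⟩ : ∃ k, q = k + 1 := ⟨q - 1, by omega⟩
  refine ⟨k, ?_⟩
  apply Nat.sub_eq_of_eq_add
  ring

theorem e6TS_card [Fintype K] (q : ℕ) (hq1 : 1 ≤ q) (hK : Fintype.card K = q ^ 2)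
    (hpow2 : ∀ x : Kˣ, (x ^ q) ^ q = x) :
    Nat.card ↥(e6TS (K := K) q) = (q - 1) ^ 2 * (q ^ 2 - 1) ^ 2 := by
  have hpred : ∀ x : Kˣ, x ^ q = x → x ^ (q - 1) = 1 := by
    intro x hx
    have : x ^ (q - 1) * x = 1 * x := by rw [← pow_succ, Nat.sub_add_cancel hq1, hx, one_mul]
    exact mul_right_cancel this
  have hsucc : ∀ x : Kˣ, x ^ (q - 1) = 1 → x ^ q = x := by
    intro x hx
    have : x ^ q = x ^ (q - 1) * x := by rw [← pow_succ, Nat.sub_add_cancel hq1]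
    rw [this, hx, one_mul]
  let g : ({x : Kˣ // x ^ (q - 1) = 1} × {x : Kˣ // x ^ (q - 1) = 1}) × (Kˣ × Kˣ) → ℕ → Kˣ :=
    fun p i => match i with
      | 0 => p.2.1
      | 1 => p.1.1.1
      | 2 => p.2.2
      | 3 => p.1.2.1
      | 4 => p.2.2 ^ q
      | _ => p.2.1 ^ q
  let e : ↥(e6TS (K := K) q) ≃
      ({x : Kˣ // x ^ (q - 1) = 1} × {x : Kˣ // x ^ (q - 1) = 1}) × (Kˣ × Kˣ) :=
    { toFun := fun c => ((⟨c.1 ⟨1, by decide⟩, hpred _ (congrFun c.2 ⟨1, by decide⟩)⟩,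
          ⟨c.1 ⟨3, by decide⟩, hpred _ (congrFun c.2 ⟨3, by decide⟩)⟩),
          (c.1 ⟨0, by decide⟩, c.1 ⟨2, by decide⟩))
      invFun := fun p => ⟨fun j => g p j.val, by
        funext j
        obtain ⟨i, hi⟩ := j
        have hi' : i < 6 := hi
        interval_cases i
        · show (p.2.1 ^ q) ^ q = p.2.1
          exact hpow2 _
        · show p.1.1.1 ^ q = p.1.1.1
          exact hsucc _ p.1.1.2
        · show (p.2.2 ^ q) ^ q = p.2.2
          exact hpow2 _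
        · show p.1.2.1 ^ q = p.1.2.1
          exact hsucc _ p.1.2.2
        · show p.2.2 ^ q = p.2.2 ^ q
          rfl
        · show p.2.1 ^ q = p.2.1 ^ q
          rfl⟩
      left_inv := by
        intro c
        apply Subtype.ext
        funext j
        obtain ⟨i, hi⟩ := j
        have hi' : i < 6 := hi
        interval_cases i
        · rfl
        · rfl
        · rfl
        · rfl
        · exact congrFun c.2 ⟨4, by decide⟩
        · exact congrFun c.2 ⟨5, by decide⟩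
      right_inv := by
        intro p
        rfl }
  rw [Nat.card_congr e, Nat.card_prod, Nat.card_prod, Nat.card_prod, card_torsion_of_isCyclic,
    card_units_sq q hK]
  have hg : (q ^ 2 - 1).gcd (q - 1) = q - 1 := by
    apply Nat.gcd_eq_right
    obtain ⟨k, rfl⟩ : ∃ k, q = k + 1 := ⟨q - 1, by omega⟩
    refine ⟨k + 2, ?_⟩
    rw [Nat.add_sub_cancel]
    apply Nat.sub_eq_of_eq_add
    ring
  rw [hg]
  ring

/-- `gcd(3, q + 1) |H¹| = (q - 1)⁴ (q + 1)²`. -/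
theorem e6_card_diag_tw [Fintype K] {q : ℕ} (hq : IsPrimePow q) (hK : Fintype.card K = q ^ 2) :
    Nat.gcd 3 (q + 1) * Nat.card ↥(chevE6.diagonalSubgroup K ⊓ twistedE6 K q) =
      (q - 1) ^ 4 * (q + 1) ^ 2 := by
  obtain ⟨φ, hφ, hφφ⟩ := exists_frob_sq hq hK
  have hq1 : 1 ≤ q := hq.one_lt.le
  have hpow2 : ∀ x : Kˣ, (x ^ q) ^ q = x := by
    intro x
    apply Units.ext
    rw [Units.val_pow_eq_pow_val, Units.val_pow_eq_pow_val, ← hφ, ← hφ, hφφ]
  have h1 := Subgroup.card_mul_index (e6TH (K := K) q).ker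
  rw [Subgroup.index_ker, e6TH_range q φ hφ hφφ, e6TH_ker_card q hq1 hK,
    e6TS_card q hq1 hK hpow2] at h1
  rw [h1]
  obtain ⟨k, rfl⟩ : ∃ k, q = k + 1 := ⟨q - 1, by omega⟩
  have h2 : (k + 1) ^ 2 - 1 = k * (k + 2) := by
    apply Nat.sub_eq_of_eq_add
    ring
  rw [h2, Nat.add_sub_cancel]
  ring

end

end Cfsg.Agent.Lib.Helper18
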