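import Cfsg.Agent.Lib.Helper18.ChevE6TwCell

set_option autoImplicit false

/-!
# The order of the twisted group of type `²E₆` in terms of `|H¹|`
-/

namespace Cfsg.Agent.Lib.Helper18

open Cfsg Cfsg.Lie Cfsg.Lie.ChevalleyDatum

theorem oprodL_eq_one {K : Type*} [Field K] (D : ChevalleyDatum)
    (hD : D ∈ [chevG2, chevB2, chevD4, chevF4, chevE6, chevE7, chevE8]) (L : List ℕ) (t : ℕ → K)
    (h : ∀ r ∈ L, t r = 0) : Cfsg.Agent.Lib.Helper17.oprodL D hD L t = 1 := by
  induction L with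
  | nil => rfl
  | cons r L ih =>
    rw [Cfsg.Agent.Lib.Helper17.oprodL_cons, h r List.mem_cons_self,
      Cfsg.Agent.Lib.Helper17.xU_zero, one_mul]
    exact ih (fun s hs => h s (List.mem_cons_of_mem _ hs))

/-- Counting the roots of the blocks whose head satisfies a `ρ`-invariant predicate. -/
theorem blk_sum_filter (D : ChevalleyDatum) (ρ : ℕ → ℕ) (ε : ℕ → ℤ) (P : ℕ → Prop)
    [DecidablePred P] :
    ∀ bl : List (List ℕ), (∀ B ∈ bl, Cfsg.Agent.Lib.Helper17.BlkOK D ρ ε 2 B) →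
      (∀ r ∈ bl.flatten, P (ρ r) ↔ P r) →
      (bl.map (fun B => if P (B.headD 0) then B.length else 0)).sum =
        (bl.flatten.filter (fun r => decide (P r))).length := by
  intro bl
  induction bl with
  | nil => intro _ _; rfl
  | cons B rest ih =>
    intro hb hP
    rw [List.map_cons, List.sum_cons, List.flatten_cons, List.filter_append, List.length_append,
      ih (fun B' h => hb B' (List.mem_cons_of_mem _ h))
        (fun r hr => hP r (by rw [List.flatten_cons]; exact List.mem_append_right _ hr))]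
    congr 1
    have hB := hb B List.mem_cons_self
    cases hB with
    | one r hρ hε =>
      by_cases h : P r <;> simp [h]
    | two r1 r2 hm h12 h21 hε hc =>
      have p1 := hP r1 (by simp)
      rw [h12] at p1
      by_cases h : P r1
      · have h2 : P r2 := p1.mpr h
        simp [h, h2]
      · have h2 : ¬ P r2 := fun h' => h (p1.mp h')
        simp [h, h2]
    | three r1 r2 r3 hm h12 h23 h31 hε hc12 hc13 hc23 => omega

set_option maxRecDepth 100000 in
theorem e6_heads_chk :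
    Cfsg.Agent.Lib.Helper17.headsOf e6Blocks = e6Blocks.map (fun B => B.headD 0) ∧
    (Cfsg.Agent.Lib.Helper17.headsOf e6Blocks).Nodup ∧
    ∀ B ∈ e6Blocks, (if [B.headD 0] ∈ e6Blocks then 1 else 2) = B.length := by decide +kernel

theorem e6O_mem_iff (s : ℕ) : s ∈ e6O ↔ 36 ≤ s ∧ s < 72 := by
  constructor
  · intro h
    exact (Cfsg.Agent.Lib.Helper17.isPosRoot_iff chevE6 e6mem s).mp (e6O_pos s h)
  · intro h
    exact e6O_all s ((Cfsg.Agent.Lib.Helper17.isPosRoot_iff chevE6 e6mem s).mpr h)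

section

variable {K : Type*} [Field K]

/-- The exponent of the number of twisted parameters. -/
theorem e6_par_exp (φ : K →+* K) (hφφ : ∀ t, φ (φ t) = t) (P : ℕ → Prop) [DecidablePred P]
    (hP : ∀ r ∈ e6O, P (e6ρ r) ↔ P r) :
    ∑ h ∈ (e6Tw φ hφφ).HS P, (if [h] ∈ (e6Tw φ hφφ).blocks then 1 else (e6Tw φ hφφ).m) =
      (e6O.filter (fun r => decide (P r))).length := by
  obtain ⟨c1, c2, c3⟩ := e6_heads_chk
  show ∑ h ∈ (Cfsg.Agent.Lib.Helper17.headsOf e6Blocks).toFinset.filter P,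
    (if [h] ∈ e6Blocks then 1 else 2) = _
  rw [Finset.sum_filter, List.sum_toFinset _ c2, c1, List.map_map]
  have hb : ∀ B ∈ e6Blocks, Cfsg.Agent.Lib.Helper17.BlkOK chevE6 e6ρ e6ε 2 B :=
    fun B hB => Cfsg.Agent.Lib.Helper17.blockOK_spec _ _ _ _ B (e6_blockOK B hB)
  have key := blk_sum_filter chevE6 e6ρ e6ε P e6Blocks hb hP
  rw [show e6O = e6Blocks.flatten from rfl, ← key]
  congr 1

/-- the number of inversions as a count along the ordered positive roots -/
theorem e6_inv_eq (f : ℕ → ℕ) :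
    (e6O.filter (fun r => decide (f r < 36))).length = Cfsg.Agent.Lib.Helper17.Weyl.inv 72 f := by
  unfold Cfsg.Agent.Lib.Helper17.Weyl.inv
  rw [← List.toFinset_card_of_nodup (e6O_nodup.filter _)]
  congr 1
  ext s
  simp only [List.mem_toFinset, List.mem_filter, decide_eq_true_eq, Finset.mem_filter,
    Finset.mem_range, e6O_mem_iff]
  constructor
  · rintro ⟨⟨h1, h2⟩, h3⟩; exact ⟨h2, h1, h3⟩
  · rintro ⟨h2, h1, h3⟩; exact ⟨⟨h1, h2⟩, h3⟩

/-- `|B¹ n_c B¹| = |B¹| q^{N(c)}`. -/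
theorem e6_cell_ncard [Fintype K] {q : ℕ} (hq : IsPrimePow q) (hK : Fintype.card K = q ^ 2)
    (c : List ℕ) (hc : ∀ i ∈ c, i < 4) :
    (DoubleCoset.doubleCoset (e6nC c : GL chevE6.Idx K)
      ((chevE6.borelSubgroup K ⊓ twistedE6 K q : Subgroup (GL chevE6.Idx K)) :
        Set (GL chevE6.Idx K))
      ((chevE6.borelSubgroup K ⊓ twistedE6 K q : Subgroup (GL chevE6.Idx K)) :
        Set (GL chevE6.Idx K))).ncard =
      Nat.card ↥(chevE6.borelSubgroup K ⊓ twistedE6 K q) *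
        q ^ Cfsg.Agent.Lib.Helper17.Weyl.inv 72
          (Cfsg.Agent.Lib.Helper17.Weyl.wp (Cfsg.Agent.Lib.Helper17.Weyl.sgF e6twWG) c) := by
  classical
  obtain ⟨φ, hφ, hφφ⟩ := exists_frob_sq hq hK
  let T := e6Tw φ hφφ
  let n : GL chevE6.Idx K := e6nC c
  let f : ℕ → ℕ := Cfsg.Agent.Lib.Helper36.wordF chevE6 (c.flatMap e6Orb)
  obtain ⟨η, hη⟩ := Cfsg.Agent.Lib.Helper36.word_smap (F := K) chevE6 e6mem (c.flatMap e6Orb)
  have hη' : Cfsg.Agent.Lib.Helper36.SMap chevE6 ((n : GL chevE6.Idx K) :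
      Matrix chevE6.Idx chevE6.Idx K) f η := hη
  have hnG : n ∈ twistedE6 K q := e6nC_mem_tw q φ hφ c
  let P : ℕ → Prop := fun r => f r < 36
  have hP : ∀ r ∈ e6O, P (e6ρ r) ↔ P r := by
    intro r hr
    have hr' : r < 72 := e6O_lt r hr
    obtain ⟨k1, k2⟩ := e6_wordF_rho c hc r hr'
    show f (e6ρ r) < 36 ↔ f r < 36
    rw [show f (e6ρ r) = e6ρ (f r) from k1]
    exact e6ρ_half (f r) k2
  have hP' : ∀ r ∈ e6O, (fun r => ¬ P r) (e6ρ r) ↔ (fun r => ¬ P r) r :=
    fun r hr => not_congr (hP r hr)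
  have hU1 : ∀ (Q : ℕ → Prop) [DecidablePred Q] (a : T.Par Q),
      T.iota Q a ∈ chevE6.posUnipotent K ⊓ twistedE6 K q := by
    intro Q _ a
    have h1 := T.iota_mem_fix Q a
    exact Subgroup.mem_inf.mpr ⟨h1.1, e6_fixed_U_mem q φ hφ hφφ _ h1.1 h1.2⟩
  have hBV : (chevE6.borelSubgroup K ⊓ twistedE6 K q) ⊓ chevE6.negUnipotent K = ⊥ := by
    rw [eq_bot_iff]
    intro g hg
    have h1 : g ∈ chevE6.borelSubgroup K ⊓ chevE6.negUnipotent K :=
      Subgroup.mem_inf.mpr ⟨(Subgroup.mem_inf.mp (Subgroup.mem_inf.mp hg).1).1,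
        (Subgroup.mem_inf.mp hg).2⟩
    rwa [(Cfsg.Agent.S1037.result (F := K) chevE6 e6mem).1] at h1
  have hHB : chevE6.diagonalSubgroup K ≤ chevE6.borelSubgroup K := le_sup_right
  have hcardfix : Nat.card {x : K // φ x = x} = q := by
    have h1 := card_pow_eq_self q hq.one_lt.le hK
    rw [← h1]
    exact Nat.card_congr (Equiv.subtypeEquivRight (fun x => by rw [hφ]))
  haveI hfinPar : ∀ (Q : ℕ → Prop) [DecidablePred Q], Finite (T.Par Q) := fun Q _ => by
    unfold Cfsg.Agent.Lib.Helper17.TwData.Par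
    infer_instance
  have key := Cfsg.Agent.Lib.Helper17.cell_card
    (chevE6.borelSubgroup K ⊓ twistedE6 K q) (chevE6.posUnipotent K ⊓ twistedE6 K q)
    (chevE6.negUnipotent K) (chevE6.diagonalSubgroup K ⊓ twistedE6 K q)
    (inf_le_inf_right _ le_sup_left) hBV (e6_borel_split q φ hφ hφφ) n
    (fun h hh => Subgroup.mem_inf.mpr
      ⟨hHB ((Subgroup.mem_normalizer_iff.mp (e6nC_mem_normalizer c) h).mp
          (Subgroup.mem_inf.mp hh).1),
        Subgroup.mul_mem _ (Subgroup.mul_mem _ hnG (Subgroup.mem_inf.mp hh).2)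
          (Subgroup.inv_mem _ hnG)⟩)
    (α' := T.Par (fun r => ¬ P r)) (α'' := T.Par P) (T.iota (fun r => ¬ P r)) (T.iota P)
    (fun a => hU1 _ a)
    (fun a => Subgroup.mem_inf.mpr
      ⟨T.iota_conj_mem (fun r => ¬ P r) hP' n f η hη' (chevE6.posUnipotent K)
          (fun r hr hPr c' => Subgroup.subset_closure ⟨f r, c',
            (Cfsg.Agent.Lib.Helper17.isPosRoot_iff chevE6 e6mem _).mpr
              ⟨not_lt.mp hPr, hη'.lt r (e6O_lt r hr)⟩,
            coe_xU chevE6 e6mem _ _⟩) a,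
        Subgroup.mul_mem _ (Subgroup.mul_mem _ hnG (Subgroup.mem_inf.mp (hU1 _ a)).2)
          (Subgroup.inv_mem _ hnG)⟩)
    (fun a => hU1 _ a)
    (fun a b => by
      have hV : ∀ a : T.Par P, n * T.iota P a * n⁻¹ ∈ chevE6.negUnipotent K := fun a =>
        T.iota_conj_mem P hP n f η hη' (chevE6.negUnipotent K)
          (fun r hr hPr c' => Subgroup.subset_closure ⟨f r, c',
            (Cfsg.Agent.Lib.Helper17.isNegRoot_iff chevE6 e6mem _).mpr hPr,
            coe_xU chevE6 e6mem _ _⟩) a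
      have e : n * (T.iota P a * (T.iota P b)⁻¹) * n⁻¹ =
          (n * T.iota P a * n⁻¹) * (n * T.iota P b * n⁻¹)⁻¹ := by group
      rw [e]
      exact Subgroup.mul_mem _ (hV a) (Subgroup.inv_mem _ (hV b)))
    ⟨fun _ => ⟨0, fun _ => map_zero _⟩, by
      apply oprodL_eq_one
      intro r hr
      exact Cfsg.Agent.Lib.Helper17.coordB_support T.τ _ (fun _ => False) T.blocks T.hblk T.hnd
        (fun _ _ => Iff.rfl) (fun h _ _ => by
          unfold Cfsg.Agent.Lib.Helper17.TwData.ext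
          split_ifs <;> rfl) r hr (fun h => h)⟩
    (T.iota_injective _) (T.iota_injective _)
    (by
      have h1 := T.card_fix_le P
      have h2 : Nat.card ↥(chevE6.posUnipotent K ⊓ twistedE6 K q) ≤
          Nat.card ↥(chevE6.posUnipotent K ⊓ Cfsg.Agent.Lib.Helper17.fixSub T.σ) := by
        apply Subgroup.card_le_of_le
        intro g hg
        exact Subgroup.mem_inf.mpr ⟨(Subgroup.mem_inf.mp hg).1,
          e6σ_fixed q φ hφ hφφ g (Subgroup.mem_inf.mp hg).2⟩
      rw [mul_comm]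
      exact le_trans h2 h1)
  rw [key, T.card_par P q hcardfix (by rw [Nat.card_eq_fintype_card]; exact hK),
    e6_par_exp φ hφφ P hP, e6_inv_eq f]
  congr 2
  apply Cfsg.Agent.Lib.Helper17.Weyl.inv_congr
  intro s hs
  exact (e6tw_wp c hc s hs).symm

theorem e6nC_bmono (c : List ℕ) :
    Cfsg.Agent.Lib.Helper17.BMono chevE6 ((e6nC c : GL chevE6.Idx K) :
      Matrix chevE6.Idx chevE6.Idx K) (Cfsg.Agent.Lib.Helper36.wordF chevE6 (c.flatMap e6Orb)) := by
  have h1 := Cfsg.Agent.Lib.Helper17.nW_bmono (F := K) chevE6 e6mem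
    ((c.flatMap e6Orb).map Fin.val) (by
      intro i hi
      obtain ⟨j, -, rfl⟩ := List.mem_map.mp hi
      exact j.isLt)
  rw [Cfsg.Agent.Lib.Helper17.nW_eq_fin] at h1
  exact h1.congr (fun s _ => Cfsg.Agent.Lib.Helper17.wp_eq_wordF chevE6 _ s)

/-- `|G¹| = |B¹| Σ_τ q^{N(τ)}` over an enumeration of the twisted Weyl group. -/
theorem e6_card_tw_of_enum [Fintype K] {q : ℕ} (hq : IsPrimePow q) (hK : Fintype.card K = q ^ 2)
    (E : List (List ℕ))
    (hE : Cfsg.Agent.Lib.Helper17.Weyl.EnumOK 72 (Cfsg.Agent.Lib.Helper17.Weyl.sgF e6twWG)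
      (· < 4) E) :
    Nat.card ↥(twistedE6 K q) = Nat.card ↥(chevE6.borelSubgroup K ⊓ twistedE6 K q) *
      (E.map (fun τ => q ^ Cfsg.Agent.Lib.Helper17.Weyl.inv 72
        (Cfsg.Agent.Lib.Helper17.Weyl.wp (Cfsg.Agent.Lib.Helper17.Weyl.sgF e6twWG) τ))).sum := by
  classical
  obtain ⟨φ, hφ, hφφ⟩ := exists_frob_sq hq hK
  let C : List ℕ → Set (GL chevE6.Idx K) := fun τ =>
    DoubleCoset.doubleCoset (e6nC τ : GL chevE6.Idx K)
      ((chevE6.borelSubgroup K ⊓ twistedE6 K q : Subgroup (GL chevE6.Idx K)) :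
        Set (GL chevE6.Idx K))
      ((chevE6.borelSubgroup K ⊓ twistedE6 K q : Subgroup (GL chevE6.Idx K)) :
        Set (GL chevE6.Idx K))
  have hW := Cfsg.Agent.Lib.Helper17.Weyl.wsysOK_spec e6tw_wsys
  have hHB : chevE6.diagonalSubgroup K ≤ chevE6.borelSubgroup K := le_sup_right
  have hUB : chevE6.posUnipotent K ≤ chevE6.borelSubgroup K := le_sup_left
  have hset : (twistedE6 K q : Set (GL chevE6.Idx K)) = {g | ∃ τ ∈ E, g ∈ C τ} := by
    ext g
    constructor
    · intro hg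
      obtain ⟨u', hu', h, hh, c, hc, u, hu, rfl⟩ := e6_tw_bruhat q φ hφ hφφ g hg
      obtain ⟨τ, hτ, hτc⟩ := hE.ex c hc
      have hτr := hE.lett τ hτ
      have h1 : (e6nC τ : GL chevE6.Idx K)⁻¹ * e6nC c ∈ chevE6.diagonalSubgroup K := by
        apply Cfsg.Agent.Lib.Helper36.word_eq_mod_diag chevE6 e6mem
        intro s hs
        rw [← e6tw_wp τ hτr s hs, ← e6tw_wp c hc s hs, hτc s hs]
      have h1G : (e6nC τ : GL chevE6.Idx K)⁻¹ * e6nC c ∈ twistedE6 K q :=
        Subgroup.mul_mem _ (Subgroup.inv_mem _ (e6nC_mem_tw q φ hφ τ)) (e6nC_mem_tw q φ hφ c)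
      have h2 : (e6nC c : GL chevE6.Idx K) ∈ C τ := by
        show _ ∈ DoubleCoset.doubleCoset _ _ _
        rw [DoubleCoset.mem_doubleCoset]
        exact ⟨1, Subgroup.one_mem _, _, Subgroup.mem_inf.mpr ⟨hHB h1, h1G⟩, by group⟩
      have h3 : C c = C τ := DoubleCoset.doubleCoset_eq_of_mem h2
      refine ⟨τ, hτ, ?_⟩
      rw [← h3]
      show _ ∈ DoubleCoset.doubleCoset _ _ _
      rw [DoubleCoset.mem_doubleCoset]
      exact ⟨u' * h, Subgroup.mem_inf.mpr
        ⟨Subgroup.mul_mem _ (hUB (Subgroup.mem_inf.mp hu').1) (hHB (Subgroup.mem_inf.mp hh).1),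
          Subgroup.mul_mem _ (Subgroup.mem_inf.mp hu').2 (Subgroup.mem_inf.mp hh).2⟩,
        u, Subgroup.mem_inf.mpr ⟨hUB (Subgroup.mem_inf.mp hu).1, (Subgroup.mem_inf.mp hu).2⟩, rfl⟩
    · rintro ⟨τ, hτ, hg⟩
      have hg' : g ∈ DoubleCoset.doubleCoset (e6nC τ : GL chevE6.Idx K)
          ((chevE6.borelSubgroup K ⊓ twistedE6 K q : Subgroup (GL chevE6.Idx K)) :
            Set (GL chevE6.Idx K))
          ((chevE6.borelSubgroup K ⊓ twistedE6 K q : Subgroup (GL chevE6.Idx K)) :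
            Set (GL chevE6.Idx K)) := hg
      rw [DoubleCoset.mem_doubleCoset] at hg'
      obtain ⟨x, hx, y, hy, rfl⟩ := hg'
      exact Subgroup.mul_mem _ (Subgroup.mul_mem _ (Subgroup.mem_inf.mp hx).2
        (e6nC_mem_tw q φ hφ τ)) (Subgroup.mem_inf.mp hy).2
  have hdis : E.Pairwise (fun a b => Disjoint (C a) (C b)) := by
    refine hE.distinct.imp_of_mem ?_
    intro a b ha hb hab
    rw [Set.disjoint_left]
    intro g hga hgb
    have hga' : g ∈ DoubleCoset.doubleCoset (e6nC a : GL chevE6.Idx K)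
        ((chevE6.borelSubgroup K ⊓ twistedE6 K q : Subgroup (GL chevE6.Idx K)) :
          Set (GL chevE6.Idx K))
        ((chevE6.borelSubgroup K ⊓ twistedE6 K q : Subgroup (GL chevE6.Idx K)) :
          Set (GL chevE6.Idx K)) := hga
    have hgb' : g ∈ DoubleCoset.doubleCoset (e6nC b : GL chevE6.Idx K)
        ((chevE6.borelSubgroup K ⊓ twistedE6 K q : Subgroup (GL chevE6.Idx K)) :
          Set (GL chevE6.Idx K))
        ((chevE6.borelSubgroup K ⊓ twistedE6 K q : Subgroup (GL chevE6.Idx K)) :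
          Set (GL chevE6.Idx K)) := hgb
    rw [DoubleCoset.mem_doubleCoset] at hga' hgb'
    obtain ⟨x, hx, y, hy, rfl⟩ := hga'
    obtain ⟨x', hx', y', hy', e⟩ := hgb'
    have har := hE.lett a ha
    have hbr := hE.lett b hb
    have e2 : (x'⁻¹ * x) * (e6nC a : GL chevE6.Idx K) = e6nC b * (y' * y⁻¹) := by
      have : (e6nC a : GL chevE6.Idx K) = x⁻¹ * (x * e6nC a * y) * y⁻¹ := by group
      rw [this, e]; group
    have h1 := Cfsg.Agent.Lib.Helper17.bruhat_dom chevE6 e6mem _ _ _ _ _ _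
      (e6nC_bmono (K := K) a) (e6nC_bmono (K := K) b)
      (Subgroup.mul_mem _ (Subgroup.inv_mem _ (Subgroup.mem_inf.mp hx').1)
        (Subgroup.mem_inf.mp hx).1)
      (Subgroup.mul_mem _ (Subgroup.mem_inf.mp hy').1
        (Subgroup.inv_mem _ (Subgroup.mem_inf.mp hy).1)) e2
    have h2 := Cfsg.Agent.Lib.Helper17.perm_eq_of_dom 72 _ _ (fun r hr r' hr' hrr' => by
      rw [← e6tw_wp a har r hr, ← e6tw_wp a har r' hr'] at hrr'
      exact Cfsg.Agent.Lib.Helper17.Weyl.wp_inj hW a r r' hr hr' hrr') h1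
    obtain ⟨s, hs, hne⟩ := hab
    apply hne
    rw [e6tw_wp a har s hs, e6tw_wp b hbr s hs]
    exact h2 s hs
  have hfin : Finite (GL chevE6.Idx K) := inferInstance
  have hcard : Nat.card ↥(twistedE6 K q) = (twistedE6 K q : Set (GL chevE6.Idx K)).ncard :=
    Nat.card_coe_set_eq (twistedE6 K q : Set (GL chevE6.Idx K))
  rw [hcard, hset, Cfsg.Agent.Lib.Helper17.ncard_list_union C E hdis, ← List.sum_map_mul_left]
  congr 1
  apply List.map_congr_left
  intro τ hτ
  exact e6_cell_ncard hq hK τ (hE.lett τ hτ)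

/-- The order of the twisted group in terms of the order of `H¹`. -/
theorem e6_card_tw_mul [Fintype K] {q : ℕ} (hq : IsPrimePow q) (hK : Fintype.card K = q ^ 2) :
    (q - 1) ^ 4 * (q + 1) ^ 2 * Nat.card ↥(twistedE6 K q) =
      Nat.card ↥(chevE6.diagonalSubgroup K ⊓ twistedE6 K q) * q ^ 36 *
        ((q ^ 2 - 1) * (q ^ 5 + 1) * (q ^ 6 - 1) * (q ^ 8 - 1) * (q ^ 9 + 1) * (q ^ 12 - 1)) := by
  obtain ⟨E, hE, hsum⟩ := e6tw_poincare
  rw [e6_card_tw_of_enum hq hK E hE, e6_card_borel_tw hq hK, ← hsum q hq.one_lt.le]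
  ring

end

end Cfsg.Agent.Lib.Helper18
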