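import Cfsg.Agent.Lib.Helper18.ChevE6TwU
import Cfsg.Agent.Lib.Helper17.ChevCF

set_option autoImplicit false

/-!
# `²E₆(q)` is perfect

Every generator is a commutator of elements of the twisted group, by single-term instances of the
commutator formula inside the fixed `A₂` (nodes 2, 4) and the twisted `A₂ × A₂` (nodes 1, 3 and
6, 5).
-/

namespace Cfsg.Agent.Lib.Helper18

open Cfsg Cfsg.Lie

open scoped commutatorElement

theorem comm_pair_split {G : Type*} [Group G] (g₁ g₂ h₁ h₂ : G) (c1 : Commute g₂ g₁)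
    (c2 : Commute g₂ h₁) (c3 : Commute h₂ g₁) (c4 : Commute h₂ h₁) :
    ⁅(g₁ * g₂)⁻¹, (h₁ * h₂)⁻¹⁆ = ⁅g₁⁻¹, h₁⁻¹⁆ * ⁅g₂⁻¹, h₂⁻¹⁆ := by
  have cP : Commute (h₂ * g₂)⁻¹ ((h₁ * g₁)⁻¹ * (g₁ * h₁)) := by
    have a1 : Commute (h₂ * g₂) h₁ := c4.mul_left c2
    have a2 : Commute (h₂ * g₂) g₁ := c3.mul_left c1
    exact (((a1.mul_right a2).inv_right).mul_right (a2.mul_right a1)).inv_left
  have e1 : (h₁ * h₂) * (g₁ * g₂) = (h₁ * g₁) * (h₂ * g₂) := by
    rw [mul_assoc, ← mul_assoc h₂, c3.eq]; group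
  have e2 : (g₁ * g₂) * (h₁ * h₂) = (g₁ * h₁) * (g₂ * h₂) := by
    rw [mul_assoc, ← mul_assoc g₂, c2.eq]; group
  calc ⁅(g₁ * g₂)⁻¹, (h₁ * h₂)⁻¹⁆ = ((h₁ * h₂) * (g₁ * g₂))⁻¹ * ((g₁ * g₂) * (h₁ * h₂)) := by
        rw [commutatorElement_def]; group
    _ = (h₂ * g₂)⁻¹ * ((h₁ * g₁)⁻¹ * (g₁ * h₁)) * (g₂ * h₂) := by rw [e1, e2]; group
    _ = ((h₁ * g₁)⁻¹ * (g₁ * h₁)) * (h₂ * g₂)⁻¹ * (g₂ * h₂) := by rw [cP.eq]
    _ = _ := by rw [commutatorElement_def, commutatorElement_def]; group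

section

variable {K : Type*} [Field K]

/-- the single-term commutator formula as a commutator -/
theorem xU_comm_single (r s w : ℕ) (ε : ℤ) (hr : r < chevE6.nroots) (hs : s < chevE6.nroots)
    (hsr : s ≠ r) (hsn : s ≠ chevE6.neg r) (hct : chevE6.commTerms r s = [(w, ε, 1, 1)])
    (t u : K) :
    ⁅(xU chevE6 e6mem s u)⁻¹, (xU chevE6 e6mem r t)⁻¹⁆ = xU chevE6 e6mem w (-((ε : K) * t * u)) := by
  have hcf := Cfsg.Agent.Lib.Helper17.cf_of_mem (F := K) chevE6 e6mem r s hr hs hsr hsn t u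
  have hw : chevE6.wordMat K (chevE6.commWord K r s t u) = chevE6.x K w (-((ε : K) * t * u)) := by
    unfold ChevalleyDatum.commWord ChevalleyDatum.wordMat
    rw [hct]
    simp only [List.map_cons, List.map_nil, List.prod_cons, List.prod_nil, mul_one, pow_one]
    congr 1
    ring
  rw [hw] at hcf
  have hU : xU chevE6 e6mem s u * xU chevE6 e6mem r t =
      xU chevE6 e6mem r t * xU chevE6 e6mem s u * xU chevE6 e6mem w (-((ε : K) * t * u)) :=
    Units.ext (by simpa only [Units.val_mul, coe_xU] using hcf)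
  rw [commutatorElement_def, inv_inv, inv_inv, mul_assoc, mul_assoc, hU]
  group

/-- a step inside the fixed `A₂` -/
theorem e6_perf_fixed (q : ℕ) (φ : K →+* K) (hφ : ∀ t, φ t = t ^ q) (r s w : ℕ) (ε : ℤ)
    (hε : ε = 1 ∨ ε = -1) (hr : r < chevE6.nroots) (hs : s < chevE6.nroots)
    (hsr : s ≠ r) (hsn : s ≠ chevE6.neg r) (hct : chevE6.commTerms r s = [(w, ε, 1, 1)])
    (Hr : ∀ t : K, t ^ q = t → xU chevE6 e6mem r t ∈ twistedE6 K q)
    (Hs : ∀ t : K, t ^ q = t → xU chevE6 e6mem s t ∈ twistedE6 K q) (t : K) (ht : t ^ q = t) :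
    xU chevE6 e6mem w t ∈ ⁅twistedE6 K q, twistedE6 K q⁆ := by
  have hone : (1 : K) ^ q = 1 := one_pow q
  have hu : (-((ε : K) * t)) ^ q = -((ε : K) * t) := by
    rw [← hφ, map_neg, map_mul, map_intCast, hφ, ht]
  have e := xU_comm_single (K := K) r s w ε hr hs hsr hsn hct 1 (-((ε : K) * t))
  have e2 : -((ε : K) * 1 * -((ε : K) * t)) = t := by
    rcases hε with rfl | rfl <;> simp
  rw [e2] at e
  rw [← e]
  exact Subgroup.commutator_mem_commutator (inv_mem (Hs _ hu)) (inv_mem (Hr 1 hone))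

/-- a step inside the twisted `A₂ × A₂` -/
theorem e6_perf_tw (q : ℕ) (φ : K →+* K) (hφ : ∀ t, φ t = t ^ q) (r s w r' s' w' : ℕ)
    (ε ε' δr δs : ℤ) (hε : ε = 1 ∨ ε = -1)
    (hr : r < chevE6.nroots) (hs : s < chevE6.nroots)
    (hsr : s ≠ r) (hsn : s ≠ chevE6.neg r) (hct : chevE6.commTerms r s = [(w, ε, 1, 1)])
    (hr' : r' < chevE6.nroots) (hs' : s' < chevE6.nroots)
    (hsr' : s' ≠ r') (hsn' : s' ≠ chevE6.neg r')
    (hct' : chevE6.commTerms r' s' = [(w', ε', 1, 1)])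
    (c1 : ∀ a b : K, Commute (xU chevE6 e6mem s' a) (xU chevE6 e6mem s b))
    (c2 : ∀ a b : K, Commute (xU chevE6 e6mem s' a) (xU chevE6 e6mem r b))
    (c3 : ∀ a b : K, Commute (xU chevE6 e6mem r' a) (xU chevE6 e6mem s b))
    (c4 : ∀ a b : K, Commute (xU chevE6 e6mem r' a) (xU chevE6 e6mem r b))
    (Hr : ∀ t : K, xU chevE6 e6mem r t * xU chevE6 e6mem r' ((δr : K) * t ^ q) ∈ twistedE6 K q)
    (Hs : ∀ t : K, xU chevE6 e6mem s t * xU chevE6 e6mem s' ((δs : K) * t ^ q) ∈ twistedE6 K q)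
    (t : K) :
    xU chevE6 e6mem w t * xU chevE6 e6mem w' (((δr * δs * ε * ε' : ℤ) : K) * t ^ q) ∈
      ⁅twistedE6 K q, twistedE6 K q⁆ := by
  have hu : (-((ε : K) * t)) ^ q = -((ε : K) * t ^ q) := by
    rw [← hφ, map_neg, map_mul, map_intCast, hφ]
  have e := comm_pair_split (xU chevE6 e6mem s (-((ε : K) * t)))
    (xU chevE6 e6mem s' ((δs : K) * (-((ε : K) * t)) ^ q)) (xU chevE6 e6mem r (1 : K))
    (xU chevE6 e6mem r' ((δr : K) * (1 : K) ^ q)) (c1 _ _) (c2 _ _) (c3 _ _) (c4 _ _)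
  rw [xU_comm_single (K := K) r s w ε hr hs hsr hsn hct,
    xU_comm_single (K := K) r' s' w' ε' hr' hs' hsr' hsn' hct'] at e
  have e2 : -((ε : K) * 1 * -((ε : K) * t)) = t := by
    rcases hε with rfl | rfl <;> simp
  have e3 : -((ε' : K) * ((δr : K) * (1 : K) ^ q) * ((δs : K) * (-((ε : K) * t)) ^ q)) =
      ((δr * δs * ε * ε' : ℤ) : K) * t ^ q := by
    rw [hu, one_pow]
    push_cast
    ring
  rw [e2, e3] at e
  rw [← e]
  exact Subgroup.commutator_mem_commutator (inv_mem (Hs _)) (inv_mem (Hr 1))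

set_option maxRecDepth 100000 in
theorem e6_perf_chk : ∀ x ∈ [(46, 39, 47, (-1 : ℤ)), (47, 32, 46, -1), (47, 25, 39, 1),
    (25, 32, 24, 1), (24, 39, 25, 1), (24, 46, 32, -1),
    (56, 42, 57, -1), (36, 37, 38, 1), (57, 29, 56, -1), (38, 34, 36, 1), (57, 15, 42, 1),
    (38, 35, 37, -1), (15, 29, 14, 1), (35, 34, 33, -1), (14, 42, 15, 1), (33, 37, 35, -1),
    (14, 56, 29, -1), (33, 36, 34, 1)],
    x.1 < chevE6.nroots ∧ x.2.1 < chevE6.nroots ∧ x.2.1 ≠ x.1 ∧ x.2.1 ≠ chevE6.neg x.1 ∧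
      chevE6.commTerms x.1 x.2.1 = [(x.2.2.1, x.2.2.2, 1, 1)] := by decide +kernel

set_option maxRecDepth 100000 in
theorem e6_perf_comm_chk : ∀ x ∈ [(37, 42), (37, 56), (36, 42), (36, 56), (34, 29), (34, 57),
    (38, 29), (38, 57), (35, 15), (35, 57), (38, 15), (34, 15), (35, 29), (37, 14), (33, 42),
    (33, 14), (36, 14), (33, 56)],
    x.1 < chevE6.nroots ∧ x.2 < chevE6.nroots ∧ x.1 ≠ x.2 ∧ x.1 ≠ chevE6.neg x.2 ∧
      chevE6.commTerms x.2 x.1 = [] := by decide +kernel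

theorem e6_perf_comm (x : ℕ × ℕ) (hx : x ∈ [(37, 42), (37, 56), (36, 42), (36, 56), (34, 29),
    (34, 57), (38, 29), (38, 57), (35, 15), (35, 57), (38, 15), (34, 15), (35, 29), (37, 14),
    (33, 42), (33, 14), (36, 14), (33, 56)]) (a b : K) :
    Commute (xU chevE6 e6mem x.1 a) (xU chevE6 e6mem x.2 b) := by
  obtain ⟨h1, h2, h3, h4, h5⟩ := e6_perf_comm_chk x hx
  exact xU_commute_of_commTerms_nil chevE6 e6mem x.2 x.1 h2 h1 h3 h4 h5 b a

/-- `²E₆(q)` is contained in its derived subgroup. -/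
theorem e6_tw_le_commutator (q : ℕ) (φ : K →+* K) (hφ : ∀ t, φ t = t ^ q) :
    twistedE6 K q ≤ ⁅twistedE6 K q, twistedE6 K q⁆ := by
  have hC : ⁅twistedE6 K q, twistedE6 K q⁆ ≤ twistedE6 K q :=
    Subgroup.commutator_le.mpr (fun g₁ h₁ g₂ h₂ =>
      Subgroup.mul_mem _ (Subgroup.mul_mem _ (Subgroup.mul_mem _ h₁ h₂) (Subgroup.inv_mem _ h₁))
        (Subgroup.inv_mem _ h₂))
  -- the fixed `A₂`
  have G46 : ∀ t : K, t ^ q = t → xU chevE6 e6mem 46 t ∈ twistedE6 K q :=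
    fun t ht => e6_single_mem q 46 (by decide) t ht
  have G25 : ∀ t : K, t ^ q = t → xU chevE6 e6mem 25 t ∈ twistedE6 K q :=
    fun t ht => e6_single_mem q 25 (by decide) t ht
  have G39 : ∀ t : K, t ^ q = t → xU chevE6 e6mem 39 t ∈ twistedE6 K q :=
    fun t ht => e6_single_mem q 39 (by decide) t ht
  have G32 : ∀ t : K, t ^ q = t → xU chevE6 e6mem 32 t ∈ twistedE6 K q :=
    fun t ht => e6_single_mem q 32 (by decide) t ht
  have fx : ∀ x ∈ [(46, 39, 47, (-1 : ℤ)), (47, 32, 46, -1), (47, 25, 39, 1),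
      (25, 32, 24, 1), (24, 39, 25, 1), (24, 46, 32, -1)],
      (∀ t : K, t ^ q = t → xU chevE6 e6mem x.1 t ∈ twistedE6 K q) →
      (∀ t : K, t ^ q = t → xU chevE6 e6mem x.2.1 t ∈ twistedE6 K q) →
      ∀ t : K, t ^ q = t → xU chevE6 e6mem x.2.2.1 t ∈ ⁅twistedE6 K q, twistedE6 K q⁆ := by
    intro x hx Hr Hs t ht
    obtain ⟨h1, h2, h3, h4, h5⟩ := e6_perf_chk x (by
      simp only [List.mem_cons, List.mem_nil_iff, or_false] at hx ⊢
      tauto)
    have hε : x.2.2.2 = 1 ∨ x.2.2.2 = -1 := by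
      simp only [List.mem_cons, List.mem_nil_iff, or_false] at hx
      rcases hx with rfl | rfl | rfl | rfl | rfl | rfl <;> simp
    exact e6_perf_fixed q φ hφ x.1 x.2.1 x.2.2.1 x.2.2.2 hε h1 h2 h3 h4 h5 Hr Hs t ht
  have C47 := fx (46, 39, 47, -1) (by simp) G46 G39
  have C24 := fx (25, 32, 24, 1) (by simp) G25 G32
  have G47 : ∀ t : K, t ^ q = t → xU chevE6 e6mem 47 t ∈ twistedE6 K q :=
    fun t ht => hC (C47 t ht)
  have G24 : ∀ t : K, t ^ q = t → xU chevE6 e6mem 24 t ∈ twistedE6 K q :=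
    fun t ht => hC (C24 t ht)
  have C46 := fx (47, 32, 46, -1) (by simp) G47 G32
  have C39 := fx (47, 25, 39, 1) (by simp) G47 G25
  have C25 := fx (24, 39, 25, 1) (by simp) G24 G39
  have C32 := fx (24, 46, 32, -1) (by simp) G24 G46
  -- the twisted `A₂ × A₂`
  have P56 : ∀ t : K, xU chevE6 e6mem 56 t * xU chevE6 e6mem 36 (((1 : ℤ) : K) * t ^ q) ∈
      twistedE6 K q := by
    intro t
    rw [Int.cast_one, one_mul]
    exact e6_pair_mem q (e6p1, e6p6) (by simp) t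
  have P15 : ∀ t : K, xU chevE6 e6mem 15 t * xU chevE6 e6mem 35 (((1 : ℤ) : K) * t ^ q) ∈
      twistedE6 K q := by
    intro t
    rw [Int.cast_one, one_mul]
    exact e6_pair_mem q (e6m1, e6m6) (by simp) t
  have P42 : ∀ t : K, xU chevE6 e6mem 42 t * xU chevE6 e6mem 37 (((1 : ℤ) : K) * t ^ q) ∈
      twistedE6 K q := by
    intro t
    rw [Int.cast_one, one_mul]
    exact e6_pair_mem q (e6p3, e6p5) (by simp) t
  have P29 : ∀ t : K, xU chevE6 e6mem 29 t * xU chevE6 e6mem 34 (((1 : ℤ) : K) * t ^ q) ∈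
      twistedE6 K q := by
    intro t
    rw [Int.cast_one, one_mul]
    exact e6_pair_mem q (e6m3, e6m5) (by simp) t
  have tw : ∀ (x x' : ℕ × ℕ × ℕ × ℤ) (δr δs : ℤ), x ∈ [(56, 42, 57, (-1 : ℤ)), (57, 29, 56, -1),
      (57, 15, 42, 1), (15, 29, 14, 1), (14, 42, 15, 1), (14, 56, 29, -1)] →
      x' ∈ [(36, 37, 38, (1 : ℤ)), (38, 34, 36, 1), (38, 35, 37, -1), (35, 34, 33, -1),
        (33, 37, 35, -1), (33, 36, 34, 1)] →
      (x'.2.1, x.2.1) ∈ [(37, 42), (34, 29), (35, 15), (36, 56)] →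
      (x'.2.1, x.1) ∈ [(37, 56), (34, 57), (35, 57), (34, 15), (37, 14), (36, 14)] →
      (x'.1, x.2.1) ∈ [(36, 42), (38, 29), (38, 15), (35, 29), (33, 42), (33, 56)] →
      (x'.1, x.1) ∈ [(36, 56), (38, 57), (35, 15), (33, 14)] →
      (∀ t : K, xU chevE6 e6mem x.1 t * xU chevE6 e6mem x'.1 ((δr : K) * t ^ q) ∈
        twistedE6 K q) →
      (∀ t : K, xU chevE6 e6mem x.2.1 t * xU chevE6 e6mem x'.2.1 ((δs : K) * t ^ q) ∈
        twistedE6 K q) →
      ∀ t : K, xU chevE6 e6mem x.2.2.1 t * xU chevE6 e6mem x'.2.2.1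
        (((δr * δs * x.2.2.2 * x'.2.2.2 : ℤ) : K) * t ^ q) ∈
          ⁅twistedE6 K q, twistedE6 K q⁆ := by
    intro x x' δr δs hx hx' k1 k2 k3 k4 Hr Hs t
    obtain ⟨h1, h2, h3, h4, h5⟩ := e6_perf_chk x (by
      simp only [List.mem_cons, List.mem_nil_iff, or_false] at hx ⊢
      tauto)
    obtain ⟨h1', h2', h3', h4', h5'⟩ := e6_perf_chk x' (by
      simp only [List.mem_cons, List.mem_nil_iff, or_false] at hx' ⊢
      tauto)
    have hε : x.2.2.2 = 1 ∨ x.2.2.2 = -1 := by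
      simp only [List.mem_cons, List.mem_nil_iff, or_false] at hx
      rcases hx with rfl | rfl | rfl | rfl | rfl | rfl <;> simp
    exact e6_perf_tw q φ hφ x.1 x.2.1 x.2.2.1 x'.1 x'.2.1 x'.2.2.1 x.2.2.2 x'.2.2.2 δr δs hε
      h1 h2 h3 h4 h5 h1' h2' h3' h4' h5'
      (fun a b => e6_perf_comm (x'.2.1, x.2.1) (by
        simp only [List.mem_cons, List.mem_nil_iff, or_false] at k1 ⊢
        tauto) a b)
      (fun a b => e6_perf_comm (x'.2.1, x.1) (by
        simp only [List.mem_cons, List.mem_nil_iff, or_false] at k2 ⊢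
        tauto) a b)
      (fun a b => e6_perf_comm (x'.1, x.2.1) (by
        simp only [List.mem_cons, List.mem_nil_iff, or_false] at k3 ⊢
        tauto) a b)
      (fun a b => e6_perf_comm (x'.1, x.1) (by
        simp only [List.mem_cons, List.mem_nil_iff, or_false] at k4 ⊢
        tauto) a b) Hr Hs t
  have C57 := tw (56, 42, 57, -1) (36, 37, 38, 1) 1 1 (by simp) (by simp) (by simp) (by simp)
    (by simp) (by simp) P56 P42
  have C14 := tw (15, 29, 14, 1) (35, 34, 33, -1) 1 1 (by simp) (by simp) (by simp) (by simp)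
    (by simp) (by simp) P15 P29
  have P57 : ∀ t : K, xU chevE6 e6mem 57 t * xU chevE6 e6mem 38 (((-1 : ℤ) : K) * t ^ q) ∈
      twistedE6 K q := fun t => hC (C57 t)
  have P14 : ∀ t : K, xU chevE6 e6mem 14 t * xU chevE6 e6mem 33 (((-1 : ℤ) : K) * t ^ q) ∈
      twistedE6 K q := fun t => hC (C14 t)
  have C56 := tw (57, 29, 56, -1) (38, 34, 36, 1) (-1) 1 (by simp) (by simp) (by simp) (by simp)
    (by simp) (by simp) P57 P29
  have C42 := tw (57, 15, 42, 1) (38, 35, 37, -1) (-1) 1 (by simp) (by simp) (by simp) (by simp)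
    (by simp) (by simp) P57 P15
  have C15 := tw (14, 42, 15, 1) (33, 37, 35, -1) (-1) 1 (by simp) (by simp) (by simp) (by simp)
    (by simp) (by simp) P14 P42
  have C29 := tw (14, 56, 29, -1) (33, 36, 34, 1) (-1) 1 (by simp) (by simp) (by simp) (by simp)
    (by simp) (by simp) P14 P56
  conv_lhs => unfold twistedE6 ChevalleyDatum.genSubgroup
  rw [Subgroup.closure_le]
  rintro g ⟨w, hw, hg⟩
  rcases hw with ⟨t, ht, r, hr, rfl⟩ | ⟨t, rs, hrs, rfl⟩
  · have hg' : g = xU chevE6 e6mem r t := by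
      apply Units.ext
      rw [hg, coe_xU]
      simp [ChevalleyDatum.wordMat]
    rw [hg']
    simp only [List.mem_cons, List.mem_nil_iff, or_false] at hr
    rcases hr with rfl | rfl | rfl | rfl
    · exact C46 t ht
    · exact C25 t ht
    · exact C39 t ht
    · exact C32 t ht
  · have hg' : g = xU chevE6 e6mem rs.1 t * xU chevE6 e6mem rs.2 (t ^ q) := by
      apply Units.ext
      rw [hg, Units.val_mul, coe_xU, coe_xU]
      simp [ChevalleyDatum.wordMat]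
    rw [hg']
    simp only [List.mem_cons, List.mem_nil_iff, or_false] at hrs
    rcases hrs with rfl | rfl | rfl | rfl
    · have h := C56 t
      simp at h
      exact h
    · have h := C15 t
      simp at h
      exact h
    · have h := C42 t
      simp at h
      exact h
    · have h := C29 t
      simp at h
      exact h

end

end Cfsg.Agent.Lib.Helper18
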