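import Cfsg.Agent.Lib.Helper18.ChevE6TwBN
import Cfsg.Agent.Lib.Helper18.ChevE6TwPerf
import Cfsg.Agent.S0319
import Cfsg.Agent.S1050

set_option autoImplicit false

/-!
# `²E₆(q)` is simple

Tits' criterion (`S0319`) for the `(B, N)`-pair of `Lib.Helper18.ChevE6TwBN`.
-/

namespace Cfsg.Agent.Lib.Helper18

open Cfsg Cfsg.Lie

/-- a subset of the nodes of the path `0 - 1 - 3 - 2` and its complement are joined by an edge -/
theorem e6_chain_split (p : ℕ → Prop) (h1 : ∃ k < 4, p k) (h2 : ∃ k < 4, ¬ p k) :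
    ∃ x ∈ [(0, 1), (1, 0), (1, 3), (3, 1), (3, 2), (2, 3)], p x.1 ∧ ¬ p x.2 := by
  classical
  by_contra hcon
  push Not at hcon
  have a01 := hcon (0, 1) (by simp)
  have a10 := hcon (1, 0) (by simp)
  have a13 := hcon (1, 3) (by simp)
  have a31 := hcon (3, 1) (by simp)
  have a32 := hcon (3, 2) (by simp)
  have a23 := hcon (2, 3) (by simp)
  obtain ⟨k, hk, hpk⟩ := h1
  obtain ⟨k', hk', hpk'⟩ := h2
  interval_cases k <;> interval_cases k' <;> tauto

set_option maxRecDepth 100000 in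
/-- adjacent orbit reflections do not commute -/
theorem e6_cross_chk : ∀ x ∈ [(0, 1), (1, 0), (1, 3), (3, 1), (3, 2), (2, 3)], ∃ s < 72,
    Cfsg.Agent.Lib.Helper36.wordF chevE6 (e6Orb x.1 ++ e6Orb x.2) s ≠
      Cfsg.Agent.Lib.Helper36.wordF chevE6 (e6Orb x.2 ++ e6Orb x.1) s := by decide +kernel

section

variable {K : Type*} [Field K]

theorem e6_cross_not_mem (x : ℕ × ℕ)
    (hx : x ∈ [(0, 1), (1, 0), (1, 3), (3, 1), (3, 2), (2, 3)]) :
    (e6nC [x.1] : GL chevE6.Idx K) * e6nC [x.2] * (e6nC [x.1])⁻¹ * (e6nC [x.2])⁻¹ ∉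
      chevE6.borelSubgroup K := by
  intro hB
  have hN : (e6nC [x.1] : GL chevE6.Idx K) * e6nC [x.2] * (e6nC [x.1])⁻¹ * (e6nC [x.2])⁻¹ ∈
      chevE6.monomialSubgroup K :=
    Subgroup.mul_mem _ (Subgroup.mul_mem _ (Subgroup.mul_mem _ (e6nC_mem_monomial _)
      (e6nC_mem_monomial _)) (Subgroup.inv_mem _ (e6nC_mem_monomial _)))
      (Subgroup.inv_mem _ (e6nC_mem_monomial _))
  have hH : (e6nC [x.1] : GL chevE6.Idx K) * e6nC [x.2] * (e6nC [x.1])⁻¹ * (e6nC [x.2])⁻¹ ∈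
      chevE6.diagonalSubgroup K := by
    rw [← (Cfsg.Agent.S1040.result (F := K) chevE6 e6mem).2]
    exact Subgroup.mem_inf.mpr ⟨hB, hN⟩
  have h1 := rootAct_of_mem_diagonal chevE6 e6mem _ hH
  have h2 := (((e6nC_rootAct (K := K) [x.1]).mul (e6nC_rootAct (K := K) [x.2])).mul
    (e6nC_rootAct (K := K) [x.1]).inv).mul (e6nC_rootAct (K := K) [x.2]).inv
  have h3 := RootAct.unique h2 h1
  rw [List.flatMap_singleton, List.flatMap_singleton, mul_inv_eq_one, mul_inv_eq_iff_eq_mul] at h3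
  obtain ⟨s, hs, hne⟩ := e6_cross_chk x hx
  apply hne
  rw [← wordPerm_eq_wordF chevE6 e6mem _ s hs, ← wordPerm_eq_wordF chevE6 e6mem _ s hs,
    wordPerm_append, wordPerm_append, h3]

/-- `²E₆(q)` is simple. -/
theorem e6_simple [Fintype K] {q : ℕ} (hq : IsPrimePow q) (hK : Fintype.card K = q ^ 2) :
    IsSimpleGroup ↥(twistedE6 K q) ∧ ¬ IsMulCommutative ↥(twistedE6 K q) := by
  obtain ⟨φ, hφ, hφφ⟩ := exists_frob_sq hq hK
  obtain ⟨P, hPB, -, hPS⟩ := e6_exists_bnpair q φ hφ hφφ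
  have hperf : commutator ↥(twistedE6 K q) = ⊤ := by
    have hle := e6_tw_le_commutator (K := K) q φ hφ
    rw [eq_top_iff]
    rintro ⟨g, hg⟩ -
    have h1 := hle hg
    rw [← Subgroup.map_subtype_commutator] at h1
    obtain ⟨x, hx, hxg⟩ := h1
    have : x = ⟨g, hg⟩ := Subtype.ext hxg
    rw [← this]
    exact hx
  have hxG : xU chevE6 e6mem 46 (1 : K) ∈ twistedE6 K q :=
    e6_single_mem q 46 (by decide) 1 (one_pow q)
  have hx1 : (⟨_, hxG⟩ : ↥(twistedE6 K q)) ≠ 1 := by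
    intro h
    have h1 : xU chevE6 e6mem 46 (1 : K) = 1 := congrArg Subtype.val h
    have h2 := congrArg Units.val h1
    rw [coe_xU, Units.val_one] at h2
    exact one_ne_zero ((Cfsg.Agent.S1024.result chevE6 e6mem 46 (by decide) (1 : K)).mp h2)
  haveI hnt : Nontrivial ↥(twistedE6 K q) := ⟨⟨_, 1, hx1⟩⟩
  have hsolv : Group.IsSolvable ↥P.B := by
    rw [hPB]
    haveI := Cfsg.Agent.S1050.result (F := K) chevE6 e6mem
    let f : ↥((chevE6.borelSubgroup K ⊓ twistedE6 K q).subgroupOf (twistedE6 K q)) →*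
        ↥(chevE6.borelSubgroup K) :=
      { toFun := fun a => ⟨a.1.1, (Subgroup.mem_inf.mp (Subgroup.mem_subgroupOf.mp a.2)).1⟩
        map_one' := rfl
        map_mul' := fun _ _ => rfl }
    have hf : Function.Injective f := by
      intro a b hab
      apply Subtype.ext
      apply Subtype.ext
      have h1 : ((f a : ↥(chevE6.borelSubgroup K)) : GL chevE6.Idx K) =
          (f b : ↥(chevE6.borelSubgroup K)) := congrArg Subtype.val hab
      exact h1
    exact solvable_of_solvable_injective hf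
  have hcore : P.B.normalCore = ⊥ := by
    rw [hPB, eq_bot_iff]
    intro z hz
    rw [Subgroup.mem_bot]
    apply Subtype.ext
    apply e6_core q φ hφ
    intro g hg
    have h1 := hz ⟨g, hg⟩
    have h2 : ((⟨g, hg⟩ * z * (⟨g, hg⟩ : ↥(twistedE6 K q))⁻¹ : ↥(twistedE6 K q)) :
        GL chevE6.Idx K) ∈ chevE6.borelSubgroup K ⊓ twistedE6 K q := h1
    exact (Subgroup.mem_inf.mp h2).1
  have hirr : P.Irreducible := by
    intro J hJ hJne hJc
    let nS : ℕ → ↥(twistedE6 K q) := fun k => ⟨e6nC [k], e6nC_mem_tw q φ hφ [k]⟩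
    have hnS : ∀ k < 4, nS k ∈ P.S := by
      intro k hk
      rw [hPS]
      exact ⟨k, hk, rfl⟩
    have hSn : ∀ s ∈ P.S, ∃ k < 4, s = nS k := by
      intro s hs
      rw [hPS] at hs
      obtain ⟨k, hk, hsv⟩ := hs
      exact ⟨k, hk, Subtype.ext hsv⟩
    have h1 : ∃ k < 4, nS k ∈ J := by
      obtain ⟨s, hs⟩ := hJne
      obtain ⟨k, hk, rfl⟩ := hSn s (hJ hs)
      exact ⟨k, hk, hs⟩
    have h2 : ∃ k < 4, ¬ nS k ∈ J := by
      obtain ⟨s, hs, hsJ⟩ := hJc
      obtain ⟨k, hk, rfl⟩ := hSn s hs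
      exact ⟨k, hk, hsJ⟩
    obtain ⟨x, hx, hx1, hx2⟩ := e6_chain_split (fun k => nS k ∈ J) h1 h2
    have hlt : x.1 < 4 ∧ x.2 < 4 := by
      simp only [List.mem_cons, List.mem_nil_iff, or_false] at hx
      rcases hx with rfl | rfl | rfl | rfl | rfl | rfl <;> simp
    refine ⟨nS x.1, hx1, nS x.2, ⟨hnS _ hlt.2, hx2⟩, ?_⟩
    rw [hPB, Subgroup.mem_subgroupOf]
    intro hmem
    exact e6_cross_not_mem (K := K) x hx (Subgroup.mem_inf.mp hmem).1
  refine ⟨Cfsg.Agent.S0319.result P hirr hsolv hperf hcore, fun hcomm => ?_⟩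
  have hbot : commutator ↥(twistedE6 K q) = ⊥ := by
    rw [commutator_def, Subgroup.commutator_eq_bot_iff_le_centralizer]
    intro a _
    rw [Subgroup.mem_centralizer_iff]
    intro b _
    exact hcomm.is_comm.comm b a
  rw [hperf] at hbot
  have : (⟨_, hxG⟩ : ↥(twistedE6 K q)) ∈ (⊤ : Subgroup ↥(twistedE6 K q)) := Subgroup.mem_top _
  rw [hbot, Subgroup.mem_bot] at this
  exact hx1 this

end

end Cfsg.Agent.Lib.Helper18
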