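import Cfsg.Agent.Lib.Helper18.F4Weyl
import Cfsg.Agent.Lib.Helper18.ChevTorus
import Cfsg.Agent.Lib.Helper18.ReeTw3
import Cfsg.Agent.S1040
import Cfsg.Agent.S1037

set_option autoImplicit false

/-!
# The core of `B¹` in the Ree group `²F₄` is trivial
-/

namespace Cfsg.Agent.Lib.Helper18

open Cfsg Cfsg.Lie Cfsg.Lie.ChevalleyDatum

/-- the coefficients of the roots of `F₄` on the fundamental roots -/
def f4Coef (j s : ℕ) : ℤ :=
  ([[-2, -4, -3, -2], [-2, -4, -3, -1], [-2, -4, -2, -1], [-2, -3, -2, -1], [-2, -2, -2, -1],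
    [-2, -2, -1, -1], [-2, -2, -1, 0], [-1, -3, -2, -1], [-1, -2, -2, -1], [-1, -2, -1, -1],
    [-1, -2, -1, 0], [-1, -1, -1, -1], [-1, -1, -1, 0], [-1, -1, 0, 0], [-1, 0, 0, 0],
    [0, -2, -2, -1], [0, -2, -1, -1], [0, -2, -1, 0], [0, -1, -1, -1], [0, -1, -1, 0],
    [0, -1, 0, 0], [0, 0, -1, -1], [0, 0, -1, 0], [0, 0, 0, -1], [0, 0, 0, 1], [0, 0, 1, 0],
    [0, 0, 1, 1], [0, 1, 0, 0], [0, 1, 1, 0], [0, 1, 1, 1], [0, 2, 1, 0], [0, 2, 1, 1],
    [0, 2, 2, 1], [1, 0, 0, 0], [1, 1, 0, 0], [1, 1, 1, 0], [1, 1, 1, 1], [1, 2, 1, 0],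
    [1, 2, 1, 1], [1, 2, 2, 1], [1, 3, 2, 1], [2, 2, 1, 0], [2, 2, 1, 1], [2, 2, 2, 1],
    [2, 3, 2, 1], [2, 4, 2, 1], [2, 4, 3, 1], [2, 4, 3, 2]] : List (List ℤ)).getD s [] |>.getD j 0

theorem f4_cartan_lin : ∀ s < 48, ∀ i < 4, chevF4.cartan i s =
    f4Coef 0 s * chevF4.cartan i (chevF4.simple 0) +
    f4Coef 1 s * chevF4.cartan i (chevF4.simple 1) +
    f4Coef 2 s * chevF4.cartan i (chevF4.simple 2) +
    f4Coef 3 s * chevF4.cartan i (chevF4.simple 3) := by decide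

/-- the word of the longest element of the Weyl group of `²F₄` -/
def f4c0 : List ℕ := [0, 1, 0, 1, 0, 1, 0, 1]

set_option maxRecDepth 100000 in
theorem f4_w0_chk : ∀ s < 48, chevF4.IsPosRoot s →
    ¬ chevF4.IsPosRoot (Cfsg.Agent.Lib.Helper36.wordF chevF4 (f4c0.flatMap f4Orb) s) := by
  decide +kernel

set_option maxRecDepth 100000 in
theorem f4u1_entry_chk :
    intEntry chevF4 [(33, 1), (24, 1), (27, 1), (25, 1), (28, 1), (30, 0)] (4 + 33) 1 % 2 ≠ 0 ∧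
    intEntry chevF4 [(33, 1), (24, 1), (27, 1), (25, 1), (28, 1), (30, 0)] (4 + 27) 0 % 2 ≠ 0 ∧
    intEntry chevF4 [(33, 1), (24, 1), (27, 1), (25, 1), (28, 1), (30, 0)] (4 + 25) 3 % 2 ≠ 0 ∧
    intEntry chevF4 [(33, 1), (24, 1), (27, 1), (25, 1), (28, 1), (30, 0)] (4 + 24) 2 % 2 ≠ 0 := by
  decide +kernel

theorem f4_pos_word_chk : ∀ r ∈ [33, 24, 27, 25, 28, 30], chevF4.IsPosRoot r := by decide

section

variable {K : Type*} [Field K]

theorem f4_uMinus_top : uMinus chevF4 (f4nC f4c0 : GL chevF4.Idx K) = chevF4.posUnipotent K := by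
  apply le_antisymm (uMinus_le_posUnipotent chevF4 _)
  refine (Subgroup.closure_le _).mpr ?_
  rintro x ⟨r, t, hr, hx⟩
  apply Subgroup.subset_closure
  refine ⟨r, t, hr, ?_, hx⟩
  rw [map_conj_le_neg_iff chevF4 f4mem _ _ (f4nC_rootAct (K := K) f4c0) r hr.1,
    wordPerm_eq_wordF chevF4 f4mem _ r hr.1]
  exact f4_w0_chk r hr.1 hr

/-- conjugation by `n₀` maps `U` into `V` -/
theorem f4n0_conj_U (u : GL chevF4.Idx K) (hu : u ∈ chevF4.posUnipotent K) :
    (f4nC f4c0 : GL chevF4.Idx K) * u * (f4nC f4c0 : GL chevF4.Idx K)⁻¹ ∈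
      chevF4.negUnipotent K := by
  have h1 := uMinus_conj_le chevF4 (f4nC f4c0 : GL chevF4.Idx K) u
  rw [f4_uMinus_top] at h1
  exact h1 hu

/-- the element `u₁ = x_{p₁}(1) x_{p₄}(1) x_a(1) x_b(1) x_{a+b}(1)` of the Ree group -/
def f4u1 : GL chevF4.Idx K :=
  wordU chevF4 f4mem (iwF K [(33, 1), (24, 1), (27, 1), (25, 1), (28, 1), (30, 0)])

theorem f4u1_mem_tw (e : ℕ) (he : e ≠ 0) : (f4u1 : GL chevF4.Idx K) ∈ twistedF4 K e := by
  have e1 : f4PairWord e f4p1 f4p4 (1 : K) = iwF K [(33, 1), (24, 1)] := by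
    simp [f4PairWord, iwF, f4p1, f4p4]
  have e2 : b2ClassWord e f4a f4b f4ab f4aab (1 : K) 0 =
      iwF K [(27, 1), (25, 1), (28, 1), (30, 0)] := by
    simp [b2ClassWord, iwF, f4a, f4b, f4ab, f4aab, he]
  have h1 : wordU chevF4 f4mem (f4PairWord e f4p1 f4p4 (1 : K)) ∈ twistedF4 K e :=
    f4_word_mem_tw e _ (Or.inl ⟨1, Or.inl rfl⟩)
  have h2 : wordU chevF4 f4mem (b2ClassWord e f4a f4b f4ab f4aab (1 : K) 0) ∈ twistedF4 K e :=
    f4_word_mem_tw e _ (Or.inr ⟨1, 0, Or.inl rfl⟩)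
  have h3 := mul_mem h1 h2
  rw [e1, e2, ← wordU_append] at h3
  have e3 : iwF K [(33, 1), (24, 1)] ++ iwF K [(27, 1), (25, 1), (28, 1), (30, 0)] =
      iwF K [(33, 1), (24, 1), (27, 1), (25, 1), (28, 1), (30, 0)] := by
    simp [iwF]
  rw [e3] at h3
  exact h3

theorem f4u1_mem_pos : (f4u1 : GL chevF4.Idx K) ∈ chevF4.posUnipotent K := by
  unfold f4u1 wordU
  apply Subgroup.list_prod_mem
  intro x hx
  obtain ⟨p, hp, rfl⟩ := List.mem_map.mp hx
  apply Subgroup.subset_closure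
  refine ⟨p.1, p.2, ?_, coe_xU chevF4 f4mem _ _⟩
  apply f4_pos_word_chk
  simp only [iwF, List.map_cons, List.map_nil, List.mem_cons, List.not_mem_nil, or_false] at hp
  rcases hp with rfl | rfl | rfl | rfl | rfl | rfl <;> simp

theorem f4u1_entry [CharP K 2] :
    ((f4u1 : GL chevF4.Idx K) : Matrix chevF4.Idx chevF4.Idx K)
        (Sum.inr ⟨33, by decide⟩) (Sum.inl ⟨1, by decide⟩) ≠ 0 ∧
    ((f4u1 : GL chevF4.Idx K) : Matrix chevF4.Idx chevF4.Idx K)
        (Sum.inr ⟨27, by decide⟩) (Sum.inl ⟨0, by decide⟩) ≠ 0 ∧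
    ((f4u1 : GL chevF4.Idx K) : Matrix chevF4.Idx chevF4.Idx K)
        (Sum.inr ⟨25, by decide⟩) (Sum.inl ⟨3, by decide⟩) ≠ 0 ∧
    ((f4u1 : GL chevF4.Idx K) : Matrix chevF4.Idx chevF4.Idx K)
        (Sum.inr ⟨24, by decide⟩) (Sum.inl ⟨2, by decide⟩) ≠ 0 := by
  unfold f4u1
  rw [coe_wordU, wordMat_int_entry, wordMat_int_entry, wordMat_int_entry, wordMat_int_entry]
  refine ⟨?_, ?_, ?_, ?_⟩
  · intro h
    rw [CharP.intCast_eq_zero_iff K 2] at h
    exact f4u1_entry_chk.1 (Int.emod_eq_zero_of_dvd h)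
  · intro h
    rw [CharP.intCast_eq_zero_iff K 2] at h
    exact f4u1_entry_chk.2.1 (Int.emod_eq_zero_of_dvd h)
  · intro h
    rw [CharP.intCast_eq_zero_iff K 2] at h
    exact f4u1_entry_chk.2.2.1 (Int.emod_eq_zero_of_dvd h)
  · intro h
    rw [CharP.intCast_eq_zero_iff K 2] at h
    exact f4u1_entry_chk.2.2.2 (Int.emod_eq_zero_of_dvd h)

/-- an element of `B` whose conjugate by `n₀⁻¹` lies in `B` is in `H` -/
theorem f4_mem_diag_of_conj (z : GL chevF4.Idx K) (hz : z ∈ chevF4.borelSubgroup K)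
    (hz' : (f4nC f4c0 : GL chevF4.Idx K)⁻¹ * z * (f4nC f4c0 : GL chevF4.Idx K) ∈
      chevF4.borelSubgroup K) :
    z ∈ chevF4.diagonalSubgroup K := by
  have hz2 : (f4nC f4c0 : GL chevF4.Idx K)⁻¹ * z * (f4nC f4c0 : GL chevF4.Idx K) ∈
      ((chevF4.posUnipotent K ⊔ chevF4.diagonalSubgroup K : Subgroup (GL chevF4.Idx K)) :
        Set (GL chevF4.Idx K)) := hz'
  rw [Subgroup.coe_mul_of_right_le_normalizer_left _ _
    (diagonalSubgroup_le_normalizer_posUnipotent chevF4 f4mem), Set.mem_mul] at hz2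
  obtain ⟨u, hu, h, hh, e⟩ := hz2
  have e1 : z = ((f4nC f4c0 : GL chevF4.Idx K) * u * (f4nC f4c0 : GL chevF4.Idx K)⁻¹) *
      ((f4nC f4c0 : GL chevF4.Idx K) * h * (f4nC f4c0 : GL chevF4.Idx K)⁻¹) := by
    have : z = (f4nC f4c0 : GL chevF4.Idx K) *
        ((f4nC f4c0 : GL chevF4.Idx K)⁻¹ * z * (f4nC f4c0 : GL chevF4.Idx K)) *
        (f4nC f4c0 : GL chevF4.Idx K)⁻¹ := by group
    rw [this, ← e]
    group
  have h1 : (f4nC f4c0 : GL chevF4.Idx K) * h * (f4nC f4c0 : GL chevF4.Idx K)⁻¹ ∈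
      chevF4.diagonalSubgroup K :=
    (Subgroup.mem_normalizer_iff.mp
      (monomialSubgroup_le_normalizer chevF4 f4mem (f4nC_mem_monomial f4c0)) h).mp hh
  have h2 : z ∈ chevF4.negUnipotent K ⊔ chevF4.diagonalSubgroup K := by
    rw [e1]
    exact Subgroup.mul_mem_sup (f4n0_conj_U u hu) h1
  have h3 := (Cfsg.Agent.S1037.result (F := K) chevF4 f4mem).2
  rw [← h3]
  exact Subgroup.mem_inf.mpr ⟨hz, h2⟩

/-- A normal subgroup of the Ree group contained in `B` is trivial, elementwise. -/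
theorem f4_core [CharP K 2] (e : ℕ) (he : e ≠ 0) (z : GL chevF4.Idx K)
    (hz : ∀ g ∈ twistedF4 K e, g * z * g⁻¹ ∈ chevF4.borelSubgroup K) : z = 1 := by
  have hn0 := f4nC_mem_tw (K := K) e he f4c0
  have hH : ∀ g ∈ twistedF4 K e, g * z * g⁻¹ ∈ chevF4.diagonalSubgroup K := by
    intro g hg
    apply f4_mem_diag_of_conj _ (hz g hg)
    have h1 := hz ((f4nC f4c0 : GL chevF4.Idx K)⁻¹ * g)
      (Subgroup.mul_mem _ (Subgroup.inv_mem _ hn0) hg)
    have e' : (f4nC f4c0 : GL chevF4.Idx K)⁻¹ * (g * z * g⁻¹) * (f4nC f4c0 : GL chevF4.Idx K) =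
        (f4nC f4c0 : GL chevF4.Idx K)⁻¹ * g * z * ((f4nC f4c0 : GL chevF4.Idx K)⁻¹ * g)⁻¹ := by
      group
    rw [e']
    exact h1
  have hz0 : z ∈ chevF4.diagonalSubgroup K := by
    have := hH 1 (Subgroup.one_mem _)
    simpa using this
  have hUH := (Cfsg.Agent.S1036.result (F := K) chevF4 f4mem).2
  have hHU := (Cfsg.Agent.S1036.result (F := K) chevF4 f4mem).1
  -- `z` commutes with `u₁`
  have hcomm : z * f4u1 = f4u1 * z := by
    have h1 := hH f4u1 (f4u1_mem_tw e he)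
    have h2 : (f4u1 : GL chevF4.Idx K) * z * f4u1⁻¹ * z⁻¹ ∈
        chevF4.posUnipotent K ⊓ chevF4.diagonalSubgroup K := by
      refine Subgroup.mem_inf.mpr ⟨?_, mul_mem h1 (inv_mem hz0)⟩
      have h3 : z * (f4u1 : GL chevF4.Idx K)⁻¹ * z⁻¹ ∈ chevF4.posUnipotent K :=
        (Subgroup.mem_normalizer_iff.mp (hHU hz0) _).mp (inv_mem f4u1_mem_pos)
      have e2 : (f4u1 : GL chevF4.Idx K) * z * f4u1⁻¹ * z⁻¹ =
          f4u1 * (z * (f4u1 : GL chevF4.Idx K)⁻¹ * z⁻¹) := by group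
      rw [e2]
      exact mul_mem f4u1_mem_pos h3
    rw [hUH, Subgroup.mem_bot] at h2
    have e3 : z * f4u1 = ((f4u1 : GL chevF4.Idx K) * z * f4u1⁻¹ * z⁻¹)⁻¹ * (f4u1 * z) := by group
    rw [e3, h2, inv_one, one_mul]
  rw [diagonalSubgroup_eq_range chevF4 f4mem] at hz0
  obtain ⟨c, rfl⟩ := MonoidHom.mem_range.mp hz0
  have hmat := congrArg (fun g : GL chevF4.Idx K => (g : Matrix chevF4.Idx chevF4.Idx K)) hcomm
  simp only [Units.val_mul, coe_torusHom] at hmat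
  obtain ⟨s0, s1, s2, s3, -⟩ := f4_neg_simple_chk
  have hsimple : ∀ j : Fin 4, mono c (fun i => chevF4.cartan i (chevF4.simple j)) = 1 := by
    intro j
    fin_cases j
    · have h1 := congrFun (congrFun hmat (Sum.inr ⟨33, by decide⟩)) (Sum.inl ⟨1, by decide⟩)
      rw [Matrix.diagonal_mul, Matrix.mul_diagonal, dvecL_inl, mul_one,
        dvecL_inr_eq_mono] at h1
      have h2 := mul_right_cancel₀ (f4u1_entry (K := K)).1 (h1.trans (one_mul _).symm)
      show mono c (fun i => chevF4.cartan i (chevF4.simple 0)) = 1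
      rw [s0]
      exact Units.ext h2
    · have h1 := congrFun (congrFun hmat (Sum.inr ⟨27, by decide⟩)) (Sum.inl ⟨0, by decide⟩)
      rw [Matrix.diagonal_mul, Matrix.mul_diagonal, dvecL_inl, mul_one,
        dvecL_inr_eq_mono] at h1
      have h2 := mul_right_cancel₀ (f4u1_entry (K := K)).2.1 (h1.trans (one_mul _).symm)
      show mono c (fun i => chevF4.cartan i (chevF4.simple 1)) = 1
      rw [s1]
      exact Units.ext h2
    · have h1 := congrFun (congrFun hmat (Sum.inr ⟨25, by decide⟩)) (Sum.inl ⟨3, by decide⟩)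
      rw [Matrix.diagonal_mul, Matrix.mul_diagonal, dvecL_inl, mul_one,
        dvecL_inr_eq_mono] at h1
      have h2 := mul_right_cancel₀ (f4u1_entry (K := K)).2.2.1 (h1.trans (one_mul _).symm)
      show mono c (fun i => chevF4.cartan i (chevF4.simple 2)) = 1
      rw [s2]
      exact Units.ext h2
    · have h1 := congrFun (congrFun hmat (Sum.inr ⟨24, by decide⟩)) (Sum.inl ⟨2, by decide⟩)
      rw [Matrix.diagonal_mul, Matrix.mul_diagonal, dvecL_inl, mul_one,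
        dvecL_inr_eq_mono] at h1
      have h2 := mul_right_cancel₀ (f4u1_entry (K := K)).2.2.2 (h1.trans (one_mul _).symm)
      show mono c (fun i => chevF4.cartan i (chevF4.simple 3)) = 1
      rw [s3]
      exact Units.ext h2
  apply MonoidHom.mem_ker.mp
  rw [mem_ker_torusHom]
  intro s
  have hlin : (fun i : Fin chevF4.rank => chevF4.cartan i s) =
      ∑ j : Fin 4, f4Coef j.val s.val •
        (fun i : Fin chevF4.rank => chevF4.cartan i (chevF4.simple j.val)) := by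
    funext i
    have := f4_cartan_lin s.val s.isLt i.val i.isLt
    simp only [Fin.sum_univ_four, Pi.add_apply, Pi.smul_apply, smul_eq_mul]
    exact this
  rw [hlin, mono_sum]
  apply Finset.prod_eq_one
  intro j _
  rw [mono_smul, hsimple j, one_zpow]

end

end Cfsg.Agent.Lib.Helper18
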