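import Cfsg.Agent.Lib.Helper18.F4Tw6
import Cfsg.Agent.Lib.Helper18.F4Core
import Cfsg.Agent.Lib.Helper17.TwBN

set_option autoImplicit false

/-!
# The `(B, N)`-pair of the Ree group `²F₄`
-/

namespace Cfsg.Agent.Lib.Helper18

open Cfsg Cfsg.Lie Cfsg.Lie.ChevalleyDatum

set_option maxRecDepth 100000 in
/-- a part of the word of `w₁` or `w₂` commuting with `ρ` acts on the roots as the whole word
or trivially -/
theorem f4_sub_chk : ∀ k < 2, ∀ J ∈ (f4Orb k).sublists,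
    (∀ s < 48, Cfsg.Agent.Lib.Helper36.wordF chevF4 J (f4ρ s) =
      f4ρ (Cfsg.Agent.Lib.Helper36.wordF chevF4 J s)) →
    (∀ s < 48, Cfsg.Agent.Lib.Helper36.wordF chevF4 J s = s) ∨
    (∀ s < 48, Cfsg.Agent.Lib.Helper36.wordF chevF4 J s =
      Cfsg.Agent.Lib.Helper36.wordF chevF4 (f4Orb k) s) := by decide +kernel

set_option maxRecDepth 100000 in
theorem f4_neg_chk :
    chevF4.IsNegRoot (Cfsg.Agent.Lib.Helper36.wordF chevF4 (f4Orb 0) 33) ∧
    chevF4.IsNegRoot (Cfsg.Agent.Lib.Helper36.wordF chevF4 (f4Orb 0) 24) ∧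
    chevF4.IsNegRoot (Cfsg.Agent.Lib.Helper36.wordF chevF4 (f4Orb 1) 28) ∧
    chevF4.IsNegRoot (Cfsg.Agent.Lib.Helper36.wordF chevF4 (f4Orb 1) 30) ∧
    chevF4.IsPosRoot 33 ∧ chevF4.IsPosRoot 24 ∧ chevF4.IsPosRoot 28 ∧ chevF4.IsPosRoot 30 := by
  decide +kernel

section

variable {K : Type*} [Field K]

theorem f4_wordN_eq_nW (l : List (Fin chevF4.rank)) :
    (wordN chevF4 f4mem l : GL chevF4.Idx K) =
      Cfsg.Agent.Lib.Helper17.nW chevF4 f4mem (l.map Fin.val) := by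
  rw [Cfsg.Agent.Lib.Helper17.nW_eq_fin]
  unfold wordN
  congr 1
  apply List.map_congr_left
  intro i _
  exact (nU36_eq chevF4 f4mem i).symm

theorem f4_wordN_mem_monomial (l : List (Fin chevF4.rank)) :
    (wordN chevF4 f4mem l : GL chevF4.Idx K) ∈ chevF4.monomialSubgroup K := by
  unfold wordN
  apply Subgroup.list_prod_mem
  intro x hx
  obtain ⟨i, -, rfl⟩ := List.mem_map.mp hx
  exact nU_mem_monomial chevF4 f4mem _ (simple_lt_nroots chevF4 f4mem i.val i.isLt)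

theorem f4_wordN_inv_mul_mem_diag (l l' : List (Fin chevF4.rank))
    (h : ∀ s < 48, Cfsg.Agent.Lib.Helper36.wordF chevF4 l s =
      Cfsg.Agent.Lib.Helper36.wordF chevF4 l' s) :
    (wordN chevF4 f4mem l : GL chevF4.Idx K)⁻¹ * wordN chevF4 f4mem l' ∈
      chevF4.diagonalSubgroup K := by
  have h1 := (rootAct_wordN (F := K) chevF4 f4mem l).inv.mul (rootAct_wordN (F := K) chevF4 f4mem l')
  have e : wordPerm chevF4 f4mem l = wordPerm chevF4 f4mem l' := by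
    ext s
    by_cases hs : s < 48
    · rw [wordPerm_eq_wordF chevF4 f4mem _ s hs, wordPerm_eq_wordF chevF4 f4mem _ s hs, h s hs]
    · rw [(rootAct_wordN (F := K) chevF4 f4mem l).ge s (Nat.le_of_not_lt hs),
        (rootAct_wordN (F := K) chevF4 f4mem l').ge s (Nat.le_of_not_lt hs)]
  rw [e, inv_mul_cancel] at h1
  exact f4_mem_diag_of_rootAct_one _
    (mul_mem (inv_mem (f4_wordN_mem_monomial l)) (f4_wordN_mem_monomial l')) h1

/-- the ambient double coset of `n_J b n` -/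
theorem f4_bn_amb (k : ℕ) (n : GL chevF4.Idx K) (hn : n ∈ chevF4.monomialSubgroup K)
    (b : GL chevF4.Idx K) (hb : b ∈ chevF4.borelSubgroup K) :
    ∃ J : List (Fin chevF4.rank), J ∈ (f4Orb k).sublists ∧
      ∃ b₁ ∈ chevF4.borelSubgroup K, ∃ b₂ ∈ chevF4.borelSubgroup K,
        (f4nC [k] : GL chevF4.Idx K) * b * n = b₁ * (wordN chevF4 f4mem J * n) * b₂ := by
  obtain ⟨J', hsub, b₁, hb₁, b₂, hb₂, e⟩ := Cfsg.Agent.Lib.Helper17.word_cells (F := K) chevF4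
    f4mem ((f4Orb k).map Fin.val) (by
      intro i hi
      obtain ⟨j, -, rfl⟩ := List.mem_map.mp hi
      exact j.isLt) n hn b hb
  obtain ⟨J, hJ, rfl⟩ := List.sublist_map_iff.mp hsub
  refine ⟨J, List.mem_sublists.mpr hJ, b₁, hb₁, b₂, hb₂, ?_⟩
  rw [f4_wordN_eq_nW J, ← e, ← f4_wordN_eq_nW]
  unfold f4nC
  rw [List.flatMap_singleton]

theorem f4nC_sq_mem (k : ℕ) (hk : k < 2) :
    (f4nC [k] : GL chevF4.Idx K) * f4nC [k] ∈ chevF4.diagonalSubgroup K := by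
  rw [← f4nC_cons, f4nC_mem_diag_iff]
  interval_cases k
  · exact f4_dih_chk.1
  · exact f4_dih_chk.2.2.1

/-- distinct generators are distinct modulo `B` -/
theorem f4nC_inj (k k' : ℕ) (hk : k < 2) (hk' : k' < 2)
    (h : (f4nC [k] : GL chevF4.Idx K)⁻¹ * f4nC [k'] ∈ chevF4.borelSubgroup K) : k = k' := by
  have hN : (f4nC [k] : GL chevF4.Idx K)⁻¹ * f4nC [k'] ∈ chevF4.monomialSubgroup K :=
    Subgroup.mul_mem _ (Subgroup.inv_mem _ (f4nC_mem_monomial _)) (f4nC_mem_monomial _)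
  have hH : (f4nC [k] : GL chevF4.Idx K)⁻¹ * f4nC [k'] ∈ chevF4.diagonalSubgroup K := by
    rw [← (Cfsg.Agent.S1040.result (F := K) chevF4 f4mem).2]
    exact Subgroup.mem_inf.mpr ⟨h, hN⟩
  have h01 : (f4nC [0] : GL chevF4.Idx K)⁻¹ * f4nC [1] ∉ chevF4.diagonalSubgroup K := by
    intro h1
    have h2 := mul_mem (f4nC_sq_mem (K := K) 0 (by norm_num)) h1
    have e : (f4nC [0] : GL chevF4.Idx K) * f4nC [0] * ((f4nC [0] : GL chevF4.Idx K)⁻¹ *
        f4nC [1]) = f4nC [0, 1] := by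
      rw [f4nC_cons 0 [1]]
      group
    rw [e, f4nC_mem_diag_iff] at h2
    exact f4_dih_chk.2.2.2.2.1 h2
  interval_cases k <;> interval_cases k'
  · rfl
  · exact (h01 hH).elim
  · exfalso
    apply h01
    have := inv_mem hH
    rwa [mul_inv_rev, inv_inv] at this
  · rfl

/-- `n_J x_a(1) x_b(t) n_J ∉ B` when `w_J` makes `a ≠ b` negative. -/
theorem f4_conj_pair_not_mem [CharP K 2] (k : ℕ) (hk : k < 2) (a b : ℕ) (ha : a < 48)
    (hb : b < 48) (hab : a ≠ b)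
    (hna : chevF4.IsNegRoot (Cfsg.Agent.Lib.Helper36.wordF chevF4 (f4Orb k) a))
    (hnb : chevF4.IsNegRoot (Cfsg.Agent.Lib.Helper36.wordF chevF4 (f4Orb k) b)) (t : K) :
    (f4nC [k] : GL chevF4.Idx K) * (xU chevF4 f4mem a 1 * xU chevF4 f4mem b t) * f4nC [k] ∉
      chevF4.borelSubgroup K := by
  intro hB
  have hHB : chevF4.diagonalSubgroup K ≤ chevF4.borelSubgroup K := le_sup_right
  have hR := f4nC_rootAct (K := K) [k]
  rw [List.flatMap_singleton] at hR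
  obtain ⟨ca, hca, ea⟩ := hR.conj a ha
  obtain ⟨cb, -, eb⟩ := hR.conj b hb
  rw [wordPerm_eq_wordF chevF4 f4mem _ a ha] at ea
  rw [wordPerm_eq_wordF chevF4 f4mem _ b hb] at eb
  set a' := Cfsg.Agent.Lib.Helper36.wordF chevF4 (f4Orb k) a with ha'
  set b' := Cfsg.Agent.Lib.Helper36.wordF chevF4 (f4Orb k) b with hb'
  have e1 : (f4nC [k] : GL chevF4.Idx K) * (xU chevF4 f4mem a 1 * xU chevF4 f4mem b t) * f4nC [k] =
      xU chevF4 f4mem a' (ca * 1) * xU chevF4 f4mem b' (cb * t) * (f4nC [k] * f4nC [k]) := by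
    calc (f4nC [k] : GL chevF4.Idx K) * (xU chevF4 f4mem a 1 * xU chevF4 f4mem b t) * f4nC [k]
        = (f4nC [k] * xU chevF4 f4mem a 1) * xU chevF4 f4mem b t * f4nC [k] := by group
      _ = xU chevF4 f4mem a' (ca * 1) * (f4nC [k] * xU chevF4 f4mem b t) * f4nC [k] := by
          rw [ea]; group
      _ = _ := by rw [eb]; group
  have hv : xU chevF4 f4mem a' (ca * 1) * xU chevF4 f4mem b' (cb * t) ∈
      chevF4.borelSubgroup K ⊓ chevF4.negUnipotent K := by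
    refine Subgroup.mem_inf.mpr ⟨?_, ?_⟩
    · have : xU chevF4 f4mem a' (ca * 1) * xU chevF4 f4mem b' (cb * t) =
          ((f4nC [k] : GL chevF4.Idx K) * (xU chevF4 f4mem a 1 * xU chevF4 f4mem b t) * f4nC [k]) *
            (f4nC [k] * f4nC [k])⁻¹ := by
        rw [e1]; group
      rw [this]
      exact Subgroup.mul_mem _ hB (Subgroup.inv_mem _ (hHB (f4nC_sq_mem k hk)))
    · exact Subgroup.mul_mem _ (Subgroup.subset_closure ⟨_, _, hna, coe_xU chevF4 f4mem _ _⟩)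
        (Subgroup.subset_closure ⟨_, _, hnb, coe_xU chevF4 f4mem _ _⟩)
  rw [(Cfsg.Agent.S1037.result (F := K) chevF4 f4mem).1, Subgroup.mem_bot] at hv
  have e2 : xU chevF4 f4mem a' (ca * 1) = xU chevF4 f4mem b' (-(cb * t)) := by
    rw [← xU_inv]
    exact eq_inv_of_mul_eq_one_left hv
  have h3 := f4_xU_root_inj a' b' (hna.1) (hnb.1) _ _ (by rw [mul_one]; exact hca) e2
  apply hab
  have h4 : wordPerm chevF4 f4mem (f4Orb k) a = wordPerm chevF4 f4mem (f4Orb k) b := by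
    rw [wordPerm_eq_wordF chevF4 f4mem _ a ha, wordPerm_eq_wordF chevF4 f4mem _ b hb]
    exact h3
  exact (wordPerm chevF4 f4mem (f4Orb k)).injective h4

/-- `n_J B¹ n_J ⊄ B`. -/
theorem f4nC_conj_not_mem [CharP K 2] (e : ℕ) (he : e ≠ 0) (k : ℕ) (hk : k < 2) :
    ∃ b ∈ chevF4.borelSubgroup K ⊓ twistedF4 K e,
      (f4nC [k] : GL chevF4.Idx K) * b * f4nC [k] ∉ chevF4.borelSubgroup K := by
  obtain ⟨n33, n24, n28, n30, p33, p24, p28, p30⟩ := f4_neg_chk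
  have hbor : ∀ r : ℕ, chevF4.IsPosRoot r → ∀ t : K,
      xU chevF4 f4mem r t ∈ chevF4.borelSubgroup K :=
    fun r hr t => Subgroup.mem_sup_left (Subgroup.subset_closure ⟨r, t, hr, coe_xU chevF4 f4mem _ _⟩)
  interval_cases k
  · refine ⟨xU chevF4 f4mem 33 1 * xU chevF4 f4mem 24 1, Subgroup.mem_inf.mpr
      ⟨mul_mem (hbor 33 p33 1) (hbor 24 p24 1), ?_⟩, ?_⟩
    · have h := f4P_mem (K := K) e 1
      have e1 : ((f4P e 33 24 (1 : K) : ↥(chevF4.group K)) : GL chevF4.Idx K) =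
          xU chevF4 f4mem 33 1 * xU chevF4 f4mem 24 1 := by
        simp [f4P, coe_f4x]
      rwa [e1] at h
    · exact f4_conj_pair_not_mem 0 (by norm_num) 33 24 (by norm_num) (by norm_num) (by norm_num)
        n33 n24 1
  · refine ⟨xU chevF4 f4mem 28 1 * xU chevF4 f4mem 30 1, Subgroup.mem_inf.mpr
      ⟨mul_mem (hbor 28 p28 1) (hbor 30 p30 1), ?_⟩, ?_⟩
    · have h := f4B_mem (K := K) e 0 1
      have e1 : ((f4B e 27 25 28 30 (0 : K) 1 : ↥(chevF4.group K)) : GL chevF4.Idx K) =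
          xU chevF4 f4mem 28 1 * xU chevF4 f4mem 30 1 := by
        simp [f4B, coe_f4x, xU_zero, he]
      rwa [e1] at h
    · exact f4_conj_pair_not_mem 1 (by norm_num) 28 30 (by norm_num) (by norm_num) (by norm_num)
        n28 n30 1

theorem f4nC_eq_prod (c : List ℕ) :
    (f4nC c : GL chevF4.Idx K) = (c.map (fun k => (f4nC [k] : GL chevF4.Idx K))).prod := by
  induction c with
  | nil => rfl
  | cons k c ih => rw [f4nC_cons, List.map_cons, List.prod_cons, ih]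

theorem f4_diag_le_monomial : chevF4.diagonalSubgroup K ≤ chevF4.monomialSubgroup K := by
  rw [← (Cfsg.Agent.S1040.result (F := K) chevF4 f4mem).2]
  exact inf_le_right

namespace F4Tw

variable [CharP K 2] [Fintype K] {m : ℕ} (T : F4Tw K m)

include T in
/-- the elements of `N¹` are the `h n_c` -/
theorem N_tw (hK : Fintype.card K = 2 ^ (2 * m + 1)) (n : GL chevF4.Idx K)
    (hn : n ∈ chevF4.monomialSubgroup K ⊓ twistedF4 K (2 ^ m)) :
    ∃ c : List ℕ, (∀ i ∈ c, i < 2) ∧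
      ∃ h ∈ chevF4.diagonalSubgroup K ⊓ twistedF4 K (2 ^ m), n = h * f4nC c := by
  obtain ⟨hnN, hnG⟩ := Subgroup.mem_inf.mp hn
  obtain ⟨c, hc, hcH⟩ := T.fix_N ⟨n, f4_tw_le_group _ hnG⟩ hnN (T.fixed hK _ hnG)
  refine ⟨c, hc, n * (f4nC c)⁻¹, Subgroup.mem_inf.mpr ⟨hcH,
    mul_mem hnG (inv_mem (f4nC_mem_tw (2 ^ m) (by positivity) c))⟩, ?_⟩
  group

end F4Tw

namespace F4Bot

variable [CharP K 2] [Fintype K] {m : ℕ} {T : F4Tw K m}

/-- The double coset axiom in the Ree group. -/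
theorem bn_tw (B : F4Bot T) (hK : Fintype.card K = 2 ^ (2 * m + 1)) (k : ℕ) (hk : k < 2)
    (n : GL chevF4.Idx K) (hn : n ∈ chevF4.monomialSubgroup K ⊓ twistedF4 K (2 ^ m))
    (b : GL chevF4.Idx K) (hb : b ∈ chevF4.borelSubgroup K ⊓ twistedF4 K (2 ^ m)) :
    (∃ b₁ ∈ chevF4.borelSubgroup K ⊓ twistedF4 K (2 ^ m),
      ∃ b₂ ∈ chevF4.borelSubgroup K ⊓ twistedF4 K (2 ^ m),
        (f4nC [k] : GL chevF4.Idx K) * b * n = b₁ * (f4nC [k] * n) * b₂) ∨
    (∃ b₁ ∈ chevF4.borelSubgroup K ⊓ twistedF4 K (2 ^ m),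
      ∃ b₂ ∈ chevF4.borelSubgroup K ⊓ twistedF4 K (2 ^ m),
        (f4nC [k] : GL chevF4.Idx K) * b * n = b₁ * n * b₂) := by
  obtain ⟨hnN, hnG⟩ := Subgroup.mem_inf.mp hn
  obtain ⟨hbB, hbG⟩ := Subgroup.mem_inf.mp hb
  have he : 2 ^ m ≠ 0 := by positivity
  have hHB : chevF4.diagonalSubgroup K ≤ chevF4.borelSubgroup K := le_sup_right
  have hUB : chevF4.posUnipotent K ≤ chevF4.borelSubgroup K := le_sup_left
  have hsG : (f4nC [k] : GL chevF4.Idx K) ∈ twistedF4 K (2 ^ m) := f4nC_mem_tw (2 ^ m) he [k]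
  have hgG : (f4nC [k] : GL chevF4.Idx K) * b * n ∈ twistedF4 K (2 ^ m) :=
    Subgroup.mul_mem _ (Subgroup.mul_mem _ hsG hbG) hnG
  obtain ⟨c, hc, u', hu', h, hh, u, hu, e⟩ := B.cells hK _ hgG
  obtain ⟨hu'U, hu'G⟩ := Subgroup.mem_inf.mp hu'
  obtain ⟨huM, huG⟩ := Subgroup.mem_inf.mp hu
  have huU := uMinus_le_posUnipotent chevF4 _ huM
  obtain ⟨hhH, hhG⟩ := Subgroup.mem_inf.mp hh
  have hcG := f4nC_mem_tw (K := K) (2 ^ m) he c
  obtain ⟨J, hJ, b₁, hb₁, b₂, hb₂, e'⟩ := f4_bn_amb k n hnN b hbB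
  have hmN : wordN chevF4 f4mem J * n ∈ chevF4.monomialSubgroup K :=
    mul_mem (f4_wordN_mem_monomial J) hnN
  have e3 : (f4nC c : GL chevF4.Idx K) =
      ((u' * h)⁻¹ * b₁) * (wordN chevF4 f4mem J * n) * (b₂ * u⁻¹) := by
    have : (f4nC c : GL chevF4.Idx K) = (u' * h)⁻¹ * (u' * h * f4nC c * u) * u⁻¹ := by group
    rw [this, ← e, e']
    group
  have hd : (wordN chevF4 f4mem J * n)⁻¹ * f4nC c ∈ chevF4.diagonalSubgroup K :=
    Cfsg.Agent.Lib.Helper36.bruhat_unique chevF4 f4mem _ (f4nC c) _ _ hmN (f4nC_mem_monomial c)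
      (Subgroup.mul_mem _ (Subgroup.inv_mem _ (Subgroup.mul_mem _ (hUB hu'U) (hHB hhH))) hb₁)
      (Subgroup.mul_mem _ hb₂ (Subgroup.inv_mem _ (hUB huU))) e3
  have hb1' : u' * h ∈ chevF4.borelSubgroup K ⊓ twistedF4 K (2 ^ m) :=
    Subgroup.mem_inf.mpr ⟨Subgroup.mul_mem _ (hUB hu'U) (hHB hhH), Subgroup.mul_mem _ hu'G hhG⟩
  -- the root action of `J` commutes with `ρ`
  obtain ⟨l, hl⟩ := exists_wordPerm chevF4 f4mem n hnN
  have hY : RootAct chevF4 f4mem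
      (((f4nG c * (⟨n, f4_tw_le_group _ hnG⟩ : ↥(chevF4.group K))⁻¹ : ↥(chevF4.group K))) :
        GL chevF4.Idx K)
      (wordPerm chevF4 f4mem (c.flatMap f4Orb) * (wordPerm chevF4 f4mem l)⁻¹) :=
    (f4nC_rootAct (K := K) c).mul hl.inv
  have hfixY : T.σ (f4nG c * (⟨n, f4_tw_le_group _ hnG⟩ : ↥(chevF4.group K))⁻¹) =
      f4nG c * (⟨n, f4_tw_le_group _ hnG⟩ : ↥(chevF4.group K))⁻¹ := by
    rw [map_mul, map_inv, T.σ_nG hK, T.fixed hK _ hnG]
  have hcomm := T.rootAct_comm _ _ hY hfixY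
  have h1 := ((rootAct_wordN (F := K) chevF4 f4mem J).mul hl).inv.mul (f4nC_rootAct (K := K) c)
  have h2 := RootAct.unique h1 (rootAct_of_mem_diagonal chevF4 f4mem _ hd)
  have eJ : wordPerm chevF4 f4mem J =
      wordPerm chevF4 f4mem (c.flatMap f4Orb) * (wordPerm chevF4 f4mem l)⁻¹ := by
    have h3 := inv_mul_eq_one.mp h2
    rw [← h3]
    group
  rw [← eJ] at hcomm
  have hJcomm : ∀ s < 48, Cfsg.Agent.Lib.Helper36.wordF chevF4 J (f4ρ s) =
      f4ρ (Cfsg.Agent.Lib.Helper36.wordF chevF4 J s) := by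
    intro s hs
    rw [← wordPerm_eq_wordF chevF4 f4mem J _ (f4ρ_chk s hs).1,
      ← wordPerm_eq_wordF chevF4 f4mem J s hs]
    exact hcomm s hs
  have hnorm : ∀ x ∈ chevF4.diagonalSubgroup K, n⁻¹ * x * n ∈ chevF4.diagonalSubgroup K := by
    intro x hx
    have h4 := (Subgroup.mem_normalizer_iff.mp
      (inv_mem (monomialSubgroup_le_normalizer chevF4 f4mem hnN)) x).mp hx
    rwa [inv_inv] at h4
  rcases f4_sub_chk k hk J hJ hJcomm with hA | hB
  · right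
    have hJH : (wordN chevF4 f4mem J : GL chevF4.Idx K) ∈ chevF4.diagonalSubgroup K := by
      have h5 := f4_wordN_inv_mul_mem_diag (K := K) [] J (fun s hs => (hA s hs).symm)
      rwa [wordN_nil, inv_one, one_mul] at h5
    have h6 : n⁻¹ * f4nC c ∈ chevF4.diagonalSubgroup K := by
      have e6 : n⁻¹ * f4nC c = (n⁻¹ * wordN chevF4 f4mem J * n) *
          ((wordN chevF4 f4mem J * n)⁻¹ * f4nC c) := by group
      rw [e6]
      exact mul_mem (hnorm _ hJH) hd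
    refine ⟨u' * h, hb1', n⁻¹ * f4nC c * u, Subgroup.mem_inf.mpr
      ⟨Subgroup.mul_mem _ (hHB h6) (hUB huU), Subgroup.mul_mem _ (Subgroup.mul_mem _
        (Subgroup.inv_mem _ hnG) hcG) huG⟩, ?_⟩
    rw [e]
    group
  · left
    have hJH : (f4nC [k] : GL chevF4.Idx K)⁻¹ * wordN chevF4 f4mem J ∈
        chevF4.diagonalSubgroup K := by
      have h5 := f4_wordN_inv_mul_mem_diag (K := K) (f4Orb k) J (fun s hs => (hB s hs).symm)
      unfold f4nC
      rwa [List.flatMap_singleton]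
    have h6 : (f4nC [k] * n)⁻¹ * f4nC c ∈ chevF4.diagonalSubgroup K := by
      have e6 : ((f4nC [k] : GL chevF4.Idx K) * n)⁻¹ * f4nC c =
          (n⁻¹ * ((f4nC [k] : GL chevF4.Idx K)⁻¹ * wordN chevF4 f4mem J) * n) *
          ((wordN chevF4 f4mem J * n)⁻¹ * f4nC c) := by group
      rw [e6]
      exact mul_mem (hnorm _ hJH) hd
    refine ⟨u' * h, hb1', (f4nC [k] * n)⁻¹ * f4nC c * u, Subgroup.mem_inf.mpr
      ⟨Subgroup.mul_mem _ (hHB h6) (hUB huU), Subgroup.mul_mem _ (Subgroup.mul_mem _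
        (Subgroup.inv_mem _ (Subgroup.mul_mem _ hsG hnG)) hcG) huG⟩, ?_⟩
    rw [e]
    group

/-- The Ree group `²F₄` has a `(B, N)`-pair with the generators `n₁`, `n₂`. -/
theorem exists_bnpair (B : F4Bot T) (hK : Fintype.card K = 2 ^ (2 * m + 1)) :
    ∃ P : Cfsg.BNPair ↥(twistedF4 K (2 ^ m)),
      P.B = (chevF4.borelSubgroup K ⊓ twistedF4 K (2 ^ m)).subgroupOf (twistedF4 K (2 ^ m)) ∧
      P.N = (chevF4.monomialSubgroup K ⊓ twistedF4 K (2 ^ m)).subgroupOf (twistedF4 K (2 ^ m)) ∧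
      P.S = {s : ↥(twistedF4 K (2 ^ m)) | ∃ k < 2, (s : GL chevF4.Idx K) = f4nC [k]} := by
  have he : 2 ^ m ≠ 0 := by positivity
  have hHB : chevF4.diagonalSubgroup K ≤ chevF4.borelSubgroup K := le_sup_right
  have hUB : chevF4.posUnipotent K ≤ chevF4.borelSubgroup K := le_sup_left
  have hHN : chevF4.diagonalSubgroup K ≤ chevF4.monomialSubgroup K := f4_diag_le_monomial
  have hBN := (Cfsg.Agent.S1040.result (F := K) chevF4 f4mem).2
  have hSN : {s : ↥(twistedF4 K (2 ^ m)) | ∃ k < 2, (s : GL chevF4.Idx K) = f4nC [k]} ⊆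
      ((((chevF4.monomialSubgroup K ⊓ twistedF4 K (2 ^ m)).subgroupOf (twistedF4 K (2 ^ m)) :
        Subgroup ↥(twistedF4 K (2 ^ m)))) : Set ↥(twistedF4 K (2 ^ m))) := by
    rintro s ⟨k, hk, hs⟩
    rw [SetLike.mem_coe, Subgroup.mem_subgroupOf, hs]
    exact Subgroup.mem_inf.mpr ⟨f4nC_mem_monomial _, f4nC_mem_tw (2 ^ m) he _⟩
  refine ⟨{ B := (chevF4.borelSubgroup K ⊓ twistedF4 K (2 ^ m)).subgroupOf (twistedF4 K (2 ^ m))
            N := (chevF4.monomialSubgroup K ⊓ twistedF4 K (2 ^ m)).subgroupOf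
              (twistedF4 K (2 ^ m))
            S := {s : ↥(twistedF4 K (2 ^ m)) | ∃ k < 2, (s : GL chevF4.Idx K) = f4nC [k]}
            sup_eq_top := ?_
            conj_mem := ?_
            subset := hSN
            sq_mem := ?_
            inj := ?_
            closure_sup := ?_
            mul_mem_union := ?_
            conj_ne := ?_ }, rfl, rfl, rfl⟩
  · -- sup_eq_top
    rw [eq_top_iff]
    intro g _
    obtain ⟨c, hc, u', hu', h, hh, u, hu, e⟩ := B.cells hK g.1 g.2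
    obtain ⟨hu'U, hu'G⟩ := Subgroup.mem_inf.mp hu'
    obtain ⟨huM, huG⟩ := Subgroup.mem_inf.mp hu
    have huU := uMinus_le_posUnipotent chevF4 _ huM
    obtain ⟨hhH, hhG⟩ := Subgroup.mem_inf.mp hh
    have hcG := f4nC_mem_tw (K := K) (2 ^ m) he c
    have e' : g = (⟨u' * h, Subgroup.mul_mem _ hu'G hhG⟩ : ↥(twistedF4 K (2 ^ m))) *
        ⟨f4nC c, hcG⟩ * ⟨u, huG⟩ := Subtype.ext e
    rw [e']
    refine Subgroup.mul_mem _ (Subgroup.mul_mem _ (Subgroup.mem_sup_left ?_)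
      (Subgroup.mem_sup_right ?_)) (Subgroup.mem_sup_left ?_)
    · rw [Subgroup.mem_subgroupOf]
      exact Subgroup.mem_inf.mpr ⟨Subgroup.mul_mem _ (hUB hu'U) (hHB hhH),
        Subgroup.mul_mem _ hu'G hhG⟩
    · rw [Subgroup.mem_subgroupOf]
      exact Subgroup.mem_inf.mpr ⟨f4nC_mem_monomial c, hcG⟩
    · rw [Subgroup.mem_subgroupOf]
      exact Subgroup.mem_inf.mpr ⟨hUB huU, huG⟩
  · -- conj_mem
    intro n hn t ht
    rw [Subgroup.mem_subgroupOf] at hn ⊢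
    have ht1 := Subgroup.mem_subgroupOf.mp ht.1
    have ht2 := Subgroup.mem_subgroupOf.mp ht.2
    have ht' : (t : GL chevF4.Idx K) ∈ chevF4.diagonalSubgroup K := by
      rw [← hBN]
      exact Subgroup.mem_inf.mpr ⟨(Subgroup.mem_inf.mp ht1).1, (Subgroup.mem_inf.mp ht2).1⟩
    refine Subgroup.mem_inf.mpr ⟨?_, (n * t * n⁻¹).2⟩
    have := (Subgroup.mem_normalizer_iff.mp
      (monomialSubgroup_le_normalizer chevF4 f4mem (Subgroup.mem_inf.mp hn).1) _).mp ht'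
    exact hHB this
  · -- sq_mem
    rintro s ⟨k, hk, hs⟩
    rw [Subgroup.mem_subgroupOf, Subgroup.coe_mul, hs]
    exact Subgroup.mem_inf.mpr ⟨hHB (f4nC_sq_mem k hk),
      Subgroup.mul_mem _ (f4nC_mem_tw (2 ^ m) he _) (f4nC_mem_tw (2 ^ m) he _)⟩
  · -- inj
    rintro s ⟨k, hk, hs⟩ s' ⟨k', hk', hs'⟩ hB
    rw [Subgroup.mem_subgroupOf, Subgroup.coe_mul, Subgroup.coe_inv, hs, hs'] at hB
    have hkk := f4nC_inj k k' hk hk' (Subgroup.mem_inf.mp hB).1
    apply Subtype.ext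
    rw [hs, hs', hkk]
  · -- closure_sup
    apply le_antisymm
    · refine sup_le ?_ inf_le_right
      rw [Subgroup.closure_le]
      exact hSN
    · intro n hn
      rw [Subgroup.mem_subgroupOf] at hn
      obtain ⟨c, hc, h, hh, e⟩ := T.N_tw hK _ hn
      obtain ⟨hhH, hhG⟩ := Subgroup.mem_inf.mp hh
      have hcG := f4nC_mem_tw (K := K) (2 ^ m) he c
      have e' : n = (⟨h, hhG⟩ : ↥(twistedF4 K (2 ^ m))) * ⟨f4nC c, hcG⟩ := Subtype.ext e
      rw [e']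
      refine Subgroup.mul_mem _ (Subgroup.mem_sup_right ⟨?_, ?_⟩) (Subgroup.mem_sup_left ?_)
      · exact Subgroup.mem_subgroupOf.mpr (Subgroup.mem_inf.mpr ⟨hHB hhH, hhG⟩)
      · exact Subgroup.mem_subgroupOf.mpr (Subgroup.mem_inf.mpr ⟨hHN hhH, hhG⟩)
      · have e2 : (⟨f4nC c, hcG⟩ : ↥(twistedF4 K (2 ^ m))) =
            (c.attach.map (fun k => (⟨f4nC [k.1], f4nC_mem_tw (2 ^ m) he [k.1]⟩ :
              ↥(twistedF4 K (2 ^ m))))).prod := by
          apply Subtype.ext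
          rw [Subgroup.val_list_prod, List.map_map]
          show (f4nC c : GL chevF4.Idx K) = _
          rw [f4nC_eq_prod]
          conv_lhs => rw [← List.attach_map_subtype_val c]
          rw [List.map_map]
          rfl
        rw [e2]
        apply Subgroup.list_prod_mem
        intro x hx
        obtain ⟨k, -, rfl⟩ := List.mem_map.mp hx
        exact Subgroup.subset_closure ⟨k.1, hc k.1 k.2, rfl⟩
  · -- mul_mem_union
    rintro s ⟨k, hk, hs⟩ n hn b hb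
    rw [Subgroup.mem_subgroupOf] at hn hb
    rcases B.bn_tw hK k hk _ hn _ hb with ⟨b₁, hb₁, b₂, hb₂, e⟩ | ⟨b₁, hb₁, b₂, hb₂, e⟩
    · left
      rw [DoubleCoset.mem_doubleCoset]
      refine ⟨⟨b₁, (Subgroup.mem_inf.mp hb₁).2⟩, Subgroup.mem_subgroupOf.mpr hb₁,
        ⟨b₂, (Subgroup.mem_inf.mp hb₂).2⟩, Subgroup.mem_subgroupOf.mpr hb₂, Subtype.ext ?_⟩
      simp only [Subgroup.coe_mul]
      rw [hs]
      exact e
    · right
      rw [DoubleCoset.mem_doubleCoset]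
      refine ⟨⟨b₁, (Subgroup.mem_inf.mp hb₁).2⟩, Subgroup.mem_subgroupOf.mpr hb₁,
        ⟨b₂, (Subgroup.mem_inf.mp hb₂).2⟩, Subgroup.mem_subgroupOf.mpr hb₂, Subtype.ext ?_⟩
      simp only [Subgroup.coe_mul]
      rw [hs]
      exact e
  · -- conj_ne
    rintro s ⟨k, hk, hs⟩ hEq
    obtain ⟨b, hb, hnot⟩ := f4nC_conj_not_mem (K := K) (2 ^ m) he k hk
    have h1 : (s * (⟨b, (Subgroup.mem_inf.mp hb).2⟩ : ↥(twistedF4 K (2 ^ m))) * s) ∈
        ((((chevF4.borelSubgroup K ⊓ twistedF4 K (2 ^ m)).subgroupOf (twistedF4 K (2 ^ m)) :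
          Subgroup ↥(twistedF4 K (2 ^ m)))) : Set ↥(twistedF4 K (2 ^ m))) := by
      rw [← hEq]
      exact ⟨⟨b, (Subgroup.mem_inf.mp hb).2⟩, Subgroup.mem_subgroupOf.mpr hb, rfl⟩
    rw [SetLike.mem_coe, Subgroup.mem_subgroupOf] at h1
    simp only [Subgroup.coe_mul] at h1
    rw [hs] at h1
    exact hnot (Subgroup.mem_inf.mp h1).1

end F4Bot

end

end Cfsg.Agent.Lib.Helper18
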