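import Cfsg.Agent.Lib.Helper18.F4Ord2

set_option autoImplicit false

/-!
# The order of the Ree group `²F₄`: the sum over the cells
-/

namespace Cfsg.Agent.Lib.Helper18

open Cfsg Cfsg.Lie Cfsg.Lie.ChevalleyDatum
open Cfsg.Agent.Lib.Helper17 (oprodL f4L f4Free f4Ext)

section

variable {K : Type*} [Field K]

namespace F4Bot

variable [CharP K 2] [Fintype K] {m : ℕ} {T : F4Tw K m}

/-- `|G¹| = |B¹| Σ_τ q^{d(τ)}` over the 16 elements of the Weyl group -/
theorem card_tw (B : F4Bot T) (hK : Fintype.card K = 2 ^ (2 * m + 1)) :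
    Nat.card ↥(twistedF4 K (2 ^ m)) = Nat.card ↥(chevF4.borelSubgroup K ⊓ twistedF4 K (2 ^ m)) *
      (f4W16.map (fun τ => Fintype.card K ^ (f4Free.filter (fun s => chevF4.IsNegRoot
        (Cfsg.Agent.Lib.Helper36.wordF chevF4 (τ.flatMap f4Orb) s))).card)).sum := by
  classical
  have he : 2 ^ m ≠ 0 := by positivity
  let C : List ℕ → Set (GL chevF4.Idx K) := fun τ =>
    DoubleCoset.doubleCoset (f4nC τ : GL chevF4.Idx K)
      ((chevF4.borelSubgroup K ⊓ twistedF4 K (2 ^ m) : Subgroup (GL chevF4.Idx K)) :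
        Set (GL chevF4.Idx K))
      ((chevF4.borelSubgroup K ⊓ twistedF4 K (2 ^ m) : Subgroup (GL chevF4.Idx K)) :
        Set (GL chevF4.Idx K))
  have hHB : chevF4.diagonalSubgroup K ≤ chevF4.borelSubgroup K := le_sup_right
  have hUB : chevF4.posUnipotent K ≤ chevF4.borelSubgroup K := le_sup_left
  have hset : (twistedF4 K (2 ^ m) : Set (GL chevF4.Idx K)) = {g | ∃ τ ∈ f4W16, g ∈ C τ} := by
    ext g
    constructor
    · intro hg
      obtain ⟨c, hc, u', hu', h, hh, u, hu, rfl⟩ := B.cells hK g hg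
      obtain ⟨τ, hτ, hτc⟩ := f4W16_ex c hc
      have h1 : (f4nC τ : GL chevF4.Idx K)⁻¹ * f4nC c ∈ chevF4.diagonalSubgroup K := by
        unfold f4nC
        exact f4_wordN_inv_mul_mem_diag _ _ (fun s hs => (hτc s hs).symm)
      have h1G : (f4nC τ : GL chevF4.Idx K)⁻¹ * f4nC c ∈ twistedF4 K (2 ^ m) :=
        Subgroup.mul_mem _ (Subgroup.inv_mem _ (f4nC_mem_tw (2 ^ m) he τ))
          (f4nC_mem_tw (2 ^ m) he c)
      have h2 : (f4nC c : GL chevF4.Idx K) ∈ C τ := by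
        show _ ∈ DoubleCoset.doubleCoset _ _ _
        rw [DoubleCoset.mem_doubleCoset]
        exact ⟨1, Subgroup.one_mem _, _, Subgroup.mem_inf.mpr ⟨hHB h1, h1G⟩, by group⟩
      have h3 : C c = C τ := DoubleCoset.doubleCoset_eq_of_mem h2
      refine ⟨τ, hτ, ?_⟩
      rw [← h3]
      show _ ∈ DoubleCoset.doubleCoset _ _ _
      rw [DoubleCoset.mem_doubleCoset]
      exact ⟨u' * h, Subgroup.mem_inf.mpr
        ⟨Subgroup.mul_mem _ (hUB (Subgroup.mem_inf.mp hu').1) (hHB (Subgroup.mem_inf.mp hh).1),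
          Subgroup.mul_mem _ (Subgroup.mem_inf.mp hu').2 (Subgroup.mem_inf.mp hh).2⟩,
        u, Subgroup.mem_inf.mpr ⟨hUB (uMinus_le_posUnipotent chevF4 _ (Subgroup.mem_inf.mp hu).1),
          (Subgroup.mem_inf.mp hu).2⟩, rfl⟩
    · rintro ⟨τ, hτ, hg⟩
      have hg' : g ∈ DoubleCoset.doubleCoset (f4nC τ : GL chevF4.Idx K)
          ((chevF4.borelSubgroup K ⊓ twistedF4 K (2 ^ m) : Subgroup (GL chevF4.Idx K)) :
            Set (GL chevF4.Idx K))
          ((chevF4.borelSubgroup K ⊓ twistedF4 K (2 ^ m) : Subgroup (GL chevF4.Idx K)) :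
            Set (GL chevF4.Idx K)) := hg
      rw [DoubleCoset.mem_doubleCoset] at hg'
      obtain ⟨x, hx, y, hy, rfl⟩ := hg'
      exact Subgroup.mul_mem _ (Subgroup.mul_mem _ (Subgroup.mem_inf.mp hx).2
        (f4nC_mem_tw (2 ^ m) he τ)) (Subgroup.mem_inf.mp hy).2
  have hdis : f4W16.Pairwise (fun a b => Disjoint (C a) (C b)) := by
    refine f4W16_distinct.imp ?_
    intro a b hab
    rw [Set.disjoint_left]
    intro g hga hgb
    have hga' : g ∈ DoubleCoset.doubleCoset (f4nC a : GL chevF4.Idx K)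
        ((chevF4.borelSubgroup K ⊓ twistedF4 K (2 ^ m) : Subgroup (GL chevF4.Idx K)) :
          Set (GL chevF4.Idx K))
        ((chevF4.borelSubgroup K ⊓ twistedF4 K (2 ^ m) : Subgroup (GL chevF4.Idx K)) :
          Set (GL chevF4.Idx K)) := hga
    have hgb' : g ∈ DoubleCoset.doubleCoset (f4nC b : GL chevF4.Idx K)
        ((chevF4.borelSubgroup K ⊓ twistedF4 K (2 ^ m) : Subgroup (GL chevF4.Idx K)) :
          Set (GL chevF4.Idx K))
        ((chevF4.borelSubgroup K ⊓ twistedF4 K (2 ^ m) : Subgroup (GL chevF4.Idx K)) :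
          Set (GL chevF4.Idx K)) := hgb
    rw [DoubleCoset.mem_doubleCoset] at hga' hgb'
    obtain ⟨x, hx, y, hy, rfl⟩ := hga'
    obtain ⟨x', hx', y', hy', e⟩ := hgb'
    have e2 : (f4nC b : GL chevF4.Idx K) = (x'⁻¹ * x) * f4nC a * (y * y'⁻¹) := by
      have : (f4nC b : GL chevF4.Idx K) = x'⁻¹ * (x' * f4nC b * y') * y'⁻¹ := by group
      rw [this, ← e]
      group
    have hd := Cfsg.Agent.Lib.Helper36.bruhat_unique chevF4 f4mem (f4nC a) (f4nC b) _ _
      (f4nC_mem_monomial a) (f4nC_mem_monomial b)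
      (Subgroup.mul_mem _ (Subgroup.inv_mem _ (Subgroup.mem_inf.mp hx').1)
        (Subgroup.mem_inf.mp hx).1)
      (Subgroup.mul_mem _ (Subgroup.mem_inf.mp hy).1
        (Subgroup.inv_mem _ (Subgroup.mem_inf.mp hy').1)) e2
    obtain ⟨s, hs, hne⟩ := hab
    exact hne (f4nC_inv_mul_mem_diag a b hd s hs)
  have hfin : Finite (GL chevF4.Idx K) := inferInstance
  have hcard : Nat.card ↥(twistedF4 K (2 ^ m)) =
      (twistedF4 K (2 ^ m) : Set (GL chevF4.Idx K)).ncard :=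
    Nat.card_coe_set_eq (twistedF4 K (2 ^ m) : Set (GL chevF4.Idx K))
  rw [hcard, hset, Cfsg.Agent.Lib.Helper17.ncard_list_union C f4W16 hdis,
    ← List.sum_map_mul_left]
  congr 1
  apply List.map_congr_left
  intro τ hτ
  exact B.cell_ncard hK τ (f4W16_compat τ hτ)

/-- the order of the Ree group `²F₄`, from the order of `H¹` -/
theorem card_tw_final (B : F4Bot T) (hK : Fintype.card K = 2 ^ (2 * m + 1))
    (hH : Nat.card ↥(chevF4.diagonalSubgroup K ⊓ twistedF4 K (2 ^ m)) =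
      (2 ^ (2 * m + 1) - 1) ^ 2) :
    Nat.card ↥(twistedF4 K (2 ^ m)) =
      (2 ^ (2 * m + 1)) ^ 12 * (2 ^ (2 * m + 1) - 1) * ((2 ^ (2 * m + 1)) ^ 3 + 1) *
        ((2 ^ (2 * m + 1)) ^ 4 - 1) * ((2 ^ (2 * m + 1)) ^ 6 + 1) := by
  have hsum : (f4W16.map (fun τ => Fintype.card K ^ (f4Free.filter (fun s => chevF4.IsNegRoot
      (Cfsg.Agent.Lib.Helper36.wordF chevF4 (τ.flatMap f4Orb) s))).card)).sum =
      (([0, 1, 2, 3, 3, 4, 5, 6, 6, 7, 8, 9, 9, 10, 11, 12] : List ℕ).map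
        (fun k => Fintype.card K ^ k)).sum := by
    rw [← f4W16_deg, List.map_map]
    rfl
  rw [B.card_tw hK, hsum, B.card_borel hK, hH,
    Cfsg.Agent.Lib.Helper17.F4Tw.card_unip (Cfsg.Agent.Lib.Helper17.tw17 T) hK, hK]
  obtain ⟨r, hr⟩ : ∃ r, 2 ^ (2 * m + 1) = r + 1 := ⟨2 ^ (2 * m + 1) - 1, by
    have : 0 < 2 ^ (2 * m + 1) := by positivity
    omega⟩
  rw [hr]
  have e1 : r + 1 - 1 = r := by omega
  have e2 : (r + 1) ^ 4 - 1 = r ^ 4 + 4 * r ^ 3 + 6 * r ^ 2 + 4 * r := by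
    have : (r + 1) ^ 4 = r ^ 4 + 4 * r ^ 3 + 6 * r ^ 2 + 4 * r + 1 := by ring
    omega
  rw [e1, e2]
  simp only [List.map_cons, List.map_nil, List.sum_cons, List.sum_nil]
  ring

end F4Bot

end

end Cfsg.Agent.Lib.Helper18
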