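import Cfsg.Agent.Lib.Helper17.F4H
import Cfsg.Agent.Lib.Helper18.F4Ord3

/-!
# The Ree groups `²F₄(2^(2m+1))`: assembling the bottom (fixed points of `U` and `H`, by
helper17) and the top (Bruhat cells, (B,N)-pair, order)
-/

set_option autoImplicit false

namespace Cfsg.Agent.Lib.Helper18

open Cfsg Cfsg.Lie

variable {K : Type*} [Field K] [Fintype K] [CharP K 2] {m : ℕ}

/-- the two facts about the bottom of the Ree group `²F₄` -/
theorem f4_bot (T : F4Tw K m) (hK : Fintype.card K = 2 ^ (2 * m + 1)) : F4Bot T where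
  unip := fun g hg hf => Cfsg.Agent.Lib.Helper17.f4_fix_unip T hK g hg hf
  diag := fun g hg hf => Cfsg.Agent.Lib.Helper17.f4_fix_diag T hK g hg hf

end Cfsg.Agent.Lib.Helper18
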