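import Mathlib

/-!
# Numerics for the order bounds of the finite groups of Lie type (statement S2363)

If `d * n = q ^ N * M` with `q = p ^ e`, `p ∤ d`, `p ∤ M` and `M < d * q ^ L`, then the `p`-part of `n` is
`q ^ N` and `n < q ^ (N + L)`.  For every family of groups of Lie type `L ≤ 2 N`, and `3 L ≤ 5 N` except for
`PSL₂`.
-/

set_option autoImplicit false

namespace Cfsg.Agent.Lib.Helper18.LieOrd

open Finset

theorem key {p e N L d n M : ℕ} (hp : p.Prime) (hd : ¬ p ∣ d) (hM : ¬ p ∣ M)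
    (hML : M < d * (p ^ e) ^ L) (h : d * n = (p ^ e) ^ N * M) (hn : n ≠ 0) :
    n.factorization p = e * N ∧ n < (p ^ e) ^ (N + L) := by
  have hd0 : d ≠ 0 := fun h0 => hd (h0 ▸ dvd_zero p)
  have hM0 : M ≠ 0 := fun h0 => hM (h0 ▸ dvd_zero p)
  have hq0 : (p ^ e) ^ N ≠ 0 := pow_ne_zero _ (pow_ne_zero _ hp.ne_zero)
  refine ⟨?_, ?_⟩
  · have h1 : (d * n).factorization p = ((p ^ e) ^ N * M).factorization p := by rw [h]
    rw [Nat.factorization_mul hd0 hn, Nat.factorization_mul hq0 hM0] at h1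
    simp only [Finsupp.add_apply] at h1
    rw [Nat.factorization_eq_zero_of_not_dvd hd, Nat.factorization_eq_zero_of_not_dvd hM,
      ← pow_mul, Nat.Prime.factorization_pow hp] at h1
    simpa using h1
  · have h2 : d * n < d * (p ^ e) ^ (N + L) := by
      rw [h, pow_add]
      calc (p ^ e) ^ N * M < (p ^ e) ^ N * (d * (p ^ e) ^ L) :=
            Nat.mul_lt_mul_of_pos_left hML (Nat.pos_of_ne_zero hq0)
        _ = d * ((p ^ e) ^ N * (p ^ e) ^ L) := by ring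
    exact lt_of_mul_lt_mul_left h2 (Nat.zero_le d)

/-- first bound, with the `p`-part. -/
theorem fam1 {p e q N L d n M : ℕ} (hp : p.Prime) (hq : q = p ^ e) (hd : ¬ p ∣ d) (hM : ¬ p ∣ M)
    (hML : M < d * q ^ L) (h : d * n = q ^ N * M) (hn : n ≠ 0) (h1 : L ≤ 2 * N) :
    n.factorization p = e * N ∧ n < p ^ (3 * n.factorization p) := by
  subst hq
  obtain ⟨hf, hlt⟩ := key hp hd hM hML h hn
  refine ⟨hf, ?_⟩
  rw [hf]
  have h1p : 1 ≤ p ^ e := Nat.one_le_pow _ _ hp.pos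
  calc n < (p ^ e) ^ (N + L) := hlt
    _ ≤ (p ^ e) ^ (3 * N) := Nat.pow_le_pow_right h1p (by omega)
    _ = p ^ (3 * (e * N)) := by rw [← pow_mul]; congr 1; ring

/-- both bounds. -/
theorem fam {p e q N L d n M : ℕ} (hp : p.Prime) (hq : q = p ^ e) (hd : ¬ p ∣ d) (hM : ¬ p ∣ M)
    (hML : M < d * q ^ L) (h : d * n = q ^ N * M) (hn : n ≠ 0) (h1 : L ≤ 2 * N)
    (h2 : 3 * L ≤ 5 * N) :
    n < p ^ (3 * n.factorization p) ∧ n ^ 3 < p ^ (8 * n.factorization p) := by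
  refine ⟨(fam1 hp hq hd hM hML h hn h1).2, ?_⟩
  subst hq
  obtain ⟨hf, hlt⟩ := key hp hd hM hML h hn
  rw [hf]
  have h1p : 1 ≤ p ^ e := Nat.one_le_pow _ _ hp.pos
  calc n ^ 3 < ((p ^ e) ^ (N + L)) ^ 3 := Nat.pow_lt_pow_left hlt (by norm_num)
    _ = (p ^ e) ^ (3 * N + 3 * L) := by rw [← pow_mul]; congr 1; ring
    _ ≤ (p ^ e) ^ (8 * N) := Nat.pow_le_pow_right h1p (by omega)
    _ = p ^ (8 * (e * N)) := by rw [← pow_mul]; congr 1; ring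

/-! ### divisibility -/

theorem dvd_q {p e q : ℕ} (hq : q = p ^ e) (he : e ≠ 0) : p ∣ q := hq ▸ dvd_pow_self p he

theorem two_le_q {p e q : ℕ} (hp : p.Prime) (hq : q = p ^ e) (he : e ≠ 0) : 2 ≤ q := by
  subst hq
  calc 2 ≤ p := hp.two_le
    _ = p ^ 1 := (pow_one p).symm
    _ ≤ p ^ e := Nat.pow_le_pow_right hp.pos (Nat.one_le_iff_ne_zero.2 he)

theorem nd_sub {p q a : ℕ} (hp : p.Prime) (hq : 2 ≤ q) (hpq : p ∣ q) (ha : a ≠ 0) :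
    ¬ p ∣ q ^ a - 1 := by
  intro h
  have hq0 : 0 < q := by omega
  have h1 : p ∣ q ^ a := dvd_pow hpq ha
  have h2 : p ∣ q ^ a - (q ^ a - 1) := Nat.dvd_sub h1 h
  have h3 : q ^ a - (q ^ a - 1) = 1 := by
    have : 1 ≤ q ^ a := Nat.one_le_pow _ _ hq0
    omega
  rw [h3] at h2
  exact hp.ne_one (Nat.dvd_one.1 h2)

theorem nd_sub1 {p q : ℕ} (hp : p.Prime) (hq : 2 ≤ q) (hpq : p ∣ q) : ¬ p ∣ q - 1 := by
  have := nd_sub (a := 1) hp hq hpq one_ne_zero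
  rwa [pow_one] at this

theorem nd_add {p q a : ℕ} (hp : p.Prime) (hpq : p ∣ q) (ha : a ≠ 0) : ¬ p ∣ q ^ a + 1 := by
  intro h
  have h1 : p ∣ q ^ a := dvd_pow hpq ha
  have h2 : p ∣ q ^ a + 1 - q ^ a := Nat.dvd_sub h h1
  rw [Nat.add_sub_cancel_left] at h2
  exact hp.ne_one (Nat.dvd_one.1 h2)

theorem nd_add1 {p q : ℕ} (hp : p.Prime) (hpq : p ∣ q) : ¬ p ∣ q + 1 := by
  have := nd_add (a := 1) hp hpq one_ne_zero
  rwa [pow_one] at this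

theorem nd_mul {p a b : ℕ} (hp : p.Prime) (ha : ¬ p ∣ a) (hb : ¬ p ∣ b) : ¬ p ∣ a * b :=
  fun h => (hp.dvd_mul.1 h).elim ha hb

theorem nd_of_dvd {p a b : ℕ} (hb : ¬ p ∣ b) (hab : a ∣ b) : ¬ p ∣ a := fun h => hb (h.trans hab)

theorem nd_one {p : ℕ} (hp : p.Prime) : ¬ p ∣ 1 := fun h => hp.ne_one (Nat.dvd_one.1 h)

theorem nd_prod {ι : Type*} {p : ℕ} (hp : p.Prime) (s : Finset ι) (f : ι → ℕ)
    (h : ∀ i ∈ s, ¬ p ∣ f i) : ¬ p ∣ ∏ i ∈ s, f i := by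
  intro hd
  obtain ⟨i, hi, hpi⟩ := (Prime.dvd_finsetProd_iff hp.prime f).1 hd
  exact h i hi hpi

/-! ### sizes -/

theorem sub_lt_pow {q a : ℕ} (hq : 2 ≤ q) : q ^ a - 1 < q ^ a :=
  Nat.sub_lt (Nat.pow_pos (by omega)) one_pos

theorem sub_le_pow {q a : ℕ} : q ^ a - 1 ≤ q ^ a := Nat.sub_le _ _

theorem sub1_lt {q : ℕ} (hq : 2 ≤ q) : q - 1 < q := by omega

theorem add_le_pow {q a : ℕ} (hq : 2 ≤ q) (ha : a ≠ 0) : q ^ a + 1 ≤ q ^ (a + 1) := by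
  have h1 : 2 ≤ q ^ a := by
    calc 2 ≤ q := hq
      _ = q ^ 1 := (pow_one q).symm
      _ ≤ q ^ a := Nat.pow_le_pow_right (by omega) (Nat.one_le_iff_ne_zero.2 ha)
  calc q ^ a + 1 ≤ q ^ a * 2 := by omega
    _ ≤ q ^ a * q := Nat.mul_le_mul_left _ hq
    _ = q ^ (a + 1) := (pow_succ q a).symm

theorem add_lt_pow {q a : ℕ} (hq : 2 ≤ q) (ha : a ≠ 0) : q ^ a + 1 < q ^ (a + 1) := by
  have h1 : 2 ≤ q ^ a := by
    calc 2 ≤ q := hq
      _ = q ^ 1 := (pow_one q).symm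
      _ ≤ q ^ a := Nat.pow_le_pow_right (by omega) (Nat.one_le_iff_ne_zero.2 ha)
  calc q ^ a + 1 < q ^ a * 2 := by omega
    _ ≤ q ^ a * q := Nat.mul_le_mul_left _ hq
    _ = q ^ (a + 1) := (pow_succ q a).symm

theorem mul_lt_of {a b c d : ℕ} (h1 : a < c) (h2 : b ≤ d) (hd : 0 < d) : a * b < c * d :=
  Nat.mul_lt_mul_of_lt_of_le h1 h2 hd

theorem mul_lt_of' {a b c d : ℕ} (h1 : a ≤ c) (h2 : b < d) (hc : 0 < c) : a * b < c * d :=
  Nat.mul_lt_mul_of_le_of_lt h1 h2 hc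

theorem prod_sub_le {q : ℕ} (s : Finset ℕ) (a : ℕ → ℕ) :
    ∏ i ∈ s, (q ^ a i - 1) ≤ q ^ ∑ i ∈ s, a i := by
  rw [← Finset.prod_pow_eq_pow_sum]
  exact Finset.prod_le_prod' fun i _ => Nat.sub_le _ _

theorem prod_sub_lt {q : ℕ} (hq : 2 ≤ q) (s : Finset ℕ) (hs : s.Nonempty) (a : ℕ → ℕ)
    (ha : ∀ i ∈ s, a i ≠ 0) :
    ∏ i ∈ s, (q ^ a i - 1) < q ^ ∑ i ∈ s, a i := by
  rw [← Finset.prod_pow_eq_pow_sum]
  refine Finset.prod_lt_prod_of_nonempty (fun i hi => ?_) (fun i _ => sub_lt_pow hq) hs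
  have : 2 ≤ q ^ a i := by
    calc 2 ≤ q := hq
      _ = q ^ 1 := (pow_one q).symm
      _ ≤ q ^ a i := Nat.pow_le_pow_right (by omega) (Nat.one_le_iff_ne_zero.2 (ha i hi))
  omega

theorem sum_two_mul_succ (m : ℕ) : ∑ i ∈ range m, 2 * (i + 1) = m * (m + 1) := by
  induction m with
  | zero => simp
  | succ k ih => rw [Finset.sum_range_succ, ih]; ring

theorem sum_id (m : ℕ) : (∑ i ∈ range m, i) * 2 = m * (m - 1) := Finset.sum_range_id_mul_two m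

end Cfsg.Agent.Lib.Helper18.LieOrd
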