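import Cfsg.Agent.Lib.Helper18.ChevHt
import Cfsg.Agent.Lib.Helper18.F4Final
import Cfsg.Agent.Lib.Helper18.LieOrdNum
import Cfsg.Agent.S1068

/-!
# The exponent of the Sylow 2-subgroups of `²F₄(q)` divides 32

The adjoint module of `F₄` is graded by the height, with levels `-11, …, 11`; an element `u` of `U`
is the identity up to terms raising the level, so `(u - 1) ^ 23 = 0` and `u ^ 32 = 1` in
characteristic 2.  The group `U ∩ ²F₄(q)` has order `q ^ 12`, the 2-part of the order of `²F₄(q)`.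
-/

set_option autoImplicit false

namespace Cfsg.Agent.Lib.Helper18

open Cfsg Cfsg.Lie Cfsg.Lie.ChevalleyDatum

section general

variable {F : Type*} [Field F] {D : ChevalleyDatum} {w : ℕ → ℤ}

theorem UniLev.sub_one_pow {g : Matrix D.Idx D.Idx F} (h : UniLev D w 1 g) (k : ℕ) :
    ∀ u v, ((g - 1) ^ k) u v ≠ 0 → idxLev D w (enc D v) + k ≤ idxLev D w (enc D u) := by
  induction k with
  | zero =>
    intro u v hne
    rw [pow_zero] at hne
    by_cases huv : u = v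
    · subst huv; simp
    · exact absurd (Matrix.one_apply_ne huv) hne
  | succ k ih =>
    intro u v hne
    rw [pow_succ, Matrix.mul_apply] at hne
    obtain ⟨c, -, hc⟩ := Finset.exists_ne_zero_of_sum_ne_zero hne
    have hc1 := ih u c (left_ne_zero_of_mul hc)
    have hc2 : (g - 1) c v ≠ 0 := right_ne_zero_of_mul hc
    have hcv : c ≠ v := by
      rintro rfl
      apply hc2
      rw [Matrix.sub_apply, h.1 c, Matrix.one_apply_eq, sub_self]
    have hg : g c v ≠ 0 := by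
      intro h0
      apply hc2
      rw [Matrix.sub_apply, h0, Matrix.one_apply_ne hcv, sub_self]
    have h3 := h.2 c v hcv hg
    push_cast
    omega

theorem UniLev.sub_one_pow_eq_zero {g : Matrix D.Idx D.Idx F} (h : UniLev D w 1 g) (B : ℤ)
    (hB : ∀ u : D.Idx, -B ≤ idxLev D w (enc D u) ∧ idxLev D w (enc D u) ≤ B) (k : ℕ)
    (hk : 2 * B < k) : (g - 1) ^ k = 0 := by
  ext u v
  rw [Matrix.zero_apply]
  by_contra hne
  have h1 := h.sub_one_pow k u v hne
  have h2 := (hB v).1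
  have h3 := (hB u).2
  omega

theorem one_add_pow_two_pow [CharP F 2] {n : Type*} [Fintype n] [DecidableEq n]
    (N : Matrix n n F) (j : ℕ) : (1 + N) ^ 2 ^ j = 1 + N ^ 2 ^ j := by
  induction j with
  | zero => simp
  | succ j ih =>
    rw [pow_succ, pow_mul, ih, pow_mul]
    have h2 : ∀ X : Matrix n n F, X + X = 0 := by
      intro X
      ext a b
      simp [CharTwo.add_self_eq_zero]
    rw [sq, sq, mul_add, add_mul, add_mul, one_mul, one_mul, mul_one]
    calc 1 + N ^ 2 ^ j + (N ^ 2 ^ j + N ^ 2 ^ j * N ^ 2 ^ j)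
        = 1 + (N ^ 2 ^ j + N ^ 2 ^ j) + N ^ 2 ^ j * N ^ 2 ^ j := by abel
      _ = 1 + N ^ 2 ^ j * N ^ 2 ^ j := by rw [h2, add_zero]

theorem UniLev.pow_eq_one [CharP F 2] {g : Matrix D.Idx D.Idx F} (h : UniLev D w 1 g) (B : ℤ)
    (hB : ∀ u : D.Idx, -B ≤ idxLev D w (enc D u) ∧ idxLev D w (enc D u) ≤ B) (j : ℕ)
    (hj : 2 * B < 2 ^ j) : g ^ 2 ^ j = 1 := by
  have e : g = 1 + (g - 1) := by abel
  rw [e, one_add_pow_two_pow, h.sub_one_pow_eq_zero B hB (2 ^ j) (by exact_mod_cast hj), add_zero]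

theorem oprodL_uniLev (hD : D ∈ [chevG2, chevB2, chevD4, chevF4, chevE6, chevE7, chevE8])
    (L : List ℕ) (hL : ∀ r ∈ L, r < D.nroots ∧ 1 ≤ rootLev D w r) (t : ℕ → F) :
    UniLev D w 1 ((Cfsg.Agent.Lib.Helper17.oprodL D hD L t : GL D.Idx F) : Matrix D.Idx D.Idx F) := by
  induction L with
  | nil =>
    rw [Cfsg.Agent.Lib.Helper17.oprodL_nil]
    exact UniLev.one D w 1
  | cons r L ih =>
    rw [Cfsg.Agent.Lib.Helper17.oprodL_cons, Units.val_mul, coe_xU]
    exact UniLev.mul (by norm_num)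
      (x_uniLev D hD w r (hL r List.mem_cons_self).1 1 (by norm_num) (hL r List.mem_cons_self).2 _)
      (ih fun q hq => hL q (List.mem_cons_of_mem _ hq))

end general

/-- the grading of `F₄` by the height -/
def f4wt : ℕ → ℤ := fun i => if i = 0 then 8 else if i = 1 then 15 else if i = 2 then 21 else 11

theorem f4wt_lev (s : ℕ) : rootLev chevF4 f4wt s =
    8 * chevF4.cartan 0 s + 15 * chevF4.cartan 1 s + 21 * chevF4.cartan 2 s +
      11 * chevF4.cartan 3 s := by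
  unfold rootLev
  have h : chevF4.rank = 4 := rfl
  rw [h, Finset.sum_range_succ, Finset.sum_range_succ, Finset.sum_range_succ, Finset.sum_range_one]
  rfl

theorem f4wt_chk : ∀ s < 48,
    (24 ≤ s → 1 ≤ 8 * chevF4.cartan 0 s + 15 * chevF4.cartan 1 s + 21 * chevF4.cartan 2 s +
      11 * chevF4.cartan 3 s) ∧
    -11 ≤ 8 * chevF4.cartan 0 s + 15 * chevF4.cartan 1 s + 21 * chevF4.cartan 2 s +
      11 * chevF4.cartan 3 s ∧
    8 * chevF4.cartan 0 s + 15 * chevF4.cartan 1 s + 21 * chevF4.cartan 2 s +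
      11 * chevF4.cartan 3 s ≤ 11 := by decide +kernel

theorem f4L_ge : ∀ r ∈ Cfsg.Agent.Lib.Helper17.f4L, 24 ≤ r ∧ r < 48 := by decide

theorem f4_idxLev_bd (u : chevF4.Idx) :
    -11 ≤ idxLev chevF4 f4wt (enc chevF4 u) ∧ idxLev chevF4 f4wt (enc chevF4 u) ≤ 11 := by
  rcases u with i | s
  · rw [enc_inl, idxLev_of_lt chevF4 f4wt _ i.isLt]
    norm_num
  · rw [enc_inr, idxLev_root, f4wt_lev]
    exact (f4wt_chk s.val s.isLt).2

/-- in characteristic 2 every element of `U` has order dividing 32. -/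
theorem f4_unip_pow {K : Type*} [Field K] [Fintype K] [CharP K 2] (g : GL chevF4.Idx K)
    (hg : g ∈ chevF4.posUnipotent K) : g ^ 32 = 1 := by
  obtain ⟨t, rfl⟩ := Cfsg.Agent.Lib.Helper17.f4_unip_oprod g hg
  apply Units.ext
  rw [Units.val_pow_eq_pow_val, Units.val_one]
  have h := oprodL_uniLev (F := K) (w := f4wt) f4mem Cfsg.Agent.Lib.Helper17.f4L (fun r hr => by
    obtain ⟨h1, h2⟩ := f4L_ge r hr
    refine ⟨h2, ?_⟩
    rw [f4wt_lev]
    exact (f4wt_chk r h2).1 h1) t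
  exact h.pow_eq_one 11 f4_idxLev_bd 5 (by norm_num)

/-- every element of 2-power order of `²F₄(q)` has order at most 32. -/
theorem f4_two_elt_order {K : Type*} [Field K] [Fintype K] (m : ℕ)
    (hK : Fintype.card K = 2 ^ (2 * m + 1)) (x : ↥(twistedF4 K (2 ^ m)))
    (hx : ∃ j : ℕ, orderOf x = 2 ^ j) : orderOf x ≤ 32 := by
  have := charP_two_of_card hK
  obtain ⟨T⟩ := exists_f4Tw (K := K) m
  have : Fact (Nat.Prime 2) := ⟨Nat.prime_two⟩
  -- the Sylow 2-subgroup `U¹`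
  let P : Subgroup ↥(twistedF4 K (2 ^ m)) :=
    (chevF4.posUnipotent K ⊓ twistedF4 K (2 ^ m)).subgroupOf (twistedF4 K (2 ^ m))
  have hPc : Nat.card P = (2 ^ (2 * m + 1)) ^ 12 := by
    rw [← Cfsg.Agent.Lib.Helper17.F4Tw.card_unip (Cfsg.Agent.Lib.Helper17.tw17 T) hK]
    exact Nat.card_congr (Subgroup.subgroupOfEquivOfLe inf_le_right).toEquiv
  have hG := Cfsg.Agent.S1068.result hK
  have hfac : (Nat.card ↥(twistedF4 K (2 ^ m))).factorization 2 = (2 * m + 1) * 12 := by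
    have h2 : 2 ≤ 2 ^ (2 * m + 1) := LieOrd.two_le_q Nat.prime_two rfl (by omega)
    have hpq : 2 ∣ 2 ^ (2 * m + 1) := dvd_pow_self 2 (by omega)
    refine (LieOrd.key (p := 2) (e := 2 * m + 1) (N := 12) (L := 16) (d := 1)
      (M := (2 ^ (2 * m + 1) - 1) * ((2 ^ (2 * m + 1)) ^ 3 + 1) * ((2 ^ (2 * m + 1)) ^ 4 - 1) *
        ((2 ^ (2 * m + 1)) ^ 6 + 1)) Nat.prime_two (LieOrd.nd_one Nat.prime_two)
      (LieOrd.nd_mul Nat.prime_two (LieOrd.nd_mul Nat.prime_two (LieOrd.nd_mul Nat.prime_two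
        (LieOrd.nd_sub1 Nat.prime_two h2 hpq) (LieOrd.nd_add Nat.prime_two hpq (by norm_num)))
        (LieOrd.nd_sub Nat.prime_two h2 hpq (by norm_num)))
        (LieOrd.nd_add Nat.prime_two hpq (by norm_num))) ?_ (by rw [hG]; ring)
      Nat.card_pos.ne').1
    rw [one_mul]
    have hq0 : 0 < 2 ^ (2 * m + 1) := by positivity
    calc (2 ^ (2 * m + 1) - 1) * ((2 ^ (2 * m + 1)) ^ 3 + 1) * ((2 ^ (2 * m + 1)) ^ 4 - 1) *
          ((2 ^ (2 * m + 1)) ^ 6 + 1)
        < 2 ^ (2 * m + 1) * (2 ^ (2 * m + 1)) ^ (3 + 1) * (2 ^ (2 * m + 1)) ^ 4 *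
            (2 ^ (2 * m + 1)) ^ (6 + 1) :=
          LieOrd.mul_lt_of (LieOrd.mul_lt_of (LieOrd.mul_lt_of (LieOrd.sub1_lt h2)
            (LieOrd.add_le_pow h2 (by norm_num)) (by positivity)) LieOrd.sub_le_pow (by positivity))
            (LieOrd.add_le_pow h2 (by norm_num)) (by positivity)
      _ = (2 ^ (2 * m + 1)) ^ 16 := by ring
  let S₀ : Sylow 2 ↥(twistedF4 K (2 ^ m)) := Sylow.ofCard P (by rw [hPc, hfac, ← pow_mul])
  obtain ⟨j, hj⟩ := hx
  have hpg : IsPGroup 2 (Subgroup.zpowers x) := IsPGroup.of_card (n := j) (by rw [Nat.card_zpowers, hj])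
  obtain ⟨Q, hQ⟩ := hpg.exists_le_sylow
  obtain ⟨g, hgQ⟩ := MulAction.exists_smul_eq ↥(twistedF4 K (2 ^ m)) S₀ Q
  have hxQ : x ∈ (Q : Subgroup ↥(twistedF4 K (2 ^ m))) := hQ (Subgroup.mem_zpowers x)
  rw [← hgQ, Sylow.coe_subgroup_smul, Subgroup.mem_pointwise_smul_iff_inv_smul_mem] at hxQ
  have hy : g⁻¹ * x * g ∈ P := by
    have e : (MulAut.conj g)⁻¹ • x = g⁻¹ * x * g := by
      rw [MulAut.smul_def, MulAut.conj_inv_apply]
    rw [← e]
    exact hxQ
  have hyU : ((g⁻¹ * x * g : ↥(twistedF4 K (2 ^ m))) : GL chevF4.Idx K) ∈ chevF4.posUnipotent K :=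
    (Subgroup.mem_subgroupOf.1 hy).1
  have hpow : (g⁻¹ * x * g) ^ 32 = 1 := by
    apply Subtype.ext
    rw [Subgroup.coe_pow]
    exact f4_unip_pow _ hyU
  have hx32 : x ^ 32 = 1 := by
    have e : x = g * (g⁻¹ * x * g) * g⁻¹ := by group
    rw [e, conj_pow, hpow, mul_one, mul_inv_cancel]
  exact Nat.le_of_dvd (by norm_num) (orderOf_dvd_of_pow_eq_one hx32)

end Cfsg.Agent.Lib.Helper18
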