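import Cfsg.Agent.Lib.Helper18.F4Ord

set_option autoImplicit false

/-!
# The order of the Ree group `²F₄`: the cells
-/

namespace Cfsg.Agent.Lib.Helper18

open Cfsg Cfsg.Lie Cfsg.Lie.ChevalleyDatum
open Cfsg.Agent.Lib.Helper17 (oprodL f4L f4Free f4Ext)

section

variable {K : Type*} [Field K]

namespace F4Bot

variable [CharP K 2] [Fintype K] {m : ℕ} {T : F4Tw K m}

/-- `B¹ = H¹ U¹` -/
theorem borel_dec (B : F4Bot T) (hK : Fintype.card K = 2 ^ (2 * m + 1)) (b : GL chevF4.Idx K)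
    (hb : b ∈ chevF4.borelSubgroup K ⊓ twistedF4 K (2 ^ m)) :
    ∃ h ∈ chevF4.diagonalSubgroup K ⊓ twistedF4 K (2 ^ m),
      ∃ u ∈ chevF4.posUnipotent K ⊓ twistedF4 K (2 ^ m), b = h * u := by
  obtain ⟨hbB, hbG⟩ := Subgroup.mem_inf.mp hb
  have he : 2 ^ m ≠ 0 := by positivity
  have hHB : chevF4.diagonalSubgroup K ≤ chevF4.borelSubgroup K := le_sup_right
  have hUB : chevF4.posUnipotent K ≤ chevF4.borelSubgroup K := le_sup_left
  obtain ⟨c, hc, u', hu', h, hh, u, hu, e⟩ := B.cells hK b hbG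
  obtain ⟨hu'U, hu'G⟩ := Subgroup.mem_inf.mp hu'
  obtain ⟨huM, huG⟩ := Subgroup.mem_inf.mp hu
  have huU := uMinus_le_posUnipotent chevF4 _ huM
  obtain ⟨hhH, hhG⟩ := Subgroup.mem_inf.mp hh
  have hcG := f4nC_mem_tw (K := K) (2 ^ m) he c
  have e3 : (f4nC c : GL chevF4.Idx K) = ((u' * h)⁻¹ * b) * 1 * u⁻¹ := by
    rw [e]
    group
  have hd := Cfsg.Agent.Lib.Helper36.bruhat_unique chevF4 f4mem 1 (f4nC c) _ _ (one_mem _)
    (f4nC_mem_monomial c)
    (Subgroup.mul_mem _ (Subgroup.inv_mem _ (Subgroup.mul_mem _ (hUB hu'U) (hHB hhH))) hbB)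
    (Subgroup.inv_mem _ (hUB huU)) e3
  rw [inv_one, one_mul] at hd
  have hh' : h * f4nC c ∈ chevF4.diagonalSubgroup K := mul_mem hhH hd
  have hnorm := (Cfsg.Agent.S1036.result (F := K) chevF4 f4mem).1
  have h1 : (h * f4nC c)⁻¹ * u' * (h * f4nC c) ∈ chevF4.posUnipotent K := by
    have h2 := (Subgroup.mem_normalizer_iff.mp (inv_mem (hnorm hh')) u').mp hu'U
    rwa [inv_inv] at h2
  refine ⟨h * f4nC c, Subgroup.mem_inf.mpr ⟨hh', mul_mem hhG hcG⟩,
    (h * f4nC c)⁻¹ * u' * (h * f4nC c) * u, Subgroup.mem_inf.mpr ⟨mul_mem h1 huU,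
      mul_mem (mul_mem (mul_mem (inv_mem (mul_mem hhG hcG)) hu'G) (mul_mem hhG hcG)) huG⟩, ?_⟩
  rw [e]
  group

/-- `|B¹| = |H¹| |U¹|` -/
theorem card_borel (B : F4Bot T) (hK : Fintype.card K = 2 ^ (2 * m + 1)) :
    Nat.card ↥(chevF4.borelSubgroup K ⊓ twistedF4 K (2 ^ m)) =
      Nat.card ↥(chevF4.diagonalSubgroup K ⊓ twistedF4 K (2 ^ m)) *
        Nat.card ↥(chevF4.posUnipotent K ⊓ twistedF4 K (2 ^ m)) := by
  have hHB : chevF4.diagonalSubgroup K ≤ chevF4.borelSubgroup K := le_sup_right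
  have hUB : chevF4.posUnipotent K ≤ chevF4.borelSubgroup K := le_sup_left
  let f : ↥(chevF4.diagonalSubgroup K ⊓ twistedF4 K (2 ^ m)) ×
      ↥(chevF4.posUnipotent K ⊓ twistedF4 K (2 ^ m)) →
      ↥(chevF4.borelSubgroup K ⊓ twistedF4 K (2 ^ m)) := fun p =>
    ⟨(p.1 : GL chevF4.Idx K) * (p.2 : GL chevF4.Idx K), Subgroup.mem_inf.mpr
      ⟨mul_mem (hHB (Subgroup.mem_inf.mp p.1.2).1) (hUB (Subgroup.mem_inf.mp p.2.2).1),
        mul_mem (Subgroup.mem_inf.mp p.1.2).2 (Subgroup.mem_inf.mp p.2.2).2⟩⟩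
  have hf : Function.Bijective f := by
    constructor
    · rintro ⟨h, u⟩ ⟨h', u'⟩ e
      have e1 : (h : GL chevF4.Idx K) * (u : GL chevF4.Idx K) =
          (h' : GL chevF4.Idx K) * (u' : GL chevF4.Idx K) := congrArg Subtype.val e
      have h1 : (u' : GL chevF4.Idx K) * (u : GL chevF4.Idx K)⁻¹ ∈
          chevF4.posUnipotent K ⊓ chevF4.diagonalSubgroup K := by
        refine Subgroup.mem_inf.mpr ⟨mul_mem (Subgroup.mem_inf.mp u'.2).1
          (inv_mem (Subgroup.mem_inf.mp u.2).1), ?_⟩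
        have e2 : (u' : GL chevF4.Idx K) * (u : GL chevF4.Idx K)⁻¹ =
            (h' : GL chevF4.Idx K)⁻¹ * (h : GL chevF4.Idx K) := by
          rw [eq_inv_mul_iff_mul_eq, ← mul_assoc, ← e1, mul_inv_cancel_right]
        rw [e2]
        exact mul_mem (inv_mem (Subgroup.mem_inf.mp h'.2).1) (Subgroup.mem_inf.mp h.2).1
      rw [(Cfsg.Agent.S1036.result chevF4 f4mem).2, Subgroup.mem_bot, mul_inv_eq_one] at h1
      have hu : u = u' := Subtype.ext h1.symm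
      subst hu
      have hh : h = h' := Subtype.ext (mul_right_cancel e1)
      rw [hh]
    · rintro ⟨b, hb⟩
      obtain ⟨h, hh, u, hu, e⟩ := B.borel_dec hK b hb
      exact ⟨(⟨h, hh⟩, ⟨u, hu⟩), Subtype.ext e.symm⟩
  rw [← Nat.card_congr (Equiv.ofBijective f hf), Nat.card_prod]

/-- the number of elements of a cell -/
theorem cell_ncard (B : F4Bot T) (hK : Fintype.card K = 2 ^ (2 * m + 1)) (τ : List ℕ)
    (hτ : ∀ r ∈ f4L, ∀ f ∈ f4Dep r,
      (chevF4.IsNegRoot (Cfsg.Agent.Lib.Helper36.wordF chevF4 (τ.flatMap f4Orb) f) ↔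
        chevF4.IsNegRoot (Cfsg.Agent.Lib.Helper36.wordF chevF4 (τ.flatMap f4Orb) r))) :
    (DoubleCoset.doubleCoset (f4nC τ : GL chevF4.Idx K)
      ((chevF4.borelSubgroup K ⊓ twistedF4 K (2 ^ m) : Subgroup (GL chevF4.Idx K)) :
        Set (GL chevF4.Idx K))
      ((chevF4.borelSubgroup K ⊓ twistedF4 K (2 ^ m) : Subgroup (GL chevF4.Idx K)) :
        Set (GL chevF4.Idx K))).ncard =
      Nat.card ↥(chevF4.borelSubgroup K ⊓ twistedF4 K (2 ^ m)) *
        Fintype.card K ^ (f4Free.filter (fun s => chevF4.IsNegRoot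
          (Cfsg.Agent.Lib.Helper36.wordF chevF4 (τ.flatMap f4Orb) s))).card := by
  classical
  have he : 2 ^ m ≠ 0 := by positivity
  have hHB : chevF4.diagonalSubgroup K ≤ chevF4.borelSubgroup K := le_sup_right
  have hUB : chevF4.posUnipotent K ≤ chevF4.borelSubgroup K := le_sup_left
  have hR := f4nC_rootAct (K := K) τ
  have hnG := f4nC_mem_tw (K := K) (2 ^ m) he τ
  have hπ : ∀ r < 48, wordPerm chevF4 f4mem (τ.flatMap f4Orb) r =
      Cfsg.Agent.Lib.Helper36.wordF chevF4 (τ.flatMap f4Orb) r :=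
    fun r hr => wordPerm_eq_wordF chevF4 f4mem _ r hr
  set S'' : Finset ℕ := f4Free.filter (fun s => chevF4.IsNegRoot
    (Cfsg.Agent.Lib.Helper36.wordF chevF4 (τ.flatMap f4Orb) s)) with hS''
  set S' : Finset ℕ := f4Free.filter (fun s => ¬ chevF4.IsNegRoot
    (Cfsg.Agent.Lib.Helper36.wordF chevF4 (τ.flatMap f4Orb) s)) with hS'
  have hBV : (chevF4.borelSubgroup K ⊓ twistedF4 K (2 ^ m)) ⊓ chevF4.negUnipotent K = ⊥ := by
    rw [eq_bot_iff, ← (Cfsg.Agent.S1037.result (F := K) chevF4 f4mem).1]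
    exact inf_le_inf_right _ inf_le_left
  have hneg'' : ∀ a : ↥S'' → K, (f4nC τ : GL chevF4.Idx K) * f4Fam m S'' a * (f4nC τ)⁻¹ ∈
      chevF4.negUnipotent K := by
    intro a
    apply f4Fam_conj_neg m S'' _ _ hR
    intro r hr hneg f hf hfS
    apply hneg
    rw [hπ r (f4L_lt r hr)]
    exact (hτ r hr f hf).mp (Finset.mem_filter.mp hfS).2
  have hpos' : ∀ a : ↥S' → K, (f4nC τ : GL chevF4.Idx K) * f4Fam m S' a * (f4nC τ)⁻¹ ∈
      chevF4.posUnipotent K := by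
    intro a
    apply f4Fam_conj_pos m S' _ _ hR
    intro r hr hpos f hf hfS
    have h1 : chevF4.IsNegRoot (Cfsg.Agent.Lib.Helper36.wordF chevF4 (τ.flatMap f4Orb) r) := by
      rw [← hπ r (f4L_lt r hr)]
      exact (f4_neg_iff_chk _ (hR.lt r (f4L_lt r hr))).mpr hpos
    exact (Finset.mem_filter.mp hfS).2 ((hτ r hr f hf).mpr h1)
  have key := Cfsg.Agent.Lib.Helper17.cell_card (G := GL chevF4.Idx K)
    (chevF4.borelSubgroup K ⊓ twistedF4 K (2 ^ m))
    (chevF4.posUnipotent K ⊓ twistedF4 K (2 ^ m)) (chevF4.negUnipotent K)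
    (chevF4.diagonalSubgroup K ⊓ twistedF4 K (2 ^ m))
    (inf_le_inf_right _ hUB) hBV
    (fun b hb => B.borel_dec hK b hb) (f4nC τ)
    (fun h hh => Subgroup.mem_inf.mpr ⟨hHB ((Subgroup.mem_normalizer_iff.mp
      (monomialSubgroup_le_normalizer chevF4 f4mem (f4nC_mem_monomial τ)) h).mp
        (Subgroup.mem_inf.mp hh).1), mul_mem (mul_mem hnG (Subgroup.mem_inf.mp hh).2)
          (inv_mem hnG)⟩)
    (f4Fam m S') (f4Fam m S'')
    (fun a => Subgroup.mem_inf.mpr ⟨f4Fam_mem_pos m S' a, f4Fam_mem_tw hK S' a⟩)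
    (fun a => Subgroup.mem_inf.mpr ⟨hpos' a,
      mul_mem (mul_mem hnG (f4Fam_mem_tw hK S' a)) (inv_mem hnG)⟩)
    (fun a => Subgroup.mem_inf.mpr ⟨f4Fam_mem_pos m S'' a, f4Fam_mem_tw hK S'' a⟩)
    (fun a b => by
      have e : (f4nC τ : GL chevF4.Idx K) * (f4Fam m S'' a * (f4Fam m S'' b)⁻¹) * (f4nC τ)⁻¹ =
          ((f4nC τ : GL chevF4.Idx K) * f4Fam m S'' a * (f4nC τ)⁻¹) *
            ((f4nC τ : GL chevF4.Idx K) * f4Fam m S'' b * (f4nC τ)⁻¹)⁻¹ := by group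
      rw [e]
      exact mul_mem (hneg'' a) (inv_mem (hneg'' b)))
    ⟨fun _ => 0, f4Fam_zero m S''⟩
    (f4Fam_inj m S' (Finset.filter_subset _ _)) (f4Fam_inj m S'' (Finset.filter_subset _ _))
    (by
      rw [Cfsg.Agent.Lib.Helper17.F4Tw.card_unip (Cfsg.Agent.Lib.Helper17.tw17 T) hK,
        Nat.card_eq_fintype_card, Nat.card_eq_fintype_card, Fintype.card_fun, Fintype.card_fun,
        Fintype.card_coe, Fintype.card_coe, ← pow_add, hK]
      have h12 : S'.card + S''.card = 12 := by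
        rw [add_comm, hS', hS'', Finset.card_filter_add_card_filter_not, f4Free_card]
      rw [h12])
  rw [key, Nat.card_eq_fintype_card (α := ↥S'' → K), Fintype.card_fun, Fintype.card_coe]

end F4Bot

end

end Cfsg.Agent.Lib.Helper18
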