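import Cfsg.Agent.Lib.Helper36.ChevGrF4b
import Cfsg.Agent.Lib.Helper18.F4Defs
import Cfsg.Agent.Lib.Helper18.ReeSigma

set_option autoImplicit false

/-!
# Existence of the twisting endomorphism of `F₄` in characteristic 2

The composite of the exceptional graph endomorphism and a power of the Frobenius map.
-/

namespace Cfsg.Agent.Lib.Helper18

open Cfsg Cfsg.Lie

theorem f4_tables_agree : ∀ r < 48,
    Cfsg.Agent.Lib.Helper36.f4ρ r = f4ρ r ∧ Cfsg.Agent.Lib.Helper36.f4lam r = f4lam r := by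
  decide

section

variable {K : Type*} [Field K]

/-- the field automorphism `t ↦ t ^ 2 ^ m` on the group -/
noncomputable def f4Frob [CharP K 2] (m : ℕ) : ↥(chevF4.group K) →* ↥(chevF4.group K) :=
  haveI : ExpChar K 2 := ExpChar.prime (by norm_num)
  ((Cfsg.Agent.Lib.Helper36.glMap chevF4 (iterateFrobenius K 2 m)).comp
    (chevF4.group K).subtype).codRestrict (chevF4.group K)
      (fun g => Cfsg.Agent.Lib.Helper36.glMap_group chevF4 _ g.1 g.2)

theorem f4Frob_x [CharP K 2] (m r : ℕ) (t : K) : f4Frob m (f4x r t) = f4x r (t ^ 2 ^ m) := by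
  haveI : ExpChar K 2 := ExpChar.prime (by norm_num)
  apply Subtype.ext
  show Cfsg.Agent.Lib.Helper36.glMap chevF4 (iterateFrobenius K 2 m) (xU chevF4 f4mem r t) =
    xU chevF4 f4mem r (t ^ 2 ^ m)
  rw [Cfsg.Agent.Lib.Helper36.glMap_xU, iterateFrobenius_def]

/-- the twisting endomorphism exists in characteristic 2 -/
theorem exists_f4Tw [CharP K 2] (m : ℕ) : Nonempty (F4Tw K m) :=
  ⟨{ σ := Cfsg.Agent.Lib.Helper36.f4φ.comp (f4Frob m)
     hσ := fun r hr t => by
       rw [MonoidHom.comp_apply, f4Frob_x]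
       have h := Cfsg.Agent.Lib.Helper36.f4φ_x (K := K) r hr (t ^ 2 ^ m)
       rw [(f4_tables_agree r hr).1, (f4_tables_agree r hr).2, ← pow_mul, mul_comm] at h
       exact h }⟩

end

end Cfsg.Agent.Lib.Helper18
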