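import Cfsg.Agent.Lib.Helper18.F4Final
import Cfsg.Agent.S0319
import Cfsg.Agent.S1050

set_option autoImplicit false

/-!
# The Ree groups `²F₄(2^(2m+1))` are simple when they are perfect

Tits' criterion (`S0319`) for the `(B, N)`-pair of rank two of `Lib.Helper18.F4BN`.
-/

namespace Cfsg.Agent.Lib.Helper18

open Cfsg Cfsg.Lie Cfsg.Lie.ChevalleyDatum

set_option maxRecDepth 100000 in
theorem f4_comm_chk : ¬ ∀ s < 48,
    Cfsg.Agent.Lib.Helper36.wordF chevF4 ([1, 0].flatMap f4Orb) s =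
      Cfsg.Agent.Lib.Helper36.wordF chevF4 ([0, 1].flatMap f4Orb) s := by decide +kernel

section

variable {K : Type*} [Field K]

/-- the commutator of `n₁` and `n₂` is not in `B` -/
theorem f4_comm_not_mem :
    (f4nC [0] : GL chevF4.Idx K) * f4nC [1] * (f4nC [0])⁻¹ * (f4nC [1])⁻¹ ∉
      chevF4.borelSubgroup K := by
  intro hB
  have hN : (f4nC [0] : GL chevF4.Idx K) * f4nC [1] * (f4nC [0])⁻¹ * (f4nC [1])⁻¹ ∈
      chevF4.monomialSubgroup K :=
    mul_mem (mul_mem (mul_mem (f4nC_mem_monomial _) (f4nC_mem_monomial _))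
      (inv_mem (f4nC_mem_monomial _))) (inv_mem (f4nC_mem_monomial _))
  have hH : (f4nC [0] : GL chevF4.Idx K) * f4nC [1] * (f4nC [0])⁻¹ * (f4nC [1])⁻¹ ∈
      chevF4.diagonalSubgroup K := by
    rw [← (Cfsg.Agent.S1040.result (F := K) chevF4 f4mem).2]
    exact Subgroup.mem_inf.mpr ⟨hB, hN⟩
  have hba : (f4nC [1] : GL chevF4.Idx K) * f4nC [0] ∈ chevF4.monomialSubgroup K :=
    mul_mem (f4nC_mem_monomial _) (f4nC_mem_monomial _)
  have h1 := (Subgroup.mem_normalizer_iff.mp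
    (inv_mem (monomialSubgroup_le_normalizer chevF4 f4mem hba)) _).mp hH
  rw [inv_inv] at h1
  have e : ((f4nC [1] : GL chevF4.Idx K) * f4nC [0])⁻¹ *
      ((f4nC [0] : GL chevF4.Idx K) * f4nC [1] * (f4nC [0])⁻¹ * (f4nC [1])⁻¹) *
      ((f4nC [1] : GL chevF4.Idx K) * f4nC [0]) =
      (f4nC [1, 0] : GL chevF4.Idx K)⁻¹ * f4nC [0, 1] := by
    rw [f4nC_cons 1 [0], f4nC_cons 0 [1]]
    group
  rw [e] at h1
  exact f4_comm_chk (f4nC_inv_mul_mem_diag [1, 0] [0, 1] h1)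

theorem f4u1_ne_one [CharP K 2] : (f4u1 : GL chevF4.Idx K) ≠ 1 := by
  intro h
  apply (f4u1_entry (K := K)).1
  rw [h, Units.val_one]
  exact Matrix.one_apply_ne (by simp)

theorem F4Bot.simple [CharP K 2] [Fintype K] {m : ℕ} {T : F4Tw K m} (B : F4Bot T)
    (hK : Fintype.card K = 2 ^ (2 * m + 1))
    (hperf : commutator ↥(twistedF4 K (2 ^ m)) = ⊤) :
    IsSimpleGroup ↥(twistedF4 K (2 ^ m)) ∧ ¬ IsMulCommutative ↥(twistedF4 K (2 ^ m)) := by
  obtain ⟨P, hPB, -, hPS⟩ := B.exists_bnpair hK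
  have hθ : (2 : ℕ) ^ m ≠ 0 := pow_ne_zero _ (by norm_num)
  have hxG : (f4u1 : GL chevF4.Idx K) ∈ twistedF4 K (2 ^ m) := f4u1_mem_tw _ hθ
  have hx1 : (⟨_, hxG⟩ : ↥(twistedF4 K (2 ^ m))) ≠ 1 := by
    intro h
    exact f4u1_ne_one (congrArg Subtype.val h)
  have hnt : Nontrivial ↥(twistedF4 K (2 ^ m)) := ⟨⟨_, 1, hx1⟩⟩
  have hsolv : Group.IsSolvable ↥P.B := by
    rw [hPB]
    have := Cfsg.Agent.S1050.result (F := K) chevF4 f4mem
    let f : ↥((chevF4.borelSubgroup K ⊓ twistedF4 K (2 ^ m)).subgroupOf (twistedF4 K (2 ^ m))) →*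
        ↥(chevF4.borelSubgroup K) :=
      { toFun := fun a => ⟨a.1.1, (Subgroup.mem_inf.mp (Subgroup.mem_subgroupOf.mp a.2)).1⟩
        map_one' := rfl
        map_mul' := fun _ _ => rfl }
    have hf : Function.Injective f := by
      intro a b hab
      apply Subtype.ext
      apply Subtype.ext
      have h1 : ((f a : ↥(chevF4.borelSubgroup K)) : GL chevF4.Idx K) =
          (f b : ↥(chevF4.borelSubgroup K)) := congrArg Subtype.val hab
      exact h1
    exact Group.isSolvable_of_isSolvable_injective hf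
  have hcore : P.B.normalCore = ⊥ := by
    rw [hPB, eq_bot_iff]
    intro z hz
    rw [Subgroup.mem_bot]
    apply Subtype.ext
    apply f4_core (2 ^ m) hθ
    intro g hg
    have h1 := hz ⟨g, hg⟩
    have h2 : ((⟨g, hg⟩ * z * (⟨g, hg⟩ : ↥(twistedF4 K (2 ^ m)))⁻¹ : ↥(twistedF4 K (2 ^ m))) :
        GL chevF4.Idx K) ∈ chevF4.borelSubgroup K ⊓ twistedF4 K (2 ^ m) := h1
    exact (Subgroup.mem_inf.mp h2).1
  have hirr : P.Irreducible := by
    intro J hJ hJne hJc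
    obtain ⟨s, hs⟩ := hJne
    obtain ⟨s', hs', hs'J⟩ := hJc
    have hsS := hJ hs
    rw [hPS] at hsS hs'
    obtain ⟨k, hk, hsk⟩ := hsS
    obtain ⟨k', hk', hsk'⟩ := hs'
    have hs'mem : s' ∈ P.S \ J := by
      rw [hPS]
      exact ⟨⟨k', hk', hsk'⟩, hs'J⟩
    refine ⟨s, hs, s', hs'mem, ?_⟩
    rw [hPB, Subgroup.mem_subgroupOf]
    intro hmem
    have hmem' := (Subgroup.mem_inf.mp hmem).1
    simp only [Subgroup.coe_mul, Subgroup.coe_inv] at hmem'
    rw [hsk, hsk'] at hmem'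
    have hne : k ≠ k' := by
      rintro rfl
      apply hs'J
      have : s' = s := Subtype.ext (hsk'.trans hsk.symm)
      rw [this]
      exact hs
    interval_cases k <;> interval_cases k'
    · exact hne rfl
    · exact f4_comm_not_mem hmem'
    · apply f4_comm_not_mem (K := K)
      have h3 := inv_mem hmem'
      have e : ((f4nC [1] : GL chevF4.Idx K) * f4nC [0] * (f4nC [1])⁻¹ * (f4nC [0])⁻¹)⁻¹ =
          (f4nC [0] : GL chevF4.Idx K) * f4nC [1] * (f4nC [0])⁻¹ * (f4nC [1])⁻¹ := by group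
      rwa [e] at h3
    · exact hne rfl
  refine ⟨Cfsg.Agent.S0319.result P hirr hsolv hperf hcore, fun hcomm => ?_⟩
  have hbot : commutator ↥(twistedF4 K (2 ^ m)) = ⊥ := by
    rw [commutator_def, Subgroup.commutator_eq_bot_iff_le_centralizer]
    intro a _
    rw [Subgroup.mem_centralizer_iff]
    intro b _
    exact hcomm.is_comm.comm b a
  rw [hperf] at hbot
  have : (⟨_, hxG⟩ : ↥(twistedF4 K (2 ^ m))) ∈ (⊤ : Subgroup ↥(twistedF4 K (2 ^ m))) :=
    Subgroup.mem_top _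
  rw [hbot, Subgroup.mem_bot] at this
  exact hx1 this

end

end Cfsg.Agent.Lib.Helper18
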