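import Cfsg.Agent.Lib.Helper18.F4Tw1
import Cfsg.Agent.Lib.Helper18.ReeTw2

set_option autoImplicit false

/-!
# The Weyl group elements of `F₄` commuting with the exceptional graph symmetry

A product of fundamental reflections commuting with `ρ` is a product of the elements
`w₁ = s₁ s₄` and `w₂ = (s₂ s₃)²` (which generate a dihedral group of order 16).
-/

namespace Cfsg.Agent.Lib.Helper18

open Cfsg Cfsg.Lie Cfsg.Lie.ChevalleyDatum

/-- the words of `w₁ = s₁ s₄` and `w₂ = (s₂ s₃)²` -/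
def f4Orb (k : ℕ) : List (Fin chevF4.rank) :=
  match k with
  | 0 => [⟨0, by decide⟩, ⟨3, by decide⟩]
  | _ => [⟨1, by decide⟩, ⟨2, by decide⟩, ⟨1, by decide⟩, ⟨2, by decide⟩]

set_option maxRecDepth 100000 in
theorem f4_pair_chk :
    ∀ p ∈ [((0 : ℕ), (3 : ℕ)), (3, 0)],
      f4ρ (chevF4.simple p.1) = chevF4.simple p.2 ∧
      chevF4.reflectRoot p.1 (chevF4.simple p.2) = chevF4.simple p.2 ∧
      ∀ s < 48, chevF4.reflectRoot p.1 (chevF4.reflectRoot p.2 (f4ρ s)) =
          f4ρ (chevF4.reflectRoot p.1 (chevF4.reflectRoot p.2 s)) ∧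
        chevF4.reflectRoot p.1 (chevF4.reflectRoot p.2 s) =
          chevF4.reflectRoot p.2 (chevF4.reflectRoot p.1 s) := by decide +kernel

set_option maxRecDepth 100000 in
theorem f4_b2_chk :
    chevF4.simple 1 = 27 ∧ chevF4.simple 2 = 25 ∧ f4ρ 27 = 25 ∧ f4ρ 25 = 27 ∧ f4ρ 28 = 30 ∧
    chevF4.chainRoot 27 25 1 = some 28 ∧
    chevF4.reflectRoot 1 25 = 30 ∧ chevF4.reflectRoot 2 27 = 28 ∧ chevF4.reflectRoot 1 28 = 28 ∧
    chevF4.reflectRoot 2 30 = 30 ∧ chevF4.reflectRoot 1 30 = 25 ∧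
    (∀ s < 48,
      chevF4.reflectRoot 1 (chevF4.reflectRoot 2 (chevF4.reflectRoot 1
          (chevF4.reflectRoot 2 (f4ρ s)))) =
        f4ρ (chevF4.reflectRoot 1 (chevF4.reflectRoot 2 (chevF4.reflectRoot 1
          (chevF4.reflectRoot 2 s)))) ∧
      chevF4.reflectRoot 1 (chevF4.reflectRoot 2 (chevF4.reflectRoot 1 (chevF4.reflectRoot 2
        (chevF4.reflectRoot 1 (chevF4.reflectRoot 2 (chevF4.reflectRoot 1
          (chevF4.reflectRoot 2 s))))))) = s) := by decide +kernel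

set_option maxRecDepth 100000 in
theorem f4_chain_refl_chk : ∀ i < 4, ∀ r < 48, ∀ s < 48,
    (chevF4.chainRoot r s 1).map (chevF4.reflectRoot i) =
      chevF4.chainRoot (chevF4.reflectRoot i r) (chevF4.reflectRoot i s) 1 := by decide +kernel

set_option maxRecDepth 100000 in
theorem f4_chain_neg_chk : ∀ r < 48, ∀ s < 48, chevF4.IsNegRoot r → chevF4.IsNegRoot s →
    ((chevF4.chainRoot r s 1).all fun t => decide (chevF4.IsNegRoot t)) = true := by
  decide +kernel

theorem f4_neg_iff_chk : ∀ r < 48, (chevF4.IsNegRoot r ↔ ¬ chevF4.IsPosRoot r) := by decide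

theorem f4_refl_lt (i : ℕ) (hi : i < chevF4.rank) (s : ℕ) (hs : s < 48) :
    chevF4.reflectRoot i s < 48 := (reflect_facts chevF4 f4mem i hi).1 s hs

theorem f4_wordPerm_lt (l : List (Fin chevF4.rank)) (s : ℕ) (hs : s < 48) :
    wordPerm chevF4 f4mem l s < 48 := (rootAct_wordN (F := ℚ) chevF4 f4mem l).lt s hs

theorem f4_reflPerm_comm (a b : ℕ) (ha : a < chevF4.rank) (hb : b < chevF4.rank)
    (h : (a, b) ∈ [((0 : ℕ), (3 : ℕ)), (3, 0)]) :
    reflPerm chevF4 f4mem a ha * reflPerm chevF4 f4mem b hb =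
      reflPerm chevF4 f4mem b hb * reflPerm chevF4 f4mem a ha := by
  ext s
  by_cases hs : s < 48
  · rw [Equiv.Perm.mul_apply, Equiv.Perm.mul_apply, reflPerm_apply _ _ b hb s hs,
      reflPerm_apply _ _ a ha s hs, reflPerm_apply _ _ a ha _ (f4_refl_lt b hb s hs),
      reflPerm_apply _ _ b hb _ (f4_refl_lt a ha s hs)]
    exact ((f4_pair_chk (a, b) h).2.2 s hs).2
  · have hs' : chevF4.nroots ≤ s := Nat.le_of_not_lt hs
    rw [Equiv.Perm.mul_apply, Equiv.Perm.mul_apply, reflPerm_apply_ge _ _ b hb s hs',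
      reflPerm_apply_ge _ _ a ha s hs', reflPerm_apply_ge _ _ b hb s hs']

/-- the permutation of `w₂` -/
theorem f4_orb1_apply (s : ℕ) (hs : s < 48) :
    wordPerm chevF4 f4mem (f4Orb 1) s =
      chevF4.reflectRoot 1 (chevF4.reflectRoot 2 (chevF4.reflectRoot 1
        (chevF4.reflectRoot 2 s))) := by
  have e : wordPerm chevF4 f4mem (f4Orb 1) = reflPerm chevF4 f4mem 1 (by decide) *
      (reflPerm chevF4 f4mem 2 (by decide) * (reflPerm chevF4 f4mem 1 (by decide) *
        reflPerm chevF4 f4mem 2 (by decide))) := by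
    show wordPerm chevF4 f4mem
      [⟨1, by decide⟩, ⟨2, by decide⟩, ⟨1, by decide⟩, ⟨2, by decide⟩] = _
    rw [wordPerm_cons, wordPerm_cons, wordPerm_cons, wordPerm_single]
  have h1 := f4_refl_lt 2 (by decide) s hs
  have h2 := f4_refl_lt 1 (by decide) _ h1
  have h3 := f4_refl_lt 2 (by decide) _ h2
  rw [e, Equiv.Perm.mul_apply, Equiv.Perm.mul_apply, Equiv.Perm.mul_apply,
    reflPerm_apply chevF4 f4mem 2 (by decide) s hs,
    reflPerm_apply chevF4 f4mem 1 (by decide) (chevF4.reflectRoot 2 s) h1,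
    reflPerm_apply chevF4 f4mem 2 (by decide) (chevF4.reflectRoot 1 (chevF4.reflectRoot 2 s)) h2,
    reflPerm_apply chevF4 f4mem 1 (by decide)
      (chevF4.reflectRoot 2 (chevF4.reflectRoot 1 (chevF4.reflectRoot 2 s))) h3]

theorem f4_orb1_sq : wordPerm chevF4 f4mem (f4Orb 1) * wordPerm chevF4 f4mem (f4Orb 1) = 1 := by
  ext s
  by_cases hs : s < 48
  · rw [Equiv.Perm.mul_apply, f4_orb1_apply s hs, f4_orb1_apply _ (by
      rw [← f4_orb1_apply s hs]; exact f4_wordPerm_lt _ s hs)]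
    exact (f4_b2_chk.2.2.2.2.2.2.2.2.2.2.2 s hs).2
  · have hge := (rootAct_wordN (F := ℚ) chevF4 f4mem (f4Orb 1)).ge s (Nat.le_of_not_lt hs)
    rw [Equiv.Perm.mul_apply, hge, hge]
    rfl

/-- the equivariance of root sums under products of reflections -/
theorem f4_chain_word (l : List (Fin chevF4.rank)) (r s t : ℕ) (hr : r < 48) (hs : s < 48)
    (ht : t < 48) (h : chevF4.chainRoot r s 1 = some t) :
    chevF4.chainRoot (wordPerm chevF4 f4mem l r) (wordPerm chevF4 f4mem l s) 1 =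
      some (wordPerm chevF4 f4mem l t) := by
  induction l with
  | nil => simpa [wordPerm_nil] using h
  | cons i l ih =>
    rw [wordPerm_cons, Equiv.Perm.mul_apply, Equiv.Perm.mul_apply, Equiv.Perm.mul_apply,
      reflPerm_apply _ _ _ _ _ (f4_wordPerm_lt l r hr),
      reflPerm_apply _ _ _ _ _ (f4_wordPerm_lt l s hs),
      reflPerm_apply _ _ _ _ _ (f4_wordPerm_lt l t ht),
      ← f4_chain_refl_chk i.val i.isLt _ (f4_wordPerm_lt l r hr) _ (f4_wordPerm_lt l s hs), ih]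
    rfl

theorem f4ρ_pos_iff (r : ℕ) (hr : r < 48) : chevF4.IsPosRoot (f4ρ r) ↔ chevF4.IsPosRoot r := by
  constructor
  · intro h
    have h1 := (f4ρ_chk _ (f4ρ_chk r hr).1).2.1 h
    rwa [(f4ρ_chk r hr).2.2.2.2.2.2.1] at h1
  · exact (f4ρ_chk r hr).2.1

end Cfsg.Agent.Lib.Helper18
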