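import Cfsg.Agent.Lib.Helper18.F4Tw2

set_option autoImplicit false

/-!
# Words commuting with the exceptional symmetry of `F₄`

A product of fundamental reflections of `F₄` commuting with `ρ` is a product of the two elements
`w₁ = s₁ s₄` and `w₂ = (s₂ s₃)²`.
-/

namespace Cfsg.Agent.Lib.Helper18

open Cfsg Cfsg.Lie Cfsg.Lie.ChevalleyDatum

theorem f4_orb0_eq : wordPerm chevF4 f4mem (f4Orb 0) =
    reflPerm chevF4 f4mem 0 (by decide) * reflPerm chevF4 f4mem 3 (by decide) := by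
  show wordPerm chevF4 f4mem [⟨0, by decide⟩, ⟨3, by decide⟩] = _
  rw [wordPerm_cons, wordPerm_single]

theorem f4_orb1_eq : wordPerm chevF4 f4mem (f4Orb 1) = reflPerm chevF4 f4mem 1 (by decide) *
    (reflPerm chevF4 f4mem 2 (by decide) * (reflPerm chevF4 f4mem 1 (by decide) *
      reflPerm chevF4 f4mem 2 (by decide))) := by
  show wordPerm chevF4 f4mem
    [⟨1, by decide⟩, ⟨2, by decide⟩, ⟨1, by decide⟩, ⟨2, by decide⟩] = _
  rw [wordPerm_cons, wordPerm_cons, wordPerm_cons, wordPerm_single]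

theorem f4_orb1_comm (s : ℕ) (hs : s < 48) :
    wordPerm chevF4 f4mem (f4Orb 1) (f4ρ s) = f4ρ (wordPerm chevF4 f4mem (f4Orb 1) s) := by
  rw [f4_orb1_apply s hs, f4_orb1_apply _ (f4ρ_chk s hs).1]
  exact (f4_b2_chk.2.2.2.2.2.2.2.2.2.2.2 s hs).1

theorem f4_orb0_comm (s : ℕ) (hs : s < 48) :
    wordPerm chevF4 f4mem (f4Orb 0) (f4ρ s) = f4ρ (wordPerm chevF4 f4mem (f4Orb 0) s) := by
  rw [f4_orb0_eq, Equiv.Perm.mul_apply, Equiv.Perm.mul_apply,
    reflPerm_apply chevF4 f4mem 3 (by decide) _ (f4ρ_chk s hs).1,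
    reflPerm_apply chevF4 f4mem 3 (by decide) s hs,
    reflPerm_apply chevF4 f4mem 0 (by decide) _ (f4_refl_lt 3 (by decide) _ (f4ρ_chk s hs).1),
    reflPerm_apply chevF4 f4mem 0 (by decide) _ (f4_refl_lt 3 (by decide) s hs)]
  exact ((f4_pair_chk (0, 3) (by decide)).2.2 s hs).1

/-- The induction step of `f4_comb` at a node of the pair `{1, 4}`. -/
theorem f4_comb_pair (k : ℕ)
    (ih : ∀ m < k, ∀ l : List (Fin chevF4.rank), l.length = m →
      (∀ s < 48, wordPerm chevF4 f4mem l (f4ρ s) = f4ρ (wordPerm chevF4 f4mem l s)) →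
      ∃ c : List ℕ, (∀ i ∈ c, i < 2) ∧
        wordPerm chevF4 f4mem l = wordPerm chevF4 f4mem (c.flatMap f4Orb))
    (l : List (Fin chevF4.rank)) (hlen : l.length = k)
    (hcomm : ∀ s < 48, wordPerm chevF4 f4mem l (f4ρ s) = f4ρ (wordPerm chevF4 f4mem l s))
    (j j' : Fin chevF4.rank)
    (horb : wordPerm chevF4 f4mem (f4Orb 0) =
      reflPerm chevF4 f4mem j'.val j'.isLt * reflPerm chevF4 f4mem j.val j.isLt)
    (hp : (j.val, j'.val) ∈ [((0 : ℕ), (3 : ℕ)), (3, 0)])
    (hj : ¬ chevF4.IsPosRoot (wordPerm chevF4 f4mem l (chevF4.simple j.val))) :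
    ∃ c : List ℕ, (∀ i ∈ c, i < 2) ∧
      wordPerm chevF4 f4mem l = wordPerm chevF4 f4mem (c.flatMap f4Orb) := by
  obtain ⟨hp1, hp2, hp3⟩ := f4_pair_chk (j.val, j'.val) hp
  have hsj : chevF4.simple j.val < 48 := simple_lt_nroots chevF4 f4mem j.val j.isLt
  have hsj' : chevF4.simple j'.val < 48 := simple_lt_nroots chevF4 f4mem j'.val j'.isLt
  have hj' : ¬ chevF4.IsPosRoot (wordPerm chevF4 f4mem l (chevF4.simple j'.val)) := by
    rw [← hp1, hcomm _ hsj]
    intro hpos
    exact hj ((f4ρ_pos_iff _ (f4_wordPerm_lt l _ hsj)).mp hpos)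
  obtain ⟨l', hlen', hw'⟩ := wordPerm_exchange chevF4 f4mem l j hj
  have hj'' : ¬ chevF4.IsPosRoot (wordPerm chevF4 f4mem l' (chevF4.simple j'.val)) := by
    rw [hw', Equiv.Perm.mul_apply, reflPerm_apply _ _ _ _ _ hsj', hp2]
    exact hj'
  obtain ⟨l'', hlen'', hw''⟩ := wordPerm_exchange chevF4 f4mem l' j' hj''
  have hcomm'' : ∀ s < 48,
      wordPerm chevF4 f4mem l'' (f4ρ s) = f4ρ (wordPerm chevF4 f4mem l'' s) := by
    intro s hs
    rw [hw'', hw', Equiv.Perm.mul_apply, Equiv.Perm.mul_apply, Equiv.Perm.mul_apply,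
      Equiv.Perm.mul_apply, reflPerm_apply chevF4 f4mem j'.val j'.isLt _ (f4ρ_chk s hs).1,
      reflPerm_apply chevF4 f4mem j'.val j'.isLt s hs,
      reflPerm_apply chevF4 f4mem j.val j.isLt _ (f4_refl_lt j'.val j'.isLt _ (f4ρ_chk s hs).1),
      reflPerm_apply chevF4 f4mem j.val j.isLt _ (f4_refl_lt j'.val j'.isLt s hs), (hp3 s hs).1,
      hcomm _ (f4_refl_lt j.val j.isLt _ (f4_refl_lt j'.val j'.isLt s hs))]
  obtain ⟨c'', hc'', hwc''⟩ := ih l''.length (by omega) l'' rfl hcomm''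
  refine ⟨c'' ++ [0], ?_, ?_⟩
  · intro i hi
    rcases List.mem_append.mp hi with h | h
    · exact hc'' i h
    · rw [List.mem_singleton.mp h]
      norm_num
  · rw [List.flatMap_append, wordPerm_append, ← hwc'', hw'', hw']
    have e : wordPerm chevF4 f4mem ([0].flatMap f4Orb) =
        reflPerm chevF4 f4mem j'.val j'.isLt * reflPerm chevF4 f4mem j.val j.isLt := by
      have : [0].flatMap f4Orb = f4Orb 0 := by simp
      rw [this, horb]
    rw [e]
    have e1 := reflPerm_mul_self chevF4 f4mem j.val j.isLt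
    have e2 := reflPerm_mul_self chevF4 f4mem j'.val j'.isLt
    calc wordPerm chevF4 f4mem l = wordPerm chevF4 f4mem l *
          (reflPerm chevF4 f4mem j.val j.isLt * (reflPerm chevF4 f4mem j'.val j'.isLt *
            reflPerm chevF4 f4mem j'.val j'.isLt) * reflPerm chevF4 f4mem j.val j.isLt) := by
          rw [e2, mul_one, e1, mul_one]
      _ = _ := by simp only [mul_assoc]

/-- The induction step of `f4_comb` at a node of the pair `{2, 3}`. -/
theorem f4_comb_b2 (k : ℕ)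
    (ih : ∀ m < k, ∀ l : List (Fin chevF4.rank), l.length = m →
      (∀ s < 48, wordPerm chevF4 f4mem l (f4ρ s) = f4ρ (wordPerm chevF4 f4mem l s)) →
      ∃ c : List ℕ, (∀ i ∈ c, i < 2) ∧
        wordPerm chevF4 f4mem l = wordPerm chevF4 f4mem (c.flatMap f4Orb))
    (l : List (Fin chevF4.rank)) (hlen : l.length = k)
    (hcomm : ∀ s < 48, wordPerm chevF4 f4mem l (f4ρ s) = f4ρ (wordPerm chevF4 f4mem l s))
    (hj : ¬ chevF4.IsPosRoot (wordPerm chevF4 f4mem l 27) ∨
      ¬ chevF4.IsPosRoot (wordPerm chevF4 f4mem l 25)) :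
    ∃ c : List ℕ, (∀ i ∈ c, i < 2) ∧
      wordPerm chevF4 f4mem l = wordPerm chevF4 f4mem (c.flatMap f4Orb) := by
  obtain ⟨hs1, hs2, hρ27, hρ25, hρ28, hch, hr125, hr227, hr128, hr230, hr130, hP⟩ := f4_b2_chk
  have h27 : ¬ chevF4.IsPosRoot (wordPerm chevF4 f4mem l 27) := by
    rcases hj with h | h
    · exact h
    · intro hpos
      apply h
      rw [← hρ27, hcomm 27 (by norm_num)]
      exact (f4ρ_pos_iff _ (f4_wordPerm_lt l 27 (by norm_num))).mpr hpos
  have h25 : ¬ chevF4.IsPosRoot (wordPerm chevF4 f4mem l 25) := by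
    intro hpos
    apply h27
    rw [← hρ25, hcomm 25 (by norm_num)]
    exact (f4ρ_pos_iff _ (f4_wordPerm_lt l 25 (by norm_num))).mpr hpos
  have h28 : ¬ chevF4.IsPosRoot (wordPerm chevF4 f4mem l 28) := by
    have hc := f4_chain_word l 27 25 28 (by norm_num) (by norm_num) (by norm_num) hch
    have hn := f4_chain_neg_chk _ (f4_wordPerm_lt l 27 (by norm_num)) _
      (f4_wordPerm_lt l 25 (by norm_num))
      ((f4_neg_iff_chk _ (f4_wordPerm_lt l 27 (by norm_num))).mpr h27)
      ((f4_neg_iff_chk _ (f4_wordPerm_lt l 25 (by norm_num))).mpr h25)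
    rw [hc] at hn
    have hn' : chevF4.IsNegRoot (wordPerm chevF4 f4mem l 28) := by simpa using hn
    exact (f4_neg_iff_chk _ (f4_wordPerm_lt l 28 (by norm_num))).mp hn'
  have h30 : ¬ chevF4.IsPosRoot (wordPerm chevF4 f4mem l 30) := by
    intro hpos
    apply h28
    rw [← hρ28, hcomm 28 (by norm_num)] at hpos
    exact (f4ρ_pos_iff _ (f4_wordPerm_lt l 28 (by norm_num))).mp hpos
  -- first exchange, at the node 1
  have hj1 : ¬ chevF4.IsPosRoot
      (wordPerm chevF4 f4mem l (chevF4.simple (⟨1, by decide⟩ : Fin chevF4.rank).val)) := by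
    show ¬ chevF4.IsPosRoot (wordPerm chevF4 f4mem l (chevF4.simple 1))
    rw [hs1]
    exact h27
  obtain ⟨l1, hlen1, hw1⟩ := wordPerm_exchange chevF4 f4mem l ⟨1, by decide⟩ hj1
  -- second exchange, at the node 2
  have hj2 : ¬ chevF4.IsPosRoot
      (wordPerm chevF4 f4mem l1 (chevF4.simple (⟨2, by decide⟩ : Fin chevF4.rank).val)) := by
    show ¬ chevF4.IsPosRoot (wordPerm chevF4 f4mem l1 (chevF4.simple 2))
    rw [hs2, hw1, Equiv.Perm.mul_apply, reflPerm_apply chevF4 f4mem 1 (by decide) 25 (by decide),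
      hr125]
    exact h30
  obtain ⟨l2, hlen2, hw2⟩ := wordPerm_exchange chevF4 f4mem l1 ⟨2, by decide⟩ hj2
  -- third exchange, at the node 1
  have hj3 : ¬ chevF4.IsPosRoot
      (wordPerm chevF4 f4mem l2 (chevF4.simple (⟨1, by decide⟩ : Fin chevF4.rank).val)) := by
    show ¬ chevF4.IsPosRoot (wordPerm chevF4 f4mem l2 (chevF4.simple 1))
    rw [hs1, hw2, hw1, Equiv.Perm.mul_apply, Equiv.Perm.mul_apply,
      reflPerm_apply chevF4 f4mem 2 (by decide) 27 (by decide), hr227,
      reflPerm_apply chevF4 f4mem 1 (by decide) 28 (by decide), hr128]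
    exact h28
  obtain ⟨l3, hlen3, hw3⟩ := wordPerm_exchange chevF4 f4mem l2 ⟨1, by decide⟩ hj3
  -- fourth exchange, at the node 2
  have hj4 : ¬ chevF4.IsPosRoot
      (wordPerm chevF4 f4mem l3 (chevF4.simple (⟨2, by decide⟩ : Fin chevF4.rank).val)) := by
    show ¬ chevF4.IsPosRoot (wordPerm chevF4 f4mem l3 (chevF4.simple 2))
    rw [hs2, hw3, hw2, hw1, Equiv.Perm.mul_apply, Equiv.Perm.mul_apply, Equiv.Perm.mul_apply,
      reflPerm_apply chevF4 f4mem 1 (by decide) 25 (by decide), hr125,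
      reflPerm_apply chevF4 f4mem 2 (by decide) 30 (by decide), hr230,
      reflPerm_apply chevF4 f4mem 1 (by decide) 30 (by decide), hr130]
    exact h25
  obtain ⟨l4, hlen4, hw4⟩ := wordPerm_exchange chevF4 f4mem l3 ⟨2, by decide⟩ hj4
  have hw4' : wordPerm chevF4 f4mem l4 =
      wordPerm chevF4 f4mem l * wordPerm chevF4 f4mem (f4Orb 1) := by
    rw [hw4, hw3, hw2, hw1, f4_orb1_eq]
    simp only [mul_assoc]
  have hcomm4 : ∀ s < 48,
      wordPerm chevF4 f4mem l4 (f4ρ s) = f4ρ (wordPerm chevF4 f4mem l4 s) := by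
    intro s hs
    rw [hw4', Equiv.Perm.mul_apply, Equiv.Perm.mul_apply, f4_orb1_comm s hs,
      hcomm _ (f4_wordPerm_lt _ s hs)]
  obtain ⟨c, hc, hwc⟩ := ih l4.length (by omega) l4 rfl hcomm4
  refine ⟨c ++ [1], ?_, ?_⟩
  · intro i hi
    rcases List.mem_append.mp hi with h | h
    · exact hc i h
    · rw [List.mem_singleton.mp h]
      norm_num
  · rw [List.flatMap_append, wordPerm_append, ← hwc, hw4']
    have e : [1].flatMap f4Orb = f4Orb 1 := by simp
    rw [e, mul_assoc, f4_orb1_sq, mul_one]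

/-- A word in the fundamental reflections commuting with the exceptional symmetry is a word in
`w₁` and `w₂`. -/
theorem f4_comb : ∀ (k : ℕ) (l : List (Fin chevF4.rank)), l.length = k →
    (∀ s < 48, wordPerm chevF4 f4mem l (f4ρ s) = f4ρ (wordPerm chevF4 f4mem l s)) →
    ∃ c : List ℕ, (∀ i ∈ c, i < 2) ∧
      wordPerm chevF4 f4mem l = wordPerm chevF4 f4mem (c.flatMap f4Orb) := by
  intro k
  induction k using Nat.strong_induction_on with
  | _ k ih =>
    intro l hlen hcomm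
    by_cases hpos : ∀ j : Fin chevF4.rank,
        chevF4.IsPosRoot (wordPerm chevF4 f4mem l (chevF4.simple j.val))
    · refine ⟨[], by simp, ?_⟩
      rw [wordPerm_eq_one_of_pos chevF4 f4mem k l hlen hpos]
      rfl
    · push Not at hpos
      obtain ⟨j, hj⟩ := hpos
      have h4 : chevF4.rank = 4 := rfl
      have hjc : j.val = 0 ∨ j.val = 3 ∨ j.val = 1 ∨ j.val = 2 := by
        have := j.isLt
        omega
      rcases hjc with h | h | h | h
      · have hj1 : j = ⟨0, by decide⟩ := Fin.ext h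
        subst hj1
        exact f4_comb_pair k ih l hlen hcomm _ ⟨3, by decide⟩
          (by rw [f4_orb0_eq]; exact f4_reflPerm_comm 0 3 (by decide) (by decide) (by decide))
          (by decide) hj
      · have hj1 : j = ⟨3, by decide⟩ := Fin.ext h
        subst hj1
        exact f4_comb_pair k ih l hlen hcomm _ ⟨0, by decide⟩ f4_orb0_eq (by decide) hj
      · have hj1 : j = ⟨1, by decide⟩ := Fin.ext h
        subst hj1
        refine f4_comb_b2 k ih l hlen hcomm (Or.inl ?_)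
        have := f4_b2_chk.1
        rw [← this]
        exact hj
      · have hj1 : j = ⟨2, by decide⟩ := Fin.ext h
        subst hj1
        refine f4_comb_b2 k ih l hlen hcomm (Or.inr ?_)
        have := f4_b2_chk.2.1
        rw [← this]
        exact hj

end Cfsg.Agent.Lib.Helper18
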