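import Cfsg.Agent.Lib.Helper18.F4Tw3
import Cfsg.Agent.Lib.Helper18.ChevTw
import Cfsg.Agent.Lib.Helper17.ChevCF

set_option autoImplicit false

/-!
# The Ree group `²F₄` is fixed by the twisting endomorphism

The generators `x_{p₁}(t^θ) x_{p₄}(t)` and `x_a(t^θ) x_b(t) x_{a+b}(t^{θ+1}+u) x_{2a+b}(u^{2θ})`
(and their negatives) are fixed by `σ`.
-/

namespace Cfsg.Agent.Lib.Helper18

open Cfsg Cfsg.Lie Cfsg.Lie.ChevalleyDatum

set_option maxRecDepth 100000 in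
theorem f4_ct_chk : chevF4.commTerms 27 25 = [(28, -1, 1, 1), (30, -1, 2, 1)] ∧
    chevF4.commTerms 20 22 = [(19, 1, 1, 1), (17, -1, 2, 1)] ∧
    chevF4.commTerms 33 24 = [] ∧ chevF4.commTerms 14 23 = [] ∧
    chevF4.commTerms 28 30 = [] ∧ chevF4.commTerms 19 17 = [] := by decide +kernel

theorem f4_tw_tab_chk :
    (f4ρ 33 = 24 ∧ f4ρ 24 = 33 ∧ f4lam 33 = 2 ∧ f4lam 24 = 1) ∧
    (f4ρ 14 = 23 ∧ f4ρ 23 = 14 ∧ f4lam 14 = 2 ∧ f4lam 23 = 1) ∧
    (f4ρ 27 = 25 ∧ f4ρ 25 = 27 ∧ f4ρ 28 = 30 ∧ f4ρ 30 = 28 ∧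
      f4lam 27 = 2 ∧ f4lam 25 = 1 ∧ f4lam 28 = 2 ∧ f4lam 30 = 1) ∧
    (f4ρ 20 = 22 ∧ f4ρ 22 = 20 ∧ f4ρ 19 = 17 ∧ f4ρ 17 = 19 ∧
      f4lam 20 = 2 ∧ f4lam 22 = 1 ∧ f4lam 19 = 2 ∧ f4lam 17 = 1) := by decide

section

variable {K : Type*} [Field K]

theorem f4x_mul (r : ℕ) (t u : K) : f4x r t * f4x r u = f4x r (t + u) :=
  Subtype.ext (xU_mul chevF4 f4mem r t u)

theorem f4x_zero (r : ℕ) : f4x r (0 : K) = 1 :=
  Subtype.ext (xU_zero chevF4 f4mem r)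

theorem f4x_comm_nil (r s : ℕ) (hr : r < 48) (hs : s < 48) (hsr : s ≠ r)
    (hsn : s ≠ chevF4.neg r) (h : chevF4.commTerms r s = []) (t u : K) :
    f4x s u * f4x r t = f4x r t * f4x s u :=
  Subtype.ext (xU_commute_of_commTerms_nil chevF4 f4mem r s hr hs hsr hsn h t u)

/-- the commutator relation of a class of type `B₂` in characteristic 2 -/
theorem f4_b2_rel [CharP K 2] (a b ab aab : ℕ) (c1 c2 : ℤ) (ha : a < 48) (hb : b < 48)
    (hba : b ≠ a) (hbn : b ≠ chevF4.neg a) (hc1 : c1 = 1 ∨ c1 = -1) (hc2 : c2 = 1 ∨ c2 = -1)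
    (h : chevF4.commTerms a b = [(ab, c1, 1, 1), (aab, c2, 2, 1)]) (t u : K) :
    f4x b u * f4x a t = f4x a t * f4x b u * (f4x ab (t * u) * f4x aab (t ^ 2 * u)) := by
  apply Subtype.ext
  apply Units.ext
  have h0 := Cfsg.Agent.Lib.Helper17.cf_of_mem (F := K) chevF4 f4mem a b ha hb hba hbn t u
  have hc1' : ((c1 : ℤ) : K) = 1 := by
    rcases hc1 with rfl | rfl
    · simp
    · simp [CharTwo.neg_eq]
  have hc2' : ((c2 : ℤ) : K) = 1 := by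
    rcases hc2 with rfl | rfl
    · simp
    · simp [CharTwo.neg_eq]
  have hw : chevF4.commWord K a b t u = [(ab, t * u), (aab, t ^ 2 * u)] := by
    unfold ChevalleyDatum.commWord
    rw [h]
    simp [hc1', hc2', CharTwo.neg_eq]
  rw [hw, wordMat_cons, wordMat_cons, wordMat_nil, mul_one] at h0
  show (xU chevF4 f4mem b u * xU chevF4 f4mem a t : GL chevF4.Idx K).val =
    (xU chevF4 f4mem a t * xU chevF4 f4mem b u *
      (xU chevF4 f4mem ab (t * u) * xU chevF4 f4mem aab (t ^ 2 * u)) : GL chevF4.Idx K).val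
  simp only [Units.val_mul, coe_xU]
  exact h0

/-- the generator of `²F₄` attached to an orthogonal pair of roots -/
def f4P (e r rbar : ℕ) (t : K) : ↥(chevF4.group K) := f4x r (t ^ e) * f4x rbar t

theorem coe_f4P (e r rbar : ℕ) (t : K) :
    ((f4P e r rbar t : ↥(chevF4.group K)) : GL chevF4.Idx K) =
      wordU chevF4 f4mem (f4PairWord e r rbar t) := by
  simp [f4P, wordU, f4PairWord, coe_f4x]

/-- the generator of `²F₄` attached to a class of type `B₂` -/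
def f4B (e a b ab aab : ℕ) (t u : K) : ↥(chevF4.group K) :=
  f4x a (t ^ e) * f4x b t * f4x ab (t ^ (e + 1) + u) * f4x aab (u ^ (2 * e))

theorem coe_f4B (e a b ab aab : ℕ) (t u : K) :
    ((f4B e a b ab aab t u : ↥(chevF4.group K)) : GL chevF4.Idx K) =
      wordU chevF4 f4mem (b2ClassWord e a b ab aab t u) := by
  simp [f4B, wordU, b2ClassWord, coe_f4x, mul_assoc]

theorem f4_tw_le_group (e : ℕ) : twistedF4 K e ≤ chevF4.group K := by
  unfold twistedF4 ChevalleyDatum.genSubgroup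
  rw [Subgroup.closure_le]
  rintro g ⟨w, -, hg⟩
  exact mem_group_of_wordMat chevF4 f4mem g w hg

theorem f4_word_mem_tw (e : ℕ) (w : List (ℕ × K)) (hw : w ∈ f4Words K e) :
    wordU chevF4 f4mem w ∈ twistedF4 K e :=
  Subgroup.subset_closure ⟨w, hw, coe_wordU chevF4 f4mem w⟩

theorem f4P_mem (e : ℕ) (t : K) :
    ((f4P e 33 24 t : ↥(chevF4.group K)) : GL chevF4.Idx K) ∈ twistedF4 K e := by
  rw [coe_f4P]
  exact f4_word_mem_tw e _ (Or.inl ⟨t, Or.inl rfl⟩)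

theorem f4P_mem' (e : ℕ) (t : K) :
    ((f4P e 14 23 t : ↥(chevF4.group K)) : GL chevF4.Idx K) ∈ twistedF4 K e := by
  rw [coe_f4P]
  exact f4_word_mem_tw e _ (Or.inl ⟨t, Or.inr rfl⟩)

theorem f4B_mem (e : ℕ) (t u : K) :
    ((f4B e 27 25 28 30 t u : ↥(chevF4.group K)) : GL chevF4.Idx K) ∈ twistedF4 K e := by
  rw [coe_f4B]
  exact f4_word_mem_tw e _ (Or.inr ⟨t, u, Or.inl rfl⟩)

theorem f4B_mem' (e : ℕ) (t u : K) :
    ((f4B e 20 22 19 17 t u : ↥(chevF4.group K)) : GL chevF4.Idx K) ∈ twistedF4 K e := by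
  rw [coe_f4B]
  exact f4_word_mem_tw e _ (Or.inr ⟨t, u, Or.inr rfl⟩)

namespace F4Tw

variable [CharP K 2] [Fintype K] {m : ℕ} (T : F4Tw K m)

omit [CharP K 2] in
theorem pow_q (hK : Fintype.card K = 2 ^ (2 * m + 1)) (t : K) : t ^ (2 ^ m * (2 * 2 ^ m)) = t := by
  have h1 : 2 ^ m * (2 * 2 ^ m) = 2 ^ (2 * m + 1) := by ring
  rw [h1, ← hK, FiniteField.pow_card]

omit [Fintype K] in
theorem add_pow_tw (x y : K) : (x + y) ^ (2 * 2 ^ m) = x ^ (2 * 2 ^ m) + y ^ (2 * 2 ^ m) := by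
  have h1 : 2 * 2 ^ m = 2 ^ (m + 1) := by ring
  rw [h1]
  have : Fact (Nat.Prime 2) := ⟨Nat.prime_two⟩
  exact add_pow_char_pow x y 2 (m + 1)

/-- the generators attached to a pair are fixed -/
theorem fixed_pair (hK : Fintype.card K = 2 ^ (2 * m + 1)) (r rbar : ℕ) (hr : r < 48)
    (hrbar : rbar < 48) (h1 : f4ρ r = rbar) (h2 : f4ρ rbar = r) (h3 : f4lam r = 2)
    (h4 : f4lam rbar = 1) (hne : rbar ≠ r) (hnn : rbar ≠ chevF4.neg r)
    (hct : chevF4.commTerms r rbar = []) (t : K) :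
    T.σ (f4P (2 ^ m) r rbar t) = f4P (2 ^ m) r rbar t := by
  show T.σ (f4x r (t ^ 2 ^ m) * f4x rbar t) = f4x r (t ^ 2 ^ m) * f4x rbar t
  rw [map_mul, T.hσ r hr, T.hσ rbar hrbar, h1, h2, h3, h4, one_mul, ← pow_mul, pow_q hK]
  exact f4x_comm_nil (K := K) r rbar hr hrbar hne hnn hct _ _

/-- the generators attached to a class of type `B₂` are fixed -/
theorem fixed_b2 (hK : Fintype.card K = 2 ^ (2 * m + 1)) (a b ab aab : ℕ) (c1 c2 : ℤ)
    (ha : a < 48) (hb : b < 48) (hab : ab < 48) (haab : aab < 48)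
    (hba : b ≠ a) (hbn : b ≠ chevF4.neg a) (hc1 : c1 = 1 ∨ c1 = -1) (hc2 : c2 = 1 ∨ c2 = -1)
    (h : chevF4.commTerms a b = [(ab, c1, 1, 1), (aab, c2, 2, 1)])
    (hne : aab ≠ ab) (hnn : aab ≠ chevF4.neg ab) (hct : chevF4.commTerms ab aab = [])
    (hρ : f4ρ a = b ∧ f4ρ b = a ∧ f4ρ ab = aab ∧ f4ρ aab = ab ∧
      f4lam a = 2 ∧ f4lam b = 1 ∧ f4lam ab = 2 ∧ f4lam aab = 1) (t u : K) :
    T.σ (f4B (2 ^ m) a b ab aab t u) = f4B (2 ^ m) a b ab aab t u := by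
  obtain ⟨r1, r2, r3, r4, l1, l2, l3, l4⟩ := hρ
  show T.σ (f4x a (t ^ 2 ^ m) * f4x b t * f4x ab (t ^ (2 ^ m + 1) + u) *
      f4x aab (u ^ (2 * 2 ^ m))) =
    f4x a (t ^ 2 ^ m) * f4x b t * f4x ab (t ^ (2 ^ m + 1) + u) * f4x aab (u ^ (2 * 2 ^ m))
  rw [map_mul, map_mul, map_mul, T.hσ a ha, T.hσ b hb, T.hσ ab hab, T.hσ aab haab,
    r1, r2, r3, r4, l1, l2, l3, l4, one_mul, ← pow_mul, pow_q hK, add_pow_tw, ← pow_mul,
    ← pow_mul (u), ]
  have e1 : (2 * 2 ^ m) * 2 ^ m = 2 ^ m * (2 * 2 ^ m) := by ring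
  rw [e1, pow_q hK, f4_b2_rel a b ab aab c1 c2 ha hb hba hbn hc1 hc2 h (t ^ 2 ^ m) t]
  have e2 : (t ^ 2 ^ m) * t = t ^ (2 ^ m + 1) := by ring
  have e3 : (t ^ 2 ^ m) ^ 2 * t = t ^ ((2 ^ m + 1) * (2 * 2 ^ m)) := by
    have : (2 ^ m + 1) * (2 * 2 ^ m) = 2 ^ m * (2 * 2 ^ m) + 2 * 2 ^ m := by ring
    rw [this, pow_add, pow_q hK]
    ring
  rw [e2, e3]
  set A := f4x a (t ^ 2 ^ m) with hA
  set B := f4x b t with hB
  have hcomm := f4x_comm_nil (K := K) ab aab hab haab hne hnn hct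
  calc A * B * (f4x ab (t ^ (2 ^ m + 1)) * f4x aab (t ^ ((2 ^ m + 1) * (2 * 2 ^ m)))) *
        f4x aab (t ^ ((2 ^ m + 1) * (2 * 2 ^ m)) + u ^ (2 * 2 ^ m)) * f4x ab u
      = A * B * f4x ab (t ^ (2 ^ m + 1)) * (f4x aab (t ^ ((2 ^ m + 1) * (2 * 2 ^ m))) *
        f4x aab (t ^ ((2 ^ m + 1) * (2 * 2 ^ m)) + u ^ (2 * 2 ^ m))) * f4x ab u := by
        simp only [mul_assoc]
    _ = A * B * f4x ab (t ^ (2 ^ m + 1)) * (f4x aab (u ^ (2 * 2 ^ m)) * f4x ab u) := by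
        rw [f4x_mul, ← add_assoc, CharTwo.add_self_eq_zero, zero_add]
        simp only [mul_assoc]
    _ = A * B * f4x ab (t ^ (2 ^ m + 1)) * (f4x ab u * f4x aab (u ^ (2 * 2 ^ m))) := by
        rw [hcomm]
    _ = A * B * (f4x ab (t ^ (2 ^ m + 1)) * f4x ab u) * f4x aab (u ^ (2 * 2 ^ m)) := by
        simp only [mul_assoc]
    _ = _ := by rw [f4x_mul]

/-- the elements of `²F₄` are fixed by the twisting endomorphism -/
theorem fixed (hK : Fintype.card K = 2 ^ (2 * m + 1)) (g : ↥(chevF4.group K))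
    (hg : (g : GL chevF4.Idx K) ∈ twistedF4 K (2 ^ m)) : T.σ g = g := by
  obtain ⟨c1, c2, c3, c4, c5, c6⟩ := f4_ct_chk
  obtain ⟨⟨p1, p2, p3, p4⟩, ⟨q1, q2, q3, q4⟩, hB, hB'⟩ := f4_tw_tab_chk
  have hle : twistedF4 K (2 ^ m) ≤
      ((T.σ).eqLocus (MonoidHom.id _)).map (chevF4.group K).subtype := by
    unfold twistedF4 ChevalleyDatum.genSubgroup
    rw [Subgroup.closure_le]
    rintro x ⟨w, hw, hx⟩
    rcases hw with ⟨t, hw | hw⟩ | ⟨t, u, hw | hw⟩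
    · refine ⟨f4P (2 ^ m) 33 24 t, T.fixed_pair hK 33 24 (by norm_num) (by norm_num) p1 p2 p3 p4
        (by decide) (by decide) c3 t, ?_⟩
      apply Units.ext
      rw [hx, hw]
      show ((f4P (2 ^ m) 33 24 t : ↥(chevF4.group K)) : GL chevF4.Idx K).val = _
      rw [coe_f4P, coe_wordU]
      rfl
    · refine ⟨f4P (2 ^ m) 14 23 t, T.fixed_pair hK 14 23 (by norm_num) (by norm_num) q1 q2 q3 q4
        (by decide) (by decide) c4 t, ?_⟩
      apply Units.ext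
      rw [hx, hw]
      show ((f4P (2 ^ m) 14 23 t : ↥(chevF4.group K)) : GL chevF4.Idx K).val = _
      rw [coe_f4P, coe_wordU]
      rfl
    · refine ⟨f4B (2 ^ m) 27 25 28 30 t u, T.fixed_b2 hK 27 25 28 30 (-1) (-1) (by norm_num)
        (by norm_num) (by norm_num) (by norm_num) (by decide) (by decide) (Or.inr rfl)
        (Or.inr rfl) c1 (by decide) (by decide) c5 hB t u, ?_⟩
      apply Units.ext
      rw [hx, hw]
      show ((f4B (2 ^ m) 27 25 28 30 t u : ↥(chevF4.group K)) : GL chevF4.Idx K).val = _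
      rw [coe_f4B, coe_wordU]
      rfl
    · refine ⟨f4B (2 ^ m) 20 22 19 17 t u, T.fixed_b2 hK 20 22 19 17 1 (-1) (by norm_num)
        (by norm_num) (by norm_num) (by norm_num) (by decide) (by decide) (Or.inl rfl)
        (Or.inr rfl) c2 (by decide) (by decide) c6 hB' t u, ?_⟩
      apply Units.ext
      rw [hx, hw]
      show ((f4B (2 ^ m) 20 22 19 17 t u : ↥(chevF4.group K)) : GL chevF4.Idx K).val = _
      rw [coe_f4B, coe_wordU]
      rfl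
  obtain ⟨y, hy, e⟩ := hle hg
  have e' : y = g := Subtype.ext e
  rw [← e']
  exact hy

end F4Tw

end

end Cfsg.Agent.Lib.Helper18
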