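import Cfsg.Agent.Lib.Helper18.F4Tw4
import Cfsg.Agent.Lib.Helper18.ChevE6TwBN

set_option autoImplicit false

/-!
# The elements `n_c` of the Ree group `²F₄`

`n₁ = n_{p₁}(1) n_{p₄}(1)` and `n₂ = (n_{p₂}(1) n_{p₃}(1))²` lie in `²F₄`; the elements of `N`
fixed by `σ` are the `h n_c` for words `c` in `n₁`, `n₂`.
-/

namespace Cfsg.Agent.Lib.Helper18

open Cfsg Cfsg.Lie Cfsg.Lie.ChevalleyDatum

set_option maxRecDepth 100000 in
theorem f4n_tw_chk0 : intEqChk chevF4 2 [(33, 1), (24, 1), (14, 1), (23, 1), (33, 1), (24, 1)]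
    [(33, 1), (14, -1), (33, 1), (24, 1), (23, -1), (24, 1)] = true := by decide +kernel

set_option maxRecDepth 100000 in
theorem f4n_tw_chk1 : intEqChk chevF4 2
    [(27, 1), (25, 1), (28, 1), (30, 0), (20, 0), (22, 0), (19, 1), (17, 1),
      (27, 1), (25, 1), (28, 2), (30, 1)]
    [(27, 1), (20, -1), (27, 1), (25, 1), (22, -1), (25, 1),
      (27, 1), (20, -1), (27, 1), (25, 1), (22, -1), (25, 1)] = true := by decide +kernel

theorem f4_neg_simple_chk : chevF4.simple 0 = 33 ∧ chevF4.simple 1 = 27 ∧ chevF4.simple 2 = 25 ∧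
    chevF4.simple 3 = 24 ∧ chevF4.neg 33 = 14 ∧ chevF4.neg 27 = 20 ∧ chevF4.neg 25 = 22 ∧
    chevF4.neg 24 = 23 := by decide

section

variable {K : Type*} [Field K]

/-- the element `n_c` of `N` attached to a word in `w₁`, `w₂` -/
def f4nC (c : List ℕ) : GL chevF4.Idx K := wordN chevF4 f4mem (c.flatMap f4Orb)

theorem f4nC_rootAct (c : List ℕ) :
    RootAct chevF4 f4mem (f4nC c : GL chevF4.Idx K) (wordPerm chevF4 f4mem (c.flatMap f4Orb)) :=
  rootAct_wordN chevF4 f4mem _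

theorem f4nC_nil : (f4nC [] : GL chevF4.Idx K) = 1 := rfl

theorem f4nC_cons (k : ℕ) (c : List ℕ) :
    (f4nC (k :: c) : GL chevF4.Idx K) = f4nC [k] * f4nC c := by
  unfold f4nC wordN
  rw [List.flatMap_cons, List.map_append, List.prod_append, List.flatMap_singleton]

theorem f4nC_append (c c' : List ℕ) :
    (f4nC (c ++ c') : GL chevF4.Idx K) = f4nC c * f4nC c' := by
  unfold f4nC wordN
  rw [List.flatMap_append, List.map_append, List.prod_append]

theorem f4nC_mem_monomial (c : List ℕ) :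
    (f4nC c : GL chevF4.Idx K) ∈ chevF4.monomialSubgroup K := by
  unfold f4nC wordN
  apply Subgroup.list_prod_mem
  intro x hx
  obtain ⟨i, -, rfl⟩ := List.mem_map.mp hx
  exact nU_mem_monomial chevF4 f4mem _ (simple_lt_nroots chevF4 f4mem i.val i.isLt)

theorem f4nC0_word : (f4nC [0] : GL chevF4.Idx K) =
    wordU chevF4 f4mem (iwF K [(33, 1), (14, -1), (33, 1), (24, 1), (23, -1), (24, 1)]) := by
  obtain ⟨s0, s1, s2, s3, n0, n1, n2, n3⟩ := f4_neg_simple_chk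
  have e : iwF K [(33, 1), (14, -1), (33, 1), (24, 1), (23, -1), (24, 1)] =
      chevF4.nWord 33 (1 : K) ++ chevF4.nWord 24 (1 : K) := by
    simp [iwF, ChevalleyDatum.nWord, n0, n3]
  rw [e, wordU_append]
  show (wordN chevF4 f4mem [⟨0, by decide⟩, ⟨3, by decide⟩] : GL chevF4.Idx K) = _
  rw [wordN_cons, wordN_cons, wordN_nil, mul_one]
  show nU chevF4 f4mem (chevF4.simple 0) * nU chevF4 f4mem (chevF4.simple 3) = _
  rw [s0, s3]
  rfl

theorem f4nC1_word (k : ℕ) : (f4nC [k + 1] : GL chevF4.Idx K) =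
    wordU chevF4 f4mem (iwF K [(27, 1), (20, -1), (27, 1), (25, 1), (22, -1), (25, 1),
      (27, 1), (20, -1), (27, 1), (25, 1), (22, -1), (25, 1)]) := by
  obtain ⟨s0, s1, s2, s3, n0, n1, n2, n3⟩ := f4_neg_simple_chk
  have e : iwF K [(27, 1), (20, -1), (27, 1), (25, 1), (22, -1), (25, 1),
      (27, 1), (20, -1), (27, 1), (25, 1), (22, -1), (25, 1)] =
      chevF4.nWord 27 (1 : K) ++ (chevF4.nWord 25 (1 : K) ++
        (chevF4.nWord 27 (1 : K) ++ chevF4.nWord 25 (1 : K))) := by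
    simp [iwF, ChevalleyDatum.nWord, n1, n2]
  rw [e, wordU_append, wordU_append, wordU_append]
  show (wordN chevF4 f4mem [⟨1, by decide⟩, ⟨2, by decide⟩, ⟨1, by decide⟩, ⟨2, by decide⟩] :
    GL chevF4.Idx K) = _
  rw [wordN_cons, wordN_cons, wordN_cons, wordN_cons, wordN_nil, mul_one]
  show nU chevF4 f4mem (chevF4.simple 1) * (nU chevF4 f4mem (chevF4.simple 2) *
    (nU chevF4 f4mem (chevF4.simple 1) * nU chevF4 f4mem (chevF4.simple 2))) = _
  rw [s1, s2]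
  rfl

/-- `n₁` lies in the Ree group -/
theorem f4nC0_mem_tw [CharP K 2] (e : ℕ) :
    (f4nC [0] : GL chevF4.Idx K) ∈ twistedF4 K e := by
  have e1 : f4PairWord e f4p1 f4p4 (1 : K) = iwF K [(33, 1), (24, 1)] := by
    simp [f4PairWord, iwF, f4p1, f4p4]
  have e2 : f4PairWord e f4m1 f4m4 (1 : K) = iwF K [(14, 1), (23, 1)] := by
    simp [f4PairWord, iwF, f4m1, f4m4]
  have h1 : wordU chevF4 f4mem (f4PairWord e f4p1 f4p4 (1 : K)) ∈ twistedF4 K e :=
    f4_word_mem_tw e _ (Or.inl ⟨1, Or.inl rfl⟩)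
  have h2 : wordU chevF4 f4mem (f4PairWord e f4m1 f4m4 (1 : K)) ∈ twistedF4 K e :=
    f4_word_mem_tw e _ (Or.inl ⟨1, Or.inr rfl⟩)
  have h3 := mul_mem (mul_mem h1 h2) h1
  rw [e1, e2, ← wordU_append, ← wordU_append] at h3
  have e3 : iwF K [(33, 1), (24, 1)] ++ iwF K [(14, 1), (23, 1)] ++ iwF K [(33, 1), (24, 1)] =
      iwF K [(33, 1), (24, 1), (14, 1), (23, 1), (33, 1), (24, 1)] := by
    simp [iwF]
  rw [e3, wordU_int_congr 2 chevF4 f4mem _ _ f4n_tw_chk0, ← f4nC0_word] at h3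
  exact h3

/-- `n₂` lies in the Ree group -/
theorem f4nC1_mem_tw [CharP K 2] (e : ℕ) (he : e ≠ 0) (k : ℕ) :
    (f4nC [k + 1] : GL chevF4.Idx K) ∈ twistedF4 K e := by
  have e1 : b2ClassWord e f4a f4b f4ab f4aab (1 : K) 0 =
      iwF K [(27, 1), (25, 1), (28, 1), (30, 0)] := by
    simp [b2ClassWord, iwF, f4a, f4b, f4ab, f4aab, he]
  have e2 : b2ClassWord e f4ma f4mb f4mab f4maab (0 : K) 1 =
      iwF K [(20, 0), (22, 0), (19, 1), (17, 1)] := by
    simp [b2ClassWord, iwF, f4ma, f4mb, f4mab, f4maab, he]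
  have e3 : b2ClassWord e f4a f4b f4ab f4aab (1 : K) 1 =
      iwF K [(27, 1), (25, 1), (28, 2), (30, 1)] := by
    simp [b2ClassWord, iwF, f4a, f4b, f4ab, f4aab]
    norm_num
  have h1 : wordU chevF4 f4mem (b2ClassWord e f4a f4b f4ab f4aab (1 : K) 0) ∈ twistedF4 K e :=
    f4_word_mem_tw e _ (Or.inr ⟨1, 0, Or.inl rfl⟩)
  have h2 : wordU chevF4 f4mem (b2ClassWord e f4ma f4mb f4mab f4maab (0 : K) 1) ∈
      twistedF4 K e := f4_word_mem_tw e _ (Or.inr ⟨0, 1, Or.inr rfl⟩)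
  have h3 : wordU chevF4 f4mem (b2ClassWord e f4a f4b f4ab f4aab (1 : K) 1) ∈ twistedF4 K e :=
    f4_word_mem_tw e _ (Or.inr ⟨1, 1, Or.inl rfl⟩)
  have h4 := mul_mem (mul_mem h1 h2) h3
  rw [e1, e2, e3, ← wordU_append, ← wordU_append] at h4
  have e4 : iwF K [(27, 1), (25, 1), (28, 1), (30, 0)] ++
      iwF K [(20, 0), (22, 0), (19, 1), (17, 1)] ++ iwF K [(27, 1), (25, 1), (28, 2), (30, 1)] =
      iwF K [(27, 1), (25, 1), (28, 1), (30, 0), (20, 0), (22, 0), (19, 1), (17, 1),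
        (27, 1), (25, 1), (28, 2), (30, 1)] := by
    simp [iwF]
  rw [e4, wordU_int_congr 2 chevF4 f4mem _ _ f4n_tw_chk1, ← f4nC1_word k] at h4
  exact h4

/-- the `n_c` lie in the Ree group -/
theorem f4nC_mem_tw [CharP K 2] (e : ℕ) (he : e ≠ 0) (c : List ℕ) :
    (f4nC c : GL chevF4.Idx K) ∈ twistedF4 K e := by
  induction c with
  | nil => rw [f4nC_nil]; exact one_mem _
  | cons k c ih =>
    rw [f4nC_cons]
    refine mul_mem ?_ ih
    rcases k with _ | k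
    · exact f4nC0_mem_tw e
    · exact f4nC1_mem_tw e he k

theorem f4nC_mem_group (c : List ℕ) : (f4nC c : GL chevF4.Idx K) ∈ chevF4.group K :=
  monomialSubgroup_le_group chevF4 f4mem (f4nC_mem_monomial c)

/-- `n_c` as an element of the Chevalley group -/
def f4nG (c : List ℕ) : ↥(chevF4.group K) := ⟨f4nC c, f4nC_mem_group c⟩

theorem coe_f4nG (c : List ℕ) :
    ((f4nG c : ↥(chevF4.group K)) : GL chevF4.Idx K) = f4nC c := rfl

theorem f4_mem_diag_of_rootAct_one (M : GL chevF4.Idx K) (hM : M ∈ chevF4.monomialSubgroup K)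
    (h : RootAct chevF4 f4mem M 1) : M ∈ chevF4.diagonalSubgroup K :=
  ker_piN chevF4 f4mem ⟨M, hM⟩ (fun s _ => by rw [piN_eq chevF4 f4mem ⟨M, hM⟩ 1 h]; rfl)

namespace F4Tw

variable [CharP K 2] [Fintype K] {m : ℕ} (T : F4Tw K m)

theorem σ_nG (hK : Fintype.card K = 2 ^ (2 * m + 1)) (c : List ℕ) : T.σ (f4nG c) = f4nG c :=
  T.fixed hK _ (f4nC_mem_tw (2 ^ m) (by positivity) c)

omit [Fintype K] in
/-- an element of `N` fixed by `σ` is `h n_c` -/
theorem fix_N (M : ↥(chevF4.group K))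
    (hM : (M : GL chevF4.Idx K) ∈ chevF4.monomialSubgroup K) (hfix : T.σ M = M) :
    ∃ c : List ℕ, (∀ i ∈ c, i < 2) ∧
      ((M * (f4nG c)⁻¹ : ↥(chevF4.group K)) : GL chevF4.Idx K) ∈ chevF4.diagonalSubgroup K := by
  obtain ⟨l, hl⟩ := exists_wordPerm chevF4 f4mem _ hM
  obtain ⟨c, hc, e⟩ := f4_comb l.length l rfl (T.rootAct_comm M _ hl hfix)
  refine ⟨c, hc, ?_⟩
  have h1 := hl.mul (f4nC_rootAct (K := K) c).inv
  rw [e, mul_inv_cancel] at h1
  exact f4_mem_diag_of_rootAct_one _ (mul_mem hM (inv_mem (f4nC_mem_monomial c))) h1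

end F4Tw

end

end Cfsg.Agent.Lib.Helper18
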