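import Cfsg.Agent.Lib.Helper18.F4Tw5

set_option autoImplicit false

/-!
# The cells of the Ree group `²F₄`

A fixed point of `σ` is `u' h n_c u` with fixed factors; given that the fixed points of `U` and
of `H` lie in `²F₄`, the group `²F₄` is the group of fixed points of `σ`.
-/

namespace Cfsg.Agent.Lib.Helper18

open Cfsg Cfsg.Lie Cfsg.Lie.ChevalleyDatum

section

variable {K : Type*} [Field K]

namespace F4Tw

variable [CharP K 2] [Fintype K] {m : ℕ} (T : F4Tw K m)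

/-- the cells of the group of fixed points -/
theorem fix_cells (hK : Fintype.card K = 2 ^ (2 * m + 1)) (g : ↥(chevF4.group K))
    (hfix : T.σ g = g) :
    ∃ (c : List ℕ) (u' h u : ↥(chevF4.group K)), (∀ i ∈ c, i < 2) ∧
      (u' : GL chevF4.Idx K) ∈ chevF4.posUnipotent K ∧ T.σ u' = u' ∧
      (h : GL chevF4.Idx K) ∈ chevF4.diagonalSubgroup K ∧ T.σ h = h ∧
      (u : GL chevF4.Idx K) ∈ uMinus chevF4 (f4nC c : GL chevF4.Idx K) ∧ T.σ u = u ∧
      g = u' * h * f4nG c * u := by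
  obtain ⟨u', M, u, hu', hfu', hM, hfM, hu, hfu, rfl⟩ := T.fix_decomp hK g hfix
  obtain ⟨c, hc, hH⟩ := T.fix_N M hM hfM
  refine ⟨c, u', M * (f4nG c)⁻¹, u, hc, hu', hfu', hH, ?_, ?_, hfu, ?_⟩
  · rw [map_mul, map_inv, hfM, T.σ_nG hK]
  · have hR : RootAct chevF4 f4mem (M : GL chevF4.Idx K)
        (wordPerm chevF4 f4mem (c.flatMap f4Orb)) := by
      have h1 := (rootAct_of_mem_diagonal chevF4 f4mem _ hH).mul (f4nC_rootAct (K := K) c)
      rw [one_mul] at h1
      have e : ((M * (f4nG c)⁻¹ : ↥(chevF4.group K)) : GL chevF4.Idx K) *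
          (f4nC c : GL chevF4.Idx K) = (M : GL chevF4.Idx K) := by
        rw [Subgroup.coe_mul, Subgroup.coe_inv, coe_f4nG, inv_mul_cancel_right]
      rwa [e] at h1
    rw [← f4_uMinus_eq_of_rootAct _ _ _ hR (f4nC_rootAct (K := K) c)]
    exact hu
  · group

end F4Tw

/-- the facts about the fixed points of `U` and of `H` on which the structure of the Ree group
`²F₄` rests -/
structure F4Bot {m : ℕ} (T : F4Tw K m) : Prop where
  /-- the fixed points of `U` lie in the Ree group -/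
  unip : ∀ g : ↥(chevF4.group K), (g : GL chevF4.Idx K) ∈ chevF4.posUnipotent K → T.σ g = g →
    (g : GL chevF4.Idx K) ∈ twistedF4 K (2 ^ m)
  /-- the fixed points of `H` lie in the Ree group -/
  diag : ∀ g : ↥(chevF4.group K), (g : GL chevF4.Idx K) ∈ chevF4.diagonalSubgroup K → T.σ g = g →
    (g : GL chevF4.Idx K) ∈ twistedF4 K (2 ^ m)

namespace F4Bot

variable [CharP K 2] [Fintype K] {m : ℕ} {T : F4Tw K m}

/-- the Ree group is the group of fixed points -/
theorem mem_iff (B : F4Bot T) (hK : Fintype.card K = 2 ^ (2 * m + 1))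
    (g : ↥(chevF4.group K)) : (g : GL chevF4.Idx K) ∈ twistedF4 K (2 ^ m) ↔ T.σ g = g := by
  constructor
  · exact T.fixed hK g
  · intro hfix
    obtain ⟨c, u', h, u, hc, hu', hfu', hh, hfh, hu, hfu, rfl⟩ := T.fix_cells hK g hfix
    exact mul_mem (mul_mem (mul_mem (B.unip u' hu' hfu') (B.diag h hh hfh))
      (f4nC_mem_tw (2 ^ m) (by positivity) c))
      (B.unip u (uMinus_le_posUnipotent chevF4 _ hu) hfu)

/-- the cells of the Ree group -/
theorem cells (B : F4Bot T) (hK : Fintype.card K = 2 ^ (2 * m + 1))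
    (g : GL chevF4.Idx K) (hg : g ∈ twistedF4 K (2 ^ m)) :
    ∃ c : List ℕ, (∀ i ∈ c, i < 2) ∧
      ∃ u' ∈ chevF4.posUnipotent K ⊓ twistedF4 K (2 ^ m),
      ∃ h ∈ chevF4.diagonalSubgroup K ⊓ twistedF4 K (2 ^ m),
      ∃ u ∈ uMinus chevF4 (f4nC c : GL chevF4.Idx K) ⊓ twistedF4 K (2 ^ m),
        g = u' * h * f4nC c * u := by
  have hgG := f4_tw_le_group _ hg
  obtain ⟨c, u', h, u, hc, hu', hfu', hh, hfh, hu, hfu, e⟩ :=
    T.fix_cells hK ⟨g, hgG⟩ (T.fixed hK ⟨g, hgG⟩ hg)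
  exact ⟨c, hc, u', Subgroup.mem_inf.mpr ⟨hu', B.unip u' hu' hfu'⟩, h,
    Subgroup.mem_inf.mpr ⟨hh, B.diag h hh hfh⟩, u,
    Subgroup.mem_inf.mpr ⟨hu, B.unip u (uMinus_le_posUnipotent chevF4 _ hu) hfu⟩,
    congrArg Subtype.val e⟩

end F4Bot

end

end Cfsg.Agent.Lib.Helper18
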