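import Cfsg.Agent.Lib.Helper18.F4Tw5
import Cfsg.Agent.Lib.Helper18.F4Sig
import Cfsg.Agent.S0206

set_option autoImplicit false

/-!
# The Weyl group of `²F₄` is dihedral of order 16
-/

namespace Cfsg.Agent.Lib.Helper18

open Cfsg Cfsg.Lie Cfsg.Lie.ChevalleyDatum

/-- a finite group generated modulo a normal subgroup `H` by two elements which are involutions
modulo `H`, with product of order 8 modulo `H`, maps onto the dihedral group of order 16 with
kernel `H` -/
theorem dihedral_of_quot {G : Type*} [Group G] [Finite G] (H : Subgroup G) [H.Normal] (a b : G)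
    (ha : a * a ∈ H) (ha' : a ∉ H) (hb : b * b ∈ H) (hb' : b ∉ H) (hab : a * b ∉ H)
    (h8 : (a * b) ^ 8 ∈ H) (h4 : (a * b) ^ 4 ∉ H)
    (hgen : ∀ g : G, ∃ l : List G, (∀ x ∈ l, x = a ∨ x = b) ∧ g * l.prod⁻¹ ∈ H) :
    ∃ φ : G →* DihedralGroup 8, Function.Surjective φ ∧ φ.ker = H := by
  set x : G ⧸ H := QuotientGroup.mk a with hx
  set y : G ⧸ H := QuotientGroup.mk b with hy
  have hx2 : orderOf x = 2 := by
    apply orderOf_eq_prime
    · rw [pow_two, hx, ← QuotientGroup.mk_mul, QuotientGroup.eq_one_iff]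
      exact ha
    · rw [hx, Ne, QuotientGroup.eq_one_iff]
      exact ha'
  have hy2 : orderOf y = 2 := by
    apply orderOf_eq_prime
    · rw [pow_two, hy, ← QuotientGroup.mk_mul, QuotientGroup.eq_one_iff]
      exact hb
    · rw [hy, Ne, QuotientGroup.eq_one_iff]
      exact hb'
  have hxy : x ≠ y := by
    intro e
    apply hab
    have e1 : x * y = 1 := by
      rw [e, ← pow_two, ← hy2, pow_orderOf_eq_one]
    rw [hx, hy, ← QuotientGroup.mk_mul, QuotientGroup.eq_one_iff] at e1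
    exact e1
  have h8' : orderOf (x * y) = 8 := by
    have e8 : (8 : ℕ) = 2 ^ (2 + 1) := by norm_num
    rw [e8]
    apply orderOf_eq_prime_pow
    · rw [hx, hy, ← QuotientGroup.mk_mul, ← QuotientGroup.mk_pow, QuotientGroup.eq_one_iff]
      exact h4
    · rw [hx, hy, ← QuotientGroup.mk_mul, ← QuotientGroup.mk_pow, QuotientGroup.eq_one_iff]
      exact h8
  have hD := Cfsg.Agent.S0206.result x y hx2 hy2 hxy
  rw [h8'] at hD
  obtain ⟨e⟩ := hD
  have htop : Subgroup.closure ({x, y} : Set (G ⧸ H)) = ⊤ := by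
    rw [eq_top_iff]
    intro z _
    obtain ⟨g, rfl⟩ := QuotientGroup.mk_surjective z
    obtain ⟨l, hl, hg⟩ := hgen g
    have e1 : (QuotientGroup.mk g : G ⧸ H) = QuotientGroup.mk l.prod := by
      have e0 : (QuotientGroup.mk (g * l.prod⁻¹) : G ⧸ H) = 1 :=
        (QuotientGroup.eq_one_iff _).mpr hg
      rwa [QuotientGroup.mk_mul, QuotientGroup.mk_inv, mul_inv_eq_one] at e0
    rw [e1]
    have e2 : ∀ l' : List G, (∀ x ∈ l', x = a ∨ x = b) →
        (QuotientGroup.mk l'.prod : G ⧸ H) ∈ Subgroup.closure ({x, y} : Set (G ⧸ H)) := by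
      intro l'
      induction l' with
      | nil =>
        intro _
        rw [List.prod_nil, QuotientGroup.mk_one]
        exact one_mem _
      | cons c l' ih =>
        intro hl'
        rw [List.prod_cons, QuotientGroup.mk_mul]
        refine mul_mem ?_ (ih (fun z hz => hl' z (List.mem_cons_of_mem _ hz)))
        rcases hl' c List.mem_cons_self with rfl | rfl
        · exact Subgroup.subset_closure (Set.mem_insert _ _)
        · exact Subgroup.subset_closure (Set.mem_insert_of_mem _ rfl)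
    exact e2 l hl
  let ψ : G ⧸ H ≃* DihedralGroup 8 :=
    (Subgroup.topEquiv.symm.trans (MulEquiv.subgroupCongr htop.symm)).trans e
  refine ⟨ψ.toMonoidHom.comp (QuotientGroup.mk' H), ?_, ?_⟩
  · exact ψ.surjective.comp (QuotientGroup.mk'_surjective H)
  · ext g
    rw [MonoidHom.mem_ker, MonoidHom.comp_apply]
    show ψ (QuotientGroup.mk' H g) = 1 ↔ g ∈ H
    rw [MulEquiv.map_eq_one_iff]
    exact QuotientGroup.eq_one_iff g

theorem charP_two_of_card {K : Type*} [Field K] [Fintype K] {n : ℕ}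
    (hK : Fintype.card K = 2 ^ n) : CharP K 2 := by
  obtain ⟨p, hp⟩ := CharP.exists K
  have := hp
  obtain ⟨k, hpp, hk⟩ := FiniteField.card K p
  have h1 : p ∣ 2 ^ n := by
    rw [← hK, hk]
    exact dvd_pow_self p k.ne_zero
  have h2 : p = 2 := (Nat.prime_dvd_prime_iff_eq hpp Nat.prime_two).mp (hpp.dvd_of_dvd_pow h1)
  rw [← h2]
  exact hp

set_option maxRecDepth 100000 in
/-- the dihedral relations of `w₁`, `w₂` on the roots -/
theorem f4_dih_chk :
    (∀ s < 48, Cfsg.Agent.Lib.Helper36.wordF chevF4 ([0, 0].flatMap f4Orb) s = s) ∧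
    (¬ ∀ s < 48, Cfsg.Agent.Lib.Helper36.wordF chevF4 ([0].flatMap f4Orb) s = s) ∧
    (∀ s < 48, Cfsg.Agent.Lib.Helper36.wordF chevF4 ([1, 1].flatMap f4Orb) s = s) ∧
    (¬ ∀ s < 48, Cfsg.Agent.Lib.Helper36.wordF chevF4 ([1].flatMap f4Orb) s = s) ∧
    (¬ ∀ s < 48, Cfsg.Agent.Lib.Helper36.wordF chevF4 ([0, 1].flatMap f4Orb) s = s) ∧
    (∀ s < 48, Cfsg.Agent.Lib.Helper36.wordF chevF4
      ((List.replicate 8 [0, 1]).flatten.flatMap f4Orb) s = s) ∧
    (¬ ∀ s < 48, Cfsg.Agent.Lib.Helper36.wordF chevF4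
      ((List.replicate 4 [0, 1]).flatten.flatMap f4Orb) s = s) := by decide +kernel

section

variable {K : Type*} [Field K]

theorem f4nC_mem_diag_iff (c : List ℕ) :
    (f4nC c : GL chevF4.Idx K) ∈ chevF4.diagonalSubgroup K ↔
      ∀ s < 48, Cfsg.Agent.Lib.Helper36.wordF chevF4 (c.flatMap f4Orb) s = s := by
  constructor
  · intro h s hs
    have h1 := RootAct.unique (f4nC_rootAct (K := K) c) (rootAct_of_mem_diagonal chevF4 f4mem _ h)
    rw [← wordPerm_eq_wordF chevF4 f4mem _ s hs, h1]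
    rfl
  · intro h
    have h1 := f4nC_rootAct (K := K) c
    have e : wordPerm chevF4 f4mem (c.flatMap f4Orb) = 1 := by
      ext s
      by_cases hs : s < 48
      · rw [wordPerm_eq_wordF chevF4 f4mem _ s hs, h s hs]
        rfl
      · rw [h1.ge s (Nat.le_of_not_lt hs)]
        rfl
    rw [e] at h1
    exact f4_mem_diag_of_rootAct_one _ (f4nC_mem_monomial c) h1

theorem f4nC_pow (k : ℕ) : (f4nC [0] * f4nC [1] : GL chevF4.Idx K) ^ k =
    f4nC (List.replicate k [0, 1]).flatten := by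
  induction k with
  | zero => rfl
  | succ k ih =>
    rw [pow_succ', ih, List.replicate_succ, List.flatten_cons, f4nC_append, f4nC_cons 0 [1]]

theorem f4nC_succ (k : ℕ) : (f4nC [k + 1] : GL chevF4.Idx K) = f4nC [1] := rfl

end

end Cfsg.Agent.Lib.Helper18
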