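import Cfsg.Agent.Lib.Helper18.LieOrdNum

/-!
# Order bounds for the classical families (numerics for S2363)
-/

set_option autoImplicit false

namespace Cfsg.Agent.Lib.Helper18.LieOrd

open Finset

variable {p e q : ℕ}

/-! ### `PSL_n` -/

theorem psl_prod (q k : ℕ) :
    ∏ i : Fin (k + 2), (q ^ (k + 2) - q ^ (i : ℕ)) =
      q ^ (∑ i ∈ range (k + 2), i) * ((∏ i ∈ range (k + 1), (q ^ (i + 2) - 1)) * (q - 1)) := by
  rw [Fin.prod_univ_eq_prod_range (fun i => q ^ (k + 2) - q ^ i) (k + 2)]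
  have h1 : ∀ i ∈ range (k + 2), q ^ (k + 2) - q ^ i = q ^ i * (q ^ (k + 2 - 1 - i + 1) - 1) := by
    intro i hi
    have hi' : i < k + 2 := Finset.mem_range.1 hi
    rw [Nat.mul_sub, mul_one, ← pow_add]
    congr 2
    omega
  rw [Finset.prod_congr rfl h1, Finset.prod_mul_distrib, Finset.prod_pow_eq_pow_sum]
  congr 1
  rw [Finset.prod_range_reflect (fun j => q ^ (j + 1) - 1) (k + 2), Finset.prod_range_succ']
  simp

theorem fam_psl {n c : ℕ} (hp : p.Prime) (hq : q = p ^ e) (he : e ≠ 0) (hc0 : c ≠ 0) (hn : 2 ≤ n)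
    (h : Nat.gcd n (q - 1) * ((q - 1) * c) = ∏ i : Fin n, (q ^ n - q ^ (i : ℕ))) :
    c < p ^ (3 * c.factorization p) ∧ (n = 2 → q = p ^ c.factorization p) ∧
      (3 ≤ n → c ^ 3 < p ^ (8 * c.factorization p)) := by
  have hpq := dvd_q hq he
  have h2 := two_le_q hp hq he
  have hq0 : 0 < q := by omega
  obtain ⟨k, rfl⟩ : ∃ k, n = k + 2 := ⟨n - 2, by omega⟩
  rw [psl_prod] at h
  have hg : 0 < Nat.gcd (k + 2) (q - 1) := Nat.gcd_pos_of_pos_left _ (by omega)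
  have hd : ¬ p ∣ Nat.gcd (k + 2) (q - 1) * (q - 1) :=
    nd_mul hp (nd_of_dvd (nd_sub1 hp h2 hpq) (Nat.gcd_dvd_right _ _)) (nd_sub1 hp h2 hpq)
  have hM : ¬ p ∣ (∏ i ∈ range (k + 1), (q ^ (i + 2) - 1)) * (q - 1) :=
    nd_mul hp (nd_prod hp _ _ fun i _ => nd_sub hp h2 hpq (by omega)) (nd_sub1 hp h2 hpq)
  have hR : ∏ i ∈ range (k + 1), (q ^ (i + 2) - 1) < q ^ ∑ i ∈ range (k + 1), (i + 2) :=
    prod_sub_lt h2 _ ⟨0, by simp⟩ (fun i => i + 2) (fun i _ => by omega)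
  have hML : (∏ i ∈ range (k + 1), (q ^ (i + 2) - 1)) * (q - 1) <
      Nat.gcd (k + 2) (q - 1) * (q - 1) * q ^ ∑ i ∈ range (k + 1), (i + 2) := by
    calc (∏ i ∈ range (k + 1), (q ^ (i + 2) - 1)) * (q - 1)
        < q ^ (∑ i ∈ range (k + 1), (i + 2)) * (q - 1) :=
          Nat.mul_lt_mul_of_pos_right hR (by omega)
      _ = 1 * ((q - 1) * q ^ ∑ i ∈ range (k + 1), (i + 2)) := by ring
      _ ≤ Nat.gcd (k + 2) (q - 1) * ((q - 1) * q ^ ∑ i ∈ range (k + 1), (i + 2)) :=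
          Nat.mul_le_mul_right _ hg
      _ = _ := by ring
  have heq : Nat.gcd (k + 2) (q - 1) * (q - 1) * c =
      q ^ (∑ i ∈ range (k + 2), i) * ((∏ i ∈ range (k + 1), (q ^ (i + 2) - 1)) * (q - 1)) := by
    rw [mul_assoc, h]
  have hN : (∑ i ∈ range (k + 2), i) * 2 = (k + 2) * (k + 1) := by
    rw [sum_id]; rfl
  have hL : (∑ i ∈ range (k + 1), (i + 2)) * 2 = (k + 1) * k + 4 * (k + 1) := by
    rw [Finset.sum_add_distrib, add_mul, sum_id]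
    simp
    ring
  have h1 : ∑ i ∈ range (k + 1), (i + 2) ≤ 2 * ∑ i ∈ range (k + 2), i := by
    nlinarith [Nat.zero_le (k * k)]
  obtain ⟨hf, hlt⟩ := fam1 hp hq hd hM hML heq hc0 h1
  refine ⟨hlt, fun hk => ?_, fun hk => ?_⟩
  · have hk0 : k = 0 := by omega
    subst hk0
    rw [hf, hq]
    simp [Finset.sum_range_succ]
  · have hk1 : 1 ≤ k := by omega
    have h2' : 3 * ∑ i ∈ range (k + 1), (i + 2) ≤ 5 * ∑ i ∈ range (k + 2), i := by
      nlinarith [Nat.mul_le_mul hk1 hk1]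
    exact (fam hp hq hd hM hML heq hc0 h1 h2').2

/-! ### `PSp_{2m}`, `PΩ_{2m+1}` -/

theorem symp_aux {m d c : ℕ} (hp : p.Prime) (hq : q = p ^ e) (he : e ≠ 0) (hc0 : c ≠ 0)
    (hm : 2 ≤ m) (hd : ¬ p ∣ d)
    (h : d * c = q ^ (m ^ 2) * ∏ i ∈ Finset.range m, (q ^ (2 * (i + 1)) - 1)) :
    c < p ^ (3 * c.factorization p) ∧ c ^ 3 < p ^ (8 * c.factorization p) := by
  have hpq := dvd_q hq he
  have h2 := two_le_q hp hq he
  have hq0 : 0 < q := by omega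
  have hd0 : 0 < d := Nat.pos_of_ne_zero fun h0 => hd (h0 ▸ dvd_zero p)
  have hM : ¬ p ∣ ∏ i ∈ range m, (q ^ (2 * (i + 1)) - 1) :=
    nd_prod hp _ _ fun i _ => nd_sub hp h2 hpq (by omega)
  have hR : ∏ i ∈ range m, (q ^ (2 * (i + 1)) - 1) < q ^ (m * (m + 1)) := by
    have := prod_sub_lt h2 (range m) ⟨0, by simp; omega⟩ (fun i => 2 * (i + 1)) (fun i _ => by omega)
    rwa [sum_two_mul_succ] at this
  have hML : ∏ i ∈ range m, (q ^ (2 * (i + 1)) - 1) < d * q ^ (m * (m + 1)) := by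
    calc ∏ i ∈ range m, (q ^ (2 * (i + 1)) - 1) < 1 * q ^ (m * (m + 1)) := by rwa [one_mul]
      _ ≤ d * q ^ (m * (m + 1)) := Nat.mul_le_mul_right _ hd0
  exact fam hp hq hd hM hML h hc0 (by nlinarith) (by nlinarith)

theorem fam_psp {m z c s : ℕ} (hp : p.Prime) (hq : q = p ^ e) (he : e ≠ 0) (hc0 : c ≠ 0)
    (hm : 2 ≤ m) (hs : s = q ^ (m ^ 2) * ∏ i ∈ Finset.range m, (q ^ (2 * (i + 1)) - 1))
    (hz : z = Nat.gcd 2 (q - 1)) (hzc : z * c = s) :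
    c < p ^ (3 * c.factorization p) ∧ c ^ 3 < p ^ (8 * c.factorization p) := by
  have hpq := dvd_q hq he
  have h2 := two_le_q hp hq he
  refine symp_aux (d := z) hp hq he hc0 hm ?_ (hzc.trans hs)
  rw [hz]
  exact nd_of_dvd (nd_sub1 hp h2 hpq) (Nat.gcd_dvd_right _ _)

theorem fam_odd {m c : ℕ} (hp : p.Prime) (hq : q = p ^ e) (he : e ≠ 0) (hc0 : c ≠ 0)
    (hm : 2 ≤ m) (hodd : Odd q)
    (h : 2 * c = q ^ (m ^ 2) * ∏ i ∈ Finset.range m, (q ^ (2 * (i + 1)) - 1)) :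
    c < p ^ (3 * c.factorization p) ∧ c ^ 3 < p ^ (8 * c.factorization p) := by
  have hpq := dvd_q hq he
  refine symp_aux (d := 2) hp hq he hc0 hm ?_ h
  intro h2
  have hp2 : p = 2 := (Nat.prime_dvd_prime_iff_eq hp Nat.prime_two).1 h2
  subst hp2
  exact (Nat.not_even_iff_odd.2 hodd) (even_iff_two_dvd.2 hpq)

/-! ### `PΩ⁺_{2m}`, `PΩ⁻_{2m}` -/

theorem fam_plus {m c : ℕ} (hp : p.Prime) (hq : q = p ^ e) (he : e ≠ 0) (hc0 : c ≠ 0)
    (hm : 4 ≤ m)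
    (h : Nat.gcd 4 (q ^ m - 1) * c =
      q ^ (m * (m - 1)) * (q ^ m - 1) * ∏ i ∈ Finset.range (m - 1), (q ^ (2 * (i + 1)) - 1)) :
    c < p ^ (3 * c.factorization p) ∧ c ^ 3 < p ^ (8 * c.factorization p) := by
  have hpq := dvd_q hq he
  have h2 := two_le_q hp hq he
  have hq0 : 0 < q := by omega
  obtain ⟨k, rfl⟩ : ∃ k, m = k + 1 := ⟨m - 1, by omega⟩
  rw [Nat.add_sub_cancel] at h
  have hk : 3 ≤ k := by omega
  have hg : 0 < Nat.gcd 4 (q ^ (k + 1) - 1) := Nat.gcd_pos_of_pos_left _ (by norm_num)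
  have hd : ¬ p ∣ Nat.gcd 4 (q ^ (k + 1) - 1) :=
    nd_of_dvd (nd_sub hp h2 hpq (by omega)) (Nat.gcd_dvd_right _ _)
  have hM : ¬ p ∣ (q ^ (k + 1) - 1) * ∏ i ∈ range k, (q ^ (2 * (i + 1)) - 1) :=
    nd_mul hp (nd_sub hp h2 hpq (by omega)) (nd_prod hp _ _ fun i _ => nd_sub hp h2 hpq (by omega))
  have hR : ∏ i ∈ range k, (q ^ (2 * (i + 1)) - 1) ≤ q ^ (k * (k + 1)) := by
    have := prod_sub_le (q := q) (range k) (fun i => 2 * (i + 1))
    rwa [sum_two_mul_succ] at this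
  have hML : (q ^ (k + 1) - 1) * ∏ i ∈ range k, (q ^ (2 * (i + 1)) - 1) <
      Nat.gcd 4 (q ^ (k + 1) - 1) * q ^ ((k + 1) + k * (k + 1)) := by
    calc (q ^ (k + 1) - 1) * ∏ i ∈ range k, (q ^ (2 * (i + 1)) - 1)
        < q ^ (k + 1) * q ^ (k * (k + 1)) := mul_lt_of (sub_lt_pow h2) hR (by positivity)
      _ = 1 * q ^ ((k + 1) + k * (k + 1)) := by rw [one_mul, ← pow_add]
      _ ≤ _ := Nat.mul_le_mul_right _ hg
  exact fam (N := (k + 1) * k) (L := (k + 1) + k * (k + 1)) hp hq hd hM hML (by rw [h]; ring) hc0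
    (by nlinarith) (by nlinarith)

theorem fam_minus {m c : ℕ} (hp : p.Prime) (hq : q = p ^ e) (he : e ≠ 0) (hc0 : c ≠ 0)
    (hm : 4 ≤ m)
    (h : Nat.gcd 4 (q ^ m + 1) * c =
      q ^ (m * (m - 1)) * (q ^ m + 1) * ∏ i ∈ Finset.range (m - 1), (q ^ (2 * (i + 1)) - 1)) :
    c < p ^ (3 * c.factorization p) ∧ c ^ 3 < p ^ (8 * c.factorization p) := by
  have hpq := dvd_q hq he
  have h2 := two_le_q hp hq he
  have hq0 : 0 < q := by omega
  obtain ⟨k, rfl⟩ : ∃ k, m = k + 1 := ⟨m - 1, by omega⟩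
  rw [Nat.add_sub_cancel] at h
  have hk : 3 ≤ k := by omega
  have hg : 0 < Nat.gcd 4 (q ^ (k + 1) + 1) := Nat.gcd_pos_of_pos_left _ (by norm_num)
  have hd : ¬ p ∣ Nat.gcd 4 (q ^ (k + 1) + 1) :=
    nd_of_dvd (nd_add hp hpq (by omega)) (Nat.gcd_dvd_right _ _)
  have hM : ¬ p ∣ (q ^ (k + 1) + 1) * ∏ i ∈ range k, (q ^ (2 * (i + 1)) - 1) :=
    nd_mul hp (nd_add hp hpq (by omega)) (nd_prod hp _ _ fun i _ => nd_sub hp h2 hpq (by omega))
  have hR : ∏ i ∈ range k, (q ^ (2 * (i + 1)) - 1) ≤ q ^ (k * (k + 1)) := by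
    have := prod_sub_le (q := q) (range k) (fun i => 2 * (i + 1))
    rwa [sum_two_mul_succ] at this
  have hML : (q ^ (k + 1) + 1) * ∏ i ∈ range k, (q ^ (2 * (i + 1)) - 1) <
      Nat.gcd 4 (q ^ (k + 1) + 1) * q ^ ((k + 1 + 1) + k * (k + 1)) := by
    calc (q ^ (k + 1) + 1) * ∏ i ∈ range k, (q ^ (2 * (i + 1)) - 1)
        < q ^ (k + 1 + 1) * q ^ (k * (k + 1)) :=
          mul_lt_of (add_lt_pow h2 (by omega)) hR (by positivity)
      _ = 1 * q ^ ((k + 1 + 1) + k * (k + 1)) := by rw [one_mul, ← pow_add]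
      _ ≤ _ := Nat.mul_le_mul_right _ hg
  exact fam (N := (k + 1) * k) (L := (k + 1 + 1) + k * (k + 1)) hp hq hd hM hML (by rw [h]; ring) hc0
    (by nlinarith) (by nlinarith)

/-! ### `PSU_n` -/

/-- the product of the unitary order formula. -/
def uP (q n : ℕ) : ℕ := ∏ i ∈ Finset.range n, (if Even i then q ^ (i + 1) + 1 else q ^ (i + 1) - 1)

theorem uP_succ_succ (q k : ℕ) :
    uP q (2 * k + 3) = uP q (2 * k + 1) * (q ^ (2 * k + 2) - 1) * (q ^ (2 * k + 3) + 1) := by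
  have h1 : ¬ Even (2 * k + 1) := by rw [Nat.not_even_iff_odd]; exact ⟨k, rfl⟩
  have h2 : Even (2 * k + 2) := ⟨k + 1, by ring⟩
  unfold uP
  rw [Finset.prod_range_succ, Finset.prod_range_succ, if_neg h1, if_pos h2]

theorem uP_even (q k : ℕ) : uP q (2 * k + 2) = uP q (2 * k + 1) * (q ^ (2 * k + 2) - 1) := by
  have h1 : ¬ Even (2 * k + 1) := by rw [Nat.not_even_iff_odd]; exact ⟨k, rfl⟩
  unfold uP
  rw [Finset.prod_range_succ, if_neg h1]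

theorem pair_lt {q a : ℕ} (hq : 2 ≤ q) : (q ^ a - 1) * (q ^ (a + 1) + 1) < q ^ a * q ^ (a + 1) := by
  have h1 : 1 ≤ q ^ a := Nat.one_le_pow _ _ (by omega)
  obtain ⟨B, hB⟩ : ∃ B, q ^ a = B + 1 := ⟨q ^ a - 1, by omega⟩
  rw [pow_succ, hB, Nat.add_sub_cancel]
  nlinarith [Nat.zero_le (B * B), Nat.zero_le (B * q), Nat.zero_le B]

theorem uP_odd_le {q : ℕ} (hq : 2 ≤ q) (k : ℕ) : uP q (2 * k + 1) ≤ (q + 1) * q ^ (2 * k ^ 2 + 3 * k) := by
  induction k with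
  | zero => simp [uP]
  | succ k ih =>
    have e1 : 2 * (k + 1) + 1 = 2 * k + 3 := by ring
    rw [e1, uP_succ_succ, mul_assoc]
    calc uP q (2 * k + 1) * ((q ^ (2 * k + 2) - 1) * (q ^ (2 * k + 3) + 1))
        ≤ (q + 1) * q ^ (2 * k ^ 2 + 3 * k) * (q ^ (2 * k + 2) * q ^ (2 * k + 2 + 1)) :=
          Nat.mul_le_mul ih (pair_lt hq).le
      _ = (q + 1) * q ^ (2 * (k + 1) ^ 2 + 3 * (k + 1)) := by
          rw [mul_assoc, ← pow_add, ← pow_add]; congr 2; ring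

theorem uP_odd_lt {q : ℕ} (hq : 2 ≤ q) (k : ℕ) :
    uP q (2 * k + 3) < (q + 1) * q ^ (2 * (k + 1) ^ 2 + 3 * (k + 1)) := by
  have hq0 : 0 < q := by omega
  rw [uP_succ_succ, mul_assoc]
  calc uP q (2 * k + 1) * ((q ^ (2 * k + 2) - 1) * (q ^ (2 * k + 3) + 1))
      < (q + 1) * q ^ (2 * k ^ 2 + 3 * k) * (q ^ (2 * k + 2) * q ^ (2 * k + 2 + 1)) :=
        mul_lt_of' (uP_odd_le hq k) (pair_lt hq) (by positivity)
    _ = (q + 1) * q ^ (2 * (k + 1) ^ 2 + 3 * (k + 1)) := by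
        rw [mul_assoc, ← pow_add, ← pow_add]; congr 2; ring

theorem uP_even_lt {q : ℕ} (hq : 2 ≤ q) (k : ℕ) :
    uP q (2 * k + 2) < (q + 1) * q ^ (2 * k ^ 2 + 3 * k + (2 * k + 2)) := by
  have hq0 : 0 < q := by omega
  rw [uP_even]
  calc uP q (2 * k + 1) * (q ^ (2 * k + 2) - 1)
      < (q + 1) * q ^ (2 * k ^ 2 + 3 * k) * q ^ (2 * k + 2) :=
        mul_lt_of' (uP_odd_le hq k) (sub_lt_pow hq) (by positivity)
    _ = _ := by rw [mul_assoc, ← pow_add]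

theorem nd_uP {q : ℕ} (hp : p.Prime) (h2 : 2 ≤ q) (hpq : p ∣ q) (n : ℕ) : ¬ p ∣ uP q n := by
  refine nd_prod hp _ _ fun i _ => ?_
  split_ifs
  · exact nd_add hp hpq (by omega)
  · exact nd_sub hp h2 hpq (by omega)

theorem fam_psu {n c : ℕ} (hp : p.Prime) (hq : q = p ^ e) (he : e ≠ 0) (hc0 : c ≠ 0) (hn : 3 ≤ n)
    (h : Nat.gcd n (q + 1) * ((q + 1) * c) = q ^ (n * (n - 1) / 2) *
      ∏ i ∈ Finset.range n, (if Even i then q ^ (i + 1) + 1 else q ^ (i + 1) - 1)) :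
    c < p ^ (3 * c.factorization p) ∧ c ^ 3 < p ^ (8 * c.factorization p) := by
  have hpq := dvd_q hq he
  have h2 := two_le_q hp hq he
  have hq0 : 0 < q := by omega
  have hg : 0 < Nat.gcd n (q + 1) := Nat.gcd_pos_of_pos_left _ (by omega)
  have hd : ¬ p ∣ Nat.gcd n (q + 1) * (q + 1) :=
    nd_mul hp (nd_of_dvd (nd_add1 hp hpq) (Nat.gcd_dvd_right _ _)) (nd_add1 hp hpq)
  have hM := nd_uP hp h2 hpq n
  have heq : Nat.gcd n (q + 1) * (q + 1) * c = q ^ (n * (n - 1) / 2) * uP q n := by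
    rw [mul_assoc, h]; rfl
  have hle : ∀ L, uP q n < (q + 1) * q ^ L → uP q n < Nat.gcd n (q + 1) * (q + 1) * q ^ L := by
    intro L hL
    calc uP q n < 1 * ((q + 1) * q ^ L) := by rwa [one_mul]
      _ ≤ Nat.gcd n (q + 1) * ((q + 1) * q ^ L) := Nat.mul_le_mul_right _ hg
      _ = _ := by ring
  rcases Nat.even_or_odd' n with ⟨j, rfl | rfl⟩
  · -- n = 2 j, j ≥ 2
    obtain ⟨k, rfl⟩ : ∃ k, j = k + 2 := ⟨j - 2, by omega⟩
    have e1 : 2 * (k + 2) = 2 * (k + 1) + 2 := by ring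
    have e2 : 2 * (k + 2) * (2 * (k + 2) - 1) / 2 = (k + 2) * (2 * k + 3) := by
      have : 2 * (k + 2) * (2 * (k + 2) - 1) = 2 * ((k + 2) * (2 * k + 3)) := by
        have : 2 * (k + 2) - 1 = 2 * k + 3 := by omega
        rw [this]; ring
      rw [this, Nat.mul_div_cancel_left _ (by norm_num : 0 < 2)]
    rw [e2] at heq
    have hlt := uP_even_lt h2 (k + 1)
    rw [← e1] at hlt
    exact fam hp hq hd hM (hle _ hlt) heq hc0 (by nlinarith) (by nlinarith)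
  · -- n = 2 j + 1, j ≥ 1
    obtain ⟨k, rfl⟩ : ∃ k, j = k + 1 := ⟨j - 1, by omega⟩
    have e1 : 2 * (k + 1) + 1 = 2 * k + 3 := by ring
    have e2 : (2 * (k + 1) + 1) * (2 * (k + 1) + 1 - 1) / 2 = (2 * k + 3) * (k + 1) := by
      have : (2 * (k + 1) + 1) * (2 * (k + 1) + 1 - 1) = 2 * ((2 * k + 3) * (k + 1)) := by
        have : 2 * (k + 1) + 1 - 1 = 2 * (k + 1) := by omega
        rw [this]; ring
      rw [this, Nat.mul_div_cancel_left _ (by norm_num : 0 < 2)]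
    rw [e2] at heq
    have hlt := uP_odd_lt h2 k
    rw [← e1] at hlt
    exact fam hp hq hd hM (hle _ hlt) heq hc0 (by nlinarith) (by nlinarith)

end Cfsg.Agent.Lib.Helper18.LieOrd
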