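import Cfsg.Agent.Lib.Helper18.LieOrdNum

/-!
# Order bounds, family by family (numerics for S2363)

Each lemma takes the order formula of one family in the shape of the landed order statement.
-/

set_option autoImplicit false

namespace Cfsg.Agent.Lib.Helper18.LieOrd

open Finset

section fixed

variable {p e q n : ℕ}

theorem fam_g2 (hp : p.Prime) (hq : q = p ^ e) (he : e ≠ 0) (hn : n ≠ 0)
    (h : n = q ^ 6 * (q ^ 2 - 1) * (q ^ 6 - 1)) :
    n < p ^ (3 * n.factorization p) ∧ n ^ 3 < p ^ (8 * n.factorization p) := by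
  have hpq := dvd_q hq he
  have h2 := two_le_q hp hq he
  have hq0 : 0 < q := by omega
  refine fam (N := 6) (L := 8) (d := 1) (M := (q ^ 2 - 1) * (q ^ 6 - 1)) hp hq (nd_one hp)
    (nd_mul hp (nd_sub hp h2 hpq (by norm_num)) (nd_sub hp h2 hpq (by norm_num))) ?_
    (by rw [h]; ring) hn (by norm_num) (by norm_num)
  rw [one_mul]
  calc (q ^ 2 - 1) * (q ^ 6 - 1) < q ^ 2 * q ^ 6 :=
        mul_lt_of (sub_lt_pow h2) sub_le_pow (by positivity)
    _ = q ^ 8 := by ring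

theorem fam_f4 (hp : p.Prime) (hq : q = p ^ e) (he : e ≠ 0) (hn : n ≠ 0)
    (h : n = q ^ 24 * (q ^ 2 - 1) * (q ^ 6 - 1) * (q ^ 8 - 1) * (q ^ 12 - 1)) :
    n < p ^ (3 * n.factorization p) ∧ n ^ 3 < p ^ (8 * n.factorization p) := by
  have hpq := dvd_q hq he
  have h2 := two_le_q hp hq he
  have hq0 : 0 < q := by omega
  refine fam (N := 24) (L := 28) (d := 1)
    (M := (q ^ 2 - 1) * (q ^ 6 - 1) * (q ^ 8 - 1) * (q ^ 12 - 1)) hp hq (nd_one hp)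
    (nd_mul hp (nd_mul hp (nd_mul hp (nd_sub hp h2 hpq (by norm_num))
      (nd_sub hp h2 hpq (by norm_num))) (nd_sub hp h2 hpq (by norm_num)))
      (nd_sub hp h2 hpq (by norm_num))) ?_
    (by rw [h]; ring) hn (by norm_num) (by norm_num)
  rw [one_mul]
  calc (q ^ 2 - 1) * (q ^ 6 - 1) * (q ^ 8 - 1) * (q ^ 12 - 1)
      < q ^ 2 * q ^ 6 * q ^ 8 * q ^ 12 :=
        mul_lt_of (mul_lt_of (mul_lt_of (sub_lt_pow h2) sub_le_pow (by positivity)) sub_le_pow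
          (by positivity)) sub_le_pow (by positivity)
    _ = q ^ 28 := by ring

theorem fam_e6 (hp : p.Prime) (hq : q = p ^ e) (he : e ≠ 0) (hn : n ≠ 0)
    (h : Nat.gcd 3 (q - 1) * n =
      q ^ 36 * (q ^ 2 - 1) * (q ^ 5 - 1) * (q ^ 6 - 1) * (q ^ 8 - 1) * (q ^ 9 - 1) * (q ^ 12 - 1)) :
    n < p ^ (3 * n.factorization p) ∧ n ^ 3 < p ^ (8 * n.factorization p) := by
  have hpq := dvd_q hq he
  have h2 := two_le_q hp hq he
  have hq0 : 0 < q := by omega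
  have hg : 0 < Nat.gcd 3 (q - 1) := Nat.gcd_pos_of_pos_left _ (by norm_num)
  refine fam (N := 36) (L := 42) (d := Nat.gcd 3 (q - 1))
    (M := (q ^ 2 - 1) * (q ^ 5 - 1) * (q ^ 6 - 1) * (q ^ 8 - 1) * (q ^ 9 - 1) * (q ^ 12 - 1)) hp hq
    (nd_of_dvd (nd_sub1 hp h2 hpq) (Nat.gcd_dvd_right _ _))
    (nd_mul hp (nd_mul hp (nd_mul hp (nd_mul hp (nd_mul hp (nd_sub hp h2 hpq (by norm_num))
      (nd_sub hp h2 hpq (by norm_num))) (nd_sub hp h2 hpq (by norm_num)))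
      (nd_sub hp h2 hpq (by norm_num))) (nd_sub hp h2 hpq (by norm_num)))
      (nd_sub hp h2 hpq (by norm_num))) ?_
    (by rw [h]; ring) hn (by norm_num) (by norm_num)
  calc (q ^ 2 - 1) * (q ^ 5 - 1) * (q ^ 6 - 1) * (q ^ 8 - 1) * (q ^ 9 - 1) * (q ^ 12 - 1)
      < q ^ 2 * q ^ 5 * q ^ 6 * q ^ 8 * q ^ 9 * q ^ 12 :=
        mul_lt_of (mul_lt_of (mul_lt_of (mul_lt_of (mul_lt_of (sub_lt_pow h2) sub_le_pow
          (by positivity)) sub_le_pow (by positivity)) sub_le_pow (by positivity)) sub_le_pow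
          (by positivity)) sub_le_pow (by positivity)
    _ = 1 * q ^ 42 := by ring
    _ ≤ Nat.gcd 3 (q - 1) * q ^ 42 := Nat.mul_le_mul_right _ hg

theorem fam_e7 (hp : p.Prime) (hq : q = p ^ e) (he : e ≠ 0) (hn : n ≠ 0)
    (h : Nat.gcd 2 (q - 1) * n =
      q ^ 63 * (q ^ 2 - 1) * (q ^ 6 - 1) * (q ^ 8 - 1) * (q ^ 10 - 1) * (q ^ 12 - 1) * (q ^ 14 - 1) *
        (q ^ 18 - 1)) :
    n < p ^ (3 * n.factorization p) ∧ n ^ 3 < p ^ (8 * n.factorization p) := by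
  have hpq := dvd_q hq he
  have h2 := two_le_q hp hq he
  have hq0 : 0 < q := by omega
  have hg : 0 < Nat.gcd 2 (q - 1) := Nat.gcd_pos_of_pos_left _ (by norm_num)
  refine fam (N := 63) (L := 70) (d := Nat.gcd 2 (q - 1))
    (M := (q ^ 2 - 1) * (q ^ 6 - 1) * (q ^ 8 - 1) * (q ^ 10 - 1) * (q ^ 12 - 1) * (q ^ 14 - 1) *
        (q ^ 18 - 1)) hp hq
    (nd_of_dvd (nd_sub1 hp h2 hpq) (Nat.gcd_dvd_right _ _))
    (nd_mul hp (nd_mul hp (nd_mul hp (nd_mul hp (nd_mul hp (nd_mul hp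
      (nd_sub hp h2 hpq (by norm_num))
      (nd_sub hp h2 hpq (by norm_num))) (nd_sub hp h2 hpq (by norm_num)))
      (nd_sub hp h2 hpq (by norm_num))) (nd_sub hp h2 hpq (by norm_num)))
      (nd_sub hp h2 hpq (by norm_num))) (nd_sub hp h2 hpq (by norm_num))) ?_
    (by rw [h]; ring) hn (by norm_num) (by norm_num)
  calc (q ^ 2 - 1) * (q ^ 6 - 1) * (q ^ 8 - 1) * (q ^ 10 - 1) * (q ^ 12 - 1) * (q ^ 14 - 1) *
        (q ^ 18 - 1)
      < q ^ 2 * q ^ 6 * q ^ 8 * q ^ 10 * q ^ 12 * q ^ 14 * q ^ 18 :=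
        mul_lt_of (mul_lt_of (mul_lt_of (mul_lt_of (mul_lt_of (mul_lt_of (sub_lt_pow h2) sub_le_pow
          (by positivity)) sub_le_pow (by positivity)) sub_le_pow (by positivity)) sub_le_pow
          (by positivity)) sub_le_pow (by positivity)) sub_le_pow (by positivity)
    _ = 1 * q ^ 70 := by ring
    _ ≤ Nat.gcd 2 (q - 1) * q ^ 70 := Nat.mul_le_mul_right _ hg

theorem fam_e8 (hp : p.Prime) (hq : q = p ^ e) (he : e ≠ 0) (hn : n ≠ 0)
    (h : n = q ^ 120 * (q ^ 2 - 1) * (q ^ 8 - 1) * (q ^ 12 - 1) * (q ^ 14 - 1) * (q ^ 18 - 1) *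
        (q ^ 20 - 1) * (q ^ 24 - 1) * (q ^ 30 - 1)) :
    n < p ^ (3 * n.factorization p) ∧ n ^ 3 < p ^ (8 * n.factorization p) := by
  have hpq := dvd_q hq he
  have h2 := two_le_q hp hq he
  have hq0 : 0 < q := by omega
  refine fam (N := 120) (L := 128) (d := 1)
    (M := (q ^ 2 - 1) * (q ^ 8 - 1) * (q ^ 12 - 1) * (q ^ 14 - 1) * (q ^ 18 - 1) *
        (q ^ 20 - 1) * (q ^ 24 - 1) * (q ^ 30 - 1)) hp hq (nd_one hp)
    (nd_mul hp (nd_mul hp (nd_mul hp (nd_mul hp (nd_mul hp (nd_mul hp (nd_mul hp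
      (nd_sub hp h2 hpq (by norm_num))
      (nd_sub hp h2 hpq (by norm_num))) (nd_sub hp h2 hpq (by norm_num)))
      (nd_sub hp h2 hpq (by norm_num))) (nd_sub hp h2 hpq (by norm_num)))
      (nd_sub hp h2 hpq (by norm_num))) (nd_sub hp h2 hpq (by norm_num)))
      (nd_sub hp h2 hpq (by norm_num))) ?_
    (by rw [h]; ring) hn (by norm_num) (by norm_num)
  rw [one_mul]
  calc (q ^ 2 - 1) * (q ^ 8 - 1) * (q ^ 12 - 1) * (q ^ 14 - 1) * (q ^ 18 - 1) *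
        (q ^ 20 - 1) * (q ^ 24 - 1) * (q ^ 30 - 1)
      < q ^ 2 * q ^ 8 * q ^ 12 * q ^ 14 * q ^ 18 * q ^ 20 * q ^ 24 * q ^ 30 :=
        mul_lt_of (mul_lt_of (mul_lt_of (mul_lt_of (mul_lt_of (mul_lt_of (mul_lt_of
          (sub_lt_pow h2) sub_le_pow
          (by positivity)) sub_le_pow (by positivity)) sub_le_pow (by positivity)) sub_le_pow
          (by positivity)) sub_le_pow (by positivity)) sub_le_pow (by positivity)) sub_le_pow
          (by positivity)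
    _ = q ^ 128 := by ring

theorem fam_2e6 (hp : p.Prime) (hq : q = p ^ e) (he : e ≠ 0) (hn : n ≠ 0)
    (h : Nat.gcd 3 (q + 1) * n =
      q ^ 36 * (q ^ 2 - 1) * (q ^ 5 + 1) * (q ^ 6 - 1) * (q ^ 8 - 1) * (q ^ 9 + 1) * (q ^ 12 - 1)) :
    n < p ^ (3 * n.factorization p) ∧ n ^ 3 < p ^ (8 * n.factorization p) := by
  have hpq := dvd_q hq he
  have h2 := two_le_q hp hq he
  have hq0 : 0 < q := by omega
  have hg : 0 < Nat.gcd 3 (q + 1) := Nat.gcd_pos_of_pos_left _ (by norm_num)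
  refine fam (N := 36) (L := 44) (d := Nat.gcd 3 (q + 1))
    (M := (q ^ 2 - 1) * (q ^ 5 + 1) * (q ^ 6 - 1) * (q ^ 8 - 1) * (q ^ 9 + 1) * (q ^ 12 - 1)) hp hq
    (nd_of_dvd (nd_add1 hp hpq) (Nat.gcd_dvd_right _ _))
    (nd_mul hp (nd_mul hp (nd_mul hp (nd_mul hp (nd_mul hp (nd_sub hp h2 hpq (by norm_num))
      (nd_add hp hpq (by norm_num))) (nd_sub hp h2 hpq (by norm_num)))
      (nd_sub hp h2 hpq (by norm_num))) (nd_add hp hpq (by norm_num)))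
      (nd_sub hp h2 hpq (by norm_num))) ?_
    (by rw [h]; ring) hn (by norm_num) (by norm_num)
  calc (q ^ 2 - 1) * (q ^ 5 + 1) * (q ^ 6 - 1) * (q ^ 8 - 1) * (q ^ 9 + 1) * (q ^ 12 - 1)
      < q ^ 2 * q ^ (5 + 1) * q ^ 6 * q ^ 8 * q ^ (9 + 1) * q ^ 12 :=
        mul_lt_of (mul_lt_of (mul_lt_of (mul_lt_of (mul_lt_of (sub_lt_pow h2)
          (add_le_pow h2 (by norm_num))
          (by positivity)) sub_le_pow (by positivity)) sub_le_pow (by positivity))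
          (add_le_pow h2 (by norm_num))
          (by positivity)) sub_le_pow (by positivity)
    _ = 1 * q ^ 44 := by ring
    _ ≤ Nat.gcd 3 (q + 1) * q ^ 44 := Nat.mul_le_mul_right _ hg

theorem fam_3d4 (hp : p.Prime) (hq : q = p ^ e) (he : e ≠ 0) (hn : n ≠ 0)
    (h : n = q ^ 12 * (q ^ 2 - 1) * (q ^ 6 - 1) * (q ^ 8 + q ^ 4 + 1)) :
    n < p ^ (3 * n.factorization p) ∧ n ^ 3 < p ^ (8 * n.factorization p) := by
  have hpq := dvd_q hq he
  have h2 := two_le_q hp hq he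
  have hq0 : 0 < q := by omega
  have hnd : ¬ p ∣ q ^ 8 + q ^ 4 + 1 := by
    intro hd
    have h1 : p ∣ q ^ 8 + q ^ 4 := dvd_add (dvd_pow hpq (by norm_num)) (dvd_pow hpq (by norm_num))
    have h3 : p ∣ q ^ 8 + q ^ 4 + 1 - (q ^ 8 + q ^ 4) := Nat.dvd_sub hd h1
    rw [Nat.add_sub_cancel_left] at h3
    exact nd_one hp h3
  have hle : q ^ 8 + q ^ 4 + 1 ≤ q ^ 9 := by
    have h4 : q ^ 4 + 1 ≤ q ^ 8 := by
      have : 2 ≤ q ^ 4 := le_trans h2 (Nat.le_self_pow (by norm_num) q)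
      calc q ^ 4 + 1 ≤ q ^ 4 * 2 := by omega
        _ ≤ q ^ 4 * q ^ 4 := Nat.mul_le_mul_left _ this
        _ = q ^ 8 := by ring
    calc q ^ 8 + q ^ 4 + 1 ≤ q ^ 8 * 2 := by omega
      _ ≤ q ^ 8 * q := Nat.mul_le_mul_left _ h2
      _ = q ^ 9 := by ring
  refine fam (N := 12) (L := 17) (d := 1)
    (M := (q ^ 2 - 1) * (q ^ 6 - 1) * (q ^ 8 + q ^ 4 + 1)) hp hq (nd_one hp)
    (nd_mul hp (nd_mul hp (nd_sub hp h2 hpq (by norm_num)) (nd_sub hp h2 hpq (by norm_num))) hnd) ?_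
    (by rw [h]; ring) hn (by norm_num) (by norm_num)
  rw [one_mul]
  calc (q ^ 2 - 1) * (q ^ 6 - 1) * (q ^ 8 + q ^ 4 + 1) < q ^ 2 * q ^ 6 * q ^ 9 :=
        mul_lt_of (mul_lt_of (sub_lt_pow h2) sub_le_pow (by positivity)) hle (by positivity)
    _ = q ^ 17 := by ring

theorem fam_sz (hp : p.Prime) (hq : q = p ^ e) (he : e ≠ 0) (hn : n ≠ 0)
    (h : n = q ^ 2 * (q - 1) * (q ^ 2 + 1)) :
    n < p ^ (3 * n.factorization p) ∧ n ^ 3 < p ^ (8 * n.factorization p) := by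
  have hpq := dvd_q hq he
  have h2 := two_le_q hp hq he
  have hq0 : 0 < q := by omega
  refine fam (N := 2) (L := 3) (d := 1) (M := (q - 1) * (q ^ 2 + 1)) hp hq (nd_one hp)
    (nd_mul hp (nd_sub1 hp h2 hpq) (nd_add hp hpq (by norm_num))) ?_
    (by rw [h]; ring) hn (by norm_num) (by norm_num)
  rw [one_mul]
  obtain ⟨r, rfl⟩ : ∃ r, q = r + 1 := ⟨q - 1, by omega⟩
  rw [Nat.add_sub_cancel]
  nlinarith [sq_nonneg r]

theorem fam_2f4 (hp : p.Prime) (hq : q = p ^ e) (he : e ≠ 0) (hn : n ≠ 0)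
    (h : n = q ^ 12 * (q - 1) * (q ^ 3 + 1) * (q ^ 4 - 1) * (q ^ 6 + 1)) :
    n < p ^ (3 * n.factorization p) ∧ n ^ 3 < p ^ (8 * n.factorization p) := by
  have hpq := dvd_q hq he
  have h2 := two_le_q hp hq he
  have hq0 : 0 < q := by omega
  refine fam (N := 12) (L := 16) (d := 1) (M := (q - 1) * (q ^ 3 + 1) * (q ^ 4 - 1) * (q ^ 6 + 1))
    hp hq (nd_one hp)
    (nd_mul hp (nd_mul hp (nd_mul hp (nd_sub1 hp h2 hpq) (nd_add hp hpq (by norm_num)))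
      (nd_sub hp h2 hpq (by norm_num))) (nd_add hp hpq (by norm_num))) ?_
    (by rw [h]; ring) hn (by norm_num) (by norm_num)
  rw [one_mul]
  calc (q - 1) * (q ^ 3 + 1) * (q ^ 4 - 1) * (q ^ 6 + 1)
      < q * q ^ (3 + 1) * q ^ 4 * q ^ (6 + 1) :=
        mul_lt_of (mul_lt_of (mul_lt_of (sub1_lt h2) (add_le_pow h2 (by norm_num)) (by positivity))
          sub_le_pow (by positivity)) (add_le_pow h2 (by norm_num)) (by positivity)
    _ = q ^ 16 := by ring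

theorem fam_2g2 (hp : p.Prime) (hq : q = p ^ e) (he : e ≠ 0) (hn : n ≠ 0)
    (h : n = q ^ 3 * (q - 1) * (q ^ 3 + 1)) :
    n < p ^ (3 * n.factorization p) ∧ n ^ 3 < p ^ (8 * n.factorization p) := by
  have hpq := dvd_q hq he
  have h2 := two_le_q hp hq he
  have hq0 : 0 < q := by omega
  refine fam (N := 3) (L := 5) (d := 1) (M := (q - 1) * (q ^ 3 + 1)) hp hq (nd_one hp)
    (nd_mul hp (nd_sub1 hp h2 hpq) (nd_add hp hpq (by norm_num))) ?_
    (by rw [h]; ring) hn (by norm_num) (by norm_num)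
  rw [one_mul]
  calc (q - 1) * (q ^ 3 + 1) < q * q ^ (3 + 1) :=
        mul_lt_of (sub1_lt h2) (add_le_pow h2 (by norm_num)) (by positivity)
    _ = q ^ 5 := by ring

end fixed

end Cfsg.Agent.Lib.Helper18.LieOrd
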