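import Mathlib

/-!
# Homomorphisms from `SL₂(F)` defined by the rank one relations

Elements `X u` (`u ∈ F`), `Hh t` (`t ≠ 0`) and `N` of a group satisfying the relations of the
elements `[[1,u],[0,1]]`, `diag(t, t⁻¹)` and `[[0,1],[-1,0]]` of `SL₂(F)` define a homomorphism
from `SL₂(F)`, given on the two Bruhat cells by the normal forms.
-/

set_option autoImplicit false

namespace Cfsg.Agent.Lib.Helper18

open Matrix

/-- The rank one relations. -/
structure Sl2Rel {F : Type*} [Field F] {Γ : Type*} [Group Γ] (X Hh : F → Γ) (N : Γ) : Prop where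
  add : ∀ u v, X u * X v = X (u + v)
  h_one : Hh 1 = 1
  h_mul : ∀ s t, s ≠ 0 → t ≠ 0 → Hh s * Hh t = Hh (s * t)
  h_conj : ∀ t u, t ≠ 0 → Hh t * X u = X (t ^ 2 * u) * Hh t
  n_sq : N * N = Hh (-1)
  n_conj : ∀ u, u ≠ 0 → N * X u * N = X (-u⁻¹) * Hh (-u⁻¹) * N * X (-u⁻¹)

/-- The normal form of the matrix `[[a,b],[c,d]]`. -/
noncomputable def sl2F {F : Type*} [Field F] {Γ : Type*} [Group Γ] (X Hh : F → Γ) (N : Γ)
    (a b c d : F) : Γ :=
  by classical exact if c = 0 then X (a * b) * Hh a else X (a / c) * Hh (-c⁻¹) * N * X (d / c)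

/-- The map on `SL₂(F)`. -/
noncomputable def sl2Fun {F : Type*} [Field F] {Γ : Type*} [Group Γ] (X Hh : F → Γ) (N : Γ)
    (g : SpecialLinearGroup (Fin 2) F) : Γ :=
  sl2F X Hh N (g.1 0 0) (g.1 0 1) (g.1 1 0) (g.1 1 1)

theorem sl2_det {F : Type*} [Field F] (g : SpecialLinearGroup (Fin 2) F) :
    g.1 0 0 * g.1 1 1 - g.1 0 1 * g.1 1 0 = 1 := by
  have h := g.2
  rw [Matrix.det_fin_two] at h
  exact h

section rel

variable {F : Type*} [Field F] {Γ : Type*} [Group Γ] {X Hh : F → Γ} {N : Γ}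

theorem Sl2Rel.x_zero (h : Sl2Rel X Hh N) : X 0 = 1 := by
  have h1 := h.add 0 0
  rw [add_zero] at h1
  exact mul_eq_left.mp h1

theorem sl2F_of_eq (a b c d : F) (hc : c = 0) : sl2F X Hh N a b c d = X (a * b) * Hh a := by
  unfold sl2F
  rw [if_pos hc]

theorem sl2F_of_ne (a b c d : F) (hc : c ≠ 0) :
    sl2F X Hh N a b c d = X (a / c) * Hh (-c⁻¹) * N * X (d / c) := by
  unfold sl2F
  rw [if_neg hc]

/-- Right multiplication by `[[1,u],[0,1]]`. -/
theorem sl2F_mul_x (h : Sl2Rel X Hh N) (a b c d u : F) (hdet : a * d - b * c = 1) :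
    sl2F X Hh N a (a * u + b) c (c * u + d) = sl2F X Hh N a b c d * X u := by
  by_cases hc : c = 0
  · have ha : a ≠ 0 := by
      rintro rfl
      rw [hc] at hdet
      simp at hdet
    rw [sl2F_of_eq _ _ _ _ hc, sl2F_of_eq _ _ _ _ hc, mul_assoc, h.h_conj a u ha, ← mul_assoc, h.add]
    congr 2
    ring
  · rw [sl2F_of_ne _ _ _ _ hc, sl2F_of_ne _ _ _ _ hc, mul_assoc _ (X (d / c)), h.add]
    congr 2
    field_simp
    ring

/-- Right multiplication by `[[0,1],[-1,0]]`. -/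
theorem sl2F_mul_n (h : Sl2Rel X Hh N) (a b c d : F) (hdet : a * d - b * c = 1) :
    sl2F X Hh N (-b) a (-d) c = sl2F X Hh N a b c d * N := by
  by_cases hc : c = 0
  · have hd : d ≠ 0 := by
      rintro rfl
      rw [hc] at hdet
      simp at hdet
    have had : a = d⁻¹ := by
      rw [hc, mul_zero, sub_zero] at hdet
      exact eq_inv_of_mul_eq_one_left hdet
    rw [sl2F_of_ne _ _ _ _ (neg_ne_zero.mpr hd), sl2F_of_eq _ _ _ _ hc, hc, zero_div, h.x_zero,
      mul_one]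
    have e1 : -b / -d = a * b := by rw [had]; field_simp
    have e2 : -(-d)⁻¹ = a := by rw [had]; field_simp
    rw [e1, e2]
  · by_cases hd : d = 0
    · have hb : b = -c⁻¹ := by
        rw [hd, mul_zero, zero_sub] at hdet
        have : b * c = -1 := by linear_combination -hdet
        field_simp
        linear_combination this
      rw [sl2F_of_eq _ _ _ _ (by rw [hd, neg_zero]), sl2F_of_ne _ _ _ _ hc, hd, zero_div, h.x_zero,
        mul_one, mul_assoc, h.n_sq, mul_assoc,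
        h.h_mul _ _ (neg_ne_zero.mpr (inv_ne_zero hc)) (neg_ne_zero.mpr one_ne_zero)]
      have e1 : -b * a = a / c := by rw [hb]; field_simp
      have e2 : -b = -c⁻¹ * -1 := by rw [hb]; ring
      rw [e1, e2]
    · have hdc : d / c ≠ 0 := div_ne_zero hd hc
      rw [sl2F_of_ne _ _ _ _ (neg_ne_zero.mpr hd), sl2F_of_ne _ _ _ _ hc]
      have e0 : X (a / c) * Hh (-c⁻¹) * N * X (d / c) * N =
          X (a / c) * Hh (-c⁻¹) * (N * X (d / c) * N) := by group
      rw [e0, h.n_conj _ hdc]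
      have e1 : X (a / c) * Hh (-c⁻¹) *
          (X (-(d / c)⁻¹) * Hh (-(d / c)⁻¹) * N * X (-(d / c)⁻¹)) =
          X (a / c) * (Hh (-c⁻¹) * X (-(d / c)⁻¹)) * Hh (-(d / c)⁻¹) * N * X (-(d / c)⁻¹) := by
        group
      rw [e1, h.h_conj _ _ (neg_ne_zero.mpr (inv_ne_zero hc)), ← mul_assoc, h.add,
        mul_assoc (X _) (Hh _) (Hh _),
        h.h_mul _ _ (neg_ne_zero.mpr (inv_ne_zero hc)) (neg_ne_zero.mpr (inv_ne_zero hdc))]
      have e2 : a / c + (-c⁻¹) ^ 2 * -(d / c)⁻¹ = -b / -d := by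
        field_simp
        linear_combination hdet
      have e3 : -c⁻¹ * -(d / c)⁻¹ = -(-d)⁻¹ := by
        field_simp
      have e4 : -(d / c)⁻¹ = c / -d := by
        field_simp
      rw [e2, e3, e4]

end rel

/-- The matrix `[[1,u],[0,1]]`. -/
def sl2x {F : Type*} [Field F] (u : F) : SpecialLinearGroup (Fin 2) F :=
  ⟨!![1, u; 0, 1], by simp [Matrix.det_fin_two]⟩

/-- The matrix `[[0,1],[-1,0]]`. -/
def sl2n {F : Type*} [Field F] : SpecialLinearGroup (Fin 2) F :=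
  ⟨!![0, 1; -1, 0], by simp [Matrix.det_fin_two]⟩

section hom

variable {F : Type*} [Field F] {Γ : Type*} [Group Γ] {X Hh : F → Γ} {N : Γ}

theorem sl2Fun_mul_x (h : Sl2Rel X Hh N) (g : SpecialLinearGroup (Fin 2) F) (u : F) :
    sl2Fun X Hh N (g * sl2x u) = sl2Fun X Hh N g * X u := by
  have e := sl2F_mul_x h (g.1 0 0) (g.1 0 1) (g.1 1 0) (g.1 1 1) u (sl2_det g)
  unfold sl2Fun
  rw [← e]
  have h1 : (g * sl2x u).1 = g.1 * !![1, u; 0, 1] := rfl
  rw [h1]
  simp [Matrix.mul_apply, Fin.sum_univ_two]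

theorem sl2Fun_mul_n (h : Sl2Rel X Hh N) (g : SpecialLinearGroup (Fin 2) F) :
    sl2Fun X Hh N (g * sl2n) = sl2Fun X Hh N g * N := by
  have e := sl2F_mul_n h (g.1 0 0) (g.1 0 1) (g.1 1 0) (g.1 1 1) (sl2_det g)
  unfold sl2Fun
  rw [← e]
  have h1 : (g * sl2n).1 = g.1 * !![0, 1; -1, 0] := rfl
  rw [h1]
  simp [Matrix.mul_apply, Fin.sum_univ_two]

theorem sl2Fun_one (h : Sl2Rel X Hh N) : sl2Fun X Hh N (1 : SpecialLinearGroup (Fin 2) F) = 1 := by
  unfold sl2Fun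
  have h1 : (1 : SpecialLinearGroup (Fin 2) F).1 = 1 := rfl
  rw [h1, sl2F_of_eq _ _ _ _ (by simp)]
  simp [h.x_zero, h.h_one]

theorem sl2Fun_x (h : Sl2Rel X Hh N) (u : F) : sl2Fun X Hh N (sl2x u) = X u := by
  have e := sl2Fun_mul_x h 1 u
  rw [one_mul, sl2Fun_one h, one_mul] at e
  exact e

theorem sl2Fun_n (h : Sl2Rel X Hh N) : sl2Fun X Hh N (sl2n : SpecialLinearGroup (Fin 2) F) = N := by
  have e := sl2Fun_mul_n h 1
  rw [one_mul, sl2Fun_one h, one_mul] at e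
  exact e

/-- Every element of `SL₂(F)` is a product of the `[[1,u],[0,1]]` and `[[0,1],[-1,0]]`. -/
theorem sl2_mem_closure (g : SpecialLinearGroup (Fin 2) F) :
    g ∈ Submonoid.closure ({g | ∃ u : F, g = sl2x u} ∪ {sl2n} :
      Set (SpecialLinearGroup (Fin 2) F)) := by
  have hx : ∀ u : F, sl2x u ∈ Submonoid.closure ({g | ∃ u : F, g = sl2x u} ∪ {sl2n} :
      Set (SpecialLinearGroup (Fin 2) F)) := fun u => Submonoid.subset_closure (Or.inl ⟨u, rfl⟩)
  have hn : (sl2n : SpecialLinearGroup (Fin 2) F) ∈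
      Submonoid.closure ({g | ∃ u : F, g = sl2x u} ∪ {sl2n} :
      Set (SpecialLinearGroup (Fin 2) F)) := Submonoid.subset_closure (Or.inr rfl)
  -- the diagonal matrices
  have hh : ∀ t : F, t ≠ 0 → ∀ k : SpecialLinearGroup (Fin 2) F, k.1 = !![t, 0; 0, t⁻¹] →
      k ∈ Submonoid.closure ({g | ∃ u : F, g = sl2x u} ∪ {sl2n} :
        Set (SpecialLinearGroup (Fin 2) F)) := by
    intro t ht k hk
    have e : k = sl2x (-t) * sl2n * sl2x (-t⁻¹) * sl2n * sl2x (-t) * sl2n * sl2n * sl2n := by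
      apply Subtype.ext
      rw [hk]
      show _ = !![1, -t; 0, 1] * !![0, 1; -1, 0] * !![1, -t⁻¹; 0, 1] * !![0, 1; -1, 0] *
        !![1, -t; 0, 1] * !![0, 1; -1, 0] * !![0, 1; -1, 0] * !![0, 1; -1, 0]
      ext i j
      fin_cases i <;> fin_cases j <;> simp [Matrix.mul_apply, Fin.sum_univ_two, ht]
    rw [e]
    exact mul_mem (mul_mem (mul_mem (mul_mem (mul_mem (mul_mem (mul_mem (hx _) hn) (hx _)) hn)
      (hx _)) hn) hn) hn
  have hdet := sl2_det g
  by_cases hc : g.1 1 0 = 0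
  · have ha : g.1 0 0 ≠ 0 := by
      intro h0
      rw [hc, h0] at hdet
      simp at hdet
    have hd : g.1 1 1 = (g.1 0 0)⁻¹ := by
      rw [hc, mul_zero, sub_zero] at hdet
      exact eq_inv_of_mul_eq_one_right hdet
    let k : SpecialLinearGroup (Fin 2) F :=
      ⟨!![g.1 0 0, 0; 0, (g.1 0 0)⁻¹], by simp [Matrix.det_fin_two, ha]⟩
    have e : g = sl2x (g.1 0 0 * g.1 0 1) * k := by
      apply Subtype.ext
      show g.1 = !![1, g.1 0 0 * g.1 0 1; 0, 1] * !![g.1 0 0, 0; 0, (g.1 0 0)⁻¹]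
      ext i j
      fin_cases i <;> fin_cases j <;> simp [Matrix.mul_apply, Fin.sum_univ_two, hc, hd] <;>
        field_simp
    rw [e]
    exact mul_mem (hx _) (hh _ ha k rfl)
  · let k : SpecialLinearGroup (Fin 2) F :=
      ⟨!![-(g.1 1 0)⁻¹, 0; 0, (-(g.1 1 0)⁻¹)⁻¹], by simp [Matrix.det_fin_two, hc]⟩
    have e : g = sl2x (g.1 0 0 / g.1 1 0) * k * sl2n * sl2x (g.1 1 1 / g.1 1 0) := by
      apply Subtype.ext
      show g.1 = !![1, g.1 0 0 / g.1 1 0; 0, 1] * !![-(g.1 1 0)⁻¹, 0; 0, (-(g.1 1 0)⁻¹)⁻¹] *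
        !![0, 1; -1, 0] * !![1, g.1 1 1 / g.1 1 0; 0, 1]
      ext i j
      fin_cases i <;> fin_cases j <;> simp [Matrix.mul_apply, Fin.sum_univ_two] <;> field_simp
      · linear_combination (-1 : F) * hdet
    rw [e]
    exact mul_mem (mul_mem (mul_mem (hx _) (hh _ (neg_ne_zero.mpr (inv_ne_zero hc)) k rfl)) hn)
      (hx _)

theorem sl2Fun_mul (h : Sl2Rel X Hh N) (g g' : SpecialLinearGroup (Fin 2) F) :
    sl2Fun X Hh N (g * g') = sl2Fun X Hh N g * sl2Fun X Hh N g' := by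
  have hg' := sl2_mem_closure g'
  induction hg' using Submonoid.closure_induction generalizing g with
  | mem k hk =>
    rcases hk with ⟨u, rfl⟩ | hk
    · rw [sl2Fun_mul_x h, sl2Fun_x h]
    · rw [Set.mem_singleton_iff] at hk
      rw [hk, sl2Fun_mul_n h, sl2Fun_n h]
  | one => rw [mul_one, sl2Fun_one h, mul_one]
  | mul k k' _ _ ih ih' =>
    rw [← mul_assoc, ih' (g * k), ih g, ih' k, mul_assoc]

/-- The homomorphism from `SL₂(F)` defined by elements satisfying the rank one relations. -/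
noncomputable def sl2Hom (h : Sl2Rel X Hh N) : SpecialLinearGroup (Fin 2) F →* Γ :=
  MonoidHom.mk' (sl2Fun X Hh N) (sl2Fun_mul h)

theorem sl2Hom_apply (h : Sl2Rel X Hh N) (g : SpecialLinearGroup (Fin 2) F) :
    sl2Hom h g = sl2Fun X Hh N g := rfl

/-- The image of `[[1,t],[0,1]]`. -/
theorem sl2Hom_upper (h : Sl2Rel X Hh N) (g : SpecialLinearGroup (Fin 2) F) (t : F)
    (hg : g.1 = !![1, t; 0, 1]) : sl2Hom h g = X t := by
  have e : g = sl2x t := Subtype.ext hg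
  rw [e, sl2Hom_apply, sl2Fun_x h]

/-- The image of `[[1,0],[t,1]]`, `t ≠ 0`. -/
theorem sl2Hom_lower (h : Sl2Rel X Hh N) (g : SpecialLinearGroup (Fin 2) F) (t : F)
    (hg : g.1 = !![1, 0; t, 1]) (ht : t ≠ 0) :
    sl2Hom h g = X t⁻¹ * Hh (-t⁻¹) * N * X t⁻¹ := by
  rw [sl2Hom_apply]
  unfold sl2Fun
  rw [hg, sl2F_of_ne _ _ _ _ (by simpa using ht)]
  simp

/-- The image of the homomorphism is generated by the `X u`, the `Hh t` and `N`. -/
theorem sl2Hom_mem (h : Sl2Rel X Hh N) (K : Subgroup Γ) (hX : ∀ u, X u ∈ K)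
    (hH : ∀ t, t ≠ 0 → Hh t ∈ K) (hN : N ∈ K) (g : SpecialLinearGroup (Fin 2) F) :
    sl2Hom h g ∈ K := by
  rw [sl2Hom_apply]
  unfold sl2Fun
  have hdet := sl2_det g
  by_cases hc : g.1 1 0 = 0
  · have ha : g.1 0 0 ≠ 0 := by
      intro h0
      rw [hc, h0] at hdet
      simp at hdet
    rw [sl2F_of_eq _ _ _ _ hc]
    exact mul_mem (hX _) (hH _ ha)
  · rw [sl2F_of_ne _ _ _ _ hc]
    exact mul_mem (mul_mem (mul_mem (hX _) (hH _ (neg_ne_zero.mpr (inv_ne_zero hc)))) hN) (hX _)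

end hom

end Cfsg.Agent.Lib.Helper18
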