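import Cfsg.Agent.Lib.Helper17.TwOrder
import Cfsg.Agent.Lib.Helper18.ChevExch

/-!
# Groups generated by root elements satisfying the relations (R1) and (R2)

An abstract group `Γ` with elements `X r t` satisfying the additivity of the root elements and
Chevalley's commutator formula: conjugation of root elements, subgroups generated by sets of
roots, and the collection of a product into an ordered product along an admissible list.
-/

set_option autoImplicit false

namespace Cfsg.Agent.Lib.Helper18.StAbs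

open Cfsg Cfsg.Lie Cfsg.Lie.ChevalleyDatum

variable {K : Type*} [Field K] {Γ : Type*} [Group Γ]

/-- the product of the root elements along a word -/
def wd (X : ℕ → K → Γ) (l : List (ℕ × K)) : Γ := (l.map fun p => X p.1 p.2).prod

theorem wd_nil (X : ℕ → K → Γ) : wd X [] = 1 := rfl

theorem wd_cons (X : ℕ → K → Γ) (p : ℕ × K) (l : List (ℕ × K)) :
    wd X (p :: l) = X p.1 p.2 * wd X l := by
  unfold wd
  rw [List.map_cons, List.prod_cons]

theorem wd_append (X : ℕ → K → Γ) (l l' : List (ℕ × K)) :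
    wd X (l ++ l') = wd X l * wd X l' := by
  unfold wd
  rw [List.map_append, List.prod_append]

/-- the relations (R1) and (R2) -/
structure Rel (D : ChevalleyDatum) (X : ℕ → K → Γ) : Prop where
  add : ∀ (r : ℕ) (t u : K), X r t * X r u = X r (t + u)
  comm : ∀ r s, r < D.nroots → s < D.nroots → s ≠ r → s ≠ D.neg r → ∀ t u : K,
    X s u * X r t = X r t * X s u * wd X (D.commWord K r s t u)

section rel

variable {D : ChevalleyDatum} {X : ℕ → K → Γ}

theorem Rel.zero (h : Rel D X) (r : ℕ) : X r 0 = 1 := by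
  have h1 := h.add r 0 0
  rw [add_zero] at h1
  exact mul_eq_left.mp h1

theorem Rel.inv (h : Rel D X) (r : ℕ) (t : K) : (X r t)⁻¹ = X r (-t) := by
  rw [inv_eq_iff_mul_eq_one, h.add, add_neg_cancel, h.zero]

/-- conjugating a root element by another one -/
theorem Rel.conj (h : Rel D X) (r s : ℕ) (hr : r < D.nroots) (hs : s < D.nroots) (hsr : s ≠ r)
    (hsn : s ≠ D.neg r) (a c : K) :
    (X r a)⁻¹ * X s c * X r a = X s c * wd X (D.commWord K r s a c) := by
  rw [mul_assoc, h.comm r s hr hs hsr hsn a c]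
  group

/-- the subgroup generated by the root elements of the roots in a set -/
def gen (X : ℕ → K → Γ) (S : Set ℕ) : Subgroup Γ :=
  Subgroup.closure {g | ∃ r ∈ S, ∃ t : K, g = X r t}

theorem X_mem_gen (X : ℕ → K → Γ) (S : Set ℕ) (r : ℕ) (hr : r ∈ S) (t : K) : X r t ∈ gen X S :=
  Subgroup.subset_closure ⟨r, hr, t, rfl⟩

theorem gen_mono (X : ℕ → K → Γ) {S T : Set ℕ} (h : S ⊆ T) : gen X S ≤ gen X T := by
  apply Subgroup.closure_mono
  rintro g ⟨r, hr, t, rfl⟩
  exact ⟨r, h hr, t, rfl⟩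

theorem wd_mem_gen (X : ℕ → K → Γ) (S : Set ℕ) (l : List (ℕ × K)) (hl : ∀ p ∈ l, p.1 ∈ S) :
    wd X l ∈ gen X S := by
  unfold wd
  apply Subgroup.list_prod_mem
  intro x hx
  obtain ⟨p, hp, rfl⟩ := List.mem_map.mp hx
  exact X_mem_gen X S p.1 (hl p hp) p.2

theorem commWord_mem_gen (X : ℕ → K → Γ) (S : Set ℕ) (r s : ℕ)
    (h : ∀ c ∈ D.commTerms r s, c.1 ∈ S) (a c : K) :
    wd X (D.commWord K r s a c) ∈ gen X S := by
  apply wd_mem_gen
  intro p hp
  unfold ChevalleyDatum.commWord at hp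
  obtain ⟨c', hc', rfl⟩ := List.mem_map.mp hp
  exact h c' hc'

/-- a hom-like map preserving a subgroup generated by a set -/
theorem conj_closure {G : Type*} [Group G] (S : Set G) (H : Subgroup G) (g : G)
    (h : ∀ x ∈ S, g⁻¹ * x * g ∈ H) : ∀ v ∈ Subgroup.closure S, g⁻¹ * v * g ∈ H := by
  intro v hv
  induction hv using Subgroup.closure_induction with
  | mem x hx => exact h x hx
  | one =>
    have : g⁻¹ * 1 * g = 1 := by group
    rw [this]
    exact H.one_mem
  | mul x y _ _ ihx ihy =>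
    have : g⁻¹ * (x * y) * g = (g⁻¹ * x * g) * (g⁻¹ * y * g) := by group
    rw [this]
    exact H.mul_mem ihx ihy
  | inv x _ ih =>
    have : g⁻¹ * x⁻¹ * g = (g⁻¹ * x * g)⁻¹ := by group
    rw [this]
    exact H.inv_mem ih

/-- a root element normalises the subgroup generated by a set of roots closed under the
commutator terms with it -/
theorem conj_mem_gen (h : Rel D X) (S : Set ℕ) (r : ℕ) (hr : r < D.nroots)
    (hS : ∀ s ∈ S, s < D.nroots ∧ s ≠ r ∧ s ≠ D.neg r ∧ ∀ c ∈ D.commTerms r s, c.1 ∈ S)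
    (a : K) (g : Γ) (hg : g ∈ gen X S) : (X r a)⁻¹ * g * X r a ∈ gen X S := by
  apply conj_closure _ _ _ _ g hg
  rintro x ⟨s, hs, c, rfl⟩
  obtain ⟨h1, h2, h3, h4⟩ := hS s hs
  rw [h.conj r s hr h1 h2 h3 a c]
  exact mul_mem (X_mem_gen X S s hs c) (commWord_mem_gen X S r s h4 a c)

theorem conj_mem_gen' (h : Rel D X) (S : Set ℕ) (r : ℕ) (hr : r < D.nroots)
    (hS : ∀ s ∈ S, s < D.nroots ∧ s ≠ r ∧ s ≠ D.neg r ∧ ∀ c ∈ D.commTerms r s, c.1 ∈ S)
    (a : K) (g : Γ) (hg : g ∈ gen X S) : X r a * g * (X r a)⁻¹ ∈ gen X S := by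
  have h1 := conj_mem_gen h S r hr hS (-a) g hg
  rw [← h.inv, inv_inv] at h1
  exact h1

/-- `⟨X_r, gen S⟩ = X_r · gen S` when `X_r` normalises `gen S` -/
theorem gen_insert (h : Rel D X) (S : Set ℕ) (r : ℕ) (hr : r < D.nroots)
    (hS : ∀ s ∈ S, s < D.nroots ∧ s ≠ r ∧ s ≠ D.neg r ∧ ∀ c ∈ D.commTerms r s, c.1 ∈ S)
    (g : Γ) (hg : g ∈ gen X (insert r S)) : ∃ a : K, ∃ s ∈ gen X S, g = X r a * s := by
  have step : ∀ (r' : ℕ), r' ∈ insert r S → ∀ (c : K) (y : Γ),
      (∃ a : K, ∃ s ∈ gen X S, y = X r a * s) → ∃ a : K, ∃ s ∈ gen X S, X r' c * y = X r a * s := by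
    rintro r' hr' c y ⟨a, s, hs, rfl⟩
    rcases Set.mem_insert_iff.mp hr' with rfl | hr'S
    · exact ⟨c + a, s, hs, by rw [← mul_assoc, h.add]⟩
    · refine ⟨a, (X r a)⁻¹ * X r' c * X r a * s,
        mul_mem (conj_mem_gen h S r hr hS a _ (X_mem_gen X S r' hr'S c)) hs, ?_⟩
      group
  unfold gen at hg
  induction hg using Subgroup.closure_induction_left with
  | one => exact ⟨0, 1, Subgroup.one_mem _, by rw [h.zero, one_mul]⟩
  | mul_left x hx y _ ihy =>
    obtain ⟨r', hr', c, rfl⟩ := hx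
    exact step r' hr' c y ihy
  | inv_mul_cancel x hx y _ ihy =>
    obtain ⟨r', hr', c, rfl⟩ := hx
    rw [h.inv]
    exact step r' hr' (-c) y ihy

/-! ### Ordered products along admissible lists -/

/-- admissible lists: the commutator terms of each root with the later roots are later roots -/
def Adm (D : ChevalleyDatum) : List ℕ → Prop
  | [] => True
  | r :: post => r < D.nroots ∧ r ∉ post ∧
      (∀ s ∈ post, s < D.nroots ∧ s ≠ D.neg r ∧ ∀ c ∈ D.commTerms r s, c.1 ∈ post) ∧ Adm D post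

theorem Adm.lt : ∀ {L : List ℕ}, Adm D L → ∀ r ∈ L, r < D.nroots
  | [], _, r, hr => absurd hr List.not_mem_nil
  | r₀ :: post, h, r, hr => by
    rcases List.mem_cons.mp hr with rfl | hr'
    · exact h.1
    · exact Adm.lt h.2.2.2 r hr'

theorem Adm.nodup : ∀ {L : List ℕ}, Adm D L → L.Nodup
  | [], _ => List.nodup_nil
  | _ :: _, h => List.nodup_cons.mpr ⟨h.2.1, Adm.nodup h.2.2.2⟩

/-- the ordered product of root elements along a list -/
def oprod (X : ℕ → K → Γ) (L : List ℕ) (t : ℕ → K) : Γ := (L.map fun r => X r (t r)).prod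

theorem oprod_cons (X : ℕ → K → Γ) (r : ℕ) (L : List ℕ) (t : ℕ → K) :
    oprod X (r :: L) t = X r (t r) * oprod X L t := by
  unfold oprod
  rw [List.map_cons, List.prod_cons]

theorem oprod_congr (X : ℕ → K → Γ) (L : List ℕ) (t t' : ℕ → K) (h : ∀ r ∈ L, t r = t' r) :
    oprod X L t = oprod X L t' := by
  unfold oprod
  congr 1
  apply List.map_congr_left
  intro r hr
  rw [h r hr]

theorem oprod_zero (h : Rel D X) (L : List ℕ) (t : ℕ → K) (ht : ∀ r ∈ L, t r = 0) :
    oprod X L t = 1 := by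
  unfold oprod
  apply List.prod_eq_one
  intro x hx
  obtain ⟨r, hr, rfl⟩ := List.mem_map.mp hx
  rw [ht r hr, h.zero]

/-- existence of the ordered factorisation along an admissible list -/
theorem collect (h : Rel D X) : ∀ (L : List ℕ), Adm D L →
    ∀ g ∈ gen X {r | r ∈ L}, ∃ t : ℕ → K, g = oprod X L t := by
  intro L
  induction L with
  | nil =>
    intro _ g hg
    have : gen X {r | r ∈ ([] : List ℕ)} = ⊥ := by
      unfold gen
      rw [Subgroup.closure_eq_bot_iff]
      rintro g ⟨r, hr, -⟩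
      simp at hr
    rw [this, Subgroup.mem_bot] at hg
    exact ⟨fun _ => 0, by rw [hg]; rfl⟩
  | cons r post ih =>
    intro hadm g hg
    obtain ⟨hr, hrn, hpost, hadm'⟩ := hadm
    have hset : {r' | r' ∈ r :: post} = insert r {r' | r' ∈ post} := by
      ext x
      simp
    rw [hset] at hg
    obtain ⟨a, s, hs, rfl⟩ := gen_insert h {r' | r' ∈ post} r hr
      (fun s hs => ⟨(hpost s hs).1, fun e => hrn (e ▸ hs), (hpost s hs).2.1, (hpost s hs).2.2⟩) g hg
    obtain ⟨t, rfl⟩ := ih hadm' s hs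
    refine ⟨Function.update t r a, ?_⟩
    rw [oprod_cons, Function.update_self]
    congr 1
    apply oprod_congr
    intro r' hr'
    have hne : r' ≠ r := fun e => hrn (e ▸ hr')
    rw [Function.update_of_ne hne]

end rel

end Cfsg.Agent.Lib.Helper18.StAbs
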