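import Cfsg.Agent.Lib.Helper18.StSmall
import Cfsg.Agent.Lib.Helper18.StCert.B2

/-!
# Type B₂ over the field with three elements: lifts of the root elements

Over the field with three elements no diagonal element acts nontrivially on the root subgroups
of the long roots of `B₂`.  For a central extension `ψ : E →* Γ` of a group `Γ` with elements
`X r t` satisfying (R1), (R2) of type `B₂`, the root elements of the short roots are lifted by
means of a diagonal element `h` acting by `-1` on them, and those of a long root as commutators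
of lifts of root elements of two short roots.  This file has the lemmas on these lifts which do
not depend on the numbering of the roots.
-/

set_option autoImplicit false

namespace Cfsg.Agent.Lib.Helper18.StAbs.B2F3

open Cfsg Cfsg.Lie Cfsg.Lie.ChevalleyDatum Cfsg.Agent.Lib.Helper17 Cfsg.Agent.Lib.Helper18.CExt

variable {K : Type*} [Field K] {Γ : Type*} [Group Γ] {E : Type*} [Group E]

section gen

variable (ψ : E →* Γ) (hs : Function.Surjective ψ) (hc : ψ.ker ≤ Subgroup.center E)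

include hc

/-- the commutator of lifts is trivial if some lifts commute -/
theorem cc_one_of_lifts (a b : E) (x y : Γ) (ha : ψ a = x) (hb : ψ b = y) (hab : a * b = b * a) :
    cc ψ hs x y = 1 := by
  rw [cc_eq ψ hs hc a b x y ha hb, hab]
  group

theorem cc_one_left (y : Γ) : cc ψ hs 1 y = 1 :=
  cc_one_of_lifts ψ hs hc 1 (lf ψ hs y) 1 y (map_one ψ) (psi_lf ψ hs y) (by rw [one_mul, mul_one])

theorem cc_one_right (x : Γ) : cc ψ hs x 1 = 1 :=
  cc_one_of_lifts ψ hs hc (lf ψ hs x) 1 x 1 (psi_lf ψ hs x) (map_one ψ) (by rw [one_mul, mul_one])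

/-- lifts commute if the commutator of lifts is trivial -/
theorem comm_of_cc (a b : E) (x y : Γ) (ha : ψ a = x) (hb : ψ b = y) (h : cc ψ hs x y = 1) :
    a * b = b * a := by
  have h1 := cc_eq ψ hs hc a b x y ha hb
  rw [h] at h1
  calc a * b = (a * b * a⁻¹ * b⁻¹) * (b * a) := by group
    _ = b * a := by rw [← h1, one_mul]

/-- conjugation of a lift by a lift, in terms of the commutator of lifts -/
theorem conj_eq_cc (a b : E) (x y : Γ) (ha : ψ a = x) (hb : ψ b = y) :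
    a * b * a⁻¹ = cc ψ hs x y * b := by
  rw [cc_eq ψ hs hc a b x y ha hb]
  group

/-- lifts of powers of one element commute -/
theorem cc_cyc (g x y : Γ) (hx : x = 1 ∨ x = g ∨ x = g⁻¹) (hy : y = 1 ∨ y = g ∨ y = g⁻¹) :
    cc ψ hs x y = 1 := by
  have key : ∀ z : Γ, (z = 1 ∨ z = g ∨ z = g⁻¹) → ∃ n : ℤ, ψ ((lf ψ hs g) ^ n) = z := by
    rintro z (rfl | rfl | rfl)
    · exact ⟨0, by rw [zpow_zero, map_one]⟩
    · exact ⟨1, by rw [zpow_one, psi_lf]⟩
    · exact ⟨-1, by rw [zpow_neg_one, map_inv, psi_lf]⟩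
  obtain ⟨n, hn⟩ := key x hx
  obtain ⟨m, hm⟩ := key y hy
  exact cc_one_of_lifts ψ hs hc _ _ x y hn hm (Commute.zpow_zpow_self _ n m).eq

omit hc in
theorem cc_swap_one (x y : Γ) (h : cc ψ hs x y = 1) : cc ψ hs y x = 1 := by
  have h1 := cc_mul_swap ψ hs y x
  rw [h, mul_one] at h1
  exact h1

end gen

section b2

variable {D : ChevalleyDatum} {X : ℕ → K → Γ} (hX : Rel D X)
  (ψ : E →* Γ) (hs : Function.Surjective ψ) (hc : ψ.ker ≤ Subgroup.center E)

include hX hc in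
/-- over the field with three elements lifts of elements of one root subgroup commute -/
theorem ccXX (hcases : ∀ t : K, t = 0 ∨ t = 1 ∨ t = -1) (γ : ℕ) (t u : K) :
    cc ψ hs (X γ t) (X γ u) = 1 := by
  have key : ∀ v : K, X γ v = 1 ∨ X γ v = X γ 1 ∨ X γ v = (X γ 1)⁻¹ := by
    intro v
    rcases hcases v with rfl | rfl | rfl
    · exact Or.inl (hX.zero γ)
    · exact Or.inr (Or.inl rfl)
    · exact Or.inr (Or.inr (hX.inv γ 1).symm)
  exact cc_cyc ψ hs hc (X γ 1) _ _ (key t) (key u)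

include hX in
/-- the commutator formula with a single term, as a commutator -/
theorem X_single (a b s : ℕ) (C : ℤ) (ha : a < D.nroots) (hb : b < D.nroots) (hba : b ≠ a)
    (hbn : b ≠ D.neg a) (hab : D.commTerms a b = [(s, C, 1, 1)]) (t u : K) :
    X b u * X a t * (X b u)⁻¹ * (X a t)⁻¹ = X s (-(C : K) * t * u) := by
  have hwab : ∀ v w : K, D.commWord K a b v w = [(s, (C : K) * (-v) ^ 1 * w ^ 1)] := by
    intro v w
    unfold ChevalleyDatum.commWord
    rw [hab]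
    rfl
  have h1 := hX.comm a b ha hb hba hbn (-t) (-u)
  rw [hwab, wd_cons, wd_nil, mul_one] at h1
  have h2 : (C : K) * (-(-t)) ^ 1 * (-u) ^ 1 = -(C : K) * t * u := by ring
  rw [h2] at h1
  have h3 : X s (-(C : K) * t * u) = (X a (-t) * X b (-u))⁻¹ * (X b (-u) * X a (-t)) := by
    rw [h1]
    group
  rw [h3, ← hX.inv, ← hX.inv]
  group

variable (h : Γ) (χ : ℕ → K) (hdg : Dg D X h χ)

include hX hc hdg in
/-- lifts of commuting root elements commute, if `h` centralises one and not the other -/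
theorem ccSL (σ lam : ℕ) (hσ : σ < D.nroots) (hl : lam < D.nroots) (hne : lam ≠ σ)
    (hnn : lam ≠ D.neg σ) (hct : D.commTerms σ lam = []) (hχσ : χ σ ≠ 1) (hχl : χ lam = 1)
    (a v : K) : cc ψ hs (X σ a) (X lam v) = 1 :=
  cc_of_tor hX ψ hs hc σ lam hσ hl
    (fun a v => X_comm_of_nil hX σ lam hσ hl hne hnn hct a v) h χ hdg hχl hχσ a v

include hX hc hdg in
/-- lifts of `h` and of root elements centralised by `h` commute, if `h ^ 2 = 1` and `3 = 0` -/
theorem ccHL (h3 : (3 : K) = 0) (hh : h * h = 1) (lam : ℕ) (hl : lam < D.nroots)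
    (hχl : χ lam = 1) (b : K) : cc ψ hs h (X lam b) = 1 := by
  have hcom : ∀ v : K, h * X lam v = X lam v * h := by
    intro v
    have := (hdg lam hl).2 v
    rwa [hχl, one_mul] at this
  have h2 : cc ψ hs h (X lam b) * cc ψ hs h (X lam b) = 1 := by
    have e1 := cc_mul_left' ψ hs hc h h (X lam b) (hcom b)
    rw [hh, cc_one_left ψ hs hc] at e1
    exact e1.symm
  have h3' : cc ψ hs h (X lam b) * cc ψ hs h (X lam b) * cc ψ hs h (X lam b) = 1 := by
    have e1 := cc_mul_right' ψ hs hc h (X lam b) (X lam b) (hcom b)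
    have e2 := cc_mul_right' ψ hs hc h (X lam b * X lam b) (X lam b) (hcom b)
    rw [e1] at e2
    have e3 : X lam b * X lam b * X lam b = 1 := by
      rw [hX.add, hX.add]
      have : b + b + b = 0 := by linear_combination b * h3
      rw [this, hX.zero]
    rw [e3, cc_one_right ψ hs hc] at e2
    exact e2.symm
  calc cc ψ hs h (X lam b)
      = (cc ψ hs h (X lam b) * cc ψ hs h (X lam b) * cc ψ hs h (X lam b)) *
        (cc ψ hs h (X lam b) * cc ψ hs h (X lam b))⁻¹ := by group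
    _ = 1 := by rw [h3', h2, inv_one, mul_one]

include hX hc in
/-- lifts of the root elements of two orthogonal long roots commute -/
theorem ccLL (hcases : ∀ t : K, t = 0 ∨ t = 1 ∨ t = -1) (γ γ' a b : ℕ) (C C1 C2 : ℤ)
    (hγ : γ < D.nroots) (ha : a < D.nroots) (hb : b < D.nroots) (hba : b ≠ a)
    (hbn : b ≠ D.neg a) (hbγ : b ≠ γ) (hbγn : b ≠ D.neg γ) (haγ : a ≠ γ) (haγn : a ≠ D.neg γ)
    (hγ' : γ' < D.nroots) (hγ'a : γ' ≠ a) (hγ'an : γ' ≠ D.neg a)
    (hab : D.commTerms a b = [(γ', C, 1, 1)])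
    (hγb : D.commTerms γ b = [(a, C1, 1, 1), (γ', C2, 1, 2)])
    (hγa : D.commTerms γ a = []) (haγ' : D.commTerms a γ' = [])
    (hCC : (C : K) * (C : K) = 1)
    (hB : ∀ c t : K, cc ψ hs (X γ' c) (X a t) = 1) (τ v : K) :
    cc ψ hs (X γ τ) (X γ' v) = 1 := by
  have hw : D.commWord K γ b (-τ) (-(C : K) * v) =
      [(a, (C1 : K) * (-(-τ)) ^ 1 * (-(C : K) * v) ^ 1),
        (γ', (C2 : K) * (-(-τ)) ^ 1 * (-(C : K) * v) ^ 2)] := by
    unfold ChevalleyDatum.commWord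
    rw [hγb]
    rfl
  have key := X_single hX a b γ' C ha hb hba hbn hab 1 (-(C : K) * v)
  have e0 : -(C : K) * 1 * (-(C : K) * v) = v := by linear_combination v * hCC
  rw [e0] at key
  have h1 : X γ τ * X a 1 = X a 1 * X γ τ := X_comm_of_nil hX γ a hγ ha haγ haγn hγa τ 1
  have R := hX.comm γ b hγ hb hbγ hbγn (-τ) (-(C : K) * v)
  rw [hw, wd_cons, wd_cons, wd_nil, mul_one] at R
  dsimp only at R
  generalize (C1 : K) * (-(-τ)) ^ 1 * (-(C : K) * v) ^ 1 = c1 at R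
  generalize (C2 : K) * (-(-τ)) ^ 1 * (-(C : K) * v) ^ 2 = c2 at R
  have h2 : X γ τ * X b (-(C : K) * v) * (X γ τ)⁻¹ = X b (-(C : K) * v) * (X a c1 * X γ' c2) := by
    rw [hX.inv]
    calc X γ τ * X b (-(C : K) * v) * X γ (-τ)
        = X γ τ * (X b (-(C : K) * v) * X γ (-τ)) := by group
      _ = X γ τ * (X γ (-τ) * X b (-(C : K) * v) * (X a c1 * X γ' c2)) := by rw [R]
      _ = (X γ τ * X γ (-τ)) * (X b (-(C : K) * v) * (X a c1 * X γ' c2)) := by group
      _ = X b (-(C : K) * v) * (X a c1 * X γ' c2) := by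
        rw [hX.add, add_neg_cancel, hX.zero, one_mul]
  have h3 : (X a c1 * X γ' c2) * X a 1 = X a 1 * (X a c1 * X γ' c2) := by
    have k1 : X γ' c2 * X a 1 = X a 1 * X γ' c2 :=
      (X_comm_of_nil hX a γ' ha hγ' hγ'a hγ'an haγ' 1 c2).symm
    rw [mul_assoc, k1, ← mul_assoc, ← mul_assoc, hX.add, hX.add, add_comm]
  have h4 := cc_of_conj ψ hs hc (X γ τ) (X b (-(C : K) * v)) (X a 1) (X a c1 * X γ' c2) h1 h2 h3
  rw [key] at h4
  rw [h4, cc_mul_left' ψ hs hc _ _ _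
    (X_comm_of_nil hX a γ' ha hγ' hγ'a hγ'an haγ' 1 c2).symm, hB, ccXX hX ψ hs hc hcases, mul_one]

/-! ### A pair of short roots whose sum is a long root -/

section pairE

variable (a b γ : ℕ) (C : ℤ) (ha : a < D.nroots) (hb : b < D.nroots) (hba : b ≠ a)
  (hbn : b ≠ D.neg a) (hab : D.commTerms a b = [(γ, C, 1, 1)])
  (hca : ∀ t w : K, cc ψ hs (X a t) (X γ w) = 1) (hcb : ∀ u w : K, cc ψ hs (X b u) (X γ w) = 1)

include hX ha hb hba hbn hab in
theorem psi_G (u t : K) : ψ (cc ψ hs (X b u) (X a t)) = X γ (-(C : K) * t * u) := by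
  rw [psi_cc, X_single hX a b γ C ha hb hba hbn hab]

include hX hc ha hb hba hbn hab hcb in
theorem G_add_left (u u' t : K) : cc ψ hs (X b (u + u')) (X a t) =
    cc ψ hs (X b u') (X a t) * cc ψ hs (X b u) (X a t) := by
  rw [← hX.add, cc_mul_left ψ hs hc]
  have h1 := comm_of_cc ψ hs hc (lf ψ hs (X b u)) (cc ψ hs (X b u') (X a t)) (X b u)
    (X γ (-(C : K) * t * u')) (psi_lf ψ hs _) (psi_G hX ψ hs a b γ C ha hb hba hbn hab u' t)
    (hcb u _)
  rw [h1]
  group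

include hX hc ha hb hba hbn hab hca in
theorem G_add_right (u t t' : K) : cc ψ hs (X b u) (X a (t + t')) =
    cc ψ hs (X b u) (X a t) * cc ψ hs (X b u) (X a t') := by
  rw [← hX.add, cc_mul_right ψ hs hc]
  have h1 := comm_of_cc ψ hs hc (lf ψ hs (X a t)) (cc ψ hs (X b u) (X a t')) (X a t)
    (X γ (-(C : K) * t' * u)) (psi_lf ψ hs _) (psi_G hX ψ hs a b γ C ha hb hba hbn hab u t')
    (hca t _)
  rw [h1]
  group

include hX hc in
theorem G_zero_left (t : K) : cc ψ hs (X b 0) (X a t) = 1 := by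
  rw [hX.zero, cc_one_left ψ hs hc]

include hX hc in
theorem G_zero_right (u : K) : cc ψ hs (X b u) (X a 0) = 1 := by
  rw [hX.zero, cc_one_right ψ hs hc]

include hX hc ha hb hba hbn hab hcb in
theorem G_neg_left (u t : K) : cc ψ hs (X b (-u)) (X a t) = (cc ψ hs (X b u) (X a t))⁻¹ := by
  have h1 := G_add_left hX ψ hs hc a b γ C ha hb hba hbn hab hcb u (-u) t
  rw [add_neg_cancel, G_zero_left hX ψ hs hc] at h1
  exact eq_inv_of_mul_eq_one_left h1.symm

include hX hc ha hb hba hbn hab hca in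
theorem G_neg_right (u t : K) : cc ψ hs (X b u) (X a (-t)) = (cc ψ hs (X b u) (X a t))⁻¹ := by
  have h1 := G_add_right hX ψ hs hc a b γ C ha hb hba hbn hab hca u t (-t)
  rw [add_neg_cancel, G_zero_right hX ψ hs hc] at h1
  exact eq_inv_of_mul_eq_one_right h1.symm

include hX hc ha hb hba hbn hab hca hcb in
theorem G_mul (hcases : ∀ t : K, t = 0 ∨ t = 1 ∨ t = -1) (u t : K) :
    cc ψ hs (X b u) (X a t) = cc ψ hs (X b (u * t)) (X a 1) := by
  rcases hcases t with rfl | rfl | rfl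
  · rw [mul_zero, G_zero_right hX ψ hs hc, G_zero_left hX ψ hs hc]
  · rw [mul_one]
  · rw [mul_neg, mul_one, G_neg_left hX ψ hs hc a b γ C ha hb hba hbn hab hcb,
      G_neg_right hX ψ hs hc a b γ C ha hb hba hbn hab hca]

variable (Y : ℕ → K → E) (hY : ∀ v : K, Y γ v = cc ψ hs (X b (-(C : K) * v)) (X a 1))
  (hCC : (C : K) * (C : K) = 1)

include hX hc ha hb hba hbn hab hca hcb hY hCC in
/-- the commutator of lifts of the root elements of the two short roots -/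
theorem E5 (hcases : ∀ t : K, t = 0 ∨ t = 1 ∨ t = -1) (u t : K) :
    cc ψ hs (X b u) (X a t) = Y γ (-(C : K) * u * t) := by
  rw [hY, G_mul hX ψ hs hc a b γ C ha hb hba hbn hab hca hcb hcases]
  have e : -(C : K) * (-(C : K) * u * t) = u * t := by linear_combination u * t * hCC
  rw [e]

include hX ha hb hba hbn hab hY hCC in
theorem psi_YL (v : K) : ψ (Y γ v) = X γ v := by
  rw [hY, psi_G hX ψ hs a b γ C ha hb hba hbn hab]
  have e : -(C : K) * 1 * (-(C : K) * v) = v := by linear_combination v * hCC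
  rw [e]

include hX hc ha hb hba hbn hab hcb hY in
theorem YL_add (v v' : K) : Y γ v * Y γ v' = Y γ (v + v') := by
  rw [hY, hY, hY]
  have e : -(C : K) * (v + v') = -(C : K) * v' + -(C : K) * v := by ring
  rw [e, G_add_left hX ψ hs hc a b γ C ha hb hba hbn hab hcb]

include hX hc ha hb hba hbn hab hcb hY in
theorem YL_inv (v : K) : (Y γ v)⁻¹ = Y γ (-v) := by
  have h1 := YL_add hX ψ hs hc a b γ C ha hb hba hbn hab hcb Y hY v (-v)
  rw [add_neg_cancel] at h1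
  have h0 : Y γ 0 = 1 := by
    rw [hY, mul_zero, G_zero_left hX ψ hs hc]
  rw [h0] at h1
  exact inv_eq_of_mul_eq_one_right h1

include hX hc ha hb hba hbn hab hca hcb hY hCC in
/-- the commutator of lifts of the root elements of the two short roots, in the other order -/
theorem E8 (hcases : ∀ t : K, t = 0 ∨ t = 1 ∨ t = -1) (C3 : ℤ) (hC3 : (C3 : K) = -(C : K))
    (t u : K) : cc ψ hs (X a t) (X b u) = Y γ (-(C3 : K) * t * u) := by
  have h1 := cc_mul_swap ψ hs (X a t) (X b u)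
  rw [E5 hX ψ hs hc a b γ C ha hb hba hbn hab hca hcb Y hY hCC hcases] at h1
  have h2 : cc ψ hs (X a t) (X b u) = (Y γ (-(C : K) * u * t))⁻¹ := eq_inv_of_mul_eq_one_left h1
  rw [h2, YL_inv hX ψ hs hc a b γ C ha hb hba hbn hab hcb Y hY, hC3]
  congr 1
  ring

end pairE

/-! ### The lifts for the short roots -/

include hX hdg in
theorem psi_YS (h3 : (3 : K) = 0) (σ : ℕ) (hσ : σ < D.nroots) (hχ : χ σ = -1) (t : K) :
    ψ (cc ψ hs h (X σ t)) = X σ t := by
  rw [psi_cc, hdg.conj σ hσ, hχ, hX.inv, hX.add]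
  congr 1
  linear_combination (-t) * h3

include hX hc hdg in
theorem YS_add (hcases : ∀ t : K, t = 0 ∨ t = 1 ∨ t = -1) (h3 : (3 : K) = 0) (σ : ℕ)
    (hσ : σ < D.nroots) (hχ : χ σ = -1) (t u : K) :
    cc ψ hs h (X σ t) * cc ψ hs h (X σ u) = cc ψ hs h (X σ (t + u)) := by
  rw [← hX.add, cc_mul_right ψ hs hc]
  have h1 := comm_of_cc ψ hs hc (lf ψ hs (X σ t)) (cc ψ hs h (X σ u)) (X σ t) (X σ u)
    (psi_lf ψ hs _) (psi_YS hX ψ hs h χ hdg h3 σ hσ hχ u) (ccXX hX ψ hs hc hcases σ t u)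
  rw [h1]
  group

omit [Field K] in
theorem Y_inv_of_add {K : Type*} [AddGroup K] (Y : ℕ → K → E)
    (hadd : ∀ (r : ℕ) (t u : K), Y r t * Y r u = Y r (t + u)) (r : ℕ) (t : K) :
    (Y r t)⁻¹ = Y r (-t) := by
  have h0 : Y r 0 = 1 := by
    have h1 := hadd r 0 0
    rw [add_zero] at h1
    exact mul_eq_left.mp h1
  have h1 := hadd r t (-t)
  rw [add_neg_cancel, h0] at h1
  exact inv_eq_of_mul_eq_one_right h1

/-! ### The relation (R2) for the lifts -/

include hc in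
theorem rel_nil (Y : ℕ → K → E) (r s : ℕ) (hct : D.commTerms r s = [])
    (hψr : ∀ t, ψ (Y r t) = X r t) (hψs : ∀ t, ψ (Y s t) = X s t)
    (hcc : ∀ t u : K, cc ψ hs (X r t) (X s u) = 1) (t u : K) :
    Y s u * Y r t = Y r t * Y s u * wd Y (D.commWord K r s t u) := by
  have hw : D.commWord K r s t u = [] := by
    unfold ChevalleyDatum.commWord
    rw [hct]
    rfl
  rw [hw, wd_nil, mul_one]
  exact (comm_of_cc ψ hs hc (Y r t) (Y s u) (X r t) (X s u) (hψr t) (hψs u) (hcc t u)).symm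

include hX hc in
theorem relE (Y : ℕ → K → E) (a b γ : ℕ) (C : ℤ) (hab : D.commTerms a b = [(γ, C, 1, 1)])
    (hψa : ∀ t, ψ (Y a t) = X a t) (hψb : ∀ t, ψ (Y b t) = X b t)
    (hE5 : ∀ u t : K, cc ψ hs (X b u) (X a t) = Y γ (-(C : K) * u * t)) (t u : K) :
    Y b u * Y a t = Y a t * Y b u * wd Y (D.commWord K a b t u) := by
  have hw : D.commWord K a b t u = [(γ, (C : K) * (-t) ^ 1 * u ^ 1)] := by
    unfold ChevalleyDatum.commWord
    rw [hab]
    rfl
  rw [hw, wd_cons, wd_nil, mul_one]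
  have h1 := cc_eq ψ hs hc (Y b u)⁻¹ (Y a t)⁻¹ (X b (-u)) (X a (-t))
    (by rw [map_inv, hψb, hX.inv]) (by rw [map_inv, hψa, hX.inv])
  rw [hE5, inv_inv, inv_inv] at h1
  have e : -(C : K) * -u * -t = (C : K) * (-t) ^ 1 * u ^ 1 := by ring
  rw [e] at h1
  dsimp only
  rw [h1]
  group

include hX hc in
theorem relE' (Y : ℕ → K → E) (a b γ : ℕ) (C C' : ℤ) (hba' : D.commTerms b a = [(γ, C', 1, 1)])
    (hC' : (C' : K) = -(C : K))
    (hψa : ∀ t, ψ (Y a t) = X a t) (hψb : ∀ t, ψ (Y b t) = X b t)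
    (hE5 : ∀ u t : K, cc ψ hs (X b u) (X a t) = Y γ (-(C : K) * u * t))
    (hinv : ∀ w : K, (Y γ w)⁻¹ = Y γ (-w)) (t u : K) :
    Y a u * Y b t = Y b t * Y a u * wd Y (D.commWord K b a t u) := by
  have hw : D.commWord K b a t u = [(γ, (C' : K) * (-t) ^ 1 * u ^ 1)] := by
    unfold ChevalleyDatum.commWord
    rw [hba']
    rfl
  rw [hw, wd_cons, wd_nil, mul_one]
  have h1 := cc_eq ψ hs hc (Y a u)⁻¹ (Y b t)⁻¹ (X a (-u)) (X b (-t))
    (by rw [map_inv, hψa, hX.inv]) (by rw [map_inv, hψb, hX.inv])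
  have h2 := cc_mul_swap ψ hs (X a (-u)) (X b (-t))
  rw [hE5] at h2
  have h3 : cc ψ hs (X a (-u)) (X b (-t)) = (Y γ (-(C : K) * -t * -u))⁻¹ :=
    eq_inv_of_mul_eq_one_left h2
  rw [h3, hinv, inv_inv, inv_inv] at h1
  have e : -(-(C : K) * -t * -u) = (C' : K) * (-t) ^ 1 * u ^ 1 := by
    rw [hC']
    ring
  rw [e] at h1
  dsimp only
  rw [h1]
  group

include hX hc in
/-- the relation for a short root `σ` and a long root `lam` with `σ + lam`, `2σ + lam` roots -/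
theorem relF0 (Y : ℕ → K → E) (σ lam σ' lam' : ℕ) (C1 C2 C3 : ℤ)
    (hσ : σ < D.nroots) (hl : lam < D.nroots) (hls : lam ≠ σ) (hln : lam ≠ D.neg σ)
    (hct : D.commTerms σ lam = [(σ', C1, 1, 1), (lam', C2, 2, 1)])
    (hYσ : ∀ t, Y σ t = cc ψ hs h (X σ t)) (hYσ' : ∀ t, Y σ' t = cc ψ hs h (X σ' t))
    (hψl : ∀ u, ψ (Y lam u) = X lam u) (hψσ' : ∀ u, ψ (Y σ' u) = X σ' u)
    (hhl : ∀ u, h * X lam u = X lam u * h) (hhl' : ∀ u, h * X lam' u = X lam' u * h)
    (hκ : ∀ b, cc ψ hs h (X lam' b) = 1)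
    (hΓ1 : ∀ u a, X lam u * X σ' a = X σ' a * X lam u)
    (hΓ2 : ∀ u b, X lam u * X lam' b = X lam' b * X lam u)
    (c1 : ∀ u a, Y lam u * Y σ' a = Y σ' a * Y lam u)
    (c2 : ∀ u b, Y lam u * Y lam' b = Y lam' b * Y lam u)
    (c3 : ∀ a b, Y lam' b * Y σ' a = Y σ' a * Y lam' b)
    (hE : ∀ t a : K, cc ψ hs (X σ t) (X σ' a) = Y lam' (-(C3 : K) * t * a))
    (hCC : (C3 : K) * C1 = C2) (t u : K) :
    Y lam u * Y σ t = Y σ t * Y lam u *
      (Y σ' ((C1 : K) * (-t) ^ 1 * u ^ 1) * Y lam' ((C2 : K) * (-t) ^ 2 * u ^ 1)) := by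
  have hw : D.commWord K σ lam t u =
      [(σ', (C1 : K) * (-t) ^ 1 * u ^ 1), (lam', (C2 : K) * (-t) ^ 2 * u ^ 1)] := by
    unfold ChevalleyDatum.commWord
    rw [hct]
    rfl
  have R := hX.comm σ lam hσ hl hls hln t u
  rw [hw, wd_cons, wd_cons, wd_nil, mul_one] at R
  dsimp only at R
  have s3 : -(C3 : K) * t * ((C1 : K) * (-t) ^ 1 * u ^ 1) = (C2 : K) * (-t) ^ 2 * u ^ 1 := by
    rw [← hCC]
    ring
  generalize (C1 : K) * (-t) ^ 1 * u ^ 1 = a at R s3 ⊢
  generalize (C2 : K) * (-t) ^ 2 * u ^ 1 = b at R s3 ⊢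
  have e1 : X lam u * h * (X lam u)⁻¹ = h := by
    rw [← hhl u]
    group
  have e2 : X lam u * X σ t * (X lam u)⁻¹ = X σ t * (X σ' a * X lam' b) := by
    rw [R]
    calc X σ t * X lam u * (X σ' a * X lam' b) * (X lam u)⁻¹
        = X σ t * ((X lam u * X σ' a) * X lam' b * (X lam u)⁻¹) := by group
      _ = X σ t * (X σ' a * (X lam u * X lam' b) * (X lam u)⁻¹) := by
        rw [hΓ1]
        group
      _ = X σ t * (X σ' a * X lam' b) := by
        rw [hΓ2]
        group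
  have s1 : Y lam u * Y σ t * (Y lam u)⁻¹ = cc ψ hs h (X σ t * (X σ' a * X lam' b)) := by
    rw [hYσ, cc_conj ψ hs hc, hψl, e1, e2]
  have s2 : cc ψ hs h (X σ t * (X σ' a * X lam' b)) = Y σ t * (Y lam' b * Y σ' a) := by
    rw [cc_mul_right ψ hs hc, cc_mul_right' ψ hs hc h _ _ (hhl' b), hκ, mul_one, ← hYσ, ← hYσ',
      conj_eq_cc ψ hs hc (lf ψ hs (X σ t)) (Y σ' a) (X σ t) (X σ' a) (psi_lf ψ hs _) (hψσ' a),
      hE, s3]
  calc Y lam u * Y σ t = (Y lam u * Y σ t * (Y lam u)⁻¹) * Y lam u := by group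
    _ = Y σ t * (Y lam' b * Y σ' a) * Y lam u := by rw [s1, s2]
    _ = Y σ t * (Y lam' b * (Y σ' a * Y lam u)) := by group
    _ = Y σ t * (Y lam' b * (Y lam u * Y σ' a)) := by rw [← c1]
    _ = Y σ t * ((Y lam' b * Y lam u) * Y σ' a) := by group
    _ = Y σ t * ((Y lam u * Y lam' b) * Y σ' a) := by rw [← c2]
    _ = Y σ t * Y lam u * (Y lam' b * Y σ' a) := by group
    _ = Y σ t * Y lam u * (Y σ' a * Y lam' b) := by rw [c3]

theorem relF (Y : ℕ → K → E) (σ lam σ' lam' : ℕ) (C1 C2 : ℤ)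
    (hct : D.commTerms σ lam = [(σ', C1, 1, 1), (lam', C2, 2, 1)])
    (hfw : ∀ t u : K, Y lam u * Y σ t = Y σ t * Y lam u *
      (Y σ' ((C1 : K) * (-t) ^ 1 * u ^ 1) * Y lam' ((C2 : K) * (-t) ^ 2 * u ^ 1))) (t u : K) :
    Y lam u * Y σ t = Y σ t * Y lam u * wd Y (D.commWord K σ lam t u) := by
  have hw : D.commWord K σ lam t u =
      [(σ', (C1 : K) * (-t) ^ 1 * u ^ 1), (lam', (C2 : K) * (-t) ^ 2 * u ^ 1)] := by
    unfold ChevalleyDatum.commWord
    rw [hct]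
    rfl
  rw [hw, wd_cons, wd_cons, wd_nil, mul_one]
  exact hfw t u

theorem relF' (Y : ℕ → K → E) (hinv : ∀ (r : ℕ) (w : K), (Y r w)⁻¹ = Y r (-w))
    (σ lam σ' lam' : ℕ) (C1 C2 D1 D2 : ℤ)
    (hct' : D.commTerms lam σ = [(σ', D1, 1, 1), (lam', D2, 1, 2)])
    (hfw : ∀ t u : K, Y lam u * Y σ t = Y σ t * Y lam u *
      (Y σ' ((C1 : K) * (-t) ^ 1 * u ^ 1) * Y lam' ((C2 : K) * (-t) ^ 2 * u ^ 1)))
    (c3 : ∀ a b, Y lam' b * Y σ' a = Y σ' a * Y lam' b)
    (hD1 : (D1 : K) = -(C1 : K)) (hD2 : (D2 : K) = (C2 : K)) (t u : K) :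
    Y σ u * Y lam t = Y lam t * Y σ u * wd Y (D.commWord K lam σ t u) := by
  have hw : D.commWord K lam σ t u =
      [(σ', (D1 : K) * (-t) ^ 1 * u ^ 1), (lam', (D2 : K) * (-t) ^ 1 * u ^ 2)] := by
    unfold ChevalleyDatum.commWord
    rw [hct']
    rfl
  rw [hw, wd_cons, wd_cons, wd_nil, mul_one]
  dsimp only
  have e1 : (D1 : K) * (-t) ^ 1 * u ^ 1 = -((C1 : K) * (-u) ^ 1 * t ^ 1) := by
    rw [hD1]
    ring
  have e2 : (D2 : K) * (-t) ^ 1 * u ^ 2 = -((C2 : K) * (-u) ^ 2 * t ^ 1) := by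
    rw [hD2]
    ring
  rw [e1, e2, ← hinv, ← hinv]
  have F := hfw u t
  generalize (C1 : K) * (-u) ^ 1 * t ^ 1 = a at F ⊢
  generalize (C2 : K) * (-u) ^ 2 * t ^ 1 = b at F ⊢
  rw [F]
  have k := c3 a b
  calc Y σ u * Y lam t
      = Y σ u * Y lam t * ((Y lam' b * Y σ' a) * ((Y σ' a)⁻¹ * (Y lam' b)⁻¹)) := by group
    _ = Y σ u * Y lam t * (Y σ' a * Y lam' b) * ((Y σ' a)⁻¹ * (Y lam' b)⁻¹) := by
      rw [k]
      group

end b2

end Cfsg.Agent.Lib.Helper18.StAbs.B2F3
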