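import Cfsg.Agent.Lib.Helper18.StConj

/-!
# The kernel of the map from a group with the relations (R1), (R2) to the Chevalley group

Let `Γ` be generated by root elements `X r t` with the relations (R1) and (R2), and let
`π : Γ → GL` map them to the root elements of the Chevalley group.  Then `Γ = Û N̂ Û` with `Û`
generated by the positive root elements and `N̂` by the `n_p(t)`, and the kernel of `π` lies in `N̂`
and in the centre of `Γ`.
-/

set_option autoImplicit false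

namespace Cfsg.Agent.Lib.Helper18.StAbs

open Cfsg Cfsg.Lie Cfsg.Lie.ChevalleyDatum Cfsg.Agent.Lib.Helper17

variable {K : Type*} [Field K] {Γ : Type*} [Group Γ]

/-- the subgroup generated by the `n_p(t)`, `p` fundamental -/
def NG (D : ChevalleyDatum) (X : ℕ → K → Γ) : Subgroup Γ :=
  Subgroup.closure {n | ∃ i < D.rank, ∃ t : K, t ≠ 0 ∧ n = nG D X (D.simple i) t}

/-- the set `Û N̂ Û` -/
def BNB (D : ChevalleyDatum) (X : ℕ → K → Γ) : Set Γ :=
  {x | ∃ u ∈ gen X {r | D.IsPosRoot r}, ∃ n ∈ NG D X, ∃ u' ∈ gen X {r | D.IsPosRoot r},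
    x = u * n * u'}

section bruhat

variable {D : ChevalleyDatum} (hD : D ∈ [chevG2, chevB2, chevD4, chevF4, chevE6, chevE7, chevE8])
  {X : ℕ → K → Γ} (hX : Rel D X) (π : Γ →* GL D.Idx K)
  (hπ : ∀ r < D.nroots, ∀ t, π (X r t) = xU D hD r t)

include hX hπ

theorem nG_mem_NG (i : ℕ) (hi : i < D.rank) (t : K) (ht : t ≠ 0) :
    nG D X (D.simple i) t ∈ NG D X :=
  Subgroup.subset_closure ⟨i, hi, t, ht, rfl⟩

theorem mon_of_mem_NG (n : Γ) (hn : n ∈ NG D X) : ∃ σ, Mon hD X π n σ := by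
  unfold NG at hn
  induction hn using Subgroup.closure_induction with
  | mem x hx =>
    obtain ⟨i, hi, t, ht, rfl⟩ := hx
    exact ⟨_, mon_nG hD hX π hπ i hi t ht⟩
  | one => exact ⟨1, Mon.one⟩
  | mul x y _ _ ihx ihy =>
    obtain ⟨σ, h⟩ := ihx
    obtain ⟨σ', h'⟩ := ihy
    exact ⟨σ * σ', h.mul h'⟩
  | inv x _ ih =>
    obtain ⟨σ, h⟩ := ih
    exact ⟨σ⁻¹, h.inv⟩

theorem pi_NG_mem (n : Γ) (hn : n ∈ NG D X) : π n ∈ D.monomialSubgroup K := by
  have : NG D X ≤ (D.monomialSubgroup K).comap π := by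
    unfold NG
    rw [Subgroup.closure_le]
    rintro g ⟨i, hi, t, ht, rfl⟩
    show π (nG D X (D.simple i) t) ∈ D.monomialSubgroup K
    have hlt := simple_lt_nroots D hD i hi
    rw [pi_nG hD π hπ _ hlt, nT_eq_hU_mul D hD _ hlt t]
    exact mul_mem (Subgroup.mem_sup_left (hU_mem D hD _ hlt t ht)) (nU_mem_monomial D hD _ hlt)
  exact this hn

omit hπ in
theorem U_mul_BNB (u₀ : Γ) (hu₀ : u₀ ∈ gen X {r | D.IsPosRoot r}) (y : Γ) (hy : y ∈ BNB D X) :
    u₀ * y ∈ BNB D X := by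
  obtain ⟨u, hu, n, hn, u', hu', rfl⟩ := hy
  exact ⟨u₀ * u, mul_mem hu₀ hu, n, hn, u', hu', by group⟩

omit hπ in
/-- `x_{-p}(b) = x_p(b⁻¹) n_p(-b⁻¹) x_p(b⁻¹)` -/
theorem X_neg_eq (r : ℕ) (b : K) (hb : b ≠ 0) :
    X (D.neg r) b = X r b⁻¹ * nG D X r (-b⁻¹) * X r b⁻¹ := by
  unfold nG
  have e : -(-b⁻¹)⁻¹ = b := by
    rw [inv_neg, inv_inv, neg_neg]
  rw [e]
  have h1 : X r b⁻¹ * X r (-b⁻¹) = 1 := by rw [hX.add, add_neg_cancel, hX.zero]
  have h2 : X r (-b⁻¹) * X r b⁻¹ = 1 := by rw [hX.add, neg_add_cancel, hX.zero]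
  calc X (D.neg r) b = (X r b⁻¹ * X r (-b⁻¹)) * X (D.neg r) b * (X r (-b⁻¹) * X r b⁻¹) := by
        rw [h1, h2, one_mul, mul_one]
    _ = _ := by group

/-- `n_p(t) Û N̂ Û ⊆ Û N̂ Û` -/
theorem nG_mul_BNB (i : ℕ) (hi : i < D.rank) (t : K) (ht : t ≠ 0) (y : Γ) (hy : y ∈ BNB D X) :
    nG D X (D.simple i) t * y ∈ BNB D X := by
  obtain ⟨hpk, hnpk, hnlt, hnn, hcomm⟩ := commCheck_spec D hD i hi
  obtain ⟨u, hu, n, hn, u', hu', rfl⟩ := hy
  -- `u = x_p(a) u₁`
  have hset : {r | D.IsPosRoot r} = insert (D.simple i) {r | D.IsPosRoot r ∧ r ≠ D.simple i} := by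
    ext r
    simp only [Set.mem_setOf_eq, Set.mem_insert_iff]
    constructor
    · intro h
      by_cases e : r = D.simple i
      · exact Or.inl e
      · exact Or.inr ⟨h, e⟩
    · rintro (rfl | h)
      · exact hpk
      · exact h.1
  have hS₁ : ∀ s ∈ {r | D.IsPosRoot r ∧ r ≠ D.simple i}, s < D.nroots ∧ s ≠ D.simple i ∧
      s ≠ D.neg (D.simple i) ∧ ∀ c ∈ D.commTerms (D.simple i) s,
        c.1 ∈ {r | D.IsPosRoot r ∧ r ≠ D.simple i} := fun s' hs' =>
    ⟨hs'.1.1, hs'.2, fun e' => hnpk (e' ▸ hs'.1), fun c' hc' => (hcomm s' hs'.1 hs'.2).1 c' hc'⟩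
  have hS₂ : ∀ s ∈ {r | D.IsPosRoot r ∧ r ≠ D.simple i}, s < D.nroots ∧
      s ≠ D.neg (D.simple i) ∧ s ≠ D.neg (D.neg (D.simple i)) ∧
      ∀ c ∈ D.commTerms (D.neg (D.simple i)) s,
        c.1 ∈ {r | D.IsPosRoot r ∧ r ≠ D.simple i} := fun s' hs' =>
    ⟨hs'.1.1, fun e' => hnpk (e' ▸ hs'.1), by rw [hnn]; exact hs'.2,
      fun c' hc' => (hcomm s' hs'.1 hs'.2).2 c' hc'⟩
  rw [hset] at hu
  obtain ⟨a, u₁, hu₁, rfl⟩ := gen_insert hX _ (D.simple i) hpk.1 hS₁ u hu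
  have hle : gen X {r | D.IsPosRoot r ∧ r ≠ D.simple i} ≤ gen X {r | D.IsPosRoot r} :=
    gen_mono X (fun r hr => hr.1)
  have hXi : ∀ v : K, X (D.simple i) v ∈ gen X {r | D.IsPosRoot r} := fun v =>
    X_mem_gen X _ _ hpk v
  -- conjugate by `n_p(t)`
  obtain ⟨c, hc, e⟩ := conj_D hD hX π hπ i hi t ht
  have hu₂ := nG_conj_mem hX _ _ hpk.1 hnlt hS₁ hS₂ t u₁ hu₁
  have hn' : nG D X (D.simple i) t * n ∈ NG D X := mul_mem (nG_mem_NG hD hX π hπ i hi t ht) hn
  obtain ⟨σ', hm'⟩ := mon_of_mem_NG hD hX π hπ _ hn'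
  have hu₃ := conj_mem_gen' hX _ _ hnlt hS₂ (c * a) _ hu₂
  have e1 : nG D X (D.simple i) t * (X (D.simple i) a * u₁ * n * u') =
      (X (D.neg (D.simple i)) (c * a) *
          (nG D X (D.simple i) t * u₁ * (nG D X (D.simple i) t)⁻¹) *
          (X (D.neg (D.simple i)) (c * a))⁻¹) *
        (X (D.neg (D.simple i)) (c * a) * (nG D X (D.simple i) t * n)) * u' := by
    have e2 : nG D X (D.simple i) t * (X (D.simple i) a * u₁ * n * u') =
        (nG D X (D.simple i) t * X (D.simple i) a) * u₁ * n * u' := by group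
    rw [e2, e a]
    group
  rw [e1]
  -- move `x_{-p}(c a)` past `n'`
  have hq := hm'.act.inv_lt _ hnlt
  have hq' := hm'.act.inv_lt _ hpk.1
  by_cases hqpos : D.IsPosRoot (σ'⁻¹ (D.neg (D.simple i)))
  · obtain ⟨c₁, -, e3⟩ := hm'.X_mul (D.neg (D.simple i)) hnlt
    rw [e3]
    refine ⟨_, hle hu₃, _, hn', X (σ'⁻¹ (D.neg (D.simple i))) (c₁ * (c * a)) * u',
      mul_mem (X_mem_gen X _ _ hqpos _) hu', by group⟩
  · have hq'pos : D.IsPosRoot (σ'⁻¹ (D.simple i)) := by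
      have h1 := hm'.act.inv.neg (D.simple i) hpk.1
      rw [h1] at hqpos
      by_contra hcon
      exact hqpos ((isPosRoot_neg_iff D hD _ hq').mpr hcon)
    by_cases hb : c * a = 0
    · have e5 : X (D.neg (D.simple i)) (c * a) *
          (nG D X (D.simple i) t * u₁ * (nG D X (D.simple i) t)⁻¹) *
          (X (D.neg (D.simple i)) (c * a))⁻¹ *
          (X (D.neg (D.simple i)) (c * a) * (nG D X (D.simple i) t * n)) * u' =
          (nG D X (D.simple i) t * u₁ * (nG D X (D.simple i) t)⁻¹) *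
          (nG D X (D.simple i) t * n) * u' := by
        rw [hb, hX.zero]
        group
      rw [e5]
      exact ⟨_, hle hu₂, _, hn', u', hu', rfl⟩
    · obtain ⟨c₂, -, e3⟩ := hm'.X_mul (D.simple i) hpk.1
      rw [X_neg_eq hX (D.simple i) (c * a) hb]
      refine ⟨X (D.neg (D.simple i)) (c * a) *
          (nG D X (D.simple i) t * u₁ * (nG D X (D.simple i) t)⁻¹) *
          (X (D.neg (D.simple i)) (c * a))⁻¹ * X (D.simple i) (c * a)⁻¹,
        mul_mem (hle hu₃) (hXi _),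
        nG D X (D.simple i) (-(c * a)⁻¹) * (nG D X (D.simple i) t * n),
        mul_mem (nG_mem_NG hD hX π hπ i hi _ (neg_ne_zero.mpr (inv_ne_zero hb))) hn',
        X (σ'⁻¹ (D.simple i)) (c₂ * (c * a)⁻¹) * u',
        mul_mem (X_mem_gen X _ _ hq'pos _) hu', ?_⟩
      rw [← X_neg_eq hX (D.simple i) (c * a) hb]
      have e4 : X (D.neg (D.simple i)) (c * a) *
          (nG D X (D.simple i) t * u₁ * (nG D X (D.simple i) t)⁻¹) *
          (X (D.neg (D.simple i)) (c * a))⁻¹ * X (D.simple i) (c * a)⁻¹ *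
          (nG D X (D.simple i) (-(c * a)⁻¹) * (nG D X (D.simple i) t * n)) *
          (X (σ'⁻¹ (D.simple i)) (c₂ * (c * a)⁻¹) * u') =
          X (D.neg (D.simple i)) (c * a) *
          (nG D X (D.simple i) t * u₁ * (nG D X (D.simple i) t)⁻¹) *
          (X (D.neg (D.simple i)) (c * a))⁻¹ * X (D.simple i) (c * a)⁻¹ *
          nG D X (D.simple i) (-(c * a)⁻¹) *
          ((nG D X (D.simple i) t * n) * X (σ'⁻¹ (D.simple i)) (c₂ * (c * a)⁻¹)) * u' := by
        group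
      rw [e4, ← e3, X_neg_eq hX (D.simple i) (c * a) hb]
      group

/-- `N̂ Û N̂ Û ⊆ Û N̂ Û` -/
theorem NG_mul_BNB (n : Γ) (hn : n ∈ NG D X) (y : Γ) (hy : y ∈ BNB D X) : n * y ∈ BNB D X := by
  unfold NG at hn
  induction hn using Subgroup.closure_induction_left generalizing y with
  | one => rwa [one_mul]
  | mul_left x hx z _ ih =>
    obtain ⟨i, hi, t, ht, rfl⟩ := hx
    rw [mul_assoc]
    exact nG_mul_BNB hD hX π hπ i hi t ht _ (ih y hy)
  | inv_mul_cancel x hx z _ ih =>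
    obtain ⟨i, hi, t, ht, rfl⟩ := hx
    rw [mul_assoc, nG_inv hX]
    exact nG_mul_BNB hD hX π hπ i hi (-t) (neg_ne_zero.mpr ht) _ (ih y hy)

/-- `X_s Û N̂ Û ⊆ Û N̂ Û` for every root `s` -/
theorem X_mul_BNB (s : ℕ) (hs : s < D.nroots) :
    ∀ (v : K) (y : Γ), y ∈ BNB D X → X s v * y ∈ BNB D X := by
  have hr := Cfsg.Agent.Lib.Helper36.reach_all D hD s hs
  induction hr with
  | simple j hj =>
    intro v y hy
    exact U_mul_BNB hX _ (X_mem_gen X _ _ (commCheck_spec D hD j hj).1 v) y hy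
  | negSimple j hj =>
    intro v y hy
    have hpj := (commCheck_spec D hD j hj).1
    by_cases hv : v = 0
    · rw [hv, hX.zero, one_mul]
      exact hy
    · rw [X_neg_eq hX (D.simple j) v hv, mul_assoc, mul_assoc]
      apply U_mul_BNB hX _ (X_mem_gen X _ _ hpj _)
      apply nG_mul_BNB hD hX π hπ j hj _ (neg_ne_zero.mpr (inv_ne_zero hv))
      exact U_mul_BNB hX _ (X_mem_gen X _ _ hpj _) y hy
  | refl i hi s hs' _ ih =>
    intro v y hy
    have hm := mon_nG hD hX π hπ i hi (1 : K) one_ne_zero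
    obtain ⟨c, hc, e⟩ := hm.conj s hs'
    rw [reflPerm_apply D hD i hi s hs'] at e
    have e1 : X (D.reflectRoot i s) v =
        nG D X (D.simple i) 1 * X s (c⁻¹ * v) * (nG D X (D.simple i) 1)⁻¹ := by
      rw [e (c⁻¹ * v), ← mul_assoc, mul_inv_cancel₀ hc, one_mul, mul_inv_cancel_right]
    rw [e1, mul_assoc, mul_assoc]
    apply nG_mul_BNB hD hX π hπ i hi 1 one_ne_zero
    apply ih hs'
    rw [nG_inv hX]
    exact nG_mul_BNB hD hX π hπ i hi (-1) (neg_ne_zero.mpr one_ne_zero) y hy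

/-- `Γ = Û N̂ Û` -/
theorem mem_BNB (hgen : ∀ x : Γ, x ∈ gen X {r | r < D.nroots}) (x : Γ) : x ∈ BNB D X := by
  have h1 : (1 : Γ) ∈ BNB D X := ⟨1, one_mem _, 1, one_mem _, 1, one_mem _, by group⟩
  have hx := hgen x
  unfold gen at hx
  induction hx using Subgroup.closure_induction_left with
  | one => exact h1
  | mul_left g hg y _ ih =>
    obtain ⟨r, hr, t, rfl⟩ := hg
    exact X_mul_BNB hD hX π hπ r hr t y ih
  | inv_mul_cancel g hg y _ ih =>
    obtain ⟨r, hr, t, rfl⟩ := hg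
    rw [hX.inv]
    exact X_mul_BNB hD hX π hπ r hr (-t) y ih

/-- the kernel of `π` lies in `N̂` and in the centre -/
theorem ker_mem (hgen : ∀ x : Γ, x ∈ gen X {r | r < D.nroots}) (x : Γ) (hx : π x = 1) :
    x ∈ NG D X ∧ x ∈ Subgroup.center Γ := by
  obtain ⟨u, hu, n, hn, u', hu', rfl⟩ := mem_BNB hD hX π hπ hgen x
  have hUmem : ∀ y ∈ gen X {r | D.IsPosRoot r}, π y ∈ D.posUnipotent K := fun y hy =>
    pi_gen_le D hD X π hπ _ (fun r hr => hr.1) (D.posUnipotent K)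
      (fun r hr t => Subgroup.subset_closure ⟨r, t, hr, coe_xU D hD r t⟩) y hy
  have hnN := pi_NG_mem hD hX π hπ n hn
  rw [map_mul, map_mul] at hx
  have hn1 : π n = 1 := by
    have h1 : π n = (π u)⁻¹ * (π u')⁻¹ := by
      calc π n = (π u)⁻¹ * (π u * π n * π u') * (π u')⁻¹ := by group
        _ = _ := by rw [hx, mul_one]
    have h2 : π n ∈ D.posUnipotent K ⊓ D.monomialSubgroup K := by
      rw [Subgroup.mem_inf]
      refine ⟨?_, hnN⟩
      rw [h1]
      exact mul_mem (Subgroup.inv_mem _ (hUmem u hu)) (Subgroup.inv_mem _ (hUmem u' hu'))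
    rw [Cfsg.Agent.Lib.Helper36.unipotent_inf_monomial D hD
      (Cfsg.Agent.Lib.Helper36.sgnOK_all D hD), Subgroup.mem_bot] at h2
    exact h2
  obtain ⟨σ, hm⟩ := mon_of_mem_NG hD hX π hπ n hn
  have hσ : σ = 1 := by
    have h1 := hm.act
    rw [hn1] at h1
    exact RootAct.unique h1 RootAct.one
  have hcomm : ∀ s < D.nroots, ∀ v : K, n * X s v = X s v * n := by
    intro s hs v
    obtain ⟨c, hc, e⟩ := hm.conj s hs
    rw [hσ, Equiv.Perm.one_apply] at e
    have h1 := congrArg π (e 1)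
    rw [map_mul, map_mul, hn1, one_mul, mul_one, hπ s hs, hπ s hs, mul_one] at h1
    have h2 : xU D hD s (1 - c) = 1 := by
      have h3 : xU D hD s (1 - c) = xU D hD s 1 * (xU D hD s c)⁻¹ := by
        rw [xU_inv, xU_mul, sub_eq_add_neg]
      rw [h3, h1, mul_inv_cancel]
    have h4 := congrArg Units.val h2
    rw [coe_xU, Units.val_one] at h4
    have h5 := (Cfsg.Agent.S1024.result D hD s hs (1 - c)).mp h4
    have hc1 : c = 1 := (sub_eq_zero.mp h5).symm
    rw [e v, hc1, one_mul]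
  have hcent : n ∈ Subgroup.center Γ := by
    rw [Subgroup.mem_center_iff]
    intro y
    have hy := hgen y
    unfold gen at hy
    induction hy using Subgroup.closure_induction with
    | mem g hg =>
      obtain ⟨r, hr, t, rfl⟩ := hg
      exact (hcomm r hr t).symm
    | one => rw [one_mul, mul_one]
    | mul a b _ _ iha ihb => rw [mul_assoc, ihb, ← mul_assoc, iha, mul_assoc]
    | inv a _ iha =>
      rw [eq_mul_inv_iff_mul_eq, mul_assoc, ← iha, ← mul_assoc, inv_mul_cancel, one_mul]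
  have huu : u * u' = 1 := by
    apply inj_pos hD hX π hπ _ (mul_mem hu hu')
    rw [map_mul]
    rw [hn1, mul_one] at hx
    exact hx
  have hxn : u * n * u' = n := by
    rw [(Subgroup.mem_center_iff.mp hcent) u, mul_assoc, huu, mul_one]
  rw [hxn]
  exact ⟨hn, hcent⟩

theorem ker_le_center (hgen : ∀ x : Γ, x ∈ gen X {r | r < D.nroots}) :
    π.ker ≤ Subgroup.center Γ := fun x hx =>
  (ker_mem hD hX π hπ hgen x (MonoidHom.mem_ker.mp hx)).2

end bruhat

end Cfsg.Agent.Lib.Helper18.StAbs
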