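import Cfsg.Agent.Lib.Helper18.StPresH
import Cfsg.Agent.Lib.Helper18.ChevTorus

/-!
# The centre of the Steinberg group for a unimodular Cartan matrix

With the relations (R3) the subgroup `Ĥ` consists of the products `∏ h_p(t_p)` over the
fundamental roots; such a product commuting with all root elements is trivial when the Cartan
matrix is invertible over the integers.
-/

set_option autoImplicit false

namespace Cfsg.Agent.Lib.Helper18.StAbs

open Cfsg Cfsg.Lie Cfsg.Lie.ChevalleyDatum Cfsg.Agent.Lib.Helper18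

variable {K : Type*} [Field K] {Γ : Type*} [Group Γ]

theorem prod_zpow_sum₀ {ι : Type*} (s : Finset ι) (z : K) (hz : z ≠ 0) (f : ι → ℤ) :
    ∏ i ∈ s, z ^ f i = z ^ ∑ i ∈ s, f i := by
  classical
  induction s using Finset.induction_on with
  | empty => simp
  | insert a s ha ih => rw [Finset.prod_insert ha, Finset.sum_insert ha, zpow_add₀ hz, ih]

/-- a tuple of nonzero scalars annihilated by the columns of an integer matrix with an integer
inverse is trivial -/
theorem eq_one_of_uni {n : ℕ} (C B : ℕ → ℕ → ℤ)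
    (hCB : ∀ i < n, ∀ k < n,
      ((List.range n).map (fun j => C i j * B j k)).sum = if i = k then 1 else 0)
    (t : ℕ → K) (ht : ∀ i, t i ≠ 0)
    (hχ : ∀ j < n, ((List.range n).map (fun i => t i ^ C i j)).prod = 1) (k : ℕ) (hk : k < n) :
    t k = 1 := by
  have h1 : ∏ j : Fin n, (∏ i : Fin n, t i ^ C i j) ^ B j k = 1 := by
    apply Finset.prod_eq_one
    intro j _
    have h := hχ j j.2
    rw [list_prod_range_eq_fin_prod] at h
    rw [h, one_zpow]
  have h2 : ∏ j : Fin n, (∏ i : Fin n, t i ^ C i j) ^ B j k =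
      ∏ i : Fin n, t i ^ (∑ j : Fin n, C i j * B j k) := by
    simp only [← Finset.prod_zpow, ← zpow_mul]
    rw [Finset.prod_comm]
    apply Finset.prod_congr rfl
    intro i _
    exact prod_zpow_sum₀ _ _ (ht i) _
  have h3 : ∏ i : Fin n, t i ^ (∑ j : Fin n, C i j * B j k) = t k := by
    have h4 : ∀ i : Fin n, t i ^ (∑ j : Fin n, C i j * B j k) =
        if i = ⟨k, hk⟩ then t k else 1 := by
      intro i
      have h := hCB i i.2 k hk
      rw [list_sum_range_eq_fin_sum] at h
      rw [h]
      by_cases hik : (i : ℕ) = k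
      · rw [if_pos hik, if_pos (Fin.ext hik), zpow_one, hik]
      · rw [if_neg hik, if_neg (fun h => hik (congrArg Fin.val h)), zpow_zero]
    simp only [h4]
    simp
  rw [← h3, ← h2, h1]

/-- the check that `B` is inverse to the matrix of the pairings of the fundamental roots -/
def uniChk (D : ChevalleyDatum) (B : List (List ℤ)) : Bool :=
  (List.range D.rank).all fun i => (List.range D.rank).all fun k =>
    decide (((List.range D.rank).map
      (fun j => dotCA D (D.simple i) (D.simple j) * ll B j k)).sum = if i = k then 1 else 0)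

theorem uniChk_spec (D : ChevalleyDatum) (B : List (List ℤ)) (h : uniChk D B = true) :
    ∀ i < D.rank, ∀ k < D.rank, ((List.range D.rank).map
      (fun j => dotCA D (D.simple i) (D.simple j) * ll B j k)).sum = if i = k then 1 else 0 := by
  intro i hi k hk
  unfold uniChk at h
  rw [List.all_eq_true] at h
  have h1 := h i (List.mem_range.mpr hi)
  rw [List.all_eq_true] at h1
  have h2 := h1 k (List.mem_range.mpr hk)
  exact of_decide_eq_true h2

theorem uniChk_G2 : uniChk chevG2 [[2, 3], [1, 2]] = true := by decide +kernel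

theorem uniChk_F4 :
    uniChk chevF4 [[2, 3, 4, 2], [3, 6, 8, 4], [2, 4, 6, 3], [1, 2, 3, 2]] = true := by
  decide +kernel

theorem uniChk_E8 : uniChk chevE8 [[4, 5, 7, 10, 8, 6, 4, 2], [5, 8, 10, 15, 12, 9, 6, 3],
    [7, 10, 14, 20, 16, 12, 8, 4], [10, 15, 20, 30, 24, 18, 12, 6], [8, 12, 16, 24, 20, 15, 10, 5],
    [6, 9, 12, 18, 15, 12, 8, 4], [4, 6, 8, 12, 10, 8, 6, 3], [2, 3, 4, 6, 5, 4, 3, 2]] = true := by
  decide +kernel

/-- the product of the `h_p(t_p)` over a list of fundamental roots -/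
def Lp (D : ChevalleyDatum) (X : ℕ → K → Γ) (t : ℕ → K) (l : List ℕ) : Γ :=
  (l.map (fun i => hG D X (D.simple i) (t i))).prod

theorem Lp_nil (D : ChevalleyDatum) (X : ℕ → K → Γ) (t : ℕ → K) : Lp D X t [] = 1 := rfl

theorem Lp_cons (D : ChevalleyDatum) (X : ℕ → K → Γ) (t : ℕ → K) (a : ℕ) (l : List ℕ) :
    Lp D X t (a :: l) = hG D X (D.simple a) (t a) * Lp D X t l := by
  unfold Lp
  rw [List.map_cons, List.prod_cons]

theorem Lp_congr (D : ChevalleyDatum) (X : ℕ → K → Γ) (t t' : ℕ → K) (l : List ℕ)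
    (h : ∀ i ∈ l, t i = t' i) : Lp D X t l = Lp D X t' l := by
  unfold Lp
  congr 1
  exact List.map_congr_left (fun i hi => by rw [h i hi])

section cent

variable {D : ChevalleyDatum} (hD : D ∈ [chevG2, chevB2, chevD4, chevF4, chevE6, chevE7, chevE8])
  {X : ℕ → K → Γ} (hX : Rel D X) (π : Γ →* GL D.Idx K)
  (hπ : ∀ r < D.nroots, ∀ t, π (X r t) = xU D hD r t)
  (hR3 : ∀ i < D.rank, ∀ t u : K, t ≠ 0 → u ≠ 0 →
    hG D X (D.simple i) t * hG D X (D.simple i) u = hG D X (D.simple i) (t * u))

include hX in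
theorem hG_one (r : ℕ) : hG D X r 1 = 1 := by
  unfold hG
  rw [← nG_inv hX, mul_inv_cancel]

include hX in
theorem Lp_one (l : List ℕ) : Lp D X (fun _ => (1 : K)) l = 1 := by
  induction l with
  | nil => rfl
  | cons b l ih => rw [Lp_cons, ih, hG_one hX, one_mul]

include hX in
theorem Lp_single (i : ℕ) (u : K) (l : List ℕ) (hl : l.Nodup) :
    Lp D X (Function.update (fun _ => (1 : K)) i u) l =
      if i ∈ l then hG D X (D.simple i) u else 1 := by
  induction l with
  | nil => simp [Lp_nil]
  | cons b l ih =>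
    rw [Lp_cons, ih (List.nodup_cons.mp hl).2]
    by_cases hb : b = i
    · subst hb
      rw [Function.update_self, if_neg (List.nodup_cons.mp hl).1, mul_one,
        if_pos List.mem_cons_self]
    · rw [Function.update_of_ne hb, hG_one hX, one_mul]
      have h1 : (i ∈ b :: l) ↔ i ∈ l := by
        rw [List.mem_cons]
        exact ⟨fun h => h.resolve_left (fun e => hb e.symm), Or.inr⟩
      simp only [h1]

include hX hπ

theorem Lp_mul_X (t : ℕ → K) (ht : ∀ i, t i ≠ 0) (l : List ℕ) (hl : ∀ i ∈ l, i < D.rank)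
    (s : ℕ) (hs : s < D.nroots) (u : K) :
    Lp D X t l * X s u =
      X s ((l.map (fun i => t i ^ dotCA D (D.simple i) s)).prod * u) * Lp D X t l := by
  induction l with
  | nil => rw [Lp_nil, one_mul, mul_one, List.map_nil, List.prod_nil, one_mul]
  | cons b l ih =>
    rw [Lp_cons, mul_assoc, ih (fun i hi => hl i (List.mem_cons_of_mem _ hi)), ← mul_assoc,
      hG_mul_X hD hX π hπ b (hl b List.mem_cons_self) (t b) (ht b) s hs, List.map_cons,
      List.prod_cons]
    simp only [mul_assoc]

include hR3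

theorem hG_comm (i j : ℕ) (hi : i < D.rank) (hj : j < D.rank) (t u : K) (ht : t ≠ 0)
    (hu : u ≠ 0) : hG D X (D.simple i) t * hG D X (D.simple j) u =
      hG D X (D.simple j) u * hG D X (D.simple i) t := by
  obtain ⟨c, hc⟩ : ∃ c : K, c = t ^ dotCA D (D.simple i) (D.simple j) := ⟨_, rfl⟩
  have hc0 : c ≠ 0 := by rw [hc]; exact zpow_ne_zero _ ht
  have hsj := simple_lt_nroots D hD j hj
  have e1 := hG_mul_nG hD hX π hπ i hi t ht _ hsj u
  have e2 := hG_mul_nG hD hX π hπ i hi t ht _ hsj (-1)
  rw [← hc] at e1 e2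
  have e3 : nG D X (D.simple j) (c * -1) = (nG D X (D.simple j) c)⁻¹ := by
    rw [nG_inv hX, mul_neg_one]
  have e4 : hG D X (D.simple j) (c * u) * (hG D X (D.simple j) c)⁻¹ = hG D X (D.simple j) u := by
    rw [mul_comm c u, ← hR3 j hj u c hu hc0, mul_inv_cancel_right]
  calc hG D X (D.simple i) t * hG D X (D.simple j) u
      = (hG D X (D.simple i) t * nG D X (D.simple j) u) * nG D X (D.simple j) (-1) := by
        rw [mul_assoc]; rfl
    _ = nG D X (D.simple j) (c * u) * (hG D X (D.simple i) t * nG D X (D.simple j) (-1)) := by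
        rw [e1, mul_assoc]
    _ = nG D X (D.simple j) (c * u) * (nG D X (D.simple j) c)⁻¹ * hG D X (D.simple i) t := by
        rw [e2, e3, mul_assoc]
    _ = hG D X (D.simple j) u * hG D X (D.simple i) t := by rw [nG_mul_inv, e4]

theorem Lp_comm (t : ℕ → K) (ht : ∀ i, t i ≠ 0) (l : List ℕ) (hl : ∀ i ∈ l, i < D.rank) (a : ℕ)
    (ha : a < D.rank) (u : K) (hu : u ≠ 0) :
    Lp D X t l * hG D X (D.simple a) u = hG D X (D.simple a) u * Lp D X t l := by
  induction l with
  | nil => rw [Lp_nil, one_mul, mul_one]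
  | cons b l ih =>
    rw [Lp_cons, mul_assoc, ih (fun i hi => hl i (List.mem_cons_of_mem _ hi)), ← mul_assoc,
      hG_comm hD hX π hπ hR3 b a (hl b List.mem_cons_self) ha (t b) u (ht b) hu, mul_assoc]

theorem Lp_mul (t t' : ℕ → K) (ht : ∀ i, t i ≠ 0) (ht' : ∀ i, t' i ≠ 0) (l : List ℕ)
    (hl : ∀ i ∈ l, i < D.rank) :
    Lp D X t l * Lp D X t' l = Lp D X (fun i => t i * t' i) l := by
  induction l with
  | nil => rw [Lp_nil, Lp_nil, Lp_nil, one_mul]
  | cons b l ih =>
    have hb := hl b List.mem_cons_self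
    have hl' : ∀ i ∈ l, i < D.rank := fun i hi => hl i (List.mem_cons_of_mem _ hi)
    rw [Lp_cons, Lp_cons, Lp_cons, ← ih hl', ← hR3 b hb (t b) (t' b) (ht b) (ht' b)]
    have h1 := Lp_comm hD hX π hπ hR3 t ht l hl' b hb (t' b) (ht' b)
    calc hG D X (D.simple b) (t b) * Lp D X t l * (hG D X (D.simple b) (t' b) * Lp D X t' l)
        = hG D X (D.simple b) (t b) * (Lp D X t l * hG D X (D.simple b) (t' b)) *
            Lp D X t' l := by simp only [mul_assoc]
      _ = _ := by rw [h1]; simp only [mul_assoc]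

/-- every element of `Ĥ` is a product of the `h_p(t_p)` -/
theorem H0_eq_Lp (z : Γ) (hz : z ∈ H0 D X) :
    ∃ t : ℕ → K, (∀ i, t i ≠ 0) ∧ z = Lp D X t (List.range D.rank) := by
  have hl : ∀ i ∈ List.range D.rank, i < D.rank := fun i hi => List.mem_range.mp hi
  unfold H0 at hz
  induction hz using Subgroup.closure_induction with
  | mem x hx =>
    obtain ⟨i, hi, u, hu, rfl⟩ := hx
    refine ⟨Function.update (fun _ => 1) i u, fun j => ?_, ?_⟩
    · by_cases hj : j = i
      · subst hj
        rw [Function.update_self]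
        exact hu
      · rw [Function.update_of_ne hj]
        exact one_ne_zero
    · rw [Lp_single hX i u _ List.nodup_range, if_pos (List.mem_range.mpr hi)]
  | one => exact ⟨fun _ => 1, fun _ => one_ne_zero, (Lp_one hX _).symm⟩
  | mul x y _ _ ihx ihy =>
    obtain ⟨t, ht, rfl⟩ := ihx
    obtain ⟨t', ht', rfl⟩ := ihy
    exact ⟨fun i => t i * t' i, fun i => mul_ne_zero (ht i) (ht' i),
      Lp_mul hD hX π hπ hR3 t t' ht ht' _ hl⟩
  | inv x _ ih =>
    obtain ⟨t, ht, rfl⟩ := ih
    refine ⟨fun i => (t i)⁻¹, fun i => inv_ne_zero (ht i), ?_⟩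
    have h1 := Lp_mul hD hX π hπ hR3 t (fun i => (t i)⁻¹) ht (fun i => inv_ne_zero (ht i)) _ hl
    rw [Lp_congr D X (fun i => t i * (t i)⁻¹) (fun _ => 1) _
      (fun i _ => mul_inv_cancel₀ (ht i)), Lp_one hX] at h1
    exact (eq_inv_of_mul_eq_one_right h1).symm

/-- an element of `Ĥ` commuting with the root elements is trivial, if the Cartan matrix is
invertible over the integers -/
theorem H0_center_trivial (B : List (List ℤ)) (hB : uniChk D B = true) (z : Γ)
    (hz : z ∈ H0 D X) (hzc : ∀ s < D.nroots, z * X s 1 = X s 1 * z) : z = 1 := by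
  obtain ⟨t, ht, rfl⟩ := H0_eq_Lp hD hX π hπ hR3 z hz
  have hl : ∀ i ∈ List.range D.rank, i < D.rank := fun i hi => List.mem_range.mp hi
  have hχ : ∀ j < D.rank, ((List.range D.rank).map
      (fun i => t i ^ dotCA D (D.simple i) (D.simple j))).prod = 1 := by
    intro j hj
    have hs := simple_lt_nroots D hD j hj
    have h1 := Lp_mul_X hD hX π hπ t ht _ hl _ hs 1
    rw [hzc _ hs, mul_one] at h1
    have h2 := congrArg π (mul_right_cancel h1)
    rw [hπ _ hs, hπ _ hs] at h2
    exact (xU_inj D hD _ hs _ _ h2).symm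
  have h1 : ∀ k < D.rank, t k = 1 := fun k hk =>
    eq_one_of_uni (fun i j => dotCA D (D.simple i) (D.simple j)) (ll B) (uniChk_spec D B hB)
      t ht hχ k hk
  rw [Lp_congr D X t (fun _ => 1) _ (fun i hi => h1 i (hl i hi)), Lp_one hX]

end cent

/-- the relations (R3) in the Steinberg group -/
theorem pres_R3 (D : ChevalleyDatum) (r : ℕ) (hr : r < D.nroots) (t u : K) (ht : t ≠ 0)
    (hu : u ≠ 0) :
    hG D (XP D (D.steinbergRels K)) r t * hG D (XP D (D.steinbergRels K)) r u =
      hG D (XP D (D.steinbergRels K)) r (t * u) := by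
  have h1 : PresentedGroup.mk (D.steinbergRels K)
      (D.stH r t * D.stH r u * (D.stH r (t * u))⁻¹) = 1 :=
    PresentedGroup.one_of_mem (Or.inr ⟨r, t, u, hr, ht, hu, rfl⟩)
  rw [map_mul, map_mul, map_inv, mul_inv_eq_one, mk_stH, mk_stH, mk_stH] at h1
  exact h1

/-- the centre of the Steinberg group is trivial, if the Cartan matrix is invertible over the
integers -/
theorem pres_center_trivial {D : ChevalleyDatum}
    (hD : D ∈ [chevG2, chevB2, chevD4, chevF4, chevE6, chevE7, chevE8]) (B : List (List ℤ))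
    (hB : uniChk D B = true) : Subgroup.center (D.SteinbergGroup K) = ⊥ := by
  classical
  rw [eq_bot_iff]
  intro x hx
  rw [Subgroup.mem_bot]
  have hsub : D.steinbergRelsAB K ⊆ D.steinbergRels K := fun g hg => Or.inl hg
  have hgen : ∀ (r : ℕ) (t : K), r < D.nroots →
      (((PresentedGroup.toGroup (rels_lift (K := K) D hD))
        (XP D (D.steinbergRels K) r t) : GL D.Idx K) : Matrix D.Idx D.Idx K) = D.x K r t := by
    intro r t _
    have h1 := lift_stX (K := K) D hD r t
    have h2 := congrArg Units.val h1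
    rw [coe_xU] at h2
    exact h2
  have h1 := pres_center hD _ hgen x hx
  have h2 := pres_ker_H0 hD hsub _ hgen x h1
  refine H0_center_trivial hD (pres_rel D _ hsub)
    ((D.group K).subtype.comp (PresentedGroup.toGroup (rels_lift (K := K) D hD))) ?_ ?_ B hB x h2 ?_
  · intro r hr t
    apply Units.ext
    rw [coe_xU]
    exact hgen r t hr
  · intro i hi t u ht hu
    exact pres_R3 D _ (simple_lt_nroots D hD i hi) t u ht hu
  · intro s _
    exact (Subgroup.mem_center_iff.mp hx (XP D _ s 1)).symm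

end Cfsg.Agent.Lib.Helper18.StAbs
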