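import Cfsg.Agent.Lib.Helper18.StLift2

/-!
# Certificates for the conditions of the lifting theorem

Boolean checks on the root data implying the conditions `PairOK` and the existence of enough
diagonal elements, and the facts about fields with more than four elements which are used.
-/

set_option autoImplicit false

namespace Cfsg.Agent.Lib.Helper18.StAbs

open Cfsg Cfsg.Lie Cfsg.Lie.ChevalleyDatum Cfsg.Agent.Lib.Helper17 Polynomial

/-! ### Fields with more than four elements -/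

theorem exists_nonroot {K : Type*} [Field K] (hK5 : ∃ s : Finset K, 4 < s.card) (p : K[X])
    (hp : p ≠ 0) (hdeg : p.natDegree ≤ 4) : ∃ x : K, p.eval x ≠ 0 := by
  obtain ⟨s, hs⟩ := hK5
  by_contra hcon
  push Not at hcon
  exact hp (Polynomial.eq_zero_of_natDegree_lt_card_of_eval_eq_zero' p s (fun i _ => hcon i)
    (lt_of_le_of_lt hdeg hs))

theorem field_f1 {K : Type*} [Field K] (hK5 : ∃ s : Finset K, 4 < s.card) :
    ∃ c : K, c ≠ 0 ∧ c ≠ 1 := by
  obtain ⟨x, hx⟩ := exists_nonroot hK5 (X * (X - C 1)) (mul_ne_zero X_ne_zero (X_sub_C_ne_zero 1))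
    (by compute_degree!)
  rw [eval_mul, eval_X, eval_sub, eval_X, eval_C] at hx
  exact ⟨x, fun h => hx (by rw [h, zero_mul]), fun h => hx (by rw [h, sub_self, mul_zero])⟩

theorem field_f2 {K : Type*} [Field K] (hK5 : ∃ s : Finset K, 4 < s.card) :
    ∃ c : K, c ≠ 0 ∧ 1 + c ≠ 0 ∧ c ^ 2 + c + 1 ≠ 0 := by
  have h3 : (X ^ 2 + X + C 1 : K[X]) ≠ 0 := by
    intro h
    have := congrArg (fun p => p.coeff 2) h
    simp [coeff_X, coeff_one] at this
  obtain ⟨x, hx⟩ := exists_nonroot hK5 (X * (X + C 1) * (X ^ 2 + X + C 1))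
    (mul_ne_zero (mul_ne_zero X_ne_zero (X_add_C_ne_zero 1)) h3) (by compute_degree!)
  rw [eval_mul, eval_mul, eval_X, eval_add, eval_X, eval_C, eval_add, eval_add, eval_pow, eval_X,
    eval_C] at hx
  refine ⟨x, fun h => hx (by rw [h]; simp), fun h => hx ?_, fun h => hx (by rw [h, mul_zero])⟩
  have : x + 1 = 0 := by rw [add_comm]; exact h
  rw [this, mul_zero, zero_mul]

theorem field_f3 {K : Type*} [Field K] (hK5 : ∃ s : Finset K, 4 < s.card) (d : ℤ) (hd : d ≠ 0)
    (hd3 : d.natAbs ≤ 3) : ∃ a : K, a ≠ 0 ∧ a ^ d ≠ 1 := by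
  have hn : 0 < d.natAbs := Int.natAbs_pos.mpr hd
  obtain ⟨x, hx⟩ := exists_nonroot hK5 (X * (X ^ d.natAbs - C 1))
    (mul_ne_zero X_ne_zero (X_pow_sub_C_ne_zero hn 1)) (by
      have : (X * (X ^ d.natAbs - C 1) : K[X]).natDegree ≤ 1 + d.natAbs := by
        refine le_trans natDegree_mul_le ?_
        rw [natDegree_X, natDegree_X_pow_sub_C]
      omega)
  rw [eval_mul, eval_X, eval_sub, eval_pow, eval_X, eval_C] at hx
  have hx0 : x ≠ 0 := fun h => hx (by rw [h, zero_mul])
  have hx1 : x ^ d.natAbs ≠ 1 := fun h => hx (by rw [h, sub_self, mul_zero])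
  refine ⟨x, hx0, ?_⟩
  rcases Int.natAbs_eq d with h | h
  · rw [h, zpow_natCast]
    exact hx1
  · rw [h, zpow_neg, zpow_natCast]
    intro h2
    exact hx1 (inv_eq_one.mp h2)

/-! ### Boolean checks -/

/-- Boolean version of `Adm` -/
def admB (D : ChevalleyDatum) : List ℕ → Bool
  | [] => true
  | r :: post => decide (r < D.nroots) && !post.contains r &&
      post.all (fun s => decide (s < D.nroots) && s != D.neg r &&
        (D.commTerms r s).all (fun c => post.contains c.1)) && admB D post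

theorem admB_spec (D : ChevalleyDatum) : ∀ L : List ℕ, admB D L = true → Adm D L
  | [], _ => trivial
  | r :: post, h => by
    unfold admB at h
    rw [Bool.and_eq_true, Bool.and_eq_true, Bool.and_eq_true] at h
    obtain ⟨⟨⟨h1, h2⟩, h3⟩, h4⟩ := h
    refine ⟨of_decide_eq_true h1, ?_, ?_, admB_spec D post h4⟩
    · intro hmem
      simp [hmem] at h2
    · intro s hs
      have h5 := List.all_eq_true.mp h3 s hs
      rw [Bool.and_eq_true, Bool.and_eq_true] at h5
      obtain ⟨⟨h6, h7⟩, h8⟩ := h5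
      refine ⟨of_decide_eq_true h6, by simpa using h7, ?_⟩
      intro c hc
      have := List.all_eq_true.mp h8 c hc
      simpa using this

/-- Boolean version of the length condition -/
def lenB (D : ChevalleyDatum) (n : ℕ) : List ℕ → Bool
  | [] => true
  | r :: post => post.all (fun s => decide ((D.commTerms r s).length < n)) && lenB D n post

theorem lenB_spec (D : ChevalleyDatum) (n : ℕ) : ∀ L : List ℕ, lenB D n L = true →
    PairsP (fun γ δ => (D.commTerms γ δ).length < n) L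
  | [], _ => trivial
  | r :: post, h => by
    unfold lenB at h
    rw [Bool.and_eq_true] at h
    exact ⟨fun s hs => of_decide_eq_true (List.all_eq_true.mp h.1 s hs), lenB_spec D n post h.2⟩

/-- a word in the fundamental reflections, from a list of numbers -/
def toFin (D : ChevalleyDatum) (l : List ℕ) : List (Fin D.rank) :=
  l.filterMap fun i => if h : i < D.rank then some ⟨i, h⟩ else none

/-- some word of the list moves the roots of `L` into the positive roots -/
def posB (D : ChevalleyDatum) (ws : List (List ℕ)) (L : List ℕ) : Bool :=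
  ws.any fun l => L.all fun γ => decide (D.IsPosRoot (Cfsg.Agent.Lib.Helper36.wordF D (toFin D l) γ))

theorem posB_spec {K : Type*} [Field K] {D : ChevalleyDatum}
    (hD : D ∈ [chevG2, chevB2, chevD4, chevF4, chevE6, chevE7, chevE8]) (ws : List (List ℕ))
    (L : List ℕ) (hL : ∀ γ ∈ L, γ < D.nroots) (h : posB D ws L = true) :
    ∃ (g : GL D.Idx K) (σ : Equiv.Perm ℕ), RootAct D hD g σ ∧ ∀ γ ∈ L, D.IsPosRoot (σ γ) := by
  obtain ⟨l, -, hl⟩ := List.any_eq_true.mp h
  refine ⟨wordN D hD (toFin D l), wordPerm D hD (toFin D l), rootAct_wordN D hD _, ?_⟩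
  intro γ hγ
  rw [wordPerm_eq_wordF D hD _ γ (hL γ hγ)]
  exact of_decide_eq_true (List.all_eq_true.mp hl γ hγ)

/-- the exponent of the character of `h_i(a^p) h_j(a^q)` on the root `γ` -/
def torE (D : ChevalleyDatum) (i j : ℕ) (p q : ℤ) (γ : ℕ) : ℤ :=
  p * dotCA D (D.simple i) γ + q * dotCA D (D.simple j) γ

/-- the torus condition -/
def torB (D : ChevalleyDatum) (i j : ℕ) (p q : ℤ) (r s : ℕ) : Bool :=
  decide (i < D.rank) && decide (j < D.rank) && decide (torE D i j p q r = 0) &&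
    decide (torE D i j p q s ≠ 0) && decide ((torE D i j p q s).natAbs ≤ 3) &&
    (D.commTerms r s).all fun c => decide (torE D i j p q c.1 = (c.2.2.2 : ℤ) * torE D i j p q s)

variable {K : Type*} [Field K] {Γ : Type*} [Group Γ]

section chk

variable {D : ChevalleyDatum}
  (hD : D ∈ [chevG2, chevB2, chevD4, chevF4, chevE6, chevE7, chevE8])
  {X : ℕ → K → Γ} (hX : Rel D X) (π : Γ →* GL D.Idx K)
  (hπ : ∀ r < D.nroots, ∀ t, π (X r t) = xU D hD r t)

include hX hπ

theorem dg_hG (i : ℕ) (hi : i < D.rank) (t : K) (ht : t ≠ 0) :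
    Dg D X (hG D X (D.simple i) t) (fun s => t ^ dotCA D (D.simple i) s) :=
  fun s hs => ⟨zpow_ne_zero _ ht, hG_mul_X hD hX π hπ i hi t ht s hs⟩

theorem torB_spec (hK5 : ∃ s : Finset K, 4 < s.card) (i j : ℕ) (p q : ℤ) (r s : ℕ)
    (h : torB D i j p q r s = true) :
    ∃ (h : Γ) (χ : ℕ → K), Dg D X h χ ∧ χ r = 1 ∧ χ s ≠ 1 ∧
      ∀ c ∈ D.commTerms r s, χ c.1 = χ s ^ c.2.2.2 := by
  unfold torB at h
  rw [Bool.and_eq_true, Bool.and_eq_true, Bool.and_eq_true, Bool.and_eq_true,
    Bool.and_eq_true] at h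
  obtain ⟨⟨⟨⟨⟨h1, h2⟩, h3⟩, h4⟩, h5⟩, h6⟩ := h
  have hi : i < D.rank := of_decide_eq_true h1
  have hj : j < D.rank := of_decide_eq_true h2
  have hr0 : torE D i j p q r = 0 := of_decide_eq_true h3
  obtain ⟨a, ha, had⟩ := field_f3 hK5 (torE D i j p q s) (of_decide_eq_true h4)
    (of_decide_eq_true h5)
  have hχ : ∀ γ : ℕ, (a ^ p) ^ dotCA D (D.simple i) γ * (a ^ q) ^ dotCA D (D.simple j) γ =
      a ^ torE D i j p q γ := by
    intro γ
    unfold torE
    rw [← zpow_mul, ← zpow_mul, ← zpow_add₀ ha]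
  refine ⟨hG D X (D.simple i) (a ^ p) * hG D X (D.simple j) (a ^ q), _,
    (dg_hG hD hX π hπ i hi (a ^ p) (zpow_ne_zero p ha)).mul
      (dg_hG hD hX π hπ j hj (a ^ q) (zpow_ne_zero q ha)), ?_, ?_, ?_⟩
  · show (a ^ p) ^ dotCA D (D.simple i) r * (a ^ q) ^ dotCA D (D.simple j) r = 1
    rw [hχ, hr0, zpow_zero]
  · show (a ^ p) ^ dotCA D (D.simple i) s * (a ^ q) ^ dotCA D (D.simple j) s ≠ 1
    rw [hχ]
    exact had
  · intro c hc
    show (a ^ p) ^ dotCA D (D.simple i) c.1 * (a ^ q) ^ dotCA D (D.simple j) c.1 =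
      ((a ^ p) ^ dotCA D (D.simple i) s * (a ^ q) ^ dotCA D (D.simple j) s) ^ c.2.2.2
    rw [hχ, hχ, of_decide_eq_true (List.all_eq_true.mp h6 c hc), mul_comm, zpow_mul,
      zpow_natCast]

/-- the check for a pair of roots -/
def pairB (D : ChevalleyDatum) (ws : List (List ℕ)) (cert : ℕ → ℕ → ℕ × ℕ × ℤ × ℤ)
    (r s : ℕ) : Bool :=
  admB D (s :: (D.commTerms r s).map Prod.fst) &&
    lenB D (D.commTerms r s).length (s :: (D.commTerms r s).map Prod.fst) &&
    posB D ws (s :: (D.commTerms r s).map Prod.fst) &&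
    torB D (cert r s).1 (cert r s).2.1 (cert r s).2.2.1 (cert r s).2.2.2 r s

/-- the check for all pairs of roots -/
def allPairB (D : ChevalleyDatum) (ws : List (List ℕ)) (cert : ℕ → ℕ → ℕ × ℕ × ℤ × ℤ) : Bool :=
  (List.range D.nroots).all fun r => (List.range D.nroots).all fun s =>
    s == r || s == D.neg r || pairB D ws cert r s

theorem pairOK_of_chk (hK5 : ∃ s : Finset K, 4 < s.card) (ws : List (List ℕ))
    (cert : ℕ → ℕ → ℕ × ℕ × ℤ × ℤ) (h : allPairB D ws cert = true) (r s : ℕ)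
    (hr : r < D.nroots) (hs : s < D.nroots) (hsr : s ≠ r) (hsn : s ≠ D.neg r) :
    PairOK (K := K) hD X r s := by
  have h1 := List.all_eq_true.mp (List.all_eq_true.mp h r (List.mem_range.mpr hr)) s
    (List.mem_range.mpr hs)
  rw [Bool.or_eq_true, Bool.or_eq_true] at h1
  rcases h1 with (h1 | h1) | h1
  · exact absurd (by simpa using h1) hsr
  · exact absurd (by simpa using h1) hsn
  · unfold pairB at h1
    rw [Bool.and_eq_true, Bool.and_eq_true, Bool.and_eq_true] at h1
    obtain ⟨⟨⟨h2, h3⟩, h4⟩, h5⟩ := h1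
    have hadm := admB_spec D _ h2
    exact ⟨hadm, lenB_spec D _ _ h3, posB_spec hD ws _ hadm.lt h4,
      torB_spec hD hX π hπ hK5 _ _ _ _ r s h5⟩

/-- every root has a diagonal element `h_i(a^p) h_j(a^q)` acting on it by `a`, with `(i, j, p, q)`
from the list of candidates -/
def bzB (D : ChevalleyDatum) (cands : List (ℕ × ℕ × ℤ × ℤ)) : Bool :=
  (List.range D.nroots).all fun γ => cands.any fun c =>
    decide (c.1 < D.rank) && decide (c.2.1 < D.rank) &&
      decide (torE D c.1 c.2.1 c.2.2.1 c.2.2.2 γ = 1)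

theorem full_of_bz (cands : List (ℕ × ℕ × ℤ × ℤ)) (h : bzB D cands = true) (γ : ℕ)
    (hγ : γ < D.nroots) (c : K) (hc : c ≠ 0) :
    ∃ (h : Γ) (χ : ℕ → K), Dg D X h χ ∧ χ γ = c := by
  obtain ⟨⟨i, j, p, q⟩, -, h1⟩ :=
    List.any_eq_true.mp (List.all_eq_true.mp h γ (List.mem_range.mpr hγ))
  rw [Bool.and_eq_true, Bool.and_eq_true] at h1
  obtain ⟨⟨h2, h3⟩, h4⟩ := h1
  have hi : i < D.rank := of_decide_eq_true h2
  have hj : j < D.rank := of_decide_eq_true h3
  have h5 : torE D i j p q γ = 1 := of_decide_eq_true h4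
  refine ⟨hG D X (D.simple i) (c ^ p) * hG D X (D.simple j) (c ^ q), _,
    (dg_hG hD hX π hπ i hi (c ^ p) (zpow_ne_zero p hc)).mul
      (dg_hG hD hX π hπ j hj (c ^ q) (zpow_ne_zero q hc)), ?_⟩
  show (c ^ p) ^ dotCA D (D.simple i) γ * (c ^ q) ^ dotCA D (D.simple j) γ = c
  have h6 : (c ^ p) ^ dotCA D (D.simple i) γ * (c ^ q) ^ dotCA D (D.simple j) γ =
      c ^ torE D i j p q γ := by
    unfold torE
    rw [← zpow_mul, ← zpow_mul, ← zpow_add₀ hc]
  rw [h6, h5, zpow_one]

end chk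

end Cfsg.Agent.Lib.Helper18.StAbs
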