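import Cfsg.Agent.Lib.Helper18.StLift3
import Cfsg.Agent.Lib.Helper18.StLiftChk

/-!
# Certificates for the conditions of the lifting theorem, second version

Field-independent certificates `PairCert` for the pairs of roots and `RootCert` for the single
roots, Boolean checks implying them, and their consequences in a group with the relations (R1),
(R2).  For a single root: either some diagonal element `h_i(a^p) h_j(a^q)` acts on the root
subgroup by `a`, or (long roots of type B₂) some `h_i(a)` acts on it by `a^{±2}` and the root is the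
sum of two roots whose root elements commute with its root elements and whose commutator formula
has the single structure constant `±2`.
-/

set_option autoImplicit false

namespace Cfsg.Agent.Lib.Helper18.StAbs

open Cfsg Cfsg.Lie Cfsg.Lie.ChevalleyDatum Cfsg.Agent.Lib.Helper17

/-- field-independent certificate for a pair of roots -/
structure PairCert (D : ChevalleyDatum) (r s : ℕ) : Prop where
  pos : D.commTerms r s = [] ∨
    (∃ (γ : ℕ) (C : ℤ), D.commTerms r s = [(γ, C, 1, 1)] ∧ γ < D.nroots ∧ (C = 1 ∨ C = -1) ∧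
      (γ = s ∨ ∃ (i j : ℕ) (p q : ℤ), i < D.rank ∧ j < D.rank ∧ torE D i j p q s = 0 ∧
        torE D i j p q γ ≠ 0 ∧ (torE D i j p q γ).natAbs ≤ 3)) ∨
    (Adm D (s :: (D.commTerms r s).map Prod.fst) ∧
      PairsP (fun γ δ => (D.commTerms γ δ).length < (D.commTerms r s).length)
        (s :: (D.commTerms r s).map Prod.fst) ∧
      ((∃ c₀, D.commTerms r s = [c₀] ∧ c₀.2.2.2 = 1) ∨
        ∃ l : List (Fin D.rank), ∀ γ ∈ s :: (D.commTerms r s).map Prod.fst,
          D.IsPosRoot (Cfsg.Agent.Lib.Helper36.wordF D l γ)))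
  tor : ∃ (i j : ℕ) (p q : ℤ), i < D.rank ∧ j < D.rank ∧ torE D i j p q r = 0 ∧
    torE D i j p q s ≠ 0 ∧ (torE D i j p q s).natAbs ≤ 3 ∧
    ((∀ c ∈ D.commTerms r s, torE D i j p q c.1 = (c.2.2.2 : ℤ) * torE D i j p q s) ∨
      ∃ (γ : ℕ) (C : ℤ), D.commTerms r s = [(γ, C, 1, 1)] ∧ γ < D.nroots ∧ (C = 1 ∨ C = -1))

/-- certificate for a single root -/
def RootCert (D : ChevalleyDatum) (γ : ℕ) : Prop :=
  (∃ (i j : ℕ) (p q : ℤ), i < D.rank ∧ j < D.rank ∧ torE D i j p q γ = 1) ∨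
  ((∃ i < D.rank, dotCA D (D.simple i) γ = 2 ∨ dotCA D (D.simple i) γ = -2) ∧
    ∃ (a b : ℕ) (C : ℤ), a < D.nroots ∧ b < D.nroots ∧ b ≠ a ∧ b ≠ D.neg a ∧
      D.commTerms a b = [(γ, C, 1, 1)] ∧ C.natAbs = 2 ∧ γ ≠ a ∧ γ ≠ D.neg a ∧ γ ≠ b ∧
      γ ≠ D.neg b ∧ D.commTerms a γ = [] ∧ D.commTerms b γ = [])

/-! ### Boolean checks -/

/-- at most one term in the commutator formula, linear in the second parameter -/
def linB (D : ChevalleyDatum) (r s : ℕ) : Bool :=
  match D.commTerms r s with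
  | [] => true
  | [c] => c.2.2.2 == 1
  | _ => false

theorem linB_spec (D : ChevalleyDatum) (r s : ℕ) (h : linB D r s = true) :
    D.commTerms r s = [] ∨ ∃ c₀, D.commTerms r s = [c₀] ∧ c₀.2.2.2 = 1 := by
  unfold linB at h
  split at h
  · left
    assumption
  · right
    exact ⟨_, by assumption, by simpa using h⟩
  · exact absurd h (by simp)

theorem pairCert_of_pairB (D : ChevalleyDatum) (ws : List (List ℕ))
    (cert : ℕ → ℕ → ℕ × ℕ × ℤ × ℤ) (r s : ℕ) (h : pairB D ws cert r s = true) :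
    PairCert D r s := by
  unfold pairB at h
  rw [Bool.and_eq_true, Bool.and_eq_true, Bool.and_eq_true] at h
  obtain ⟨⟨⟨h2, h3⟩, h4⟩, h5⟩ := h
  refine ⟨?_, ?_⟩
  · obtain ⟨l, -, hl⟩ := List.any_eq_true.mp h4
    exact Or.inr (Or.inr ⟨admB_spec D _ h2, lenB_spec D _ _ h3,
      Or.inr ⟨toFin D l, fun γ hγ => of_decide_eq_true (List.all_eq_true.mp hl γ hγ)⟩⟩)
  · unfold torB at h5
    rw [Bool.and_eq_true, Bool.and_eq_true, Bool.and_eq_true, Bool.and_eq_true,
      Bool.and_eq_true] at h5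
    obtain ⟨⟨⟨⟨⟨h6, h7⟩, h8⟩, h9⟩, h10⟩, h11⟩ := h5
    exact ⟨_, _, _, _, of_decide_eq_true h6, of_decide_eq_true h7, of_decide_eq_true h8,
      of_decide_eq_true h9, of_decide_eq_true h10,
      Or.inl (fun c hc => of_decide_eq_true (List.all_eq_true.mp h11 c hc))⟩

/-- the Cartan integers of the fundamental roots, read off the table -/
def cartChk (D : ChevalleyDatum) : Bool :=
  (List.range D.rank).all fun i => (List.range D.nroots).all fun γ =>
    dotCA D (D.simple i) γ == D.cartan i γ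

/-- the exponent of the character of `h_i(a^p) h_j(a^q)` on the root `γ`, from the table -/
def torE2 (D : ChevalleyDatum) (i j : ℕ) (p q : ℤ) (γ : ℕ) : ℤ :=
  p * D.cartan i γ + q * D.cartan j γ

theorem torE_eq2 (D : ChevalleyDatum) (hcart : cartChk D = true) (i j : ℕ) (p q : ℤ) (γ : ℕ)
    (hi : i < D.rank) (hj : j < D.rank) (hγ : γ < D.nroots) :
    torE D i j p q γ = torE2 D i j p q γ := by
  have h1 : ∀ k < D.rank, dotCA D (D.simple k) γ = D.cartan k γ := by
    intro k hk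
    have := List.all_eq_true.mp (List.all_eq_true.mp hcart k (List.mem_range.mpr hk)) γ
      (List.mem_range.mpr hγ)
    simpa using this
  unfold torE torE2
  rw [h1 i hi, h1 j hj]

/-- the diagonal element for a pair of roots, found by search -/
def findTor2 (D : ChevalleyDatum) (r s : ℕ) : ℕ × ℕ × ℤ × ℤ :=
  match (List.range D.rank).find? (fun i => D.cartan i r == 0 && D.cartan i s != 0) with
  | some i => (i, i, 1, 0)
  | none =>
    match ((List.range D.rank).flatMap fun i => (List.range D.rank).filterMap fun j =>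
        if i < j then
          some (i, j, D.cartan j r / (Int.gcd (D.cartan i r) (D.cartan j r) : ℤ),
            - (D.cartan i r / (Int.gcd (D.cartan i r) (D.cartan j r) : ℤ)))
        else none).find? (fun c =>
          torE2 D c.1 c.2.1 c.2.2.1 c.2.2.2 s != 0 &&
            decide ((torE2 D c.1 c.2.1 c.2.2.1 c.2.2.2 s).natAbs ≤ 3)) with
    | some c => c
    | none => (0, 0, 0, 0)

/-- the torus condition, from the table -/
def torF (D : ChevalleyDatum) (i j : ℕ) (p q : ℤ) (r s : ℕ) : Bool :=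
  decide (i < D.rank) && decide (j < D.rank) && decide (torE2 D i j p q r = 0) &&
    decide (torE2 D i j p q s ≠ 0) && decide ((torE2 D i j p q s).natAbs ≤ 3) &&
    (D.commTerms r s).all fun c => decide (torE2 D i j p q c.1 = (c.2.2.2 : ℤ) * torE2 D i j p q s)

/-- the check for a pair of roots -/
def pairF (D : ChevalleyDatum) (ws : List (List ℕ)) (r s : ℕ) : Bool :=
  admB D (s :: (D.commTerms r s).map Prod.fst) &&
    lenB D (D.commTerms r s).length (s :: (D.commTerms r s).map Prod.fst) &&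
    (linB D r s || posB D ws (s :: (D.commTerms r s).map Prod.fst)) &&
    torF D (findTor2 D r s).1 (findTor2 D r s).2.1 (findTor2 D r s).2.2.1 (findTor2 D r s).2.2.2 r s

theorem pairCert_of_pairF (D : ChevalleyDatum) (hcart : cartChk D = true) (ws : List (List ℕ))
    (r s : ℕ) (hr : r < D.nroots) (hs : s < D.nroots) (h : pairF D ws r s = true) :
    PairCert D r s := by
  unfold pairF at h
  rw [Bool.and_eq_true, Bool.and_eq_true, Bool.and_eq_true, Bool.or_eq_true] at h
  obtain ⟨⟨⟨h2, h3⟩, h4⟩, h5⟩ := h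
  have hadm := admB_spec D _ h2
  refine ⟨?_, ?_⟩
  · rcases h4 with h4 | h4
    · rcases linB_spec D r s h4 with h6 | h6
      · exact Or.inl h6
      · exact Or.inr (Or.inr ⟨hadm, lenB_spec D _ _ h3, Or.inl h6⟩)
    · obtain ⟨l, -, hl⟩ := List.any_eq_true.mp h4
      exact Or.inr (Or.inr ⟨hadm, lenB_spec D _ _ h3, Or.inr ⟨toFin D l, fun γ hγ =>
        of_decide_eq_true (List.all_eq_true.mp hl γ hγ)⟩⟩)
  · unfold torF at h5
    rw [Bool.and_eq_true, Bool.and_eq_true, Bool.and_eq_true, Bool.and_eq_true,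
      Bool.and_eq_true] at h5
    obtain ⟨⟨⟨⟨⟨h6, h7⟩, h8⟩, h9⟩, h10⟩, h11⟩ := h5
    have hi := of_decide_eq_true h6
    have hj := of_decide_eq_true h7
    refine ⟨_, _, (findTor2 D r s).2.2.1, (findTor2 D r s).2.2.2, hi, hj, ?_, ?_, ?_, ?_⟩
    · rw [torE_eq2 D hcart _ _ _ _ r hi hj hr]
      exact of_decide_eq_true h8
    · rw [torE_eq2 D hcart _ _ _ _ s hi hj hs]
      exact of_decide_eq_true h9
    · rw [torE_eq2 D hcart _ _ _ _ s hi hj hs]
      exact of_decide_eq_true h10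
    · left
      intro c hc
      rw [torE_eq2 D hcart _ _ _ _ s hi hj hs, torE_eq2 D hcart _ _ _ _ c.1 hi hj
        (hadm.lt _ (List.mem_cons_of_mem _ (List.mem_map_of_mem hc)))]
      exact of_decide_eq_true (List.all_eq_true.mp h11 c hc)

/-- the check for the pairs of roots with first root in a list -/
def chunkF (D : ChevalleyDatum) (ws : List (List ℕ)) (R : List ℕ) : Bool :=
  R.all fun r => (List.range D.nroots).all fun s => s == r || s == D.neg r || pairF D ws r s

theorem pairCert_of_chunk (D : ChevalleyDatum) (hcart : cartChk D = true) (ws : List (List ℕ))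
    (R : List ℕ) (h : chunkF D ws R = true) (r s : ℕ) (hR : r ∈ R) (hr : r < D.nroots)
    (hs : s < D.nroots) (hsr : s ≠ r) (hsn : s ≠ D.neg r) : PairCert D r s := by
  have h1 := List.all_eq_true.mp (List.all_eq_true.mp h r hR) s (List.mem_range.mpr hs)
  rw [Bool.or_eq_true, Bool.or_eq_true] at h1
  rcases h1 with (h1 | h1) | h1
  · exact absurd (by simpa using h1) hsr
  · exact absurd (by simpa using h1) hsn
  · exact pairCert_of_pairF D hcart ws r s hr hs h1

/-- every root has a fundamental root with nonzero Cartan integer -/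
def nzB (D : ChevalleyDatum) : Bool :=
  (List.range D.nroots).all fun γ => (List.range D.rank).any fun i =>
    dotCA D (D.simple i) γ != 0 && decide ((dotCA D (D.simple i) γ).natAbs ≤ 3)

/-- the certificate for a long root of type B₂ -/
def longB (D : ChevalleyDatum) (γ : ℕ) (c : ℕ × ℕ × ℕ) : Bool :=
  decide (c.1 < D.rank) &&
    (dotCA D (D.simple c.1) γ == 2 || dotCA D (D.simple c.1) γ == -2) &&
    decide (c.2.1 < D.nroots) && decide (c.2.2 < D.nroots) && decide (c.2.2 ≠ c.2.1) &&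
    decide (c.2.2 ≠ D.neg c.2.1) &&
    (decide (D.commTerms c.2.1 c.2.2 = [(γ, 2, 1, 1)]) ||
      decide (D.commTerms c.2.1 c.2.2 = [(γ, -2, 1, 1)])) &&
    decide (γ ≠ c.2.1) && decide (γ ≠ D.neg c.2.1) && decide (γ ≠ c.2.2) &&
    decide (γ ≠ D.neg c.2.2) && decide (D.commTerms c.2.1 γ = []) &&
    decide (D.commTerms c.2.2 γ = [])

/-- the check for the single roots -/
def rootB (D : ChevalleyDatum) (cands : List (ℕ × ℕ × ℤ × ℤ)) (longs : List (ℕ × ℕ × ℕ)) :
    Bool :=
  (List.range D.nroots).all fun γ =>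
    (cands.any fun c => decide (c.1 < D.rank) && decide (c.2.1 < D.rank) &&
      decide (torE D c.1 c.2.1 c.2.2.1 c.2.2.2 γ = 1)) || longs.any (longB D γ)

theorem rootCert_of_rootB (D : ChevalleyDatum) (cands : List (ℕ × ℕ × ℤ × ℤ))
    (longs : List (ℕ × ℕ × ℕ)) (h : rootB D cands longs = true) (γ : ℕ) (hγ : γ < D.nroots) :
    RootCert D γ := by
  have h1 := List.all_eq_true.mp h γ (List.mem_range.mpr hγ)
  rw [Bool.or_eq_true] at h1
  rcases h1 with h1 | h1
  · obtain ⟨⟨i, j, p, q⟩, -, h2⟩ := List.any_eq_true.mp h1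
    rw [Bool.and_eq_true, Bool.and_eq_true] at h2
    exact Or.inl ⟨i, j, p, q, of_decide_eq_true h2.1.1, of_decide_eq_true h2.1.2,
      of_decide_eq_true h2.2⟩
  · obtain ⟨⟨i, a, b⟩, -, h2⟩ := List.any_eq_true.mp h1
    unfold longB at h2
    simp only [Bool.and_eq_true, Bool.or_eq_true, decide_eq_true_eq, beq_iff_eq] at h2
    obtain ⟨⟨⟨⟨⟨⟨⟨⟨⟨⟨⟨⟨h3, h4⟩, h5⟩, h6⟩, h7⟩, h8⟩, h9⟩, h10⟩, h11⟩, h12⟩, h13⟩, h14⟩, h15⟩ := h2
    refine Or.inr ⟨⟨i, h3, h4⟩, ?_⟩
    rcases h9 with h9 | h9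
    · exact ⟨a, b, 2, h5, h6, h7, h8, h9, rfl, h10, h11, h12, h13, h14, h15⟩
    · exact ⟨a, b, -2, h5, h6, h7, h8, h9, rfl, h10, h11, h12, h13, h14, h15⟩

theorem rootCert_of_bz (D : ChevalleyDatum) (cands : List (ℕ × ℕ × ℤ × ℤ))
    (h : bzB D cands = true) (γ : ℕ) (hγ : γ < D.nroots) : RootCert D γ := by
  obtain ⟨⟨i, j, p, q⟩, -, h2⟩ :=
    List.any_eq_true.mp (List.all_eq_true.mp h γ (List.mem_range.mpr hγ))
  rw [Bool.and_eq_true, Bool.and_eq_true] at h2
  exact Or.inl ⟨i, j, p, q, of_decide_eq_true h2.1.1, of_decide_eq_true h2.1.2,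
    of_decide_eq_true h2.2⟩

/-! ### Consequences -/

variable {K : Type*} [Field K] {Γ : Type*} [Group Γ] {E : Type*} [Group E]

section chk

variable {D : ChevalleyDatum}
  (hD : D ∈ [chevG2, chevB2, chevD4, chevF4, chevE6, chevE7, chevE8])
  {X : ℕ → K → Γ} (hX : Rel D X) (π : Γ →* GL D.Idx K)
  (hπ : ∀ r < D.nroots, ∀ t, π (X r t) = xU D hD r t)

include hX hπ

theorem dg_tor (i j : ℕ) (p q : ℤ) (hi : i < D.rank) (hj : j < D.rank) (a : K) (ha : a ≠ 0) :
    Dg D X (hG D X (D.simple i) (a ^ p) * hG D X (D.simple j) (a ^ q))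
      (fun γ => a ^ torE D i j p q γ) := by
  have h1 := (dg_hG hD hX π hπ i hi (a ^ p) (zpow_ne_zero p ha)).mul
    (dg_hG hD hX π hπ j hj (a ^ q) (zpow_ne_zero q ha))
  have hχ : ∀ γ : ℕ, (a ^ p) ^ dotCA D (D.simple i) γ * (a ^ q) ^ dotCA D (D.simple j) γ =
      a ^ torE D i j p q γ := by
    intro γ
    unfold torE
    rw [← zpow_mul, ← zpow_mul, ← zpow_add₀ ha]
  intro s hs
  refine ⟨zpow_ne_zero _ ha, fun u => ?_⟩
  show _ * X s u = X s (a ^ torE D i j p q s * u) * _
  rw [← hχ s]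
  exact (h1 s hs).2 u

theorem PairCert.ok (hK5 : ∃ s : Finset K, 4 < s.card) {r s : ℕ} (hr : r < D.nroots)
    (hsl : s < D.nroots) (hsr : s ≠ r) (hsn : s ≠ D.neg r) (h : PairCert D r s) :
    PairOK2 (K := K) hD X r s := by
  have hunit : ∀ C : ℤ, C = 1 ∨ C = -1 → (C : K) ≠ 0 := by
    rintro C (rfl | rfl)
    · simp
    · simp
  refine ⟨?_, ?_⟩
  · rcases h.pos with h1 | ⟨γ, C, hct, hγ, hC, hγs⟩ | ⟨hadm, hlen, hlin | ⟨l, hl⟩⟩
    · exact Or.inl h1
    · refine Or.inr (Or.inl ⟨γ, C, hct, hγ, hunit C hC, ?_⟩)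
      rcases hγs with hγs | ⟨i, j, p, q, hi, hj, t1, t2, t3⟩
      · exact Or.inl hγs
      · obtain ⟨a, ha, had⟩ := field_f3 hK5 (torE D i j p q γ) t2 t3
        refine Or.inr ⟨_, _, dg_tor hD hX π hπ i j p q hi hj a ha, ?_, had⟩
        show a ^ torE D i j p q s = 1
        rw [t1, zpow_zero]
    · exact Or.inr (Or.inr ⟨hadm, hlen, Or.inl hlin⟩)
    · refine Or.inr (Or.inr ⟨hadm, hlen, Or.inr ⟨wordN D hD l, wordPerm D hD l,
        rootAct_wordN D hD l, ?_⟩⟩)
      intro γ hγ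
      rw [wordPerm_eq_wordF D hD l γ (hadm.lt γ hγ)]
      exact hl γ hγ
  · obtain ⟨i, j, p, q, hi, hj, hr0, hs0, hs3, hcone⟩ := h.tor
    obtain ⟨a, ha, had⟩ := field_f3 hK5 (torE D i j p q s) hs0 hs3
    have hdg := dg_tor hD hX π hπ i j p q hi hj a ha
    have hχr : a ^ torE D i j p q r = 1 := by rw [hr0, zpow_zero]
    refine ⟨_, _, hdg, hχr, had, ?_⟩
    rcases hcone with hcone | ⟨γ, C, hct, hγ, hC⟩
    · intro c hc
      show a ^ torE D i j p q c.1 = (a ^ torE D i j p q s) ^ c.2.2.2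
      rw [hcone c hc, mul_comm, zpow_mul, zpow_natCast]
    · -- the relation (R2) for the pair gives the value of the character on the sum
      have hw : ∀ t u : K, D.commWord K r s t u = [(γ, (C : K) * (-t) ^ 1 * u ^ 1)] := by
        intro t u
        unfold ChevalleyDatum.commWord
        rw [hct]
        rfl
      have hC0 := hunit C hC
      generalize hG D X (D.simple i) (a ^ p) * hG D X (D.simple j) (a ^ q) = h₀ at hdg
      have cj : ∀ γ' < D.nroots, ∀ u : K,
          h₀ * X γ' u * h₀⁻¹ = X γ' (a ^ torE D i j p q γ' * u) :=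
        fun γ' hγ' u => hdg.conj γ' hγ' u
      have R : ∀ t u : K, X s u * X r t =
          X r t * X s u * X γ ((C : K) * (-t) ^ 1 * u ^ 1) := by
        intro t u
        have h1 := hX.comm r s hr hsl hsr hsn t u
        rw [hw] at h1
        exact h1.trans (by rw [wd_cons, wd_nil, mul_one])
      have R1 := R 1 1
      have R2 := R (a ^ torE D i j p q r) (a ^ torE D i j p q s)
      have R3 : h₀ * (X s 1 * X r 1) * h₀⁻¹ =
          h₀ * (X r 1 * X s 1 * X γ ((C : K) * (-1) ^ 1 * 1 ^ 1)) * h₀⁻¹ := by rw [R1]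
      have e1 : h₀ * (X s 1 * X r 1) * h₀⁻¹ = (h₀ * X s 1 * h₀⁻¹) * (h₀ * X r 1 * h₀⁻¹) := by
        group
      have e2 : h₀ * (X r 1 * X s 1 * X γ ((C : K) * (-1) ^ 1 * 1 ^ 1)) * h₀⁻¹ =
          (h₀ * X r 1 * h₀⁻¹) * (h₀ * X s 1 * h₀⁻¹) *
            (h₀ * X γ ((C : K) * (-1) ^ 1 * 1 ^ 1) * h₀⁻¹) := by group
      rw [e1, e2, cj s hsl, cj r hr, cj γ hγ, mul_one, mul_one, R2] at R3
      have R4 := mul_left_cancel R3
      have R5 := congrArg π R4
      rw [hπ γ hγ, hπ γ hγ] at R5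
      have R6 := xU_inj D hD γ hγ _ _ R5
      rw [hχr] at R6
      intro c hc
      rw [hct, List.mem_singleton] at hc
      subst hc
      show a ^ torE D i j p q γ = (a ^ torE D i j p q s) ^ 1
      rw [pow_one]
      have h7 : (C : K) * (a ^ torE D i j p q γ - a ^ torE D i j p q s) = 0 := by
        have : (C : K) * (a ^ torE D i j p q γ - a ^ torE D i j p q s) =
            -(a ^ torE D i j p q γ * ((C : K) * (-1) ^ 1 * 1 ^ 1)) +
              (C : K) * (-1) ^ 1 * (a ^ torE D i j p q s) ^ 1 := by ring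
        rw [this, R6]
        ring
      exact sub_eq_zero.mp ((mul_eq_zero.mp h7).resolve_left hC0)

theorem nz_spec (hK5 : ∃ s : Finset K, 4 < s.card) (h : nzB D = true) (γ : ℕ)
    (hγ : γ < D.nroots) : ∃ (h : Γ) (χ : ℕ → K), Dg D X h χ ∧ χ γ ≠ 1 := by
  obtain ⟨i, hi, h1⟩ := List.any_eq_true.mp (List.all_eq_true.mp h γ (List.mem_range.mpr hγ))
  have hi' : i < D.rank := List.mem_range.mp hi
  rw [Bool.and_eq_true] at h1
  obtain ⟨a, ha, had⟩ := field_f3 hK5 (dotCA D (D.simple i) γ) (by simpa using h1.1)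
    (of_decide_eq_true h1.2)
  exact ⟨_, _, dg_hG hD hX π hπ i hi' a ha, had⟩

end chk

end Cfsg.Agent.Lib.Helper18.StAbs
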