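import Cfsg.Agent.Lib.Helper18.StCent
import Cfsg.Agent.Lib.Helper18.StLiftChk2

/-!
# The centre of the Steinberg group when the Cartan matrix has a cyclic cokernel

If the columns of the Cartan matrix generate the vectors `e_i - p_i e_{i₀}` and `m e_{i₀}`, the
elements of `Ĥ` commuting with all root elements are the products `∏ h_i(ζ^{p_i})` with `ζ^m = 1`.
-/

set_option autoImplicit false

namespace Cfsg.Agent.Lib.Helper18.StAbs

open Cfsg Cfsg.Lie Cfsg.Lie.ChevalleyDatum Cfsg.Agent.Lib.Helper18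

variable {K : Type*} [Field K] {Γ : Type*} [Group Γ]

theorem dotCA_eq_cartan (D : ChevalleyDatum) (hcart : cartChk D = true) (k γ : ℕ)
    (hk : k < D.rank) (hγ : γ < D.nroots) : dotCA D (D.simple k) γ = D.cartan k γ := by
  have := List.all_eq_true.mp (List.all_eq_true.mp hcart k (List.mem_range.mpr hk)) γ
    (List.mem_range.mpr hγ)
  simpa using this

/-- a combination of the character equations -/
theorem comb_eq_one {n : ℕ} (C : ℕ → ℕ → ℤ) (t : ℕ → K) (ht : ∀ i, t i ≠ 0)
    (hχ : ∀ j < n, ((List.range n).map (fun i => t i ^ C i j)).prod = 1) (v e : ℕ → ℤ)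
    (hv : ∀ k < n, ((List.range n).map (fun j => C k j * v j)).sum = e k) :
    ∏ k : Fin n, t k ^ e k = 1 := by
  have h1 : ∏ j : Fin n, (∏ i : Fin n, t i ^ C i j) ^ v j = 1 := by
    apply Finset.prod_eq_one
    intro j _
    have h := hχ j j.2
    rw [list_prod_range_eq_fin_prod] at h
    rw [h, one_zpow]
  have h2 : ∏ j : Fin n, (∏ i : Fin n, t i ^ C i j) ^ v j =
      ∏ i : Fin n, t i ^ (∑ j : Fin n, C i j * v j) := by
    simp only [← Finset.prod_zpow, ← zpow_mul]
    rw [Finset.prod_comm]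
    apply Finset.prod_congr rfl
    intro i _
    exact prod_zpow_sum₀ _ _ (ht i) _
  rw [← h1, h2]
  apply Finset.prod_congr rfl
  intro k _
  have h := hv k k.2
  rw [list_sum_range_eq_fin_sum] at h
  rw [h]

theorem eq_zpow_of_cert {n : ℕ} (C : ℕ → ℕ → ℤ) (t : ℕ → K) (ht : ∀ i, t i ≠ 0)
    (hχ : ∀ j < n, ((List.range n).map (fun i => t i ^ C i j)).prod = 1) (M : ℕ → ℕ → ℤ)
    (p : ℕ → ℤ) (i₀ : ℕ) (hi₀ : i₀ < n)
    (hM : ∀ k < n, ∀ i < n, ((List.range n).map (fun j => C k j * M j i)).sum =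
      (if k = i then 1 else 0) - p i * (if k = i₀ then 1 else 0)) (i : ℕ) (hi : i < n) :
    t i = t i₀ ^ p i := by
  have h1 := comb_eq_one C t ht hχ (fun j => M j i)
    (fun k => (if k = i then 1 else 0) - p i * (if k = i₀ then 1 else 0))
    (fun k hk => hM k hk i hi)
  have h2 : ∀ k : Fin n, t k ^ ((if (k : ℕ) = i then (1 : ℤ) else 0) -
      p i * (if (k : ℕ) = i₀ then 1 else 0)) =
      (if k = ⟨i, hi⟩ then t i else 1) * (if k = ⟨i₀, hi₀⟩ then (t i₀ ^ p i)⁻¹ else 1) := by
    intro k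
    rw [zpow_sub₀ (ht k), div_eq_mul_inv]
    congr 1
    · by_cases hk : (k : ℕ) = i
      · rw [if_pos hk, if_pos (Fin.ext hk), zpow_one, hk]
      · rw [if_neg hk, if_neg (fun h => hk (congrArg Fin.val h)), zpow_zero]
    · by_cases hk : (k : ℕ) = i₀
      · rw [if_pos hk, if_pos (Fin.ext hk), mul_one, hk]
      · rw [if_neg hk, if_neg (fun h => hk (congrArg Fin.val h)), mul_zero, zpow_zero, inv_one]
  simp only [h2] at h1
  rw [Finset.prod_mul_distrib, Finset.prod_ite_eq', Finset.prod_ite_eq'] at h1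
  simp only [Finset.mem_univ, if_true] at h1
  exact (mul_inv_eq_one₀ (zpow_ne_zero _ (ht i₀))).mp h1

theorem zpow_eq_one_of_cert {n : ℕ} (C : ℕ → ℕ → ℤ) (t : ℕ → K) (ht : ∀ i, t i ≠ 0)
    (hχ : ∀ j < n, ((List.range n).map (fun i => t i ^ C i j)).prod = 1) (w : ℕ → ℤ) (m : ℤ)
    (i₀ : ℕ) (hi₀ : i₀ < n)
    (hw : ∀ k < n, ((List.range n).map (fun j => C k j * w j)).sum =
      m * (if k = i₀ then 1 else 0)) : t i₀ ^ m = 1 := by
  have h1 := comb_eq_one C t ht hχ w (fun k => m * (if k = i₀ then 1 else 0)) hw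
  have h2 : ∀ k : Fin n, t k ^ (m * (if (k : ℕ) = i₀ then (1 : ℤ) else 0)) =
      if k = ⟨i₀, hi₀⟩ then t i₀ ^ m else 1 := by
    intro k
    by_cases hk : (k : ℕ) = i₀
    · rw [if_pos hk, if_pos (Fin.ext hk), mul_one, hk]
    · rw [if_neg hk, if_neg (fun h => hk (congrArg Fin.val h)), mul_zero, zpow_zero]
  simp only [h2] at h1
  rw [Finset.prod_ite_eq'] at h1
  simpa using h1

theorem list_prod_zpow (ζ : K) (hζ : ζ ≠ 0) (a b : ℕ → ℤ) (l : List ℕ) :
    (l.map (fun i => (ζ ^ a i) ^ b i)).prod = ζ ^ (l.map (fun i => a i * b i)).sum := by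
  induction l with
  | nil => simp
  | cons x l ih =>
    rw [List.map_cons, List.prod_cons, List.map_cons, List.sum_cons, ih, zpow_add₀ hζ, zpow_mul]

/-- the certificate: the columns of the Cartan matrix generate `e_i - p_i e_{i₀}` and `m e_{i₀}`,
and `p` pairs with every root to a multiple of `m` -/
def cycChk (D : ChevalleyDatum) (M : List (List ℤ)) (p w : List ℤ) (i₀ : ℕ) (m : ℤ) : Bool :=
  decide (i₀ < D.rank) &&
  ((List.range D.rank).all fun k => (List.range D.rank).all fun i =>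
    decide (((List.range D.rank).map (fun j => D.cartan k (D.simple j) * ll M j i)).sum =
      (if k = i then 1 else 0) - p.getD i 0 * (if k = i₀ then 1 else 0))) &&
  ((List.range D.rank).all fun k =>
    decide (((List.range D.rank).map (fun j => D.cartan k (D.simple j) * w.getD j 0)).sum =
      m * (if k = i₀ then 1 else 0))) &&
  ((List.range D.nroots).all fun s =>
    decide (((List.range D.rank).map (fun i => p.getD i 0 * D.cartan i s)).sum % m = 0))

section cent

variable {D : ChevalleyDatum} (hD : D ∈ [chevG2, chevB2, chevD4, chevF4, chevE6, chevE7, chevE8])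
  {X : ℕ → K → Γ} (hX : Rel D X) (π : Γ →* GL D.Idx K)
  (hπ : ∀ r < D.nroots, ∀ t, π (X r t) = xU D hD r t)

include hX hπ

/-- a trivial product of the `h_i(t_i)` has trivial characters -/
theorem Lp_eq_one_char (t : ℕ → K) (ht : ∀ i, t i ≠ 0) (l : List ℕ) (hl : ∀ i ∈ l, i < D.rank)
    (h : Lp D X t l = 1) (s : ℕ) (hs : s < D.nroots) :
    (l.map (fun i => t i ^ dotCA D (D.simple i) s)).prod = 1 := by
  have h1 := Lp_mul_X hD hX π hπ t ht l hl s hs 1
  rw [h, one_mul, mul_one, mul_one] at h1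
  have h2 := congrArg π h1
  rw [hπ _ hs, hπ _ hs] at h2
  exact (xU_inj D hD s hs _ _ h2).symm

theorem Lp_cyc_comm (hcart : cartChk D = true) (M : List (List ℤ)) (p w : List ℤ) (i₀ : ℕ)
    (m : ℤ) (hcyc : cycChk D M p w i₀ m = true) (ζ : K) (hζ0 : ζ ≠ 0) (hζ : ζ ^ m = 1) (s : ℕ)
    (hs : s < D.nroots) (u : K) :
    Lp D X (fun i => ζ ^ p.getD i 0) (List.range D.rank) * X s u =
      X s u * Lp D X (fun i => ζ ^ p.getD i 0) (List.range D.rank) := by
  have hl : ∀ i ∈ List.range D.rank, i < D.rank := fun i hi => List.mem_range.mp hi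
  rw [Lp_mul_X hD hX π hπ _ (fun i => zpow_ne_zero _ hζ0) _ hl s hs u]
  unfold cycChk at hcyc
  simp only [Bool.and_eq_true] at hcyc
  have h4 := of_decide_eq_true (List.all_eq_true.mp hcyc.2 s (List.mem_range.mpr hs))
  have h5 : (List.range D.rank).map (fun i => p.getD i 0 * dotCA D (D.simple i) s) =
      (List.range D.rank).map (fun i => p.getD i 0 * D.cartan i s) := by
    apply List.map_congr_left
    intro i hi
    rw [dotCA_eq_cartan D hcart i s (hl i hi) hs]
  rw [list_prod_zpow ζ hζ0 (fun i => p.getD i 0) (fun i => dotCA D (D.simple i) s), h5]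
  obtain ⟨c, hc⟩ := Int.dvd_of_emod_eq_zero h4
  rw [hc, zpow_mul, hζ, one_zpow, one_mul]

variable (hR3 : ∀ i < D.rank, ∀ t u : K, t ≠ 0 → u ≠ 0 →
    hG D X (D.simple i) t * hG D X (D.simple i) u = hG D X (D.simple i) (t * u))

include hR3

/-- an element of `Ĥ` commuting with the root elements is a product `∏ h_i(ζ^{p_i})` -/
theorem H0_center_cyc (hcart : cartChk D = true) (M : List (List ℤ)) (p w : List ℤ) (i₀ : ℕ)
    (m : ℤ) (hcyc : cycChk D M p w i₀ m = true) (z : Γ) (hz : z ∈ H0 D X)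
    (hzc : ∀ s < D.nroots, z * X s 1 = X s 1 * z) :
    ∃ ζ : K, ζ ≠ 0 ∧ ζ ^ m = 1 ∧ z = Lp D X (fun i => ζ ^ p.getD i 0) (List.range D.rank) := by
  obtain ⟨t, ht, rfl⟩ := H0_eq_Lp hD hX π hπ hR3 z hz
  have hl : ∀ i ∈ List.range D.rank, i < D.rank := fun i hi => List.mem_range.mp hi
  have hχ : ∀ j < D.rank, ((List.range D.rank).map
      (fun i => t i ^ dotCA D (D.simple i) (D.simple j))).prod = 1 := by
    intro j hj
    have hs := simple_lt_nroots D hD j hj
    have h1 := Lp_mul_X hD hX π hπ t ht _ hl _ hs 1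
    rw [hzc _ hs, mul_one] at h1
    have h2 := congrArg π (mul_right_cancel h1)
    rw [hπ _ hs, hπ _ hs] at h2
    exact (xU_inj D hD _ hs _ _ h2).symm
  unfold cycChk at hcyc
  simp only [Bool.and_eq_true] at hcyc
  obtain ⟨⟨⟨c1, c2⟩, c3⟩, -⟩ := hcyc
  have hi₀ : i₀ < D.rank := of_decide_eq_true c1
  have conv : ∀ (k : ℕ) (hk : k < D.rank) (f : ℕ → ℤ),
      (List.range D.rank).map (fun j => dotCA D (D.simple k) (D.simple j) * f j) =
        (List.range D.rank).map (fun j => D.cartan k (D.simple j) * f j) := by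
    intro k hk f
    apply List.map_congr_left
    intro j hj
    rw [dotCA_eq_cartan D hcart k _ hk (simple_lt_nroots D hD j (hl j hj))]
  have hM : ∀ k < D.rank, ∀ i < D.rank, ((List.range D.rank).map
      (fun j => dotCA D (D.simple k) (D.simple j) * ll M j i)).sum =
      (if k = i then 1 else 0) - p.getD i 0 * (if k = i₀ then 1 else 0) := by
    intro k hk i hi
    rw [conv k hk]
    exact of_decide_eq_true (List.all_eq_true.mp
      (List.all_eq_true.mp c2 k (List.mem_range.mpr hk)) i (List.mem_range.mpr hi))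
  have hw : ∀ k < D.rank, ((List.range D.rank).map
      (fun j => dotCA D (D.simple k) (D.simple j) * w.getD j 0)).sum =
      m * (if k = i₀ then 1 else 0) := by
    intro k hk
    rw [conv k hk]
    exact of_decide_eq_true (List.all_eq_true.mp c3 k (List.mem_range.mpr hk))
  refine ⟨t i₀, ht i₀, zpow_eq_one_of_cert _ t ht hχ _ m i₀ hi₀ hw, ?_⟩
  apply Lp_congr
  intro i hi
  exact eq_zpow_of_cert _ t ht hχ (ll M) (fun i => p.getD i 0) i₀ hi₀ hM i (hl i hi)

end cent

end Cfsg.Agent.Lib.Helper18.StAbs
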