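import Mathlib
import Cfsg.Prelude.Def_SteinbergCover
import Cfsg.Prelude.Def_LieTypes
import Cfsg.Prelude.Def_ChevB2

/-!
# The Steinberg cover (relators (R1), (R2)) is perfect

In the abelianisation the images `φ_r(t)` of the generators are additive in `t`, and the relator
(R2) for a pair `(r, s)` says that the product of the `φ` of the terms of the commutator formula is
trivial.  If the formula for `(r, s)` has the single term `(γ, ±1, 1, 1)` then `φ_γ = 1`; if its
terms are `(γ₁, ±1, 1, 1), (γ₂, ±1, 2, 1)` and roots already dealt with, and the field has an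
element `c ≠ 0, 1`, then comparing the parameters `(t, u)` and `(c t, u / c)` gives `φ_γ₂ = 1` and
then `φ_γ₁ = 1`.
-/

set_option autoImplicit false

namespace Cfsg.Agent.Lib.Helper18.StCov

open Cfsg Cfsg.Lie Cfsg.Lie.ChevalleyDatum

/-- witnesses: for the root `γ` a pair `(r, s)` whose commutator formula is `x_γ(± t u)` -/
def witD4 : List (ℕ × ℕ) :=
  [(1, 9), (0, 14), (0, 15), (0, 16), (0, 17), (1, 17), (0, 19), (0, 20), (0, 21), (0, 22),
    (1, 20), (1, 21), (2, 22), (3, 22), (1, 23), (2, 23), (3, 23), (4, 23), (6, 22), (6, 23),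
    (7, 23), (8, 23), (9, 23), (14, 22)]

def witF4 : List (ℕ × ℕ) :=
  [(1, 23), (0, 24), (0, 26), (7, 14), (0, 31), (0, 32), (1, 32), (3, 33), (3, 34), (3, 35),
    (3, 36), (3, 37), (3, 38), (3, 39), (3, 40), (0, 42), (0, 43), (1, 43), (7, 37), (7, 38),
    (7, 39), (0, 45), (1, 45), (0, 46), (1, 47), (2, 46), (2, 47), (8, 40), (9, 40), (10, 40),
    (4, 46), (4, 47), (5, 47), (7, 44), (8, 44), (9, 44), (10, 44), (11, 44), (12, 44), (13, 44),
    (14, 44), (15, 46), (15, 47), (16, 47), (33, 40), (21, 47), (23, 47), (24, 46)]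

def witE6 : List (ℕ × ℕ) :=
  [(1, 25), (0, 46), (0, 47), (0, 48), (0, 49), (0, 50), (0, 51), (0, 52), (0, 53), (0, 54),
    (0, 55), (1, 53), (1, 54), (1, 55), (2, 55), (5, 55), (0, 61), (0, 62), (0, 63), (0, 64),
    (0, 65), (0, 66), (0, 67), (0, 68), (0, 69), (0, 70), (1, 64), (1, 65), (1, 66), (2, 66),
    (1, 67), (1, 68), (1, 69), (2, 67), (2, 68), (3, 67), (4, 68), (3, 69), (4, 69), (2, 70),
    (3, 70), (4, 70), (5, 69), (5, 70), (6, 70), (7, 70), (1, 71), (2, 71), (3, 71), (4, 71),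
    (5, 71), (6, 71), (7, 71), (8, 71), (9, 71), (10, 71), (16, 66), (16, 69), (16, 70), (17, 70),
    (18, 70), (16, 71), (17, 71), (18, 71), (19, 71), (20, 71), (21, 71), (22, 71), (23, 71),
    (24, 71), (25, 71), (46, 70)]

def witE7 : List (ℕ × ℕ) :=
  [(1, 32), (0, 93), (0, 94), (0, 95), (0, 96), (0, 97), (0, 98), (0, 99), (0, 100), (0, 101),
    (0, 102), (0, 103), (0, 104), (0, 105), (0, 106), (0, 107), (0, 108), (0, 109), (0, 110),
    (0, 111), (0, 112), (0, 113), (0, 114), (0, 115), (0, 116), (0, 117), (0, 118), (0, 119),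
    (0, 120), (0, 121), (0, 122), (0, 123), (0, 124), (1, 109), (1, 110), (1, 111), (1, 112),
    (1, 113), (1, 114), (1, 115), (1, 116), (1, 117), (1, 118), (2, 115), (2, 116), (2, 117),
    (2, 118), (3, 118), (1, 119), (1, 120), (1, 121), (1, 122), (1, 123), (2, 119), (2, 120),
    (2, 121), (2, 122), (3, 119), (3, 120), (3, 121), (4, 119), (4, 120), (5, 119), (6, 120),
    (5, 121), (6, 121), (4, 122), (5, 122), (6, 122), (3, 123), (4, 123), (5, 123), (6, 123),
    (2, 124), (3, 124), (4, 124), (5, 124), (6, 124), (7, 122), (7, 123), (8, 123), (9, 123),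
    (10, 123), (7, 124), (8, 124), (9, 124), (10, 124), (11, 124), (12, 124), (13, 124), (14, 124),
    (15, 124), (16, 124), (1, 125), (2, 125), (3, 125), (4, 125), (5, 125), (6, 125), (7, 125),
    (8, 125), (9, 125), (10, 125), (11, 125), (12, 125), (13, 125), (14, 125), (15, 125),
    (16, 125), (17, 125), (18, 125), (19, 125), (20, 125), (21, 125), (22, 125), (23, 125),
    (24, 125), (25, 125), (26, 125), (27, 125), (28, 125), (29, 125), (30, 125), (31, 125),
    (32, 125), (93, 124)]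

def witE8 : List (ℕ × ℕ) :=
  [(1, 119), (0, 120), (0, 122), (0, 125), (0, 129), (0, 134), (0, 140), (0, 146), (0, 151),
    (0, 155), (0, 158), (0, 160), (0, 161), (1, 161), (0, 168), (0, 173), (0, 177), (0, 180),
    (0, 182), (0, 183), (1, 183), (0, 187), (0, 190), (0, 192), (0, 193), (1, 193), (0, 196),
    (0, 198), (0, 199), (1, 199), (0, 201), (0, 202), (1, 202), (0, 203), (1, 203), (2, 203),
    (0, 206), (0, 208), (0, 209), (1, 209), (0, 211), (0, 212), (1, 212), (0, 213), (1, 213),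
    (2, 213), (0, 215), (0, 216), (1, 216), (0, 217), (1, 217), (2, 217), (0, 218), (1, 218),
    (2, 218), (3, 218), (0, 220), (0, 221), (1, 221), (0, 222), (1, 222), (2, 222), (0, 223),
    (1, 223), (2, 223), (3, 223), (0, 224), (1, 224), (2, 224), (3, 224), (4, 224), (0, 225),
    (1, 225), (2, 225), (3, 225), (4, 225), (5, 225), (6, 225), (0, 227), (0, 228), (1, 228),
    (0, 229), (1, 229), (2, 229), (0, 230), (1, 230), (2, 230), (3, 230), (0, 231), (1, 231),
    (2, 231), (3, 231), (4, 231), (0, 232), (1, 232), (2, 232), (3, 232), (4, 232), (5, 232),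
    (0, 233), (1, 233), (2, 233), (3, 233), (4, 233), (5, 233), (0, 234), (1, 234), (2, 234),
    (3, 234), (4, 234), (0, 235), (1, 235), (2, 235), (3, 235), (0, 236), (1, 236), (2, 236),
    (0, 237), (1, 237), (0, 238), (1, 239), (2, 238), (2, 239), (3, 237), (3, 238), (3, 239),
    (4, 236), (4, 237), (4, 238), (4, 239), (5, 235), (5, 236), (5, 237), (5, 238), (5, 239),
    (6, 234), (6, 235), (6, 236), (6, 237), (6, 238), (6, 239), (7, 234), (7, 235), (7, 236),
    (7, 237), (7, 238), (7, 239), (8, 235), (8, 236), (8, 237), (8, 238), (8, 239), (9, 236),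
    (9, 237), (9, 238), (9, 239), (10, 237), (10, 238), (10, 239), (11, 238), (11, 239), (12, 239),
    (14, 233), (14, 234), (14, 235), (14, 236), (14, 237), (14, 238), (14, 239), (15, 235),
    (15, 236), (15, 237), (15, 238), (15, 239), (16, 236), (16, 237), (16, 238), (16, 239),
    (17, 237), (17, 238), (17, 239), (18, 238), (18, 239), (19, 239), (21, 236), (21, 237),
    (21, 238), (21, 239), (22, 237), (22, 238), (22, 239), (23, 238), (23, 239), (24, 239),
    (26, 237), (26, 238), (26, 239), (27, 238), (27, 239), (28, 239), (30, 238), (30, 239),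
    (31, 239), (33, 239), (36, 237), (36, 238), (36, 239), (37, 238), (37, 239), (38, 239),
    (40, 238), (40, 239), (41, 239), (43, 239), (46, 238), (46, 239), (47, 239), (49, 239),
    (52, 239), (56, 238), (56, 239), (57, 239), (59, 239), (62, 239), (66, 239), (71, 239),
    (78, 238), (78, 239), (79, 239), (81, 239), (84, 239), (88, 239), (93, 239), (99, 239),
    (105, 239), (110, 239), (114, 239), (117, 239), (119, 239), (120, 238)]


section generic

variable (D : ChevalleyDatum) (K : Type*) [Field K]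

/-- the image of the generator `x̄_r(t)` in the abelianisation -/
noncomputable def phi (r : ℕ) (t : K) : Abelianization (D.SteinbergCover K) :=
  Abelianization.of (D.scGen K r t)

theorem phi_add {r : ℕ} (hr : r < D.nroots) (t₁ t₂ : K) :
    phi D K r (t₁ + t₂) = phi D K r t₁ * phi D K r t₂ := by
  have h : PresentedGroup.mk (D.steinbergRelsAB K)
      (D.stX r t₁ * D.stX r t₂ * (D.stX r (t₁ + t₂))⁻¹) = 1 :=
    PresentedGroup.one_of_mem (Or.inl ⟨r, t₁, t₂, hr, rfl⟩)
  rw [map_mul, map_mul, map_inv, mul_inv_eq_one] at h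
  unfold phi ChevalleyDatum.scGen
  rw [← h, map_mul]

theorem phi_zero {r : ℕ} (hr : r < D.nroots) : phi D K r 0 = 1 := by
  have h := phi_add D K hr 0 0
  rw [add_zero] at h
  exact mul_left_cancel (h.symm.trans (mul_one _).symm)

theorem phi_neg {r : ℕ} (hr : r < D.nroots) (t : K) : phi D K r (-t) = (phi D K r t)⁻¹ := by
  apply eq_inv_of_mul_eq_one_left
  rw [← phi_add D K hr, neg_add_cancel, phi_zero D K hr]

/-- the image of a word -/
noncomputable def wphi (l : List (ℕ × K)) : Abelianization (D.SteinbergCover K) :=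
  (l.map fun p => phi D K p.1 p.2).prod

theorem of_stWord (l : List (ℕ × K)) :
    Abelianization.of (PresentedGroup.mk (D.steinbergRelsAB K) (D.stWord l)) = wphi D K l := by
  unfold ChevalleyDatum.stWord wphi
  rw [map_list_prod, map_list_prod, List.map_map, List.map_map]
  rfl

theorem comm_aux {G : Type*} [CommGroup G] (a b w : G) (h : a⁻¹ * b⁻¹ * a * b * w⁻¹ = 1) :
    w = 1 := by
  rw [mul_inv_eq_one] at h
  rw [← h, mul_right_comm a⁻¹ b⁻¹ a, inv_mul_cancel, one_mul, inv_mul_cancel]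

theorem wphi_comm {r s : ℕ} (hr : r < D.nroots) (hs : s < D.nroots) (hsr : s ≠ r)
    (hsn : s ≠ D.neg r) (t u : K) : wphi D K (D.commWord K r s t u) = 1 := by
  have h : PresentedGroup.mk (D.steinbergRelsAB K) ((D.stX s u)⁻¹ * (D.stX r t)⁻¹ * D.stX s u *
      D.stX r t * (D.stWord (D.commWord K r s t u))⁻¹) = 1 :=
    PresentedGroup.one_of_mem (Or.inr ⟨r, s, t, u, hr, hs, hsr, hsn, rfl⟩)
  have h2 := congrArg (Abelianization.of (G := D.SteinbergCover K)) h
  simp only [map_mul, map_inv, map_one] at h2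
  rw [of_stWord] at h2
  exact comm_aux _ _ _ h2

/-- a commutator formula with the single term `x_γ(± t u)` -/
theorem phi_single {γ r s : ℕ} {C : ℤ} (hr : r < D.nroots) (hs : s < D.nroots) (hsr : s ≠ r)
    (hsn : s ≠ D.neg r) (hc : D.commTerms r s = [(γ, C, 1, 1)]) (hC : C = 1 ∨ C = -1) (v : K) :
    phi D K γ v = 1 := by
  have h := wphi_comm D K hr hs hsr hsn (-(C : K)) v
  unfold ChevalleyDatum.commWord wphi at h
  rw [hc] at h
  simp only [List.map_cons, List.map_nil, List.prod_cons, List.prod_nil, mul_one, pow_one,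
    neg_neg] at h
  have e : (C : K) * (C : K) * v = v := by rcases hC with rfl | rfl <;> simp
  rwa [e] at h

/-- a commutator formula with the terms `x_γ₁(± t u) x_γ₂(± t² u)` and trivial further terms -/
theorem phi_double {γ₁ γ₂ r s : ℕ} {C₁ C₂ : ℤ} {rest : List (ℕ × ℤ × ℕ × ℕ)}
    (hγ₂ : γ₂ < D.nroots) (hr : r < D.nroots) (hs : s < D.nroots)
    (hsr : s ≠ r) (hsn : s ≠ D.neg r)
    (hc : D.commTerms r s = (γ₁, C₁, 1, 1) :: (γ₂, C₂, 2, 1) :: rest)
    (hC₁ : C₁ = 1 ∨ C₁ = -1) (hC₂ : C₂ = 1 ∨ C₂ = -1)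
    (hrest : ∀ c ∈ rest, ∀ v : K, phi D K c.1 v = 1) (hK : ∃ x : K, x ≠ 0 ∧ x ≠ 1) :
    (∀ v : K, phi D K γ₂ v = 1) ∧ (∀ v : K, phi D K γ₁ v = 1) := by
  have E : ∀ t u : K,
      phi D K γ₁ ((C₁ : K) * (-t) * u) * phi D K γ₂ ((C₂ : K) * t ^ 2 * u) = 1 := by
    intro t u
    have h := wphi_comm D K hr hs hsr hsn t u
    unfold ChevalleyDatum.commWord wphi at h
    rw [hc] at h
    simp only [List.map_cons, List.prod_cons, pow_one, neg_sq] at h
    have hrest' : (List.map (fun p : ℕ × K => phi D K p.1 p.2)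
        (List.map (fun c : ℕ × ℤ × ℕ × ℕ => (c.1, (c.2.1 : K) * (-t) ^ c.2.2.1 * u ^ c.2.2.2))
          rest)).prod = 1 := by
      apply List.prod_eq_one
      intro x hx
      rw [List.map_map, List.mem_map] at hx
      obtain ⟨c, hc, rfl⟩ := hx
      exact hrest c hc _
    rw [hrest', mul_one] at h
    exact h
  obtain ⟨c, hc0, hc1⟩ := hK
  have hCC₁ : (C₁ : K) * (C₁ : K) = 1 := by rcases hC₁ with rfl | rfl <;> simp
  have hCC₂ : (C₂ : K) * (C₂ : K) = 1 := by rcases hC₂ with rfl | rfl <;> simp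
  have h1c : (1 : K) - c ≠ 0 := sub_ne_zero.2 (Ne.symm hc1)
  have h2 : ∀ v : K, phi D K γ₂ v = 1 := by
    intro v
    have e1 := E 1 ((C₂ : K) * v / (1 - c))
    have e2 := E c ((C₂ : K) * v / (1 - c) / c)
    have ea : (C₁ : K) * (-c) * ((C₂ : K) * v / (1 - c) / c) =
        (C₁ : K) * (-1) * ((C₂ : K) * v / (1 - c)) := by
      field_simp
    rw [ea] at e2
    have e3 := mul_left_cancel (e1.trans e2.symm)
    have e4 : phi D K γ₂ ((C₂ : K) * 1 ^ 2 * ((C₂ : K) * v / (1 - c)) -
        (C₂ : K) * c ^ 2 * ((C₂ : K) * v / (1 - c) / c)) = 1 := by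
      rw [sub_eq_add_neg, phi_add D K hγ₂, phi_neg D K hγ₂, e3, mul_inv_cancel]
    have e5 : (C₂ : K) * 1 ^ 2 * ((C₂ : K) * v / (1 - c)) -
        (C₂ : K) * c ^ 2 * ((C₂ : K) * v / (1 - c) / c) = v := by
      have : (C₂ : K) * 1 ^ 2 * ((C₂ : K) * v / (1 - c)) -
          (C₂ : K) * c ^ 2 * ((C₂ : K) * v / (1 - c) / c) =
          ((C₂ : K) * (C₂ : K)) * v * ((1 - c) / (1 - c)) * (c / c) +
            ((C₂ : K) * (C₂ : K)) * v * c / (1 - c) * (1 - c / c) := by
        field_simp
        ring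
      rw [this, hCC₂, div_self h1c, div_self hc0]
      ring
    rwa [e5] at e4
  refine ⟨h2, fun v => ?_⟩
  have e := E 1 (-(C₁ : K) * v)
  rw [h2, mul_one] at e
  have e' : (C₁ : K) * (-1) * (-(C₁ : K) * v) = v := by
    linear_combination v * hCC₁
  rwa [e'] at e

theorem perfect_of_phi (h : ∀ γ < D.nroots, ∀ v : K, phi D K γ v = 1) :
    commutator (D.SteinbergCover K) = ⊤ := by
  rw [eq_top_iff, ← PresentedGroup.closure_range_of, Subgroup.closure_le]
  rintro _ ⟨⟨γ, v⟩, rfl⟩
  have h1 := h γ.val γ.isLt v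
  unfold phi ChevalleyDatum.scGen ChevalleyDatum.stX at h1
  rw [dif_pos γ.isLt] at h1
  have h2 : (PresentedGroup.of (γ, v) : D.SteinbergCover K) ∈
      (Abelianization.of (G := D.SteinbergCover K)).ker := h1
  rwa [Abelianization.ker_of] at h2

/-- the check of a table of witnesses at the root `γ` -/
def chk1 (wit : List (ℕ × ℕ)) (γ : ℕ) : Bool :=
  decide ((wit.getD γ (0, 0)).1 < D.nroots) && decide ((wit.getD γ (0, 0)).2 < D.nroots) &&
    decide ((wit.getD γ (0, 0)).2 ≠ (wit.getD γ (0, 0)).1) &&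
    decide ((wit.getD γ (0, 0)).2 ≠ D.neg (wit.getD γ (0, 0)).1) &&
    (decide (D.commTerms (wit.getD γ (0, 0)).1 (wit.getD γ (0, 0)).2 = [(γ, 1, 1, 1)]) ||
      decide (D.commTerms (wit.getD γ (0, 0)).1 (wit.getD γ (0, 0)).2 = [(γ, -1, 1, 1)]))

/-- the check of a table of witnesses -/
def chkAll (wit : List (ℕ × ℕ)) : Bool := (List.range D.nroots).all (chk1 D wit)

theorem perfect_of_wit (wit : List (ℕ × ℕ)) (h : chkAll D wit = true) :
    commutator (D.SteinbergCover K) = ⊤ :=
  perfect_of_phi D K fun γ hγ v => by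
    unfold chkAll at h
    rw [List.all_eq_true] at h
    have hγ' := h γ (List.mem_range.2 hγ)
    unfold chk1 at hγ'
    simp only [Bool.and_eq_true, Bool.or_eq_true, decide_eq_true_eq] at hγ'
    obtain ⟨⟨⟨⟨h1, h2⟩, h3⟩, h4⟩, h5⟩ := hγ'
    rcases h5 with h5 | h5
    · exact phi_single D K h1 h2 h3 h4 h5 (Or.inl rfl) v
    · exact phi_single D K h1 h2 h3 h4 h5 (Or.inr rfl) v

end generic

set_option maxRecDepth 100000 in
theorem chk_D4 : chkAll chevD4 witD4 = true := by decide +kernel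

set_option maxRecDepth 100000 in
theorem chk_F4 : chkAll chevF4 witF4 = true := by decide +kernel

set_option maxRecDepth 100000 in
theorem chk_E6 : chkAll chevE6 witE6 = true := by decide +kernel

set_option maxRecDepth 100000 in
theorem chk_E7 : chkAll chevE7 witE7 = true := by decide +kernel

set_option maxRecDepth 100000 in
theorem chk_E8 : chkAll chevE8 witE8 = true := by decide +kernel

theorem chk_B2 : chevB2.nroots = 8 ∧ chevB2.neg 1 = 6 ∧ chevB2.neg 2 = 5 ∧ chevB2.neg 5 = 2 ∧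
    chevB2.commTerms 1 4 = [(2, 1, 1, 1), (0, 1, 2, 1)] ∧
    chevB2.commTerms 1 7 = [(5, -1, 1, 1), (3, 1, 2, 1)] ∧
    chevB2.commTerms 2 3 = [(1, 1, 1, 1), (0, -1, 2, 1)] ∧
    chevB2.commTerms 2 7 = [(6, 1, 1, 1), (4, -1, 2, 1)] ∧
    chevB2.commTerms 5 4 = [(6, -1, 1, 1), (7, -1, 2, 1)] := by decide +kernel

theorem chk_G2 : chevG2.nroots = 12 ∧ (∀ r < 12, chevG2.neg r = 11 - r) ∧
    chevG2.commTerms 1 5 = [(0, 1, 1, 1)] ∧ chevG2.commTerms 0 6 = [(1, 1, 1, 1)] ∧
    chevG2.commTerms 0 10 = [(5, -1, 1, 1)] ∧ chevG2.commTerms 1 11 = [(6, -1, 1, 1)] ∧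
    chevG2.commTerms 5 11 = [(10, 1, 1, 1)] ∧ chevG2.commTerms 6 10 = [(11, 1, 1, 1)] ∧
    chevG2.commTerms 2 10 = [(7, -1, 1, 1), (3, 1, 2, 1), (0, 1, 3, 1), (5, 1, 3, 2)] ∧
    chevG2.commTerms 2 11 = [(8, -1, 1, 1), (4, -1, 2, 1), (1, -1, 3, 1), (6, -1, 3, 2)] ∧
    chevG2.commTerms 3 6 = [(4, 1, 1, 1), (2, -1, 2, 1), (0, 1, 3, 1), (1, -1, 3, 2)] ∧
    chevG2.commTerms 3 11 = [(9, 1, 1, 1), (7, 1, 2, 1), (5, -1, 3, 1), (10, 1, 3, 2)] :=
  ⟨by decide, by decide, by decide +kernel, by decide +kernel, by decide +kernel,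
    by decide +kernel, by decide +kernel, by decide +kernel, by decide +kernel, by decide +kernel,
    by decide +kernel, by decide +kernel⟩

theorem perfect_B2 {K : Type*} [Field K] (hK : ∃ x : K, x ≠ 0 ∧ x ≠ 1) :
    commutator (chevB2.SteinbergCover K) = ⊤ := by
  obtain ⟨hn, n1, n2, n5, c14, c17, c23, c27, c54⟩ := chk_B2
  have hnil : ∀ c ∈ ([] : List (ℕ × ℤ × ℕ × ℕ)), ∀ v : K, phi chevB2 K c.1 v = 1 := by simp
  have a1 := phi_double chevB2 K (by rw [hn]; norm_num) (by rw [hn]; norm_num) (by rw [hn]; norm_num)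
    (by norm_num) (by rw [n1]; norm_num) c14 (Or.inl rfl) (Or.inl rfl) hnil hK
  have a2 := phi_double chevB2 K (by rw [hn]; norm_num) (by rw [hn]; norm_num) (by rw [hn]; norm_num)
    (by norm_num) (by rw [n1]; norm_num) c17 (Or.inr rfl) (Or.inl rfl) hnil hK
  have a3 := phi_double chevB2 K (by rw [hn]; norm_num) (by rw [hn]; norm_num) (by rw [hn]; norm_num)
    (by norm_num) (by rw [n2]; norm_num) c23 (Or.inl rfl) (Or.inr rfl) hnil hK
  have a4 := phi_double chevB2 K (by rw [hn]; norm_num) (by rw [hn]; norm_num) (by rw [hn]; norm_num)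
    (by norm_num) (by rw [n2]; norm_num) c27 (Or.inl rfl) (Or.inr rfl) hnil hK
  have a5 := phi_double chevB2 K (by rw [hn]; norm_num) (by rw [hn]; norm_num) (by rw [hn]; norm_num)
    (by norm_num) (by rw [n5]; norm_num) c54 (Or.inr rfl) (Or.inr rfl) hnil hK
  apply perfect_of_phi
  intro γ hγ v
  rw [hn] at hγ
  interval_cases γ
  · exact a1.1 v
  · exact a3.2 v
  · exact a1.2 v
  · exact a2.1 v
  · exact a4.1 v
  · exact a2.2 v
  · exact a4.2 v
  · exact a5.1 v

theorem perfect_G2 {K : Type*} [Field K] (hK : ∃ x : K, x ≠ 0 ∧ x ≠ 1) :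
    commutator (chevG2.SteinbergCover K) = ⊤ := by
  obtain ⟨hn, hneg, c0, c1, c5, c6, c10, c11, d210, d211, d36, d311⟩ := chk_G2
  have l0 : ∀ v : K, phi chevG2 K 0 v = 1 := phi_single chevG2 K (by rw [hn]; norm_num)
    (by rw [hn]; norm_num) (by norm_num) (by rw [hneg 1 (by norm_num)]; norm_num) c0 (Or.inl rfl)
  have l1 : ∀ v : K, phi chevG2 K 1 v = 1 := phi_single chevG2 K (by rw [hn]; norm_num)
    (by rw [hn]; norm_num) (by norm_num) (by rw [hneg 0 (by norm_num)]; norm_num) c1 (Or.inl rfl)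
  have l5 : ∀ v : K, phi chevG2 K 5 v = 1 := phi_single chevG2 K (by rw [hn]; norm_num)
    (by rw [hn]; norm_num) (by norm_num) (by rw [hneg 0 (by norm_num)]; norm_num) c5 (Or.inr rfl)
  have l6 : ∀ v : K, phi chevG2 K 6 v = 1 := phi_single chevG2 K (by rw [hn]; norm_num)
    (by rw [hn]; norm_num) (by norm_num) (by rw [hneg 1 (by norm_num)]; norm_num) c6 (Or.inr rfl)
  have l10 : ∀ v : K, phi chevG2 K 10 v = 1 := phi_single chevG2 K (by rw [hn]; norm_num)
    (by rw [hn]; norm_num) (by norm_num) (by rw [hneg 5 (by norm_num)]; norm_num) c10 (Or.inl rfl)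
  have l11 : ∀ v : K, phi chevG2 K 11 v = 1 := phi_single chevG2 K (by rw [hn]; norm_num)
    (by rw [hn]; norm_num) (by norm_num) (by rw [hneg 6 (by norm_num)]; norm_num) c11 (Or.inl rfl)
  have a1 := phi_double chevG2 K (rest := [(0, 1, 3, 1), (5, 1, 3, 2)]) (by rw [hn]; norm_num)
    (by rw [hn]; norm_num) (by rw [hn]; norm_num) (by norm_num)
    (by rw [hneg 2 (by norm_num)]; norm_num) d210 (Or.inr rfl) (Or.inl rfl)
    (by
      intro c hc v
      simp only [List.mem_cons, List.mem_nil_iff, or_false] at hc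
      rcases hc with rfl | rfl
      · exact l0 v
      · exact l5 v) hK
  have a2 := phi_double chevG2 K (rest := [(1, -1, 3, 1), (6, -1, 3, 2)]) (by rw [hn]; norm_num)
    (by rw [hn]; norm_num) (by rw [hn]; norm_num) (by norm_num)
    (by rw [hneg 2 (by norm_num)]; norm_num) d211 (Or.inr rfl) (Or.inr rfl)
    (by
      intro c hc v
      simp only [List.mem_cons, List.mem_nil_iff, or_false] at hc
      rcases hc with rfl | rfl
      · exact l1 v
      · exact l6 v) hK
  have a3 := phi_double chevG2 K (rest := [(0, 1, 3, 1), (1, -1, 3, 2)]) (by rw [hn]; norm_num)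
    (by rw [hn]; norm_num) (by rw [hn]; norm_num) (by norm_num)
    (by rw [hneg 3 (by norm_num)]; norm_num) d36 (Or.inl rfl) (Or.inr rfl)
    (by
      intro c hc v
      simp only [List.mem_cons, List.mem_nil_iff, or_false] at hc
      rcases hc with rfl | rfl
      · exact l0 v
      · exact l1 v) hK
  have a4 := phi_double chevG2 K (rest := [(5, -1, 3, 1), (10, 1, 3, 2)]) (by rw [hn]; norm_num)
    (by rw [hn]; norm_num) (by rw [hn]; norm_num) (by norm_num)
    (by rw [hneg 3 (by norm_num)]; norm_num) d311 (Or.inl rfl) (Or.inl rfl)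
    (by
      intro c hc v
      simp only [List.mem_cons, List.mem_nil_iff, or_false] at hc
      rcases hc with rfl | rfl
      · exact l5 v
      · exact l10 v) hK
  apply perfect_of_phi
  intro γ hγ v
  rw [hn] at hγ
  interval_cases γ
  · exact l0 v
  · exact l1 v
  · exact a3.1 v
  · exact a1.1 v
  · exact a2.1 v
  · exact l5 v
  · exact l6 v
  · exact a1.2 v
  · exact a2.2 v
  · exact a4.2 v
  · exact l10 v
  · exact l11 v

/-- the group presented by (R1), (R2) is perfect -/
theorem cover_perfect {K : Type*} [Field K] (D : ChevalleyDatum)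
    (hD : D ∈ [chevG2, chevB2, chevD4, chevF4, chevE6, chevE7, chevE8])
    (hK : D ∈ [chevB2, chevG2] → ∃ x : K, x ≠ 0 ∧ x ≠ 1) :
    commutator (D.SteinbergCover K) = ⊤ := by
  simp only [List.mem_cons, List.mem_nil_iff, or_false] at hD
  rcases hD with rfl | rfl | rfl | rfl | rfl | rfl | rfl
  · exact perfect_G2 (hK (by simp))
  · exact perfect_B2 (hK (by simp))
  · exact perfect_of_wit chevD4 K witD4 chk_D4
  · exact perfect_of_wit chevF4 K witF4 chk_F4
  · exact perfect_of_wit chevE6 K witE6 chk_E6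
  · exact perfect_of_wit chevE7 K witE7 chk_E7
  · exact perfect_of_wit chevE8 K witE8 chk_E8

end Cfsg.Agent.Lib.Helper18.StCov
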