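import Cfsg.Agent.Lib.Helper18.StLiftChk
import Cfsg.Agent.Lib.Helper18.StCov

/-!
# Central extensions of the group presented by (R1), (R2) split

Over a field with more than four elements, and for a root system passing the checks of
`StLiftChk`, every central extension of the group `Δ` presented by Steinberg's relators (R1), (R2)
splits, and homomorphisms from `Δ` lift uniquely through central extensions (Steinberg).
-/

set_option autoImplicit false

namespace Cfsg.Agent.Lib.Helper18.StAbs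

open Cfsg Cfsg.Lie Cfsg.Lie.ChevalleyDatum Cfsg.Agent.Lib.Helper17

section univ

variable {K : Type*} [Field K] {D : ChevalleyDatum}

theorem liftY_stX {E : Type*} [Group E] (Y : ℕ → K → E)
    (hge : ∀ γ, D.nroots ≤ γ → ∀ t, Y γ t = 1) (r : ℕ) (t : K) :
    FreeGroup.lift (fun p : Fin D.nroots × K => Y p.1.val p.2) (D.stX r t) = Y r t := by
  unfold ChevalleyDatum.stX
  by_cases hr : r < D.nroots
  · rw [dif_pos hr, FreeGroup.lift_apply_of]
  · rw [dif_neg hr, map_one, hge r (not_lt.mp hr)]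

theorem liftY_stWord {E : Type*} [Group E] (Y : ℕ → K → E)
    (hge : ∀ γ, D.nroots ≤ γ → ∀ t, Y γ t = 1) (w : List (ℕ × K)) :
    FreeGroup.lift (fun p : Fin D.nroots × K => Y p.1.val p.2) (D.stWord w) = wd Y w := by
  unfold ChevalleyDatum.stWord wd
  rw [map_list_prod, List.map_map]
  congr 1
  apply List.map_congr_left
  intro p _
  exact liftY_stX Y hge p.1 p.2

/-- elements satisfying (R1), (R2) kill the relators -/
theorem relsAB_liftY {E : Type*} [Group E] (Y : ℕ → K → E) (hY : Rel D Y)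
    (hge : ∀ γ, D.nroots ≤ γ → ∀ t, Y γ t = 1) (g : FreeGroup (Fin D.nroots × K))
    (hg : g ∈ D.steinbergRelsAB K) :
    FreeGroup.lift (fun p : Fin D.nroots × K => Y p.1.val p.2) g = 1 := by
  rcases hg with ⟨r, t₁, t₂, hr, rfl⟩ | ⟨r, s, t, u, hr, hs, hsr, hsn, rfl⟩
  · rw [map_mul, map_mul, map_inv, liftY_stX Y hge, liftY_stX Y hge, liftY_stX Y hge, hY.add,
      mul_inv_cancel]
  · rw [map_mul, map_mul, map_mul, map_mul, map_inv, map_inv, map_inv, liftY_stX Y hge,
      liftY_stX Y hge, liftY_stWord Y hge]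
    have h1 := hY.comm r s hr hs hsr hsn t u
    have e : (Y s u)⁻¹ * (Y r t)⁻¹ * Y s u * Y r t * (wd Y (D.commWord K r s t u))⁻¹ =
        (Y s u)⁻¹ * (Y r t)⁻¹ * (Y s u * Y r t) * (wd Y (D.commWord K r s t u))⁻¹ := by group
    rw [e, h1]
    group

variable (hD : D ∈ [chevG2, chevB2, chevD4, chevF4, chevE6, chevE7, chevE8])

include hD in
/-- every central extension of `Δ` splits -/
theorem cover_section (hK5 : ∃ s : Finset K, 4 < s.card) (ws : List (List ℕ))
    (cert : ℕ → ℕ → ℕ × ℕ × ℤ × ℤ) (hchk : allPairB D ws cert = true)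
    (cands : List (ℕ × ℕ × ℤ × ℤ)) (hbz : bzB D cands = true)
    {E : Type*} [Group E] (ψ : E →* D.SteinbergCover K) (hs : Function.Surjective ψ)
    (hc : ψ.ker ≤ Subgroup.center E) :
    ∃ φ : D.SteinbergCover K →* E, ψ.comp φ = MonoidHom.id _ := by
  classical
  obtain ⟨c₀, hc₀, hc₁⟩ := field_f1 hK5
  obtain ⟨c₂, hc20, hc21, hc22⟩ := field_f2 hK5
  have hX : Rel D (XP D (D.steinbergRelsAB K)) := pres_rel D _ (fun g hg => hg)
  let θ : D.SteinbergCover K →* ↥(D.group K) :=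
    PresentedGroup.toGroup (relsAB_lift (K := K) D hD)
  let π : D.SteinbergCover K →* GL D.Idx K := (D.group K).subtype.comp θ
  have hπ : ∀ r < D.nroots, ∀ t, π (XP D (D.steinbergRelsAB K) r t) = xU D hD r t :=
    fun r _ t => lift_stX (K := K) D hD r t
  have hgen := pres_gen D (D.steinbergRelsAB K)
  have hperf : commutator (D.SteinbergCover K) = ⊤ :=
    StCov.cover_perfect D hD (fun _ => ⟨c₀, hc₀, hc₁⟩)
  have hfull := full_of_bz hD hX π hπ cands hbz
  let H : ℕ → D.SteinbergCover K := fun γ =>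
    if hγ : γ < D.nroots then Classical.choose (hfull γ hγ c₀ hc₀) else 1
  have hH : ∀ γ < D.nroots, ∃ χ, Dg D (XP D (D.steinbergRelsAB K)) (H γ) χ ∧ χ γ = c₀ := by
    intro γ hγ
    simp only [H, dif_pos hγ]
    exact Classical.choose_spec (hfull γ hγ c₀ hc₀)
  have hC : ∀ γ < D.nroots, ∀ t u : K, CExt.cc ψ hs (XP D (D.steinbergRelsAB K) γ t)
      (XP D (D.steinbergRelsAB K) γ u) = 1 := by
    intro γ hγ t u
    obtain ⟨h₁, χ₁, H₁, e₁⟩ := hfull γ hγ c₂ hc20
    obtain ⟨h₂, χ₂, H₂, e₂⟩ := hfull γ hγ (1 + c₂) hc21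
    exact cc_XX_of_rich hX ψ hs hc γ hγ c₂ hc20 hc22 h₁ χ₁ H₁ e₁ h₂ χ₂ H₂ e₂ t u
  have hall := pairOK_of_chk hD hX π hπ hK5 ws cert hchk
  have hY := xt_rel hD hX π hπ hgen hperf ψ hs hc H (fun _ => c₀) hH (fun _ _ => hc₁) hall hC
  have hge : ∀ γ, D.nroots ≤ γ → ∀ t : K,
      xt D (XP D (D.steinbergRelsAB K)) ψ hs H (fun _ => c₀) γ t = 1 :=
    fun γ hγ t => xt_ge ψ hs H (fun _ => c₀) γ hγ t
  refine ⟨PresentedGroup.toGroup (relsAB_liftY _ hY hge), ?_⟩
  apply PresentedGroup.ext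
  intro p
  rw [MonoidHom.comp_apply, PresentedGroup.toGroup.of, MonoidHom.id_apply,
    psi_xt hX ψ hs H (fun _ => c₀) hH (fun _ _ => hc₁) p.1.val p.1.isLt p.2]
  unfold XP ChevalleyDatum.stX
  rw [dif_pos p.1.isLt]
  rfl

include hD in
/-- homomorphisms from `Δ` lift uniquely through central extensions -/
theorem cover_univ (hK5 : ∃ s : Finset K, 4 < s.card) (ws : List (List ℕ))
    (cert : ℕ → ℕ → ℕ × ℕ × ℤ × ℤ) (hchk : allPairB D ws cert = true)
    (cands : List (ℕ × ℕ × ℤ × ℤ)) (hbz : bzB D cands = true)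
    {G₁ E : Type*} [Group G₁] [Group E] (π₁ : E →* G₁) (hπ₁ : Function.Surjective π₁)
    (hc : π₁.ker ≤ Subgroup.center E) (σ : D.SteinbergCover K →* G₁) :
    ∃! τ : D.SteinbergCover K →* E, π₁.comp τ = σ := by
  obtain ⟨c₀, hc₀, hc₁⟩ := field_f1 hK5
  have hperf : commutator (D.SteinbergCover K) = ⊤ :=
    StCov.cover_perfect D hD (fun _ => ⟨c₀, hc₀, hc₁⟩)
  obtain ⟨τ, hτ⟩ := CExt.lift_of_section
    (fun P ψ hs hc' => cover_section hD hK5 ws cert hchk cands hbz ψ hs hc') π₁ hπ₁ hc σ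
  exact ⟨τ, hτ, fun τ' hτ' => CExt.lift_unique hperf π₁ hc τ' τ (by rw [hτ', hτ])⟩

end univ

/-! ### Type G₂ -/

/-- the elements of the Weyl group of type G₂ as words -/
def wsG2 : List (List ℕ) := [[], [0], [1], [0, 1], [1, 0], [0, 1, 0], [1, 0, 1], [0, 1, 0, 1],
  [1, 0, 1, 0], [0, 1, 0, 1, 0], [1, 0, 1, 0, 1], [0, 1, 0, 1, 0, 1]]

/-- the diagonal element for a pair of roots in type G₂ -/
def certG2 : ℕ → ℕ → ℕ × ℕ × ℤ × ℤ := fun r _ =>
  (0, 1, dotCA chevG2 (chevG2.simple 1) r, - dotCA chevG2 (chevG2.simple 0) r)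

/-- candidates for diagonal elements acting on a root by a given scalar, in type G₂ -/
def candsG2 : List (ℕ × ℕ × ℤ × ℤ) :=
  [(0, 1, 1, 0), (0, 1, -1, 0), (0, 1, 0, 1), (0, 1, 0, -1), (0, 1, 1, 1), (0, 1, -1, -1)]

theorem chk_pair_G2 : allPairB chevG2 wsG2 certG2 = true := by decide +kernel

theorem chk_bz_G2 : bzB chevG2 candsG2 = true := by decide +kernel

/-- Steinberg: over a field with more than four elements, homomorphisms from the group presented
by (R1), (R2) of type G₂ lift uniquely through central extensions -/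
theorem univ_G2 {K : Type*} [Field K] (hK5 : ∃ s : Finset K, 4 < s.card)
    {G₁ E : Type*} [Group G₁] [Group E] (π₁ : E →* G₁) (hπ₁ : Function.Surjective π₁)
    (hc : π₁.ker ≤ Subgroup.center E) (σ : chevG2.SteinbergCover K →* G₁) :
    ∃! τ : chevG2.SteinbergCover K →* E, π₁.comp τ = σ :=
  cover_univ (by simp) hK5 wsG2 certG2 chk_pair_G2 candsG2 chk_bz_G2 π₁ hπ₁ hc σ

end Cfsg.Agent.Lib.Helper18.StAbs
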