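import Cfsg.Agent.Lib.Helper18.StLiftRoot
import Cfsg.Agent.Lib.Helper18.StUniv

/-!
# Central extensions of the group presented by (R1), (R2) split, second version

The same as `cover_section` and `cover_univ`, from the certificates `PairCert` and `RootCert`.
-/

set_option autoImplicit false

namespace Cfsg.Agent.Lib.Helper18.StAbs

open Cfsg Cfsg.Lie Cfsg.Lie.ChevalleyDatum Cfsg.Agent.Lib.Helper17

section univ

variable {K : Type*} [Field K] {D : ChevalleyDatum}
  (hD : D ∈ [chevG2, chevB2, chevD4, chevF4, chevE6, chevE7, chevE8])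

include hD in
/-- every central extension of `Δ` splits -/
theorem cover_section2 (hK5 : ∃ s : Finset K, 4 < s.card)
    (hpair : ∀ r s, r < D.nroots → s < D.nroots → s ≠ r → s ≠ D.neg r → PairCert D r s)
    (hroot : ∀ γ < D.nroots, RootCert D γ)
    {E : Type*} [Group E] (ψ : E →* D.SteinbergCover K) (hs : Function.Surjective ψ)
    (hc : ψ.ker ≤ Subgroup.center E) :
    ∃ φ : D.SteinbergCover K →* E, ψ.comp φ = MonoidHom.id _ := by
  classical
  obtain ⟨c₀, hc₀, hc₁⟩ := field_f1 hK5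
  have hX : Rel D (XP D (D.steinbergRelsAB K)) := pres_rel D _ (fun g hg => hg)
  let θ : D.SteinbergCover K →* ↥(D.group K) :=
    PresentedGroup.toGroup (relsAB_lift (K := K) D hD)
  let π : D.SteinbergCover K →* GL D.Idx K := (D.group K).subtype.comp θ
  have hπ : ∀ r < D.nroots, ∀ t, π (XP D (D.steinbergRelsAB K) r t) = xU D hD r t :=
    fun r _ t => lift_stX (K := K) D hD r t
  have hgen := pres_gen D (D.steinbergRelsAB K)
  have hperf : commutator (D.SteinbergCover K) = ⊤ :=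
    StCov.cover_perfect D hD (fun _ => ⟨c₀, hc₀, hc₁⟩)
  have hex : ∀ γ < D.nroots, ∃ (h : D.SteinbergCover K) (χ : ℕ → K),
      Dg D (XP D (D.steinbergRelsAB K)) h χ ∧ χ γ ≠ 1 :=
    fun γ hγ => rootCert_nz hD hX π hπ hK5 γ (hroot γ hγ)
  let H : ℕ → D.SteinbergCover K := fun γ =>
    if hγ : γ < D.nroots then Classical.choose (hex γ hγ) else 1
  let c : ℕ → K := fun γ =>
    if hγ : γ < D.nroots then Classical.choose (Classical.choose_spec (hex γ hγ)) γ else 0
  have hH : ∀ γ < D.nroots, ∃ χ, Dg D (XP D (D.steinbergRelsAB K)) (H γ) χ ∧ χ γ = c γ := by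
    intro γ hγ
    simp only [H, c, dif_pos hγ]
    exact ⟨_, (Classical.choose_spec (Classical.choose_spec (hex γ hγ))).1, rfl⟩
  have hc1 : ∀ γ < D.nroots, c γ ≠ 1 := by
    intro γ hγ
    simp only [c, dif_pos hγ]
    exact (Classical.choose_spec (Classical.choose_spec (hex γ hγ))).2
  have hC : ∀ γ < D.nroots, ∀ t u : K, CExt.cc ψ hs (XP D (D.steinbergRelsAB K) γ t)
      (XP D (D.steinbergRelsAB K) γ u) = 1 :=
    fun γ hγ t u => rootCert_cc hD hX π hπ ψ hs hc hK5 γ hγ (hroot γ hγ) t u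
  have hall : ∀ r s, r < D.nroots → s < D.nroots → s ≠ r → s ≠ D.neg r →
      PairOK2 (K := K) hD (XP D (D.steinbergRelsAB K)) r s :=
    fun r s hr hsl hsr hsn => (hpair r s hr hsl hsr hsn).ok hD hX π hπ hK5 hr hsl hsr hsn
  have hY := xt_rel2 hD hX π hπ hgen hperf ψ hs hc H c hH hc1 hall hC
  have hge : ∀ γ, D.nroots ≤ γ → ∀ t : K,
      xt D (XP D (D.steinbergRelsAB K)) ψ hs H c γ t = 1 :=
    fun γ hγ t => xt_ge ψ hs H c γ hγ t
  refine ⟨PresentedGroup.toGroup (relsAB_liftY _ hY hge), ?_⟩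
  apply PresentedGroup.ext
  intro p
  rw [MonoidHom.comp_apply, PresentedGroup.toGroup.of, MonoidHom.id_apply,
    psi_xt hX ψ hs H c hH hc1 p.1.val p.1.isLt p.2]
  unfold XP ChevalleyDatum.stX
  rw [dif_pos p.1.isLt]
  rfl

include hD in
/-- homomorphisms from `Δ` lift uniquely through central extensions -/
theorem cover_univ2 (hK5 : ∃ s : Finset K, 4 < s.card)
    (hpair : ∀ r s, r < D.nroots → s < D.nroots → s ≠ r → s ≠ D.neg r → PairCert D r s)
    (hroot : ∀ γ < D.nroots, RootCert D γ)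
    {G₁ E : Type*} [Group G₁] [Group E] (π₁ : E →* G₁) (hπ₁ : Function.Surjective π₁)
    (hc : π₁.ker ≤ Subgroup.center E) (σ : D.SteinbergCover K →* G₁) :
    ∃! τ : D.SteinbergCover K →* E, π₁.comp τ = σ := by
  obtain ⟨c₀, hc₀, hc₁⟩ := field_f1 hK5
  have hperf : commutator (D.SteinbergCover K) = ⊤ :=
    StCov.cover_perfect D hD (fun _ => ⟨c₀, hc₀, hc₁⟩)
  obtain ⟨τ, hτ⟩ := CExt.lift_of_section
    (fun P ψ hs hc' => cover_section2 hD hK5 hpair hroot ψ hs hc') π₁ hπ₁ hc σ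
  exact ⟨τ, hτ, fun τ' hτ' => CExt.lift_unique hperf π₁ hc τ' τ (by rw [hτ', hτ])⟩

end univ

end Cfsg.Agent.Lib.Helper18.StAbs
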