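import Cfsg.Agent.Lib.Helper18.ChevPar

/-!
# Table checks for the Steinberg presentation

* the roots occurring in the commutator formula for `(±p, s)`, `s` negative and different from the
  negative of the fundamental root `p`, are negative and different from `-p`;
* for every fundamental root `p_i` a pair of roots `(γ, δ)` whose commutator formula contains
  `p_i` with coefficient `±1`, all other roots involved being mapped by the reflection `w_i` into
  the set `{p_k} ∪ Φ⁻ \ {-p_k}` for a second fundamental root `p_k`.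
-/

set_option autoImplicit false

namespace Cfsg.Agent.Lib.Helper18.StAbs

open Cfsg Cfsg.Lie Cfsg.Lie.ChevalleyDatum

/-- Table check: the roots occurring in the commutator formula for `(±p, s)`, `s` negative and
different from `-p`, are negative and different from `-p`. -/
def commCheckN (D : ChevalleyDatum) : Bool :=
  (List.range D.rank).all fun i =>
    (List.range D.nroots).all fun s =>
      !(decide (D.IsNegRoot s)) || (s == D.neg (D.simple i)) ||
        ((D.commTerms (D.simple i) s).all fun c =>
          decide (D.IsNegRoot c.1) && !(c.1 == D.neg (D.simple i))) &&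
        ((D.commTerms (D.neg (D.simple i)) s).all fun c =>
          decide (D.IsNegRoot c.1) && !(c.1 == D.neg (D.simple i)))

set_option maxRecDepth 100000 in
theorem commCheckN_G2 : commCheckN chevG2 = true := by decide +kernel
set_option maxRecDepth 100000 in
theorem commCheckN_B2 : commCheckN chevB2 = true := by decide +kernel
set_option maxRecDepth 100000 in
theorem commCheckN_D4 : commCheckN chevD4 = true := by decide +kernel
set_option maxRecDepth 100000 in
theorem commCheckN_F4 : commCheckN chevF4 = true := by decide +kernel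
set_option maxRecDepth 100000 in
theorem commCheckN_E6 : commCheckN chevE6 = true := by decide +kernel
set_option maxRecDepth 100000 in
theorem commCheckN_E7 : commCheckN chevE7 = true := by decide +kernel
set_option maxRecDepth 100000 in
theorem commCheckN_E8 : commCheckN chevE8 = true := by decide +kernel

theorem commCheckN_of_mem (D : ChevalleyDatum)
    (hD : D ∈ [chevG2, chevB2, chevD4, chevF4, chevE6, chevE7, chevE8]) : commCheckN D = true := by
  simp only [List.mem_cons, List.mem_nil_iff, or_false] at hD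
  rcases hD with rfl | rfl | rfl | rfl | rfl | rfl | rfl
  · exact commCheckN_G2
  · exact commCheckN_B2
  · exact commCheckN_D4
  · exact commCheckN_F4
  · exact commCheckN_E6
  · exact commCheckN_E7
  · exact commCheckN_E8

/-- What the table check says. -/
theorem commCheckN_spec (D : ChevalleyDatum)
    (hD : D ∈ [chevG2, chevB2, chevD4, chevF4, chevE6, chevE7, chevE8]) (i : ℕ) (hi : i < D.rank)
    (s : ℕ) (hs : D.IsNegRoot s) (hne : s ≠ D.neg (D.simple i)) :
    (∀ c ∈ D.commTerms (D.simple i) s, D.IsNegRoot c.1 ∧ c.1 ≠ D.neg (D.simple i)) ∧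
    (∀ c ∈ D.commTerms (D.neg (D.simple i)) s, D.IsNegRoot c.1 ∧ c.1 ≠ D.neg (D.simple i)) := by
  have h := commCheckN_of_mem D hD
  unfold commCheckN at h
  rw [List.all_eq_true] at h
  have h1 := h i (List.mem_range.mpr hi)
  simp only [Bool.and_eq_true, decide_eq_true_eq, Bool.not_eq_true', decide_eq_false_iff_not,
    List.all_eq_true, List.mem_range, Bool.or_eq_true, beq_iff_eq, beq_eq_false_iff_ne] at h1
  rcases h1 s hs.1 with (h7 | h7) | h7
  · exact absurd hs h7
  · exact absurd h7 hne
  · exact ⟨fun c hc => h7.1 c hc, fun c hc => h7.2 c hc⟩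

/-- the roots allowed in the expression of `x_{p_i}`: different from `±p_i` and mapped by `w_i`
into `{p_k} ∪ Φ⁻ \ {-p_k}` -/
def domOK (D : ChevalleyDatum) (i k a : ℕ) : Bool :=
  decide (a < D.nroots) && !(a == D.simple i) && !(a == D.neg (D.simple i)) &&
    ((D.reflectRoot i a == D.simple k) ||
      (decide (D.IsNegRoot (D.reflectRoot i a)) && !(D.reflectRoot i a == D.neg (D.simple k))))

theorem domOK_spec (D : ChevalleyDatum) (i k a : ℕ) (h : domOK D i k a = true) :
    a < D.nroots ∧ a ≠ D.simple i ∧ a ≠ D.neg (D.simple i) ∧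
      (D.reflectRoot i a = D.simple k ∨
        (D.IsNegRoot (D.reflectRoot i a) ∧ D.reflectRoot i a ≠ D.neg (D.simple k))) := by
  unfold domOK at h
  simp only [Bool.and_eq_true, decide_eq_true_eq, Bool.not_eq_true', Bool.or_eq_true, beq_iff_eq,
    beq_eq_false_iff_ne] at h
  exact ⟨h.1.1.1, h.1.1.2, h.1.2, h.2⟩

/-- the certificate check for the fundamental root `p_i` -/
def certChk (D : ChevalleyDatum) (i k γ δ j : ℕ) : Bool :=
  decide (k < D.rank) && !(k == i) && domOK D i k γ && domOK D i k δ && !(δ == γ) &&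
    !(δ == D.neg γ) &&
  (match (D.commTerms γ δ)[j]? with
   | none => false
   | some c => (c.1 == D.simple i) && ((c.2.1 == 1) || (c.2.1 == -1)) &&
      ((c.2.2.1 == 1) || (c.2.2.2 == 1))) &&
  ((D.commTerms γ δ).take j).all (fun c => domOK D i k c.1) &&
  ((D.commTerms γ δ).drop (j + 1)).all (fun c => domOK D i k c.1)

theorem certChk_spec (D : ChevalleyDatum) (i k γ δ j : ℕ) (h : certChk D i k γ δ j = true) :
    k < D.rank ∧ k ≠ i ∧ domOK D i k γ = true ∧ domOK D i k δ = true ∧ δ ≠ γ ∧ δ ≠ D.neg γ ∧
    (∃ c, (D.commTerms γ δ)[j]? = some c ∧ c.1 = D.simple i ∧ (c.2.1 = 1 ∨ c.2.1 = -1) ∧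
      (c.2.2.1 = 1 ∨ c.2.2.2 = 1)) ∧
    (∀ c ∈ (D.commTerms γ δ).take j, domOK D i k c.1 = true) ∧
    (∀ c ∈ (D.commTerms γ δ).drop (j + 1), domOK D i k c.1 = true) := by
  unfold certChk at h
  simp only [Bool.and_eq_true, decide_eq_true_eq, Bool.not_eq_true', beq_eq_false_iff_ne,
    List.all_eq_true] at h
  obtain ⟨⟨⟨⟨⟨⟨⟨⟨h1, h2⟩, h3⟩, h4⟩, h5⟩, h6⟩, h7⟩, h8⟩, h9⟩ := h
  refine ⟨h1, h2, h3, h4, h5, h6, ?_, h8, h9⟩
  rcases hc : (D.commTerms γ δ)[j]? with _ | c
  · rw [hc] at h7
    exact absurd h7 (by simp)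
  · rw [hc] at h7
    simp only [Bool.and_eq_true, Bool.or_eq_true, beq_iff_eq] at h7
    exact ⟨c, rfl, h7.1.1, h7.1.2, h7.2⟩

/-- the certificates of all fundamental roots -/
def certAll (D : ChevalleyDatum) (C : List (ℕ × ℕ × ℕ × ℕ)) : Bool :=
  (List.range D.rank).all fun i =>
    match C[i]? with
    | none => false
    | some c => certChk D i c.1 c.2.1 c.2.2.1 c.2.2.2

theorem cert_of_all (D : ChevalleyDatum) (C : List (ℕ × ℕ × ℕ × ℕ)) (h : certAll D C = true)
    (i : ℕ) (hi : i < D.rank) : ∃ k γ δ j, certChk D i k γ δ j = true := by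
  unfold certAll at h
  rw [List.all_eq_true] at h
  have h1 := h i (List.mem_range.mpr hi)
  rcases hc : C[i]? with _ | c
  · rw [hc] at h1
    exact absurd h1 (by simp)
  · rw [hc] at h1
    exact ⟨_, _, _, _, h1⟩

set_option maxRecDepth 100000 in
theorem cert_G2 : certAll chevG2 [(1, 2, 10, 0), (0, 0, 8, 2)] = true := by decide +kernel
set_option maxRecDepth 100000 in
theorem cert_B2 : certAll chevB2 [(1, 1, 7, 0), (0, 0, 6, 1)] = true := by decide +kernel
set_option maxRecDepth 100000 in
theorem cert_D4 : certAll chevD4 [(1, 9, 19, 0), (0, 5, 19, 0), (1, 9, 16, 0), (1, 9, 15, 0)] = true := by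
  decide +kernel
set_option maxRecDepth 100000 in
theorem cert_F4 : certAll chevF4 [(1, 20, 34, 0), (0, 14, 34, 0), (1, 17, 28, 1), (2, 22, 26, 0)] =
    true := by decide +kernel
set_option maxRecDepth 100000 in
theorem cert_E6 : certAll chevE6 [(2, 29, 57, 0), (3, 32, 47, 0), (0, 15, 57, 0), (1, 25, 47, 0),
    (3, 32, 40, 0), (4, 34, 38, 0)] = true := by decide +kernel
set_option maxRecDepth 100000 in
theorem cert_E7 : certAll chevE7 [(2, 52, 94, 0), (3, 56, 79, 0), (0, 32, 94, 0), (1, 47, 79, 0),
    (3, 56, 70, 0), (4, 59, 67, 0), (5, 61, 65, 0)] = true := by decide +kernel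
set_option maxRecDepth 100000 in
theorem cert_E8 : certAll chevE8 [(2, 104, 163, 0), (3, 109, 142, 0), (0, 77, 163, 0),
    (1, 98, 142, 0), (3, 109, 131, 0), (4, 113, 127, 0), (5, 116, 124, 0), (6, 118, 122, 0)] =
    true := by decide +kernel

theorem exists_cert (D : ChevalleyDatum)
    (hD : D ∈ [chevG2, chevB2, chevD4, chevF4, chevE6, chevE7, chevE8]) (i : ℕ) (hi : i < D.rank) :
    ∃ k γ δ j, certChk D i k γ δ j = true := by
  simp only [List.mem_cons, List.mem_nil_iff, or_false] at hD
  rcases hD with rfl | rfl | rfl | rfl | rfl | rfl | rfl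
  · exact cert_of_all _ _ cert_G2 i hi
  · exact cert_of_all _ _ cert_B2 i hi
  · exact cert_of_all _ _ cert_D4 i hi
  · exact cert_of_all _ _ cert_F4 i hi
  · exact cert_of_all _ _ cert_E6 i hi
  · exact cert_of_all _ _ cert_E7 i hi
  · exact cert_of_all _ _ cert_E8 i hi

end Cfsg.Agent.Lib.Helper18.StAbs
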