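import Cfsg.Agent.Lib.Helper18.StInj
import Cfsg.Agent.Lib.Helper18.StChk

/-!
# The elements `n_p(t)` of a group with the relations (R1), (R2)

In a group `Γ` generated by root elements with the relations (R1) and (R2), mapped to the Chevalley
group by a homomorphism `π`, the elements `n_p(t) = x_p(t) x_{-p}(-t⁻¹) x_p(t)` for the fundamental
roots `p` permute the root elements as their images do in the Chevalley group.
-/

set_option autoImplicit false

namespace Cfsg.Agent.Lib.Helper18.StAbs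

open Cfsg Cfsg.Lie Cfsg.Lie.ChevalleyDatum Cfsg.Agent.Lib.Helper17

variable {K : Type*} [Field K] {Γ : Type*} [Group Γ]

/-- the element `n_r(t) = x_r(t) x_{-r}(-t⁻¹) x_r(t)` -/
def nG (D : ChevalleyDatum) (X : ℕ → K → Γ) (r : ℕ) (t : K) : Γ :=
  X r t * (X (D.neg r) (-t⁻¹) * X r t)

theorem conj_closure' {G : Type*} [Group G] (S : Set G) (H : Subgroup G) (g : G)
    (h : ∀ x ∈ S, g * x * g⁻¹ ∈ H) : ∀ v ∈ Subgroup.closure S, g * v * g⁻¹ ∈ H := by
  intro v hv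
  have := conj_closure S H g⁻¹ (fun x hx => by rw [inv_inv]; exact h x hx) v hv
  rwa [inv_inv] at this

/-- `n` permutes the root elements of `Γ`, and its image those of the Chevalley group, by `σ` -/
structure Mon {D : ChevalleyDatum}
    (hD : D ∈ [chevG2, chevB2, chevD4, chevF4, chevE6, chevE7, chevE8]) (X : ℕ → K → Γ)
    (π : Γ →* GL D.Idx K) (n : Γ) (σ : Equiv.Perm ℕ) : Prop where
  act : RootAct D hD (π n) σ
  conj : ∀ s < D.nroots, ∃ c : K, c ≠ 0 ∧ ∀ u : K, n * X s u = X (σ s) (c * u) * n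

section mon

variable {D : ChevalleyDatum} {hD : D ∈ [chevG2, chevB2, chevD4, chevF4, chevE6, chevE7, chevE8]}
  {X : ℕ → K → Γ} {π : Γ →* GL D.Idx K}

theorem Mon.one : Mon hD X π 1 1 where
  act := by
    rw [map_one]
    exact RootAct.one
  conj := fun s _ => ⟨1, one_ne_zero, fun u => by rw [one_mul, mul_one, one_mul]; rfl⟩

theorem Mon.mul {n n' : Γ} {σ σ' : Equiv.Perm ℕ} (h : Mon hD X π n σ) (h' : Mon hD X π n' σ') :
    Mon hD X π (n * n') (σ * σ') where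
  act := by
    rw [map_mul]
    exact h.act.mul h'.act
  conj := fun s hs => by
    obtain ⟨c', hc', e'⟩ := h'.conj s hs
    obtain ⟨c, hc, e⟩ := h.conj (σ' s) (h'.act.lt s hs)
    refine ⟨c * c', mul_ne_zero hc hc', fun t => ?_⟩
    rw [mul_assoc, e', ← mul_assoc, e, Equiv.Perm.mul_apply, mul_assoc, mul_assoc]

theorem Mon.inv {n : Γ} {σ : Equiv.Perm ℕ} (h : Mon hD X π n σ) : Mon hD X π n⁻¹ σ⁻¹ where
  act := by
    rw [map_inv]
    exact h.act.inv
  conj := fun s hs => by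
    obtain ⟨c, hc, e⟩ := h.conj (σ⁻¹ s) (h.act.inv_lt s hs)
    refine ⟨c⁻¹, inv_ne_zero hc, fun t => ?_⟩
    have e1 := e (c⁻¹ * t)
    rw [perm_apply_inv_self, ← mul_assoc, mul_inv_cancel₀ hc, one_mul] at e1
    rw [inv_mul_eq_iff_eq_mul, ← mul_assoc, e1, mul_assoc, mul_inv_cancel, mul_one]

/-- `x_s(u) n = n x_{σ⁻¹ s}(c u)` -/
theorem Mon.X_mul {n : Γ} {σ : Equiv.Perm ℕ} (h : Mon hD X π n σ) (s : ℕ) (hs : s < D.nroots) :
    ∃ c : K, c ≠ 0 ∧ ∀ u : K, X s u * n = n * X (σ⁻¹ s) (c * u) := by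
  obtain ⟨c, hc, e⟩ := h.inv.conj s hs
  refine ⟨c, hc, fun t => ?_⟩
  have e1 := e t
  rw [inv_mul_eq_iff_eq_mul] at e1
  rw [e1]
  group

end mon

theorem reflectRoot_neg_simple (D : ChevalleyDatum)
    (hD : D ∈ [chevG2, chevB2, chevD4, chevF4, chevE6, chevE7, chevE8]) (i : ℕ) (hi : i < D.rank) :
    D.reflectRoot i (D.neg (D.simple i)) = D.simple i := by
  have hne := (Cfsg.Agent.Lib.Helper36.neg_lt D hD _ (simple_lt_nroots D hD i hi)).2
  simp [ChevalleyDatum.reflectRoot, hne]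

section conj

variable {D : ChevalleyDatum} (hD : D ∈ [chevG2, chevB2, chevD4, chevF4, chevE6, chevE7, chevE8])
  {X : ℕ → K → Γ} (hX : Rel D X) (π : Γ →* GL D.Idx K)
  (hπ : ∀ r < D.nroots, ∀ t, π (X r t) = xU D hD r t)

include hX in
theorem nG_inv (r : ℕ) (t : K) : (nG D X r t)⁻¹ = nG D X r (-t) := by
  unfold nG
  rw [mul_inv_rev, mul_inv_rev, hX.inv r t, hX.inv (D.neg r), inv_neg, mul_assoc]

include hπ in
theorem pi_nG (r : ℕ) (hr : r < D.nroots) (t : K) : π (nG D X r t) = nT D hD r t := by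
  unfold nG
  rw [map_mul, map_mul, hπ r hr, hπ _ (neg_lt_nroots D hD r hr), nT_eq]

omit [Group Γ] in
theorem rootAct_nT (i : ℕ) (hi : i < D.rank) (t : K) (ht : t ≠ 0) :
    RootAct D hD (nT D hD (D.simple i) t) (reflPerm D hD i hi) := by
  rw [nT_eq_hU_mul D hD _ (simple_lt_nroots D hD i hi) t]
  have := (rootAct_of_mem_diagonal D hD _
    (hU_mem D hD _ (simple_lt_nroots D hD i hi) t ht)).mul (rootAct_nU D hD i hi)
  rwa [one_mul] at this

include hX hπ

theorem transfer (S : Set ℕ) (hinj : ∀ x ∈ gen X S, π x = 1 → x = 1) (a b : Γ)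
    (ha : a ∈ gen X S) (hb : b ∈ gen X S) (h : π a = π b) : a = b := by
  have := hinj (a * b⁻¹) (mul_mem ha (inv_mem hb)) (by rw [map_mul, map_inv, h, mul_inv_cancel])
  exact mul_inv_eq_one.mp this

omit hπ in
theorem nG_conj_mem (S : Set ℕ) (r : ℕ) (hr : r < D.nroots) (hnr : D.neg r < D.nroots)
    (hS₁ : ∀ s ∈ S, s < D.nroots ∧ s ≠ r ∧ s ≠ D.neg r ∧ ∀ c ∈ D.commTerms r s, c.1 ∈ S)
    (hS₂ : ∀ s ∈ S, s < D.nroots ∧ s ≠ D.neg r ∧ s ≠ D.neg (D.neg r) ∧
      ∀ c ∈ D.commTerms (D.neg r) s, c.1 ∈ S)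
    (t : K) (g : Γ) (hg : g ∈ gen X S) : nG D X r t * g * (nG D X r t)⁻¹ ∈ gen X S := by
  have h1 := conj_mem_gen' hX S r hr hS₁ t g hg
  have h2 := conj_mem_gen' hX S (D.neg r) hnr hS₂ (-t⁻¹) _ h1
  have h3 := conj_mem_gen' hX S r hr hS₁ t _ h2
  have e : nG D X r t * g * (nG D X r t)⁻¹ =
      X r t * (X (D.neg r) (-t⁻¹) * (X r t * g * (X r t)⁻¹) * (X (D.neg r) (-t⁻¹))⁻¹) *
        (X r t)⁻¹ := by
    unfold nG
    group
  rw [e]
  exact h3

/-- `π` is injective on the subgroup generated by `X_{p_k}` and the `X_s`, `s` negative, `s ≠ -p_k` -/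
theorem inj_B (k : ℕ) (hk : k < D.rank) (x : Γ)
    (hx : x ∈ gen X (insert (D.simple k) {r | D.IsNegRoot r ∧ r ≠ D.neg (D.simple k)}))
    (h1 : π x = 1) : x = 1 := by
  obtain ⟨hpk, hnpk, hnlt, hnn, -⟩ := commCheck_spec D hD k hk
  obtain ⟨a, u, hu, rfl⟩ := gen_insert hX {r | D.IsNegRoot r ∧ r ≠ D.neg (D.simple k)}
    (D.simple k) hpk.1
    (fun s hs => ⟨hs.1.1, fun e => not_pos_of_neg D hD s hs.1 (e ▸ hpk), hs.2,
      fun c hc => (commCheckN_spec D hD k hk s hs.1 hs.2).1 c hc⟩) x hx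
  have hu' : u ∈ gen X {r | D.IsNegRoot r} := gen_mono X (fun r hr => hr.1) hu
  have h2 : π u ∈ D.negUnipotent K :=
    pi_gen_le D hD X π hπ _ (fun r hr => hr.1) (D.negUnipotent K)
      (fun r hr t => Subgroup.subset_closure ⟨r, t, hr, coe_xU D hD r t⟩) u hu'
  rw [map_mul, hπ _ hpk.1] at h1
  have h3 : xU D hD (D.simple k) a ∈ D.posUnipotent K ⊓ D.negUnipotent K := by
    rw [Subgroup.mem_inf]
    refine ⟨Subgroup.subset_closure ⟨_, a, hpk, coe_xU D hD _ a⟩, ?_⟩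
    have : xU D hD (D.simple k) a = (π u)⁻¹ := eq_inv_of_mul_eq_one_left h1
    rw [this]
    exact Subgroup.inv_mem _ h2
  rw [Cfsg.Agent.Lib.Helper36.pos_inf_neg D hD, Subgroup.mem_bot] at h3
  have ha : a = 0 := by
    have h4 := congrArg Units.val h3
    rw [coe_xU, Units.val_one] at h4
    exact (Cfsg.Agent.S1024.result D hD _ hpk.1 a).mp h4
  rw [h3, one_mul] at h1
  rw [ha, hX.zero, one_mul]
  exact inj_neg hD hX π hπ u hu' h1

/-- `n_p(t) x_s(u) n_p(t)⁻¹ = x_{w_p s}(c u)` for `s ≠ ±p` -/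
theorem conj_C (i : ℕ) (hi : i < D.rank) (t : K) (ht : t ≠ 0) (s : ℕ) (hs : s < D.nroots)
    (h1 : s ≠ D.simple i) (h2 : s ≠ D.neg (D.simple i)) :
    ∃ c : K, c ≠ 0 ∧ ∀ u : K, nG D X (D.simple i) t * X s u =
      X (D.reflectRoot i s) (c * u) * nG D X (D.simple i) t := by
  obtain ⟨hpk, hnpk, hnlt, hnn, hcomm⟩ := commCheck_spec D hD i hi
  have hact := rootAct_nT hD i hi t ht
  obtain ⟨c, hc, e⟩ := hact.conj s hs
  rw [reflPerm_apply D hD i hi s hs] at e
  have hrl := (reflect_facts D hD i hi).1 s hs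
  refine ⟨c, hc, fun u => ?_⟩
  have hπeq : π (nG D X (D.simple i) t * X s u * (nG D X (D.simple i) t)⁻¹) =
      π (X (D.reflectRoot i s) (c * u)) := by
    rw [map_mul, map_mul, map_inv, pi_nG hD π hπ _ hpk.1, hπ s hs, hπ _ hrl, e u]
    group
  suffices hsuff : nG D X (D.simple i) t * X s u * (nG D X (D.simple i) t)⁻¹ =
      X (D.reflectRoot i s) (c * u) by
    rw [← hsuff]
    group
  rcases (Cfsg.Agent.Lib.Helper36.sgnOK_all D hD).pos_or_neg s hs with hpos | hneg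
  · apply transfer hD hX π hπ {r | D.IsPosRoot r ∧ r ≠ D.simple i}
      (fun x hx => inj_pos hD hX π hπ x (gen_mono X (fun r hr => hr.1) hx)) _ _ _ _ hπeq
    · apply nG_conj_mem hX {r | D.IsPosRoot r ∧ r ≠ D.simple i} _ hpk.1 hnlt _ _ t _
        (X_mem_gen X {r | D.IsPosRoot r ∧ r ≠ D.simple i} s ⟨hpos, h1⟩ u)
      · intro s' hs'
        exact ⟨hs'.1.1, hs'.2, fun e' => hnpk (e' ▸ hs'.1), fun c' hc' =>
          (hcomm s' hs'.1 hs'.2).1 c' hc'⟩
      · intro s' hs'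
        refine ⟨hs'.1.1, fun e' => hnpk (e' ▸ hs'.1), ?_, fun c' hc' =>
          (hcomm s' hs'.1 hs'.2).2 c' hc'⟩
        rw [hnn]
        exact hs'.2
    · exact X_mem_gen X _ _ ((posTab_spec D hD).2.2.2 i hi s hpos h1) _
  · have hrneg : D.IsNegRoot (D.reflectRoot i s) ∧ D.reflectRoot i s ≠ D.neg (D.simple i) := by
      have ha := pos_neg_of_neg D hD s hneg
      have hane : D.neg s ≠ D.simple i := by
        intro e'
        apply h2
        rw [← e', neg_neg_eq D hD s hs]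
      obtain ⟨h3, h4⟩ := (posTab_spec D hD).2.2.2 i hi _ ha hane
      have h5 := (reflect_facts D hD i hi).2.2 _ ha.1
      rw [neg_neg_eq D hD s hs] at h5
      rw [h5]
      refine ⟨neg_neg_of_pos D hD _ h3, fun e' => h4 ?_⟩
      have := congrArg D.neg e'
      rwa [neg_neg_eq D hD _ h3.1, neg_neg_eq D hD _ hpk.1] at this
    apply transfer hD hX π hπ {r | D.IsNegRoot r ∧ r ≠ D.neg (D.simple i)}
      (fun x hx => inj_neg hD hX π hπ x (gen_mono X (fun r hr => hr.1) hx)) _ _ _ _ hπeq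
    · apply nG_conj_mem hX {r | D.IsNegRoot r ∧ r ≠ D.neg (D.simple i)} _ hpk.1 hnlt _ _ t _
        (X_mem_gen X {r | D.IsNegRoot r ∧ r ≠ D.neg (D.simple i)} s ⟨hneg, h2⟩ u)
      · intro s' hs'
        exact ⟨hs'.1.1, fun e' => not_pos_of_neg D hD s' hs'.1 (e' ▸ hpk), hs'.2, fun c' hc' =>
          (commCheckN_spec D hD i hi s' hs'.1 hs'.2).1 c' hc'⟩
      · intro s' hs'
        refine ⟨hs'.1.1, hs'.2, ?_, fun c' hc' =>
          (commCheckN_spec D hD i hi s' hs'.1 hs'.2).2 c' hc'⟩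
        rw [hnn]
        exact fun e' => not_pos_of_neg D hD s' hs'.1 (e' ▸ hpk)
    · exact X_mem_gen X _ _ hrneg _

omit hπ in
/-- the root element of the fundamental root `p_i` is a product of root elements of roots
different from `±p_i` -/
theorem X_simple_mem (i k γ δ j : ℕ) (hcert : certChk D i k γ δ j = true) (v : K) :
    X (D.simple i) v ∈ gen X {a | domOK D i k a = true} := by
  obtain ⟨hk, hki, hγ, hδ, hδγ, hδn, ⟨c₀, hc₀, hc1, hc2, hc3⟩, hpre, hpost⟩ :=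
    certChk_spec D i k γ δ j hcert
  have hγ' := domOK_spec D i k γ hγ
  have hδ' := domOK_spec D i k δ hδ
  have hj : j < (D.commTerms γ δ).length := by
    by_contra hcon
    rw [List.getElem?_eq_none (Nat.le_of_not_lt hcon)] at hc₀
    exact absurd hc₀ (by simp)
  have hsplit : D.commTerms γ δ =
      (D.commTerms γ δ).take j ++ c₀ :: (D.commTerms γ δ).drop (j + 1) := by
    have h1 : (D.commTerms γ δ)[j] = c₀ := by
      rw [List.getElem?_eq_getElem hj] at hc₀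
      exact Option.some.inj hc₀
    rw [← h1, ← List.drop_eq_getElem_cons hj, List.take_append_drop]
  have hmem : ∀ t₀ u₀ : K,
      X (D.simple i) ((c₀.2.1 : K) * (-t₀) ^ c₀.2.2.1 * u₀ ^ c₀.2.2.2) ∈
        gen X {a | domOK D i k a = true} := by
    intro t₀ u₀
    have hcomm := hX.comm γ δ hγ'.1 hδ'.1 hδγ hδn t₀ u₀
    have hw : wd X (D.commWord K γ δ t₀ u₀) = (X δ u₀)⁻¹ * (X γ t₀)⁻¹ * X δ u₀ * X γ t₀ := by
      rw [mul_assoc ((X δ u₀)⁻¹ * (X γ t₀)⁻¹), hcomm]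
      group
    have hw2 : wd X (D.commWord K γ δ t₀ u₀) =
        wd X (((D.commTerms γ δ).take j).map fun c =>
          (c.1, (c.2.1 : K) * (-t₀) ^ c.2.2.1 * u₀ ^ c.2.2.2)) *
        (X (D.simple i) ((c₀.2.1 : K) * (-t₀) ^ c₀.2.2.1 * u₀ ^ c₀.2.2.2) *
          wd X (((D.commTerms γ δ).drop (j + 1)).map fun c =>
            (c.1, (c.2.1 : K) * (-t₀) ^ c.2.2.1 * u₀ ^ c.2.2.2))) := by
      unfold ChevalleyDatum.commWord
      conv_lhs => rw [hsplit]
      rw [List.map_append, wd_append, List.map_cons, wd_cons, hc1]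
    have hpre' : wd X (((D.commTerms γ δ).take j).map fun c =>
        (c.1, (c.2.1 : K) * (-t₀) ^ c.2.2.1 * u₀ ^ c.2.2.2)) ∈
          gen X {a | domOK D i k a = true} := by
      apply wd_mem_gen
      intro p hp
      obtain ⟨c', hc', rfl⟩ := List.mem_map.mp hp
      exact hpre c' hc'
    have hpost' : wd X (((D.commTerms γ δ).drop (j + 1)).map fun c =>
        (c.1, (c.2.1 : K) * (-t₀) ^ c.2.2.1 * u₀ ^ c.2.2.2)) ∈
          gen X {a | domOK D i k a = true} := by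
      apply wd_mem_gen
      intro p hp
      obtain ⟨c', hc', rfl⟩ := List.mem_map.mp hp
      exact hpost c' hc'
    have hXγ : X γ t₀ ∈ gen X {a | domOK D i k a = true} := X_mem_gen X _ γ hγ t₀
    have hXδ : X δ u₀ ∈ gen X {a | domOK D i k a = true} := X_mem_gen X _ δ hδ u₀
    have hmid : wd X (D.commWord K γ δ t₀ u₀) ∈ gen X {a | domOK D i k a = true} := by
      rw [hw]
      exact mul_mem (mul_mem (mul_mem (inv_mem hXδ) (inv_mem hXγ)) hXδ) hXγ
    have e : X (D.simple i) ((c₀.2.1 : K) * (-t₀) ^ c₀.2.2.1 * u₀ ^ c₀.2.2.2) =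
        (wd X (((D.commTerms γ δ).take j).map fun c =>
          (c.1, (c.2.1 : K) * (-t₀) ^ c.2.2.1 * u₀ ^ c.2.2.2)))⁻¹ *
        wd X (D.commWord K γ δ t₀ u₀) *
        (wd X (((D.commTerms γ δ).drop (j + 1)).map fun c =>
            (c.1, (c.2.1 : K) * (-t₀) ^ c.2.2.1 * u₀ ^ c.2.2.2)))⁻¹ := by
      rw [hw2]
      group
    rw [e]
    exact mul_mem (mul_mem (inv_mem hpre') hmid) (inv_mem hpost')
  have hCC : ((c₀.2.1 : ℤ) : K) * ((c₀.2.1 : ℤ) : K) = 1 := by
    rcases hc2 with h | h <;> rw [h] <;> simp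
  rcases hc3 with h | h
  · have := hmem (-((c₀.2.1 : K) * v)) 1
    rw [h, neg_neg, pow_one, one_pow, mul_one, ← mul_assoc, hCC, one_mul] at this
    exact this
  · have := hmem (-1) ((c₀.2.1 : K) * v)
    rw [h, neg_neg, one_pow, mul_one, pow_one, ← mul_assoc, hCC, one_mul] at this
    exact this

/-- `n_p(t) x_p(u) n_p(t)⁻¹ = x_{-p}(c u)` -/
theorem conj_D (i : ℕ) (hi : i < D.rank) (t : K) (ht : t ≠ 0) :
    ∃ c : K, c ≠ 0 ∧ ∀ u : K, nG D X (D.simple i) t * X (D.simple i) u =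
      X (D.neg (D.simple i)) (c * u) * nG D X (D.simple i) t := by
  obtain ⟨hpk, hnpk, hnlt, hnn, hcomm⟩ := commCheck_spec D hD i hi
  obtain ⟨k, γ, δ, j, hcert⟩ := exists_cert D hD i hi
  obtain ⟨hk, hki, -⟩ := certChk_spec D i k γ δ j hcert
  have hact := rootAct_nT hD i hi t ht
  obtain ⟨c, hc, e⟩ := hact.conj (D.simple i) hpk.1
  rw [reflPerm_apply D hD i hi _ hpk.1, reflectRoot_simple] at e
  refine ⟨c, hc, fun u => ?_⟩
  have hπeq : π (nG D X (D.simple i) t * X (D.simple i) u * (nG D X (D.simple i) t)⁻¹) =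
      π (X (D.neg (D.simple i)) (c * u)) := by
    rw [map_mul, map_mul, map_inv, pi_nG hD π hπ _ hpk.1, hπ _ hpk.1, hπ _ hnlt, e u]
    group
  suffices hsuff : nG D X (D.simple i) t * X (D.simple i) u * (nG D X (D.simple i) t)⁻¹ =
      X (D.neg (D.simple i)) (c * u) by
    rw [← hsuff]
    group
  apply transfer hD hX π hπ (insert (D.simple k) {r | D.IsNegRoot r ∧ r ≠ D.neg (D.simple k)})
    (fun x hx => inj_B hD hX π hπ k hk x hx) _ _ _ _ hπeq
  · apply conj_closure' _ _ _ _ _ (X_simple_mem hX i k γ δ j hcert u)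
    rintro x ⟨a, ha, w, rfl⟩
    obtain ⟨h1, h2, h3, h4⟩ := domOK_spec D i k a ha
    obtain ⟨c', -, e'⟩ := conj_C hD hX π hπ i hi t ht a h1 h2 h3
    rw [e' w, mul_inv_cancel_right]
    apply X_mem_gen
    rcases h4 with h5 | h5
    · rw [h5]
      exact Set.mem_insert _ _
    · exact Set.mem_insert_of_mem _ h5
  · apply X_mem_gen
    apply Set.mem_insert_of_mem
    refine ⟨neg_neg_of_pos D hD _ hpk, fun e' => hki ?_⟩
    have h1 := congrArg D.neg e'
    rw [neg_neg_eq D hD _ hpk.1, neg_neg_eq D hD _ (simple_lt_nroots D hD k hk)] at h1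
    have h2 := (posTab_spec D hD).2.2.1 i hi i hi
    have h3 := (posTab_spec D hD).2.2.1 k hk i hi
    rw [h1, h3, if_pos rfl] at h2
    by_contra hne
    rw [if_neg (fun e'' => hne e''.symm)] at h2
    exact zero_ne_one h2

/-- `n_p(t) x_{-p}(u) n_p(t)⁻¹ = x_p(c u)` -/
theorem conj_D' (i : ℕ) (hi : i < D.rank) (t : K) (ht : t ≠ 0) :
    ∃ c : K, c ≠ 0 ∧ ∀ u : K, nG D X (D.simple i) t * X (D.neg (D.simple i)) u =
      X (D.simple i) (c * u) * nG D X (D.simple i) t := by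
  obtain ⟨c, hc, e⟩ := conj_D hD hX π hπ i hi (-t) (neg_ne_zero.mpr ht)
  rw [← nG_inv hX] at e
  refine ⟨c⁻¹, inv_ne_zero hc, fun u => ?_⟩
  have e1 := e (c⁻¹ * u)
  rw [← mul_assoc, mul_inv_cancel₀ hc, one_mul, inv_mul_eq_iff_eq_mul] at e1
  rw [e1]
  group

/-- the elements `n_p(t)` permute the root elements -/
theorem mon_nG (i : ℕ) (hi : i < D.rank) (t : K) (ht : t ≠ 0) :
    Mon hD X π (nG D X (D.simple i) t) (reflPerm D hD i hi) where
  act := by
    rw [pi_nG hD π hπ _ (simple_lt_nroots D hD i hi)]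
    exact rootAct_nT hD i hi t ht
  conj := by
    intro s hs
    rw [reflPerm_apply D hD i hi s hs]
    by_cases h1 : s = D.simple i
    · rw [h1, reflectRoot_simple]
      exact conj_D hD hX π hπ i hi t ht
    · by_cases h2 : s = D.neg (D.simple i)
      · rw [h2, reflectRoot_neg_simple D hD i hi]
        exact conj_D' hD hX π hπ i hi t ht
      · exact conj_C hD hX π hπ i hi t ht s hs h1 h2

end conj

end Cfsg.Agent.Lib.Helper18.StAbs
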