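import Cfsg.Agent.Lib.Helper18.StSteinFast
import Cfsg.Agent.Lib.Helper18.StCent

/-!
# Embeddings of simply laced root systems and the groups presented by (R1), (R2)

An injection `ι` of the roots of a simply laced datum `D₁` into those of a simply laced datum
`D₂`, with signs `ε`, compatible with the chain tables, turns root elements `X₂` satisfying
(R1), (R2) for `D₂` into elements `r, t ↦ X₂ (ι r) (ε r * t)` satisfying (R1), (R2) for `D₁`.
-/

set_option autoImplicit false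

namespace Cfsg.Agent.Lib.Helper18.StAbs

open Cfsg Cfsg.Lie Cfsg.Lie.ChevalleyDatum Cfsg.Agent.Lib.Helper17

/-- the image of a root -/
def iotaF (tab : List (ℕ × ℕ × ℤ)) (r : ℕ) : ℕ := (tab.getD r (0, 0, 1)).2.1

/-- the sign of a root -/
def epsF (tab : List (ℕ × ℕ × ℤ)) (r : ℕ) : ℤ := (tab.getD r (0, 0, 1)).2.2

/-- compatibility of the chain tables for a pair of roots -/
def EmbP (D₁ D₂ : ChevalleyDatum) (tab : List (ℕ × ℕ × ℤ)) (r s : ℕ) : Prop :=
  iotaF tab r < D₂.nroots ∧ iotaF tab s < D₂.nroots ∧ iotaF tab s ≠ iotaF tab r ∧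
  iotaF tab s ≠ D₂.neg (iotaF tab r) ∧
  ((D₁.chainEntry r s = [] ∧ D₂.chainEntry (iotaF tab r) (iotaF tab s) = []) ∨
    ∃ (g : ℕ) (C C' : ℤ), g < D₁.nroots ∧ D₁.chainEntry r s = [(g, C)] ∧
      D₂.chainEntry (iotaF tab r) (iotaF tab s) = [(iotaF tab g, C')] ∧
      C' * epsF tab r * epsF tab s = C * epsF tab g)

/-- the check of the compatibility for the pairs with first root `r` -/
def embRowB (D₁ D₂ : ChevalleyDatum) (tab : List (ℕ × ℕ × ℤ)) (r : ℕ) : Bool :=
  match tab.getD r (0, 0, 1) with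
  | (_, ir, er) =>
    decide (ir < D₂.nroots) &&
    forceRow (D₁.chain.getD r #[]).toList fun row1 =>
    forceRow (D₂.chain.getD ir #[]).toList fun row2 =>
    forceNat (D₁.neg r) fun n1 =>
    forceNat (D₂.neg ir) fun n2 =>
    tab.all fun y =>
      y.1 == r || y.1 == n1 ||
      (decide (y.2.1 < D₂.nroots) && y.2.1 != ir && y.2.1 != n2 &&
        (match rowEntry row1 y.1, rowEntry row2 y.2.1 with
          | [], [] => true
          | [gc], [gc'] => decide (gc.1 < D₁.nroots) && gc'.1 == iotaF tab gc.1 &&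
              gc'.2 * er * y.2.2 == gc.2 * epsF tab gc.1
          | _, _ => false))

theorem getD_of_cover {α : Type*} (tab : List (ℕ × α)) (n : ℕ)
    (hcov : tab.map Prod.fst = List.range n) (d : ℕ × α) (g : ℕ) (hg : g < n) :
    tab.getD g d ∈ tab ∧ (tab.getD g d).1 = g := by
  have hlen : tab.length = n := by
    have := congrArg List.length hcov
    rwa [List.length_map, List.length_range] at this
  have hg' : g < tab.length := by rw [hlen]; exact hg
  rw [List.getD_eq_getElem _ _ hg']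
  refine ⟨List.getElem_mem hg', ?_⟩
  have h1 : (tab.map Prod.fst)[g]'(by rw [List.length_map]; exact hg') = tab[g].1 :=
    List.getElem_map _
  rw [← h1]
  simp [hcov]

theorem embRowB_spec (D₁ D₂ : ChevalleyDatum) (tab : List (ℕ × ℕ × ℤ))
    (hcov : tab.map Prod.fst = List.range D₁.nroots) (r : ℕ)
    (h : embRowB D₁ D₂ tab r = true) (s : ℕ) (hs : s < D₁.nroots) (hsr : s ≠ r)
    (hsn : s ≠ D₁.neg r) : EmbP D₁ D₂ tab r s := by
  unfold embRowB at h
  rcases hx : tab.getD r (0, 0, 1) with ⟨r', ir, er⟩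
  rw [hx] at h
  have hir : iotaF tab r = ir := by unfold iotaF; rw [hx]
  have her : epsF tab r = er := by unfold epsF; rw [hx]
  simp only [forceRow_eq, forceNat_eq, Bool.and_eq_true, decide_eq_true_eq] at h
  obtain ⟨h1, h2⟩ := h
  obtain ⟨hmem, hy1⟩ := getD_of_cover tab D₁.nroots hcov (0, 0, 1) s hs
  have h3 := List.all_eq_true.mp h2 _ hmem
  rw [hy1] at h3
  simp only [Bool.or_eq_true, beq_iff_eq, Bool.and_eq_true, decide_eq_true_eq, bne_iff_ne,
    ne_eq] at h3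
  rcases h3 with (h3 | h3) | h3
  · exact absurd h3 hsr
  · exact absurd h3 hsn
  · obtain ⟨⟨⟨h4, h5⟩, h6⟩, h7⟩ := h3
    rw [rowEntry_eq, rowEntry_eq] at h7
    have e1 : iotaF tab s = (tab.getD s (0, 0, 1)).2.1 := rfl
    have e2 : epsF tab s = (tab.getD s (0, 0, 1)).2.2 := rfl
    rw [← e1] at h4 h5 h6 h7
    rw [← e2] at h7
    unfold EmbP
    rw [hir, her]
    refine ⟨h1, h4, h5, h6, ?_⟩
    split at h7
    · rename_i ha hb
      exact Or.inl ⟨ha, hb⟩
    · rename_i gc gc' ha hb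
      simp only [Bool.and_eq_true, decide_eq_true_eq, beq_iff_eq] at h7
      obtain ⟨⟨h8, h9⟩, h10⟩ := h7
      refine Or.inr ⟨gc.1, gc.2, gc'.2, h8, ha, ?_, h10⟩
      rw [hb, ← h9]
    · exact absurd h7 (by simp)

/-- the check for the roots of a list -/
def embChunkB (D₁ D₂ : ChevalleyDatum) (tab : List (ℕ × ℕ × ℤ)) (R : List ℕ) : Bool :=
  R.all fun r => embRowB D₁ D₂ tab r

/-- the fundamental roots go to fundamental roots, with sign `1` -/
def simpB (D₁ D₂ : ChevalleyDatum) (tab : List (ℕ × ℕ × ℤ)) : Bool :=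
  (List.range D₁.rank).all fun i =>
    decide (D₁.simple i < D₁.nroots) && decide (D₁.neg (D₁.simple i) < D₁.nroots) &&
    iotaF tab (D₁.simple i) == D₂.simple i &&
    iotaF tab (D₁.neg (D₁.simple i)) == D₂.neg (D₂.simple i) &&
    epsF tab (D₁.simple i) == 1 && epsF tab (D₁.neg (D₁.simple i)) == 1

variable {K : Type*} [Field K] {Γ : Type*} [Group Γ]

/-- the root elements of `D₁` inside a group with root elements of `D₂` -/
def embY (D₁ : ChevalleyDatum) (tab : List (ℕ × ℕ × ℤ)) (X₂ : ℕ → K → Γ) (r : ℕ) (t : K) : Γ :=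
  if r < D₁.nroots then X₂ (iotaF tab r) ((epsF tab r : K) * t) else 1

theorem emb_rel {D₁ D₂ : ChevalleyDatum} (tab : List (ℕ × ℕ × ℤ)) {X₂ : ℕ → K → Γ}
    (hsl₁ : slB D₁ = true) (hsl₂ : slB D₂ = true) (hX₂ : Rel D₂ X₂)
    (hemb : ∀ r s, r < D₁.nroots → s < D₁.nroots → s ≠ r → s ≠ D₁.neg r → EmbP D₁ D₂ tab r s) :
    Rel D₁ (embY D₁ tab X₂) := by
  refine ⟨?_, ?_⟩
  · intro r t u
    unfold embY
    by_cases hr : r < D₁.nroots
    · simp only [if_pos hr]
      rw [hX₂.add, mul_add]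
    · simp only [if_neg hr, one_mul]
  · intro r s hr hs hsr hsn t u
    obtain ⟨h1, h2, h3, h4, h5⟩ := hemb r s hr hs hsr hsn
    have hc := hX₂.comm _ _ h1 h2 h3 h4 ((epsF tab r : K) * t) ((epsF tab s : K) * u)
    have hw₁ : D₁.commWord K r s t u =
        (D₁.chainEntry r s).map fun gc => (gc.1, ((gc.2 : ℤ) : K) * (-t) ^ 1 * u ^ 1) := by
      unfold ChevalleyDatum.commWord
      rw [commTerms_sl D₁ hsl₁ r s, List.map_map]
      rfl
    have hw₂ : D₂.commWord K (iotaF tab r) (iotaF tab s) ((epsF tab r : K) * t)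
        ((epsF tab s : K) * u) = (D₂.chainEntry (iotaF tab r) (iotaF tab s)).map fun gc =>
          (gc.1, ((gc.2 : ℤ) : K) * (-((epsF tab r : K) * t)) ^ 1 * ((epsF tab s : K) * u) ^ 1) := by
      unfold ChevalleyDatum.commWord
      rw [commTerms_sl D₂ hsl₂ _ _, List.map_map]
      rfl
    rw [hw₁]
    rw [hw₂] at hc
    have ey : ∀ (x : ℕ) (hx : x < D₁.nroots) (v : K),
        embY D₁ tab X₂ x v = X₂ (iotaF tab x) ((epsF tab x : K) * v) := by
      intro x hx v
      unfold embY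
      rw [if_pos hx]
    rw [ey r hr, ey s hs]
    rcases h5 with ⟨ha, hb⟩ | ⟨g, C, C', hg, ha, hb, hC⟩
    · rw [ha, List.map_nil, wd_nil]
      rw [hb, List.map_nil, wd_nil] at hc
      exact hc
    · rw [ha, List.map_cons, List.map_nil, wd_cons, wd_nil, ey g hg]
      rw [hb, List.map_cons, List.map_nil, wd_cons, wd_nil] at hc
      rw [hc]
      congr 3
      have hC' := congrArg (Int.cast : ℤ → K) hC
      push_cast at hC'
      show (C' : K) * (-((epsF tab r : K) * t)) ^ 1 * ((epsF tab s : K) * u) ^ 1 =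
        (epsF tab g : K) * ((C : K) * (-t) ^ 1 * u ^ 1)
      linear_combination (-t * u) * hC'

theorem embY_ge (D₁ : ChevalleyDatum) (tab : List (ℕ × ℕ × ℤ)) (X₂ : ℕ → K → Γ) (r : ℕ)
    (hr : D₁.nroots ≤ r) (t : K) : embY D₁ tab X₂ r t = 1 := by
  unfold embY
  rw [if_neg (not_lt.mpr hr)]

/-- the homomorphism from the group presented by (R1), (R2) of type `D₁` -/
theorem emb_hom {D₁ D₂ : ChevalleyDatum} (tab : List (ℕ × ℕ × ℤ)) {X₂ : ℕ → K → Γ}
    (hsl₁ : slB D₁ = true) (hsl₂ : slB D₂ = true) (hX₂ : Rel D₂ X₂)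
    (hemb : ∀ r s, r < D₁.nroots → s < D₁.nroots → s ≠ r → s ≠ D₁.neg r → EmbP D₁ D₂ tab r s) :
    ∃ Φ : D₁.SteinbergCover K →* Γ, ∀ (r : ℕ) (t : K),
      Φ (XP D₁ (D₁.steinbergRelsAB K) r t) = embY D₁ tab X₂ r t := by
  have hY := emb_rel (K := K) tab hsl₁ hsl₂ hX₂ hemb
  have hge : ∀ γ, D₁.nroots ≤ γ → ∀ t : K, embY D₁ tab X₂ γ t = 1 :=
    fun γ hγ t => embY_ge D₁ tab X₂ γ hγ t
  refine ⟨PresentedGroup.toGroup (relsAB_liftY _ hY hge), fun r t => ?_⟩
  unfold XP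
  show FreeGroup.lift _ (D₁.stX r t) = _
  exact liftY_stX _ hge r t

/-- a homomorphism commutes with the formation of `h_r(t)` -/
theorem map_hG {Γ' : Type*} [Group Γ'] (Φ : Γ' →* Γ) (D : ChevalleyDatum) (X : ℕ → K → Γ')
    (r : ℕ) (t : K) : Φ (hG D X r t) = hG D (fun r t => Φ (X r t)) r t := by
  unfold hG nG
  simp only [map_mul]

theorem hG_embY {D₁ D₂ : ChevalleyDatum} (tab : List (ℕ × ℕ × ℤ)) (X₂ : ℕ → K → Γ)
    (hsimp : simpB D₁ D₂ tab = true) (i : ℕ) (hi : i < D₁.rank) (t : K) :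
    hG D₁ (embY D₁ tab X₂) (D₁.simple i) t = hG D₂ X₂ (D₂.simple i) t := by
  have h1 := List.all_eq_true.mp hsimp i (List.mem_range.mpr hi)
  simp only [Bool.and_eq_true, decide_eq_true_eq, beq_iff_eq] at h1
  obtain ⟨⟨⟨⟨⟨a1, a2⟩, a3⟩, a4⟩, a5⟩, a6⟩ := h1
  unfold hG nG embY
  simp only [if_pos a1, if_pos a2, a3, a4, a5, a6, Int.cast_one, one_mul]

theorem Lp_embY {D₁ D₂ : ChevalleyDatum} (tab : List (ℕ × ℕ × ℤ)) (X₂ : ℕ → K → Γ)
    (hsimp : simpB D₁ D₂ tab = true) (t : ℕ → K) (l : List ℕ) (hl : ∀ i ∈ l, i < D₁.rank) :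
    Lp D₁ (embY D₁ tab X₂) t l = Lp D₂ X₂ t l := by
  unfold Lp
  congr 1
  apply List.map_congr_left
  intro i hi
  exact hG_embY tab X₂ hsimp i (hl i hi) (t i)

theorem map_Lp {Γ' : Type*} [Group Γ'] (Φ : Γ' →* Γ) (D : ChevalleyDatum) (X : ℕ → K → Γ')
    (t : ℕ → K) (l : List ℕ) : Φ (Lp D X t l) = Lp D (fun r t => Φ (X r t)) t l := by
  unfold Lp
  rw [map_list_prod, List.map_map]
  congr 1
  apply List.map_congr_left
  intro i _
  exact map_hG Φ D X _ _

end Cfsg.Agent.Lib.Helper18.StAbs
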