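import Cfsg.Agent.Lib.Helper18.StCent

/-!
# The relations (R3) over a finite field

In a group `Γ` generated by root elements with the relations (R1) and (R2), mapped to the Chevalley
group by `π`, the elements `h_r(t)` are multiplicative in `t` when the field is finite
(Steinberg): the symbol `h_r(t) h_r(u) h_r(tu)⁻¹` is trivial on squares and on a pair
`((1 - u)⁻¹, u)`, and the multiplicative group of the field is cyclic.
-/

set_option autoImplicit false

namespace Cfsg.Agent.Lib.Helper18.StAbs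

open Cfsg Cfsg.Lie Cfsg.Lie.ChevalleyDatum Cfsg.Agent.Lib.Helper18

variable {K : Type*} [Field K] {Γ : Type*} [Group Γ]

/-! ### Finite fields -/

/-- in a finite field with a non-square there is a non-square `u` with `1 - u` a non-square -/
theorem exists_nonsq_pair [Finite K] (v : K) (hv : ¬ IsSquare v) :
    ∃ u : K, ¬ IsSquare u ∧ ¬ IsSquare (1 - u) := by
  classical
  cases nonempty_fintype K
  by_contra hcon
  push Not at hcon
  have hv0 : v ≠ 0 := by
    rintro rfl
    exact hv IsSquare.zero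
  have h1 : (Finset.univ.filter (fun x : K => IsSquare x ∧ x ≠ 0)).card ≤
      (Finset.univ.filter (fun x : K => ¬ IsSquare x)).card := by
    apply Finset.card_le_card_of_injOn (fun x => v * x)
    · intro x hx
      rw [Finset.mem_coe, Finset.mem_filter] at hx
      rw [Finset.mem_coe, Finset.mem_filter]
      refine ⟨Finset.mem_univ _, ?_⟩
      obtain ⟨-, ⟨s, rfl⟩, hx0⟩ := hx
      rintro ⟨r, hr⟩
      apply hv
      have hs : s ≠ 0 := fun h => hx0 (by rw [h, mul_zero])
      have hr' : v * (s * s) = r * r := hr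
      refine ⟨r / s, ?_⟩
      field_simp
      linear_combination hr'
    · intro x _ y _ h
      exact mul_left_cancel₀ hv0 h
  have h2 : (Finset.univ.filter (fun x : K => ¬ IsSquare x)).card ≤
      (Finset.univ.filter (fun x : K => IsSquare x ∧ x ≠ 0 ∧ x ≠ 1)).card := by
    apply Finset.card_le_card_of_injOn (fun u => 1 - u)
    · intro u hu
      rw [Finset.mem_coe, Finset.mem_filter] at hu
      rw [Finset.mem_coe, Finset.mem_filter]
      refine ⟨Finset.mem_univ _, hcon u hu.2, ?_, ?_⟩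
      · intro h
        apply hu.2
        have e : u = 1 := by linear_combination -h
        rw [e]
        exact IsSquare.one
      · intro h
        apply hu.2
        have e : u = 0 := by linear_combination -h
        rw [e]
        exact IsSquare.zero
    · intro x _ y _ h
      exact sub_right_injective h
  have h3 : (Finset.univ.filter (fun x : K => IsSquare x ∧ x ≠ 0 ∧ x ≠ 1)).card <
      (Finset.univ.filter (fun x : K => IsSquare x ∧ x ≠ 0)).card := by
    apply Finset.card_lt_card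
    rw [Finset.ssubset_iff_of_subset]
    · refine ⟨1, ?_, ?_⟩
      · rw [Finset.mem_filter]
        exact ⟨Finset.mem_univ _, IsSquare.one, one_ne_zero⟩
      · rw [Finset.mem_filter]
        exact fun h => h.2.2.2 rfl
    · intro x hx
      rw [Finset.mem_filter] at hx ⊢
      exact ⟨hx.1, hx.2.1, hx.2.2.1⟩
  omega

/-- every nonzero element of a finite field is a square or a square times a fixed element -/
theorem exists_gen_sq [Finite K] : ∃ v : K, v ≠ 0 ∧ ∀ t : K, t ≠ 0 →
    ∃ a : K, a ≠ 0 ∧ (t = a ^ 2 ∨ t = a ^ 2 * v) := by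
  obtain ⟨g, hg⟩ := IsCyclic.exists_generator (α := Kˣ)
  refine ⟨(g : K), g.ne_zero, fun t ht => ?_⟩
  obtain ⟨n, hn⟩ := Subgroup.mem_zpowers_iff.mp (hg (Units.mk0 t ht))
  rcases Int.even_or_odd' n with ⟨k, rfl | rfl⟩
  · refine ⟨((g ^ k : Kˣ) : K), Units.ne_zero _, Or.inl ?_⟩
    have h1 : Units.mk0 t ht = (g ^ k) ^ 2 := by
      rw [← hn, zpow_mul', zpow_ofNat]
    have h2 := congrArg Units.val h1
    rw [Units.val_mk0, Units.val_pow_eq_pow_val] at h2
    exact h2
  · refine ⟨((g ^ k : Kˣ) : K), Units.ne_zero _, Or.inr ?_⟩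
    have h1 : Units.mk0 t ht = (g ^ k) ^ 2 * g := by
      rw [← hn, zpow_add, zpow_one, zpow_mul', zpow_ofNat]
    have h2 := congrArg Units.val h1
    rw [Units.val_mk0, Units.val_mul, Units.val_pow_eq_pow_val] at h2
    exact h2

/-- a function on a finite field that is multiplicative on squares and on one pair
`((1 - u)⁻¹, u)` for every `u`, with commuting values, is multiplicative -/
theorem mul_of_sq_rel [Finite K] (h : K → Γ)
    (hc : ∀ t u : K, t ≠ 0 → u ≠ 0 → h t * h u = h u * h t)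
    (hS : ∀ a u : K, a ≠ 0 → u ≠ 0 → h (a ^ 2 * u) = h (a ^ 2) * h u)
    (hd : ∀ u : K, u ≠ 0 → u ≠ 1 → h ((1 - u)⁻¹) * h u = h ((1 - u)⁻¹ * u))
    (t u : K) (ht : t ≠ 0) (hu : u ≠ 0) : h t * h u = h (t * u) := by
  obtain ⟨v, hv0, hdich⟩ := exists_gen_sq (K := K)
  have hv2 : v ^ 2 ≠ 0 := pow_ne_zero 2 hv0
  have hprod : ∀ a b : K, a ≠ 0 → b ≠ 0 →
      h (a ^ 2 * v) * h (b ^ 2 * v) = h (a ^ 2) * (h (b ^ 2) * (h v * h v)) := by
    intro a b ha0 hb0
    rw [hS a v ha0 hv0, hS b v hb0 hv0, mul_assoc, ← mul_assoc (h v),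
      hc v (b ^ 2) hv0 (pow_ne_zero 2 hb0), mul_assoc]
  have hprod2 : ∀ a b : K, a ≠ 0 → b ≠ 0 →
      h (a ^ 2 * v * (b ^ 2 * v)) = h (a ^ 2) * (h (b ^ 2) * h (v ^ 2)) := by
    intro a b ha0 hb0
    rw [show a ^ 2 * v * (b ^ 2 * v) = a ^ 2 * (b ^ 2 * v ^ 2) by ring,
      hS a _ ha0 (mul_ne_zero (pow_ne_zero 2 hb0) hv2), hS b _ hb0 hv2]
  have hE : h v * h v = h (v ^ 2) := by
    by_cases hsq : IsSquare v
    · obtain ⟨c, hc'⟩ := hsq
      have hc0 : c ≠ 0 := by
        rintro rfl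
        exact hv0 (by rw [hc', mul_zero])
      have e : v = c ^ 2 := by rw [hc', sq]
      calc h v * h v = h (c ^ 2) * h v := by rw [← e]
        _ = h (c ^ 2 * v) := (hS c v hc0 hv0).symm
        _ = h (v ^ 2) := by rw [← e, sq]
    · obtain ⟨u₀, hu₀, hu₀'⟩ := exists_nonsq_pair v hsq
      have hu00 : u₀ ≠ 0 := by
        rintro rfl
        exact hu₀ IsSquare.zero
      have hu01 : u₀ ≠ 1 := by
        rintro rfl
        exact hu₀ IsSquare.one
      have h1u : 1 - u₀ ≠ 0 := by
        intro h0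
        apply hu₀'
        rw [h0]
        exact IsSquare.zero
      obtain ⟨b, hb0, hb | hb⟩ := hdich u₀ hu00
      · exact absurd ⟨b, by rw [hb, sq]⟩ hu₀
      obtain ⟨a, ha0, ha | ha⟩ := hdich (1 - u₀)⁻¹ (inv_ne_zero h1u)
      · exfalso
        apply hu₀'
        refine ⟨a⁻¹, ?_⟩
        rw [← mul_inv, ← sq, ← ha, inv_inv]
      have e := hd u₀ hu00 hu01
      rw [ha] at e
      rw [hb] at e
      rw [hprod a b ha0 hb0, hprod2 a b ha0 hb0] at e
      exact mul_left_cancel (mul_left_cancel e)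
  obtain ⟨a, ha0, ha | ha⟩ := hdich t ht
  · rw [ha]
    exact (hS a u ha0 hu).symm
  · obtain ⟨b, hb0, hb | hb⟩ := hdich u hu
    · rw [hc t u ht hu, hb, mul_comm t (b ^ 2)]
      exact (hS b t hb0 ht).symm
    · rw [ha, hb, hprod a b ha0 hb0, hprod2 a b ha0 hb0, hE]

/-- `t ↦ h_r(t)` as a homomorphism -/
noncomputable def hUhom (D : ChevalleyDatum)
    (hD : D ∈ [chevG2, chevB2, chevD4, chevF4, chevE6, chevE7, chevE8]) (r : ℕ)
    (hr : r < D.nroots) : Kˣ →* GL D.Idx K where
  toFun t := hU D hD r (t : K)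
  map_one' := hU_one D hD r hr
  map_mul' s t := by
    rw [Units.val_mul]
    exact (hU_mul D hD r hr (s : K) (t : K) s.ne_zero t.ne_zero).symm

theorem zpow_neg_two (s : K) : s ^ (-2 : ℤ) = (s ^ 2)⁻¹ := by
  rw [zpow_neg, zpow_ofNat]

section rank1

variable {D : ChevalleyDatum} (hD : D ∈ [chevG2, chevB2, chevD4, chevF4, chevE6, chevE7, chevE8])
  {X : ℕ → K → Γ} (hX : Rel D X) (π : Γ →* GL D.Idx K)
  (hπ : ∀ r < D.nroots, ∀ t, π (X r t) = xU D hD r t)

include hX in
/-- `n_r(t) = h_r(t) n_r(1)` -/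
theorem nG_eq_hG_mul (r : ℕ) (t : K) : nG D X r t = hG D X r t * nG D X r 1 := by
  unfold hG
  rw [mul_assoc, ← nG_inv hX, inv_mul_cancel, mul_one]

include hX hπ

/-- `n_p(1) x_p(u) = x_{-p}(-u) n_p(1)` and `n_p(1) x_{-p}(u) = x_p(-u) n_p(1)` -/
theorem nG_one_X (i : ℕ) (hi : i < D.rank) (u : K) :
    nG D X (D.simple i) 1 * X (D.simple i) u =
        X (D.neg (D.simple i)) (-u) * nG D X (D.simple i) 1 ∧
      nG D X (D.simple i) 1 * X (D.neg (D.simple i)) u =
        X (D.simple i) (-u) * nG D X (D.simple i) 1 := by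
  have hα := simple_lt_nroots D hD i hi
  obtain ⟨c, hc, e1, e2⟩ := nG_one_mul_X hD hX π hπ i hi _ hα
  rw [reflectRoot_simple] at e1 e2
  rw [neg_neg_eq D hD _ hα] at e2
  have hc1 : c = -1 := by
    have h1 := congrArg π (e1 1)
    rw [map_mul, map_mul, hπ _ hα, hπ _ (neg_lt_nroots D hD _ hα), pi_nG hD π hπ _ hα, nT_one,
      nU_mul_xU_self D hD _ hα 1, mul_one] at h1
    exact (xU_inj D hD _ (neg_lt_nroots D hD _ hα) _ _ (mul_right_cancel h1)).symm
  subst hc1
  refine ⟨?_, ?_⟩
  · have h1 := e1 u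
    rwa [neg_one_mul] at h1
  · have h1 := e2 u
    rwa [inv_neg_one, neg_one_mul] at h1

/-- `n_p(s) x_p(u) = x_{-p}(-u/s²) n_p(s)` -/
theorem nG_X (i : ℕ) (hi : i < D.rank) (s : K) (hs : s ≠ 0) (u : K) :
    nG D X (D.simple i) s * X (D.simple i) u =
      X (D.neg (D.simple i)) (-(u / s ^ 2)) * nG D X (D.simple i) s := by
  have hα := simple_lt_nroots D hD i hi
  calc nG D X (D.simple i) s * X (D.simple i) u
      = hG D X (D.simple i) s * (nG D X (D.simple i) 1 * X (D.simple i) u) := by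
        rw [nG_eq_hG_mul hX _ s, mul_assoc]
    _ = hG D X (D.simple i) s * X (D.neg (D.simple i)) (-u) * nG D X (D.simple i) 1 := by
        rw [(nG_one_X hD hX π hπ i hi u).1, mul_assoc]
    _ = X (D.neg (D.simple i)) (s ^ dotCA D (D.simple i) (D.neg (D.simple i)) * -u) *
          (hG D X (D.simple i) s * nG D X (D.simple i) 1) := by
        rw [hG_mul_X hD hX π hπ i hi s hs _ (neg_lt_nroots D hD _ hα), mul_assoc]
    _ = _ := by
        rw [← nG_eq_hG_mul hX, dotCA_neg D hD _ _ hα, dotCA_self D hD _ hα, zpow_neg_two]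
        congr 2
        field_simp

/-- `n_p(s) x_{-p}(u) = x_p(-s² u) n_p(s)` -/
theorem nG_Xneg (i : ℕ) (hi : i < D.rank) (s : K) (hs : s ≠ 0) (u : K) :
    nG D X (D.simple i) s * X (D.neg (D.simple i)) u =
      X (D.simple i) (-(s ^ 2 * u)) * nG D X (D.simple i) s := by
  have hα := simple_lt_nroots D hD i hi
  calc nG D X (D.simple i) s * X (D.neg (D.simple i)) u
      = hG D X (D.simple i) s * (nG D X (D.simple i) 1 * X (D.neg (D.simple i)) u) := by
        rw [nG_eq_hG_mul hX _ s, mul_assoc]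
    _ = hG D X (D.simple i) s * X (D.simple i) (-u) * nG D X (D.simple i) 1 := by
        rw [(nG_one_X hD hX π hπ i hi u).2, mul_assoc]
    _ = X (D.simple i) (s ^ dotCA D (D.simple i) (D.simple i) * -u) *
          (hG D X (D.simple i) s * nG D X (D.simple i) 1) := by
        rw [hG_mul_X hD hX π hπ i hi s hs _ hα, mul_assoc]
    _ = _ := by
        rw [← nG_eq_hG_mul hX, dotCA_self D hD _ hα, zpow_ofNat]
        congr 2
        ring

/-- `h_p(t) h_p(u) = h_p(t² u) h_p(t²)⁻¹ h_p(t)` -/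
theorem hG_mul_hG_sq (i : ℕ) (hi : i < D.rank) (t u : K) (ht : t ≠ 0) :
    hG D X (D.simple i) t * hG D X (D.simple i) u =
      hG D X (D.simple i) (t ^ 2 * u) * (hG D X (D.simple i) (t ^ 2))⁻¹ *
        hG D X (D.simple i) t := by
  have hα := simple_lt_nroots D hD i hi
  have e1 := hG_mul_nG hD hX π hπ i hi t ht _ hα u
  have e2 := hG_mul_nG hD hX π hπ i hi t ht _ hα (-1)
  rw [dotCA_self D hD _ hα, zpow_ofNat] at e1 e2
  have e3 : nG D X (D.simple i) (t ^ 2 * -1) = (nG D X (D.simple i) (t ^ 2))⁻¹ := by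
    rw [nG_inv hX, mul_neg_one]
  calc hG D X (D.simple i) t * hG D X (D.simple i) u
      = (hG D X (D.simple i) t * nG D X (D.simple i) u) * nG D X (D.simple i) (-1) := by
        rw [mul_assoc]; rfl
    _ = nG D X (D.simple i) (t ^ 2 * u) *
          (hG D X (D.simple i) t * nG D X (D.simple i) (-1)) := by rw [e1, mul_assoc]
    _ = nG D X (D.simple i) (t ^ 2 * u) * (nG D X (D.simple i) (t ^ 2))⁻¹ *
          hG D X (D.simple i) t := by rw [e2, e3, mul_assoc]
    _ = _ := by rw [nG_mul_inv]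

/-- `n_p((1-u)⁻¹) n_p(-1) n_p(u) = n_p(u (1-u)⁻¹)` -/
theorem nG_rel (i : ℕ) (hi : i < D.rank) (u : K) (hu0 : u ≠ 0) (hu1 : u ≠ 1) :
    nG D X (D.simple i) (1 - u)⁻¹ * nG D X (D.simple i) (-1) * nG D X (D.simple i) u =
      nG D X (D.simple i) (u * (1 - u)⁻¹) := by
  have hm1 : (-1 : K) ≠ 0 := neg_ne_zero.mpr one_ne_zero
  have hu1' : u - 1 ≠ 0 := sub_ne_zero.mpr hu1
  have h1u : 1 - u ≠ 0 := sub_ne_zero.mpr (Ne.symm hu1)
  have hb : (1 + -u⁻¹ : K) = (u - 1) * u⁻¹ := by
    rw [sub_mul, mul_inv_cancel₀ hu0, one_mul, sub_eq_add_neg]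
  have hb0 : (1 + -u⁻¹ : K) ≠ 0 := by
    rw [hb]
    exact mul_ne_zero hu1' (inv_ne_zero hu0)
  have hbinv : (1 + -u⁻¹ : K)⁻¹ = u * (u - 1)⁻¹ := by
    rw [hb, mul_inv, inv_inv, mul_comm]
  have e0 := hX.add (D.neg (D.simple i)) 1 (-u⁻¹)
  have y1 : X (D.neg (D.simple i)) 1 =
      X (D.simple i) 1 * nG D X (D.simple i) (-1) * X (D.simple i) 1 := by
    have h1 := X_neg_eq hX (D.simple i) 1 one_ne_zero
    rwa [inv_one] at h1
  have y2 : X (D.neg (D.simple i)) (-u⁻¹) =
      X (D.simple i) (-u) * nG D X (D.simple i) u * X (D.simple i) (-u) := by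
    have h1 := X_neg_eq hX (D.simple i) (-u⁻¹) (neg_ne_zero.mpr (inv_ne_zero hu0))
    rwa [inv_neg, inv_inv, neg_neg] at h1
  have y3 := X_neg_eq hX (D.simple i) (u - 1) hu1'
  have y4 := X_neg_eq hX (D.simple i) (1 + -u⁻¹) hb0
  rw [hbinv] at y4
  have s1 : nG D X (D.simple i) (-1) * X (D.simple i) (1 + -u) =
      X (D.neg (D.simple i)) (u - 1) * nG D X (D.simple i) (-1) := by
    rw [nG_X hD hX π hπ i hi (-1) hm1]
    congr 2
    ring
  have s2 : ∀ v : K, (nG D X (D.simple i) (-1) * nG D X (D.simple i) u) *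
      X (D.simple i) (u ^ 2 * v) =
      X (D.simple i) v * (nG D X (D.simple i) (-1) * nG D X (D.simple i) u) := by
    intro v
    rw [mul_assoc, nG_X hD hX π hπ i hi u hu0, ← mul_assoc, nG_Xneg hD hX π hπ i hi (-1) hm1,
      mul_assoc]
    congr 2
    field_simp
  have main : X (D.simple i) (u * (u - 1)⁻¹) *
      (nG D X (D.simple i) (1 - u)⁻¹ * nG D X (D.simple i) (-1) * nG D X (D.simple i) u) *
        X (D.simple i) (u * (u - 1)⁻¹) =
      X (D.simple i) (u * (u - 1)⁻¹) * nG D X (D.simple i) (-(u * (u - 1)⁻¹)) *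
        X (D.simple i) (u * (u - 1)⁻¹) := by
    rw [← y4, ← e0, y1, y2]
    symm
    calc X (D.simple i) 1 * nG D X (D.simple i) (-1) * X (D.simple i) 1 *
          (X (D.simple i) (-u) * nG D X (D.simple i) u * X (D.simple i) (-u))
        = X (D.simple i) 1 * (nG D X (D.simple i) (-1) *
            (X (D.simple i) 1 * X (D.simple i) (-u))) * nG D X (D.simple i) u *
              X (D.simple i) (-u) := by simp only [mul_assoc]
      _ = X (D.simple i) 1 * (X (D.neg (D.simple i)) (u - 1) * nG D X (D.simple i) (-1)) *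
            nG D X (D.simple i) u * X (D.simple i) (-u) := by rw [hX.add, s1]
      _ = (X (D.simple i) 1 * X (D.simple i) (u - 1)⁻¹) * nG D X (D.simple i) (-(u - 1)⁻¹) *
            (X (D.simple i) (u - 1)⁻¹ *
              (nG D X (D.simple i) (-1) * nG D X (D.simple i) u)) * X (D.simple i) (-u) := by
          rw [y3]
          simp only [mul_assoc]
      _ = X (D.simple i) (1 + (u - 1)⁻¹) * nG D X (D.simple i) (-(u - 1)⁻¹) *
            ((nG D X (D.simple i) (-1) * nG D X (D.simple i) u) *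
              X (D.simple i) (u ^ 2 * (u - 1)⁻¹)) * X (D.simple i) (-u) := by
          rw [hX.add, ← s2]
      _ = X (D.simple i) (1 + (u - 1)⁻¹) * (nG D X (D.simple i) (-(u - 1)⁻¹) *
            nG D X (D.simple i) (-1) * nG D X (D.simple i) u) *
              (X (D.simple i) (u ^ 2 * (u - 1)⁻¹) * X (D.simple i) (-u)) := by
          simp only [mul_assoc]
      _ = _ := by
          rw [hX.add]
          have a1 : (1 : K) + (u - 1)⁻¹ = u * (u - 1)⁻¹ := by field_simp; ring
          have a2 : u ^ 2 * (u - 1)⁻¹ + -u = u * (u - 1)⁻¹ := by field_simp; ring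
          have a3 : -(u - 1)⁻¹ = (1 - u)⁻¹ := by rw [← inv_neg, neg_sub]
          rw [a1, a2, a3]
  have h2 := mul_left_cancel (mul_right_cancel main)
  rw [h2]
  congr 1
  rw [← mul_neg, ← inv_neg, neg_sub]

/-- `h_p((1-u)⁻¹) h_p(u) = h_p((1-u)⁻¹ u)` -/
theorem hG_rel (i : ℕ) (hi : i < D.rank) (u : K) (hu0 : u ≠ 0) (hu1 : u ≠ 1) :
    hG D X (D.simple i) (1 - u)⁻¹ * hG D X (D.simple i) u =
      hG D X (D.simple i) ((1 - u)⁻¹ * u) := by
  have h1 := nG_rel hD hX π hπ i hi u hu0 hu1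
  calc hG D X (D.simple i) (1 - u)⁻¹ * hG D X (D.simple i) u
      = (nG D X (D.simple i) (1 - u)⁻¹ * nG D X (D.simple i) (-1) * nG D X (D.simple i) u) *
          nG D X (D.simple i) (-1) := by
        unfold hG
        simp only [mul_assoc]
    _ = _ := by
        rw [h1, mul_comm u]
        rfl

/-- the `h_p(t)` commute over a finite field -/
theorem hG_comm_of_finite [Finite K] (hgen : ∀ x : Γ, x ∈ gen X {r | r < D.nroots}) (i : ℕ)
    (hi : i < D.rank) (t u : K) (ht : t ≠ 0) (hu : u ≠ 0) :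
    hG D X (D.simple i) t * hG D X (D.simple i) u =
      hG D X (D.simple i) u * hG D X (D.simple i) t := by
  have hα := simple_lt_nroots D hD i hi
  obtain ⟨g, hg⟩ := IsCyclic.exists_generator (α := Kˣ)
  have key : ∀ t : K, t ≠ 0 → ∃ z ∈ Subgroup.center Γ, ∃ n : ℤ,
      hG D X (D.simple i) t = z * (hG D X (D.simple i) (g : K)) ^ n := by
    intro t ht
    obtain ⟨n, hn⟩ := Subgroup.mem_zpowers_iff.mp (hg (Units.mk0 t ht))
    have h1 : π (hG D X (D.simple i) t) = π ((hG D X (D.simple i) (g : K)) ^ n) := by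
      rw [map_zpow, pi_hG hD π hπ _ hα, pi_hG hD π hπ _ hα]
      have h2 := map_zpow (hUhom (K := K) D hD _ hα) g n
      rw [hn] at h2
      exact h2
    refine ⟨hG D X (D.simple i) t * ((hG D X (D.simple i) (g : K)) ^ n)⁻¹,
      (ker_mem hD hX π hπ hgen _ (by rw [map_mul, map_inv, h1, mul_inv_cancel])).2, n, ?_⟩
    rw [inv_mul_cancel_right]
  obtain ⟨z, hz, n, e⟩ := key t ht
  obtain ⟨z', hz', n', e'⟩ := key u hu
  rw [e, e']
  have c1 : ∀ y : Γ, Commute z y := fun y => (Subgroup.mem_center_iff.mp hz y).symm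
  have c2 : ∀ y : Γ, Commute z' y := fun y => (Subgroup.mem_center_iff.mp hz' y).symm
  exact (Commute.mul_left (c1 _) (Commute.mul_right (c2 _).symm
    (Commute.zpow_zpow_self _ n n'))).eq

/-- (R3) for the fundamental roots over a finite field -/
theorem hG_mul_of_finite [Finite K] (hgen : ∀ x : Γ, x ∈ gen X {r | r < D.nroots}) (i : ℕ)
    (hi : i < D.rank) (t u : K) (ht : t ≠ 0) (hu : u ≠ 0) :
    hG D X (D.simple i) t * hG D X (D.simple i) u = hG D X (D.simple i) (t * u) := by
  refine mul_of_sq_rel (fun t => hG D X (D.simple i) t)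
    (fun t u ht hu => hG_comm_of_finite hD hX π hπ hgen i hi t u ht hu) ?_
    (fun u hu0 hu1 => hG_rel hD hX π hπ i hi u hu0 hu1) t u ht hu
  intro a u ha hu
  have ha2 : a ^ 2 ≠ 0 := pow_ne_zero 2 ha
  have h1 := hG_mul_hG_sq hD hX π hπ i hi a u ha
  rw [hG_comm_of_finite hD hX π hπ hgen i hi a u ha hu] at h1
  have h2 := mul_right_cancel h1
  show hG D X (D.simple i) (a ^ 2 * u) = hG D X (D.simple i) (a ^ 2) * hG D X (D.simple i) u
  rw [hG_comm_of_finite hD hX π hπ hgen i hi (a ^ 2) u ha2 hu, h2, inv_mul_cancel_right]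

/-- (R3) for all roots over a finite field -/
theorem R3_of_finite [Finite K] (hgen : ∀ x : Γ, x ∈ gen X {r | r < D.nroots}) (r : ℕ)
    (hr : r < D.nroots) (t u : K) (ht : t ≠ 0) (hu : u ≠ 0) :
    hG D X r t * hG D X r u = hG D X r (t * u) := by
  have hstep : ∀ i < D.rank, ∀ s < D.nroots,
      (∀ t u : K, t ≠ 0 → u ≠ 0 → hG D X s t * hG D X s u = hG D X s (t * u)) →
      ∀ t u : K, t ≠ 0 → u ≠ 0 → hG D X (D.reflectRoot i s) t * hG D X (D.reflectRoot i s) u =
        hG D X (D.reflectRoot i s) (t * u) := by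
    intro i hi s hs ih
    obtain ⟨c, hc, hconj⟩ := nG_one_conj_nG hD hX π hπ i hi s hs
    have hv : ∀ v : K, nG D X (D.reflectRoot i s) v =
        nG D X (D.simple i) 1 * nG D X s (c⁻¹ * v) * (nG D X (D.simple i) 1)⁻¹ := by
      intro v
      rw [← hconj, mul_inv_cancel_left₀ hc]
    have hh : ∀ t : K, t ≠ 0 → hG D X (D.reflectRoot i s) t =
        nG D X (D.simple i) 1 * hG D X s t * (nG D X (D.simple i) 1)⁻¹ := by
      intro t ht
      have e2 : hG D X (D.reflectRoot i s) t =
          nG D X (D.reflectRoot i s) t * nG D X (D.reflectRoot i s) (-1) := rfl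
      have e0 : nG D X s (c⁻¹ * -1) = (nG D X s c⁻¹)⁻¹ := by rw [nG_inv hX, mul_neg_one]
      have e1 : nG D X s (c⁻¹ * t) * (nG D X s c⁻¹)⁻¹ = hG D X s t := by
        rw [nG_mul_inv, mul_comm c⁻¹ t, ← ih t c⁻¹ ht (inv_ne_zero hc), mul_inv_cancel_right]
      rw [e2, hv t, hv (-1), e0, ← e1]
      group
    intro t u ht hu
    rw [hh t ht, hh u hu, hh (t * u) (mul_ne_zero ht hu), ← ih t u ht hu]
    group
  have hsimple : ∀ j < D.rank, ∀ t u : K, t ≠ 0 → u ≠ 0 →
      hG D X (D.simple j) t * hG D X (D.simple j) u = hG D X (D.simple j) (t * u) :=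
    fun j hj t u ht hu => hG_mul_of_finite hD hX π hπ hgen j hj t u ht hu
  have key : ∀ r, Cfsg.Agent.Lib.Helper36.Reach D r → r < D.nroots →
      ∀ t u : K, t ≠ 0 → u ≠ 0 → hG D X r t * hG D X r u = hG D X r (t * u) := by
    intro r hr
    induction hr with
    | simple j hj => exact fun _ => hsimple j hj
    | negSimple j hj =>
      intro _
      rw [← reflectRoot_simple]
      exact hstep j hj _ (simple_lt_nroots D hD j hj) (hsimple j hj)
    | refl i hi s hs h ih => exact fun _ => hstep i hi s hs (ih hs)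
  exact key r (Cfsg.Agent.Lib.Helper36.reach_all D hD r hr) hr t u ht hu

end rank1

/-- the relations (R3) hold in the group presented by (R1), (R2) over a finite field -/
theorem cover_R3 [Finite K] {D : ChevalleyDatum}
    (hD : D ∈ [chevG2, chevB2, chevD4, chevF4, chevE6, chevE7, chevE8]) (r : ℕ)
    (hr : r < D.nroots) (t u : K) (ht : t ≠ 0) (hu : u ≠ 0) :
    hG D (XP D (D.steinbergRelsAB K)) r t * hG D (XP D (D.steinbergRelsAB K)) r u =
      hG D (XP D (D.steinbergRelsAB K)) r (t * u) := by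
  classical
  have hgen : ∀ (r : ℕ) (t : K), r < D.nroots →
      (((PresentedGroup.toGroup (relsAB_lift (K := K) D hD))
        (XP D (D.steinbergRelsAB K) r t) : GL D.Idx K) : Matrix D.Idx D.Idx K) = D.x K r t := by
    intro r t _
    have h1 := lift_stX (K := K) D hD r t
    have h2 := congrArg Units.val h1
    rw [coe_xU] at h2
    exact h2
  exact R3_of_finite hD (pres_rel D _ (fun g hg => hg))
    ((D.group K).subtype.comp (PresentedGroup.toGroup (relsAB_lift (K := K) D hD)))
    (fun r hr t => by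
      apply Units.ext
      rw [coe_xU]
      exact hgen r t hr) (pres_gen D _) r hr t u ht hu

/-- over a finite field the groups presented by (R1), (R2) and by (R1), (R2), (R3) coincide -/
theorem cover_equiv [Finite K] {D : ChevalleyDatum}
    (hD : D ∈ [chevG2, chevB2, chevD4, chevF4, chevE6, chevE7, chevE8]) :
    ∃ e : D.SteinbergCover K ≃* D.SteinbergGroup K,
      ∀ (r : ℕ) (t : K), e (D.scGen K r t) = D.stGen K r t := by
  have hsub : D.steinbergRelsAB K ⊆ D.steinbergRels K := fun g hg => Or.inl hg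
  have hl1 : FreeGroup.lift (fun p => PresentedGroup.of (rels := D.steinbergRels K) p) =
      PresentedGroup.mk (D.steinbergRels K) := by
    ext p
    simp [PresentedGroup.of]
  have hl2 : FreeGroup.lift (fun p => PresentedGroup.of (rels := D.steinbergRelsAB K) p) =
      PresentedGroup.mk (D.steinbergRelsAB K) := by
    ext p
    simp [PresentedGroup.of]
  have hf : ∀ r ∈ D.steinbergRelsAB K,
      FreeGroup.lift (fun p => PresentedGroup.of (rels := D.steinbergRels K) p) r = 1 := by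
    intro r hr
    rw [hl1]
    exact PresentedGroup.one_of_mem (hsub hr)
  have hb : ∀ r ∈ D.steinbergRels K,
      FreeGroup.lift (fun p => PresentedGroup.of (rels := D.steinbergRelsAB K) p) r = 1 := by
    intro g hg
    rw [hl2]
    rcases hg with hg | ⟨r, t₁, t₂, hr, ht₁, ht₂, rfl⟩
    · exact PresentedGroup.one_of_mem hg
    · rw [map_mul, map_mul, map_inv, mk_stH, mk_stH, mk_stH, cover_R3 hD r hr t₁ t₂ ht₁ ht₂,
        mul_inv_cancel]
  refine ⟨MonoidHom.toMulEquiv (PresentedGroup.toGroup hf) (PresentedGroup.toGroup hb) ?_ ?_, ?_⟩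
  · apply PresentedGroup.ext
    intro p
    rw [MonoidHom.comp_apply, PresentedGroup.toGroup.of, PresentedGroup.toGroup.of]
    rfl
  · apply PresentedGroup.ext
    intro p
    rw [MonoidHom.comp_apply, PresentedGroup.toGroup.of, PresentedGroup.toGroup.of]
    rfl
  · intro r t
    have h1 : (PresentedGroup.toGroup hf).comp (PresentedGroup.mk (D.steinbergRelsAB K)) =
        PresentedGroup.mk (D.steinbergRels K) := by
      ext p
      exact PresentedGroup.toGroup.of hf
    exact DFunLike.congr_fun h1 (D.stX r t)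

end Cfsg.Agent.Lib.Helper18.StAbs
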