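import Cfsg.Agent.Lib.Helper18.StTorus
import Cfsg.Agent.Lib.Helper18.ChevWeylG2
import Cfsg.Agent.Lib.Helper18.ChevWeylB2
import Cfsg.Agent.Lib.Helper18.ChevWeylD4
import Cfsg.Agent.Lib.Helper18.ChevWeylF4
import Cfsg.Agent.Lib.Helper18.ChevWeylE6
import Cfsg.Agent.Lib.Helper18.ChevWeylE7
import Cfsg.Agent.Lib.Helper18.ChevWeylE8

/-!
# `N̂ / Ĥ` is the Coxeter group of the Dynkin diagram

In a group `Γ` generated by root elements with the relations (R1) and (R2), mapped to the Chevalley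
group by `π`: an element of `N̂` mapped to the identity lies in `Ĥ`.
-/

set_option autoImplicit false

namespace Cfsg.Agent.Lib.Helper18.StAbs

open Cfsg Cfsg.Lie Cfsg.Lie.ChevalleyDatum Cfsg.Agent.Lib.Helper17 Cfsg.Agent.Lib.Helper18
open Cfsg.Agent.Lib.Helper19.Cox

variable {K : Type*} [Field K] {Γ : Type*} [Group Γ]

section weyl

variable {D : ChevalleyDatum} (hD : D ∈ [chevG2, chevB2, chevD4, chevF4, chevE6, chevE7, chevE8])
  {X : ℕ → K → Γ} (hX : Rel D X) (π : Γ →* GL D.Idx K)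
  (hπ : ∀ r < D.nroots, ∀ t, π (X r t) = xU D hD r t)

include hX hπ

theorem H0_normal : ((H0 D X).subgroupOf (NG D X)).Normal := by
  constructor
  intro h hh g
  rw [Subgroup.mem_subgroupOf] at hh ⊢
  exact (NG_conj_H0 hD hX π hπ g.1 g.2 h.1 hh).1

/-- the elements `n_s(1)` of `N̂` -/
noncomputable def nuG (s : ℕ) : ↥(NG D X) :=
  if h : s < D.nroots then ⟨nG D X s 1, (reach_mem hD hX π hπ s h 1 one_ne_zero).1⟩ else 1

theorem coe_nuG (s : ℕ) (hs : s < D.nroots) :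
    ((nuG hD hX π hπ s : ↥(NG D X)) : Γ) = nG D X s 1 := by
  rw [nuG, dif_pos hs]

/-- the homomorphism from `N̂` to the monomial subgroup -/
noncomputable def toMono : ↥(NG D X) →* ↥(D.monomialSubgroup K) :=
  (π.comp (NG D X).subtype).codRestrict (D.monomialSubgroup K)
    (fun n => pi_NG_mem hD hX π hπ n.1 n.2)

/-- an element of `N̂` mapped to the identity lies in `Ĥ`, given the braid check and a faithful
permutation representation of the Coxeter group matching the action on the roots -/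
theorem st_weyl {n : ℕ} (hn : n = D.rank) (M : CoxeterMatrix (Fin n))
    (hbraid : ∀ i j : Fin n, (i = j → M i j = 1) ∧
      (i ≠ j → braidOK D.reflectRoot i j (D.simple i) (D.simple j) (M i j) = true))
    (ρ : M.Group →* Equiv.Perm ℕ) (hρ : Function.Injective ρ)
    (act : ℕ → ℕ → ℕ) (d : ℕ) (q : ℕ → ℕ)
    (hρs : ∀ (j : Fin n) (x : ℕ), ρ (M.simple j) x = act (q j) x)
    (hact : ∀ i x, d ≤ x → act i x = x)
    (mem : ℕ → ℕ → Bool)
    (heq1 : ∀ (j : Fin n), ∀ x < d, ∀ s < D.nroots, mem x s = true →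
      mem (act (q j) x) (D.reflectRoot j s) = true)
    (hsep : ∀ x < d, ∀ y < d, (∀ s < D.nroots, mem x s = mem y s) → x = y)
    (z : Γ) (hz : z ∈ NG D X) (hz1 : π z = 1) : z ∈ H0 D X := by
  have hnorm := H0_normal hD hX π hπ
  set HN : Subgroup ↥(NG D X) := (H0 D X).subgroupOf (NG D X) with hHN
  have hlt_i : ∀ i : Fin n, (i : ℕ) < D.rank := fun i => hn ▸ i.2
  have hps : ∀ i : Fin n, D.simple i < D.nroots := fun i => simple_lt_nroots D hD i (hlt_i i)
  set ν : Fin n → ↥(NG D X) := fun i => nuG hD hX π hπ (D.simple i) with hν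
  have hrlt : ∀ (i : Fin n), ∀ s < D.nroots, D.reflectRoot i s < D.nroots :=
    fun i => (reflect_facts D hD i (hlt_i i)).1
  have hrinv : ∀ (i : Fin n), ∀ s < D.nroots, D.reflectRoot i (D.reflectRoot i s) = s :=
    fun i => (reflect_facts D hD i (hlt_i i)).2.1
  have hconj : ∀ (i : Fin n), ∀ s < D.nroots,
      nuG hD hX π hπ (D.simple i) * nuG hD hX π hπ s * (nuG hD hX π hπ (D.simple i))⁻¹ *
        (nuG hD hX π hπ (D.reflectRoot i s))⁻¹ ∈ HN := by
    intro i s hs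
    obtain ⟨c, hc, e⟩ := nG_one_conj_nG hD hX π hπ i (hlt_i i) s hs
    rw [hHN, Subgroup.mem_subgroupOf]
    have e2 : ((nuG hD hX π hπ (D.simple i) * nuG hD hX π hπ s *
        (nuG hD hX π hπ (D.simple i))⁻¹ *
        (nuG hD hX π hπ (D.reflectRoot i s))⁻¹ : ↥(NG D X)) : Γ) =
        hG D X (D.reflectRoot i s) c * (hG D X (D.reflectRoot i s) 1)⁻¹ := by
      rw [Subgroup.coe_mul, Subgroup.coe_mul, Subgroup.coe_mul, Subgroup.coe_inv, Subgroup.coe_inv,
        coe_nuG hD hX π hπ _ (hps i), coe_nuG hD hX π hπ _ hs,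
        coe_nuG hD hX π hπ _ (hrlt i s hs), ← nG_mul_inv]
      have e1 := e 1
      rw [mul_one] at e1
      rw [e1]
    rw [e2]
    exact mul_mem (reach_mem hD hX π hπ _ (hrlt i s hs) c hc).2
      (inv_mem (reach_mem hD hX π hπ _ (hrlt i s hs) 1 one_ne_zero).2)
  have hsq : ∀ i : Fin n, ν i * ν i ∈ HN := by
    intro i
    rw [hHN, Subgroup.mem_subgroupOf, Subgroup.coe_mul, hν]
    show ((nuG hD hX π hπ (D.simple i) : ↥(NG D X)) : Γ) *
      ((nuG hD hX π hπ (D.simple i) : ↥(NG D X)) : Γ) ∈ H0 D X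
    rw [coe_nuG hD hX π hπ _ (hps i)]
    have e : nG D X (D.simple i) 1 * nG D X (D.simple i) 1 = (hG D X (D.simple i) (-1))⁻¹ := by
      unfold hG
      rw [mul_inv_rev, nG_inv hX, neg_neg]
    rw [e]
    exact inv_mem (Subgroup.subset_closure ⟨i, hlt_i i, -1, neg_ne_zero.mpr one_ne_zero, rfl⟩)
  have hrel : ∀ i j, (ν i * ν j) ^ (M i j) ∈ HN := by
    intro i j
    by_cases hij : i = j
    · subst hij
      rw [(hbraid i i).1 rfl, pow_one]
      exact hsq i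
    · exact rel_of_conj HN D.nroots (nuG hD hX π hπ) D.reflectRoot i j (D.simple i) (D.simple j)
        (hps i) (hps j) (hrlt i) (hrlt j) (hconj i) (hconj j) (hsq i) (hsq j) (M i j)
        ((hbraid i j).2 hij)
  have hgen : Subgroup.closure (Set.range ν) ⊔ HN = ⊤ := by
    rw [eq_top_iff]
    intro g _
    have hle : NG D X ≤ (Subgroup.closure (Set.range ν) ⊔ HN).map (NG D X).subtype := by
      refine (Subgroup.closure_le _).mpr ?_
      rintro y ⟨i, hi, t, ht, rfl⟩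
      have hh : hG D X (D.simple i) t ∈ H0 D X := Subgroup.subset_closure ⟨i, hi, t, ht, rfl⟩
      refine ⟨⟨hG D X (D.simple i) t, H0_le_NG hD hX π hπ hh⟩ * ν ⟨i, by rw [hn]; exact hi⟩,
        mul_mem (Subgroup.mem_sup_right (Subgroup.mem_subgroupOf.mpr hh))
          (Subgroup.mem_sup_left (Subgroup.subset_closure ⟨_, rfl⟩)), ?_⟩
      show hG D X (D.simple i) t * ((nuG hD hX π hπ (D.simple i) : ↥(NG D X)) : Γ) =
        nG D X (D.simple i) t
      rw [coe_nuG hD hX π hπ _ (simple_lt_nroots D hD i hi)]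
      unfold hG
      rw [mul_assoc, ← nG_inv hX, inv_mul_cancel, mul_one]
    obtain ⟨g', hg', e⟩ := hle g.2
    have e' : g' = g := Subtype.ext e
    rw [← e']
    exact hg'
  set πN : ↥(NG D X) →* Equiv.Perm ℕ := (piN D hD).comp (toMono hD hX π hπ) with hπN
  have hπ' : HN ≤ πN.ker := by
    intro g hg
    rw [MonoidHom.mem_ker]
    exact piN_of_mem_diagonal D hD _ (pi_H0_mem hD π hπ g.1 (Subgroup.mem_subgroupOf.mp hg))
  have hπν : ∀ j : Fin n, πN (ν j) = reflPerm D hD j (hlt_i j) := by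
    intro j
    refine piN_nU D hD j _ _ ?_
    show π ((nuG hD hX π hπ (D.simple j) : ↥(NG D X)) : Γ) = nU D hD (D.simple j)
    rw [coe_nuG hD hX π hπ _ (hps j), pi_nG hD π hπ _ (hps j), nT_one]
  have hinvol : ∀ (j : Fin n) (x : ℕ), act (q j) (act (q j) x) = x := by
    intro j x
    rw [← hρs, ← hρs, ← Equiv.Perm.mul_apply, ← map_mul]
    have h1 : M.simple j * M.simple j = 1 := by
      rw [← CoxeterMatrix.toCoxeterSystem_simple]
      exact CoxeterSystem.simple_mul_simple_self _ j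
    rw [h1, map_one]
    rfl
  have hactlt : ∀ (j : Fin n), ∀ x < d, act (q j) x < d := by
    intro j x hx
    by_contra hcon
    have h1 := hact (q j) _ (Nat.le_of_not_lt hcon)
    rw [hinvol] at h1
    rw [← h1] at hcon
    exact hcon hx
  have heq : ∀ (j : Fin n), ∀ x < d, ∀ s < D.nroots,
      mem (act (q j) x) (D.reflectRoot j s) = mem x s := by
    intro j x hx s hs
    rcases hb : mem x s with _ | _
    · rcases hb' : mem (act (q j) x) (D.reflectRoot j s) with _ | _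
      · rfl
      · have h1 := heq1 j _ (hactlt j x hx) _ (hrlt j s hs) hb'
        rw [hinvol, hrinv j s hs, hb] at h1
        exact absurd h1 (by simp)
    · exact heq1 j x hx s hs hb
  obtain ⟨φ, h1, h2, h3, h4⟩ := weyl_abs HN M ν hgen hrel πN hπ' ρ hρ act d q hρs hact
    D.nroots mem
    (fun j s hs => by
      rw [hπν, reflPerm_apply D hD j (hlt_i j) s hs]
      exact hrlt j s hs)
    (fun j x hx s hs => by
      rw [hπν, reflPerm_apply D hD j (hlt_i j) s hs]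
      exact heq j x hx s hs) hsep
  have h5 := h4 ⟨z, hz⟩ (fun s hs => by
    have h6 : toMono hD hX π hπ ⟨z, hz⟩ = 1 := Subtype.ext hz1
    show piN D hD (toMono hD hX π hπ ⟨z, hz⟩) s = s
    rw [h6, map_one]
    rfl)
  exact Subgroup.mem_subgroupOf.mp h5

end weyl

theorem st_weyl_G2 {X : ℕ → K → Γ}
    (hD : chevG2 ∈ [chevG2, chevB2, chevD4, chevF4, chevE6, chevE7, chevE8]) (hX : Rel chevG2 X)
    (π : Γ →* GL chevG2.Idx K) (hπ : ∀ r < chevG2.nroots, ∀ t, π (X r t) = xU chevG2 hD r t)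
    (z : Γ) (hz : z ∈ NG chevG2 X) (hz1 : π z = 1) : z ∈ H0 chevG2 X :=
  st_weyl hD hX π hπ (n := 2) rfl (CoxeterMatrix.G₂ : CoxeterMatrix (Fin 2)) braid_G2 UG2.rep
    UG2.rep_inj UG2.data.act 6 (fun j => j) UG2.rep_simple (fun i x h => UG2.data.act_of_ge i x h)
    (memOf memTG2 chevG2.nroots) heq_G2 hsep_G2 z hz hz1

theorem st_weyl_B2 {X : ℕ → K → Γ}
    (hD : chevB2 ∈ [chevG2, chevB2, chevD4, chevF4, chevE6, chevE7, chevE8]) (hX : Rel chevB2 X)
    (π : Γ →* GL chevB2.Idx K) (hπ : ∀ r < chevB2.nroots, ∀ t, π (X r t) = xU chevB2 hD r t)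
    (z : Γ) (hz : z ∈ NG chevB2 X) (hz1 : π z = 1) : z ∈ H0 chevB2 X :=
  st_weyl hD hX π hπ (n := 2) rfl (CoxeterMatrix.B 2 : CoxeterMatrix (Fin 2)) braid_B2 UB2.rep
    UB2.rep_inj UB2.data.act 4 (fun j => j) UB2.rep_simple (fun i x h => UB2.data.act_of_ge i x h)
    (memOf memTB2 chevB2.nroots) heq_B2 hsep_B2 z hz hz1

theorem st_weyl_D4 {X : ℕ → K → Γ}
    (hD : chevD4 ∈ [chevG2, chevB2, chevD4, chevF4, chevE6, chevE7, chevE8]) (hX : Rel chevD4 X)
    (π : Γ →* GL chevD4.Idx K) (hπ : ∀ r < chevD4.nroots, ∀ t, π (X r t) = xU chevD4 hD r t)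
    (z : Γ) (hz : z ∈ NG chevD4 X) (hz1 : π z = 1) : z ∈ H0 chevD4 X :=
  st_weyl hD hX π hπ (n := 4) rfl (Cfsg.Lie.coxeterD4 : CoxeterMatrix (Fin 4)) braid_D4 UD4.rep
    UD4.rep_inj UD4.data.act 24 (fun j => tget 0x2130 4 j) UD4.rep_simple
    (fun i x h => UD4.data.act_of_ge i x h)
    (memOf memTD4 chevD4.nroots) heq_D4 hsep_D4 z hz hz1

theorem st_weyl_F4 {X : ℕ → K → Γ}
    (hD : chevF4 ∈ [chevG2, chevB2, chevD4, chevF4, chevE6, chevE7, chevE8]) (hX : Rel chevF4 X)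
    (π : Γ →* GL chevF4.Idx K) (hπ : ∀ r < chevF4.nroots, ∀ t, π (X r t) = xU chevF4 hD r t)
    (z : Γ) (hz : z ∈ NG chevF4 X) (hz1 : π z = 1) : z ∈ H0 chevF4 X :=
  st_weyl hD hX π hπ (n := 4) rfl (CoxeterMatrix.F₄ : CoxeterMatrix (Fin 4)) braid_F4 UF4.rep
    UF4.rep_inj UF4.data.act 24 (fun j => j) UF4.rep_simple (fun i x h => UF4.data.act_of_ge i x h)
    (memOf memTF4 chevF4.nroots) heq_F4 hsep_F4 z hz hz1

theorem st_weyl_E6 {X : ℕ → K → Γ}
    (hD : chevE6 ∈ [chevG2, chevB2, chevD4, chevF4, chevE6, chevE7, chevE8]) (hX : Rel chevE6 X)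
    (π : Γ →* GL chevE6.Idx K) (hπ : ∀ r < chevE6.nroots, ∀ t, π (X r t) = xU chevE6 hD r t)
    (z : Γ) (hz : z ∈ NG chevE6 X) (hz1 : π z = 1) : z ∈ H0 chevE6 X :=
  st_weyl hD hX π hπ (n := 6) rfl (CoxeterMatrix.E₆ : CoxeterMatrix (Fin 6)) braid_E6 UE6.rep
    UE6.rep_inj UE6.data.act 27 (fun j => j) UE6.rep_simple (fun i x h => UE6.data.act_of_ge i x h)
    (memOf memTE6 chevE6.nroots) heq_E6 hsep_E6 z hz hz1

theorem st_weyl_E7 {X : ℕ → K → Γ}
    (hD : chevE7 ∈ [chevG2, chevB2, chevD4, chevF4, chevE6, chevE7, chevE8]) (hX : Rel chevE7 X)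
    (π : Γ →* GL chevE7.Idx K) (hπ : ∀ r < chevE7.nroots, ∀ t, π (X r t) = xU chevE7 hD r t)
    (z : Γ) (hz : z ∈ NG chevE7 X) (hz1 : π z = 1) : z ∈ H0 chevE7 X :=
  st_weyl hD hX π hπ (n := 7) rfl (CoxeterMatrix.E₇ : CoxeterMatrix (Fin 7)) braid_E7 UE7.rep
    UE7.rep_inj UE7.data.act 56 (fun j => j) UE7.rep_simple (fun i x h => UE7.data.act_of_ge i x h)
    (memOf memTE7 chevE7.nroots) heq_E7 hsep_E7 z hz hz1

theorem st_weyl_E8 {X : ℕ → K → Γ}
    (hD : chevE8 ∈ [chevG2, chevB2, chevD4, chevF4, chevE6, chevE7, chevE8]) (hX : Rel chevE8 X)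
    (π : Γ →* GL chevE8.Idx K) (hπ : ∀ r < chevE8.nroots, ∀ t, π (X r t) = xU chevE8 hD r t)
    (z : Γ) (hz : z ∈ NG chevE8 X) (hz1 : π z = 1) : z ∈ H0 chevE8 X :=
  st_weyl hD hX π hπ (n := 8) rfl (CoxeterMatrix.E₈ : CoxeterMatrix (Fin 8)) braid_E8 UE8.rep
    UE8.rep_inj UE8.data.act 240 (fun j => j) UE8.rep_simple (fun i x h => UE8.data.act_of_ge i x h)
    (memOf memTE8 chevE8.nroots) heq_E8 hsep_E8 z hz hz1

/-- an element of `N̂` mapped to the identity lies in `Ĥ` -/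
theorem NG_ker_le_H0 {D : ChevalleyDatum}
    (hD : D ∈ [chevG2, chevB2, chevD4, chevF4, chevE6, chevE7, chevE8])
    {X : ℕ → K → Γ} (hX : Rel D X) (π : Γ →* GL D.Idx K)
    (hπ : ∀ r < D.nroots, ∀ t, π (X r t) = xU D hD r t)
    (z : Γ) (hz : z ∈ NG D X) (hz1 : π z = 1) : z ∈ H0 D X := by
  have hD' := hD
  simp only [List.mem_cons, List.mem_nil_iff, or_false] at hD'
  rcases hD' with rfl | rfl | rfl | rfl | rfl | rfl | rfl
  · exact st_weyl_G2 hD hX π hπ z hz hz1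
  · exact st_weyl_B2 hD hX π hπ z hz hz1
  · exact st_weyl_D4 hD hX π hπ z hz hz1
  · exact st_weyl_F4 hD hX π hπ z hz hz1
  · exact st_weyl_E6 hD hX π hπ z hz hz1
  · exact st_weyl_E7 hD hX π hπ z hz hz1
  · exact st_weyl_E8 hD hX π hπ z hz hz1

end Cfsg.Agent.Lib.Helper18.StAbs
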