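import Cfsg.Agent.Lib.Helper18.StPres
import Cfsg.Agent.Lib.Helper18.StWeyl

/-!
# The kernel of a homomorphism from a Steinberg presentation lies in `Ĥ`
-/

set_option autoImplicit false

namespace Cfsg.Agent.Lib.Helper18.StAbs

open Cfsg Cfsg.Lie Cfsg.Lie.ChevalleyDatum

variable {K : Type*} [Field K] {D : ChevalleyDatum}
  (hD : D ∈ [chevG2, chevB2, chevD4, chevF4, chevE6, chevE7, chevE8])
  {rels : Set (FreeGroup (Fin D.nroots × K))}

theorem mk_stH (D : ChevalleyDatum) (rels : Set (FreeGroup (Fin D.nroots × K))) (r : ℕ) (t : K) :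
    PresentedGroup.mk rels (D.stH r t) = hG D (XP D rels) r t := by
  unfold ChevalleyDatum.stH
  rw [mk_stWord]
  unfold ChevalleyDatum.hWord ChevalleyDatum.nWord hG nG wd
  simp [mul_assoc]

include hD in
/-- the kernel of a homomorphism mapping the generators to the root elements lies in `Ĥ` -/
theorem pres_ker_H0 (h : D.steinbergRelsAB K ⊆ rels) (θ : PresentedGroup rels →* ↥(D.group K))
    (hθ : ∀ (r : ℕ) (t : K), r < D.nroots →
      ((θ (XP D rels r t) : GL D.Idx K) : Matrix D.Idx D.Idx K) = D.x K r t)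
    (x : PresentedGroup rels) (hx : θ x = 1) : x ∈ H0 D (XP D rels) := by
  have h1 := (pres_ker hD h θ hθ x hx).1
  refine NG_ker_le_H0 hD (pres_rel D rels h) ((D.group K).subtype.comp θ) ?_ x h1 ?_
  · intro r hr t
    apply Units.ext
    rw [coe_xU]
    exact hθ r t hr
  · show ((θ x : ↥(D.group K)) : GL D.Idx K) = 1
    rw [hx]
    rfl

end Cfsg.Agent.Lib.Helper18.StAbs
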