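import Cfsg.Agent.Lib.Helper18.StCentCyc
import Cfsg.Agent.Lib.Helper18.StEmb
import Cfsg.Agent.Lib.Helper18.StFin
import Cfsg.Agent.Lib.Helper18.StPresH
import Cfsg.Agent.Lib.Helper18.CentExt
import Cfsg.Prelude.Def_KGroupFacts

/-!
# The centre of the group presented by (R1), (R2) over a finite field: the cyclic case

When the cokernel of the Cartan matrix is cyclic of order `m` and the root system embeds into a
larger one in which a root separates the central elements, the kernel of the homomorphism from the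
group presented by (R1), (R2) onto the Chevalley group is isomorphic to the group of `m`-th roots
of unity of the field.  Together with the universal property this gives the Schur multiplier.
-/

set_option autoImplicit false

namespace Cfsg.Agent.Lib.Helper18.StAbs

open Cfsg Cfsg.Lie Cfsg.Lie.ChevalleyDatum Cfsg.Agent.Lib.Helper18

universe u

section covcent

variable {K : Type*} [Field K] {D : ChevalleyDatum}
  (hD : D ∈ [chevG2, chevB2, chevD4, chevF4, chevE6, chevE7, chevE8])

/-- the homomorphism from the group presented by (R1), (R2) onto the Chevalley group -/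
noncomputable def covHom : D.SteinbergCover K →* ↥(D.group K) :=
  PresentedGroup.toGroup (relsAB_lift (K := K) D hD)

theorem covHom_X (r : ℕ) (t : K) (_hr : r < D.nroots) :
    (((covHom (K := K) hD (XP D (D.steinbergRelsAB K) r t) : ↥(D.group K)) : GL D.Idx K) :
      Matrix D.Idx D.Idx K) = D.x K r t := by
  have h1 := lift_stX (K := K) D hD r t
  have h2 := congrArg Units.val h1
  rw [coe_xU] at h2
  exact h2

theorem covHom_xU (r : ℕ) (hr : r < D.nroots) (t : K) :
    ((D.group K).subtype.comp (covHom (K := K) hD)) (XP D (D.steinbergRelsAB K) r t) =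
      xU D hD r t := by
  apply Units.ext
  rw [coe_xU]
  exact covHom_X hD r t hr

theorem covHom_surj : Function.Surjective (covHom (K := K) hD) :=
  pres_surj _ (covHom_X hD)

theorem covHom_ker : (covHom (K := K) hD).ker = Subgroup.center (D.SteinbergCover K) := by
  ext x
  constructor
  · intro hx
    exact (pres_ker hD (fun g hg => hg) _ (covHom_X hD) x (MonoidHom.mem_ker.mp hx)).2
  · intro hx
    exact MonoidHom.mem_ker.mpr (pres_center hD _ (covHom_X hD) x hx)

/-- the central element attached to a root of unity -/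
noncomputable def zcen (D : ChevalleyDatum) (p : List ℤ) (ζ : K) : D.SteinbergCover K :=
  Lp D (XP D (D.steinbergRelsAB K)) (fun i => ζ ^ p.getD i 0) (List.range D.rank)

theorem zcen_one (D : ChevalleyDatum) (p : List ℤ) : zcen D p (1 : K) = 1 := by
  unfold zcen
  rw [Lp_congr D _ _ (fun _ => (1 : K)) _ (fun i _ => one_zpow _)]
  exact Lp_one (pres_rel D _ (fun g hg => hg)) _

include hD in
theorem zcen_mul [Finite K] (p : List ℤ) (ζ ξ : K) (hζ : ζ ≠ 0) (hξ : ξ ≠ 0) :
    zcen D p (ζ * ξ) = zcen D p ζ * zcen D p ξ := by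
  unfold zcen
  rw [Lp_mul hD (pres_rel D _ (fun g hg => hg)) _ (covHom_xU hD)
    (fun i hi t u ht hu => cover_R3 hD _ (simple_lt_nroots D hD i hi) t u ht hu) _ _
    (fun i => zpow_ne_zero _ hζ) (fun i => zpow_ne_zero _ hξ) _
    (fun i hi => List.mem_range.mp hi)]
  exact Lp_congr D _ _ _ _ (fun i _ => mul_zpow _ _ _)

variable (hcart : cartChk D = true) (M : List (List ℤ)) (p w : List ℤ) (i₀ : ℕ) (m : ℕ)
  (hcyc : cycChk D M p w i₀ (m : ℤ) = true)

include hD hcart hcyc in
theorem zcen_mem_center (ζ : K) (hζ0 : ζ ≠ 0) (hζ : ζ ^ m = 1) :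
    zcen D p ζ ∈ Subgroup.center (D.SteinbergCover K) := by
  have hle : gen (XP D (D.steinbergRelsAB K)) {r | r < D.nroots} ≤
      Subgroup.centralizer {zcen D p ζ} := by
    unfold gen
    rw [Subgroup.closure_le]
    rintro g ⟨r, hr, t, rfl⟩
    rw [SetLike.mem_coe, Subgroup.mem_centralizer_iff]
    intro h hh
    rw [Set.mem_singleton_iff] at hh
    rw [hh]
    exact Lp_cyc_comm hD (pres_rel D _ (fun g hg => hg)) _ (covHom_xU hD) hcart M p w i₀ m hcyc ζ
      hζ0 (by rw [zpow_natCast]; exact hζ) r hr t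
  rw [Subgroup.mem_center_iff]
  intro g
  exact (Subgroup.mem_centralizer_iff.mp (hle (pres_gen D _ g)) _ rfl).symm

include hD hcart hcyc in
theorem center_eq_zcen [Finite K] (z : D.SteinbergCover K)
    (hz : z ∈ Subgroup.center (D.SteinbergCover K)) :
    ∃ ζ : K, ζ ≠ 0 ∧ ζ ^ m = 1 ∧ z = zcen D p ζ := by
  have h1 := pres_center hD _ (covHom_X hD) z hz
  have h2 := pres_ker_H0 hD (fun g hg => hg) _ (covHom_X hD) z h1
  obtain ⟨ζ, hζ0, hζ, hz'⟩ := H0_center_cyc hD (pres_rel D _ (fun g hg => hg)) _ (covHom_xU hD)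
    (fun i hi t u ht hu => cover_R3 hD _ (simple_lt_nroots D hD i hi) t u ht hu) hcart M p w i₀ m
    hcyc z h2 (fun s _ => (Subgroup.mem_center_iff.mp hz _).symm)
  rw [zpow_natCast] at hζ
  exact ⟨ζ, hζ0, hζ, hz'⟩

variable {D₂ : ChevalleyDatum}
  (hD₂ : D₂ ∈ [chevG2, chevB2, chevD4, chevF4, chevE6, chevE7, chevE8])
  (tab : List (ℕ × ℕ × ℤ)) (hsl₁ : slB D = true) (hsl₂ : slB D₂ = true)
  (hcov : tab.map Prod.fst = List.range D.nroots)
  (hemb : ∀ r < D.nroots, embRowB D D₂ tab r = true) (hsimp : simpB D D₂ tab = true)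
  (hcart₂ : cartChk D₂ = true) (hrank : D.rank ≤ D₂.rank) (s₀ : ℕ) (hs₀ : s₀ < D₂.nroots)
  (c a b : ℤ)
  (hsep : ((List.range D.rank).map (fun i => p.getD i 0 * D₂.cartan i s₀)).sum = c)
  (hbez : a * c + b * m = 1)

include hD₂ hsl₁ hsl₂ hcov hemb hsimp hcart₂ hrank hs₀ hsep hbez in
/-- the central elements attached to distinct roots of unity are distinct -/
theorem zcen_eq_one (ζ : K) (hζ0 : ζ ≠ 0) (hζ : ζ ^ m = 1) (h1 : zcen D p ζ = 1) : ζ = 1 := by
  have hX₂ := pres_rel (K := K) D₂ _ (fun g hg => hg)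
  obtain ⟨Φ, hΦ⟩ := emb_hom (K := K) tab hsl₁ hsl₂ hX₂
    (fun r s hr hs hsr hsn => embRowB_spec D D₂ tab hcov r (hemb r hr) s hs hsr hsn)
  have hl : ∀ i ∈ List.range D.rank, i < D.rank := fun i hi => List.mem_range.mp hi
  have hl2 : ∀ i ∈ List.range D.rank, i < D₂.rank := fun i hi => lt_of_lt_of_le (hl i hi) hrank
  have h2 := congrArg Φ h1
  unfold zcen at h2
  rw [map_Lp, map_one] at h2
  have h3 : (fun r t => Φ (XP D (D.steinbergRelsAB K) r t)) =
      embY D tab (XP D₂ (D₂.steinbergRelsAB K)) := funext₂ hΦ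
  rw [h3, Lp_embY tab _ hsimp _ _ hl] at h2
  have h4 := Lp_eq_one_char hD₂ hX₂ _ (covHom_xU hD₂) (fun i => ζ ^ p.getD i 0)
    (fun i => zpow_ne_zero _ hζ0) (List.range D.rank) hl2 h2 s₀ hs₀
  rw [list_prod_zpow ζ hζ0 (fun i => p.getD i 0) (fun i => dotCA D₂ (D₂.simple i) s₀)] at h4
  have h5 : (List.range D.rank).map (fun i => p.getD i 0 * dotCA D₂ (D₂.simple i) s₀) =
      (List.range D.rank).map (fun i => p.getD i 0 * D₂.cartan i s₀) := by
    apply List.map_congr_left
    intro i hi
    rw [dotCA_eq_cartan D₂ hcart₂ i s₀ (hl2 i hi) hs₀]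
  rw [h5, hsep] at h4
  calc ζ = ζ ^ (a * c + b * (m : ℤ)) := by rw [hbez, zpow_one]
    _ = 1 := by
      rw [zpow_add₀ hζ0, mul_comm a c, zpow_mul, h4, one_zpow, mul_comm b _, zpow_mul,
        zpow_natCast, hζ, one_zpow, one_mul]

/-- the homomorphism from the roots of unity to the group presented by (R1), (R2) -/
noncomputable def zcenHom [Finite K] (p : List ℤ) (m : ℕ) :
    (powMonoidHom m : Kˣ →* Kˣ).ker →* D.SteinbergCover K where
  toFun ζ := zcen D p ((ζ : Kˣ) : K)
  map_one' := zcen_one D p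
  map_mul' _ _ := zcen_mul hD p _ _ (Units.ne_zero _) (Units.ne_zero _)

theorem mem_ker_pow (m : ℕ) (ζ : Kˣ) : ζ ∈ (powMonoidHom m : Kˣ →* Kˣ).ker ↔ (ζ : K) ^ m = 1 := by
  rw [MonoidHom.mem_ker, powMonoidHom_apply, Units.ext_iff, Units.val_pow_eq_pow_val,
    Units.val_one]

include hcart hcyc hD₂ hsl₁ hsl₂ hcov hemb hsimp hcart₂ hrank hs₀ hsep hbez in
/-- the kernel of the homomorphism onto the Chevalley group is isomorphic to the group of `m`-th
roots of unity -/
theorem ker_covHom_equiv [Finite K] :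
    Nonempty ((powMonoidHom m : Kˣ →* Kˣ).ker ≃* (covHom (K := K) hD).ker) := by
  have hinj : Function.Injective (zcenHom (K := K) hD p m) := by
    rw [injective_iff_map_eq_one]
    intro ζ h1
    apply Subtype.ext
    apply Units.ext
    exact zcen_eq_one p m hD₂ tab hsl₁ hsl₂ hcov hemb hsimp hcart₂ hrank s₀ hs₀ c a b hsep hbez
      _ (Units.ne_zero _) ((mem_ker_pow m _).mp ζ.2) h1
  have hrange : (zcenHom (K := K) hD p m).range = (covHom (K := K) hD).ker := by
    rw [covHom_ker]
    ext z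
    constructor
    · rintro ⟨ζ, rfl⟩
      exact zcen_mem_center hD hcart M p w i₀ m hcyc _ (Units.ne_zero _)
        ((mem_ker_pow m _).mp ζ.2)
    · intro hz
      obtain ⟨ζ, hζ0, hζ, rfl⟩ := center_eq_zcen hD hcart M p w i₀ m hcyc z hz
      exact ⟨⟨Units.mk0 ζ hζ0, (mem_ker_pow m _).mpr hζ⟩, rfl⟩
  exact ⟨(MonoidHom.ofInjective hinj).trans (MulEquiv.subgroupCongr hrange)⟩

end covcent

theorem card_ker_pow {F : Type*} [Field F] [Fintype F] (m q : ℕ) (hq : Fintype.card F = q) :
    Nat.card (powMonoidHom m : Fˣ →* Fˣ).ker = Nat.gcd m (q - 1) := by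
  rw [IsCyclic.card_powMonoidHom_ker, Nat.card_units, Nat.card_eq_fintype_card, hq, Nat.gcd_comm]

theorem cyc_equiv {C : Type*} [Group C] [IsCyclic C] (n : ℕ) (hn : Nat.card C = n) :
    Nonempty (C ≃* Multiplicative (ZMod n)) := by
  subst hn
  exact ⟨(zmodCyclicMulEquiv ‹IsCyclic C›).symm⟩

/-- the kernel of the homomorphism onto the Chevalley group, for a finite field, given its
isomorphism type -/
theorem ker_covHom_zmod {F : Type*} [Field F] [Fintype F] {D : ChevalleyDatum}
    (hD : D ∈ [chevG2, chevB2, chevD4, chevF4, chevE6, chevE7, chevE8]) (m q : ℕ)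
    (hq : Fintype.card F = q)
    (h : Nonempty ((powMonoidHom m : Fˣ →* Fˣ).ker ≃* (covHom (K := F) hD).ker)) :
    Nonempty ((covHom (K := F) hD).ker ≃* Multiplicative (ZMod (Nat.gcd m (q - 1)))) := by
  obtain ⟨e⟩ := h
  obtain ⟨e'⟩ := cyc_equiv (C := (powMonoidHom m : Fˣ →* Fˣ).ker) _ (card_ker_pow m q hq)
  exact ⟨e.symm.trans e'⟩

theorem card_center_congr {G H : Type*} [Group G] [Group H] (e : G ≃* H) :
    Nat.card (Subgroup.center G) = Nat.card (Subgroup.center H) := by
  apply Nat.card_congr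
  exact
    { toFun := fun z => ⟨e z, by
        rw [Subgroup.mem_center_iff]
        intro g
        obtain ⟨g', rfl⟩ := e.surjective g
        rw [← map_mul, ← map_mul, Subgroup.mem_center_iff.mp z.2 g']⟩
      invFun := fun z => ⟨e.symm z, by
        rw [Subgroup.mem_center_iff]
        intro g
        obtain ⟨g', rfl⟩ := e.symm.surjective g
        rw [← map_mul, ← map_mul, Subgroup.mem_center_iff.mp z.2 g']⟩
      left_inv := fun z => Subtype.ext (e.symm_apply_apply _)
      right_inv := fun z => Subtype.ext (e.apply_symm_apply _) }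

/-- the order of the centre of the group presented by (R1), (R2), for a finite field -/
theorem card_center_cover {F : Type*} [Field F] [Fintype F] {D : ChevalleyDatum}
    (hD : D ∈ [chevG2, chevB2, chevD4, chevF4, chevE6, chevE7, chevE8]) (m q : ℕ)
    (hq : Fintype.card F = q)
    (h : Nonempty ((powMonoidHom m : Fˣ →* Fˣ).ker ≃* (covHom (K := F) hD).ker)) :
    Nat.card (Subgroup.center (D.SteinbergCover F)) = Nat.gcd m (q - 1) := by
  obtain ⟨e⟩ := h
  rw [← covHom_ker hD, ← Nat.card_congr e.toEquiv, card_ker_pow m q hq]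

/-- the order of the centre of the Steinberg group, for a finite field -/
theorem card_center_steinberg {F : Type*} [Field F] [Fintype F] {D : ChevalleyDatum}
    (hD : D ∈ [chevG2, chevB2, chevD4, chevF4, chevE6, chevE7, chevE8]) (m q : ℕ)
    (hq : Fintype.card F = q)
    (h : Nonempty ((powMonoidHom m : Fˣ →* Fˣ).ker ≃* (covHom (K := F) hD).ker)) :
    Nat.card (Subgroup.center (D.SteinbergGroup F)) = Nat.gcd m (q - 1) := by
  obtain ⟨e, -⟩ := cover_equiv (K := F) hD
  rw [← card_center_congr e, card_center_cover hD m q hq h]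

/-- the Schur multiplier of a Chevalley group over a finite field, from the universal property of
the group presented by (R1), (R2) -/
theorem schur_cyc {F : Type u} [Field F] [Fintype F] {D : ChevalleyDatum}
    (hD : D ∈ [chevG2, chevB2, chevD4, chevF4, chevE6, chevE7, chevE8])
    (hperf : commutator (D.SteinbergCover F) = ⊤)
    (huniv : ∀ (Γ' : Type u) [Group Γ'] (σ : Γ' →* ↥(D.group F)), Function.Surjective σ →
      σ.ker ≤ Subgroup.center Γ' → ∃ τ : D.SteinbergCover F →* Γ', σ.comp τ = covHom hD)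
    (n : ℕ) (hn : n ≠ 0) (e : (covHom (K := F) hD).ker ≃* Multiplicative (ZMod n)) :
    HasCyclicSchurMultiplier ↥(D.group F) n := by
  classical
  have : NeZero n := ⟨hn⟩
  have hfin : Finite (D.SteinbergCover F) := by
    have : Finite (covHom (K := F) hD).ker := Finite.of_equiv _ e.symm.toEquiv
    have : Finite (D.SteinbergCover F ⧸ (covHom (K := F) hD).ker) :=
      Finite.of_equiv _ (QuotientGroup.quotientKerEquivOfSurjective _ (covHom_surj hD)).symm.toEquiv
    exact Finite.of_equiv _ (Subgroup.groupEquivQuotientProdSubgroup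
      (s := (covHom (K := F) hD).ker)).symm
  refine ⟨⟨D.SteinbergCover F, inferInstance, hfin, covHom hD,
    ⟨covHom_surj hD, ?_, ?_⟩, ⟨e⟩⟩, ?_⟩
  · rw [covHom_ker]
  · rw [hperf]
    exact le_top
  · intro Γ' _ _ σ hst
    obtain ⟨hs, hc, hcomm⟩ := hst
    obtain ⟨τ, hτ⟩ := huniv Γ' σ hs hc
    have hτ' : ∀ d, σ (τ d) = covHom hD d := fun d => DFunLike.congr_fun hτ d
    have h1 : commutator Γ' ≤ τ.range := by
      rw [commutator_eq_closure, Subgroup.closure_le]
      rintro g ⟨g₁, g₂, rfl⟩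
      obtain ⟨d₁, hd₁⟩ := covHom_surj (K := F) hD (σ g₁)
      obtain ⟨d₂, hd₂⟩ := covHom_surj (K := F) hD (σ g₂)
      refine ⟨d₁ * d₂ * d₁⁻¹ * d₂⁻¹, ?_⟩
      rw [commutatorElement_def, map_mul, map_mul, map_mul, map_inv, map_inv]
      exact CExt.comm_eq σ hc _ _ _ _ (by rw [hτ', hd₁]) (by rw [hτ', hd₂])
    let ρ : (covHom (K := F) hD).ker →* σ.ker :=
      (τ.comp (covHom (K := F) hD).ker.subtype).codRestrict σ.ker (fun x => by
        rw [MonoidHom.mem_ker, MonoidHom.comp_apply, hτ']
        exact MonoidHom.mem_ker.mp x.2)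
    have hρ : Function.Surjective ρ := by
      intro z
      obtain ⟨d, hd⟩ := h1 (hcomm z.2)
      have hd1 : covHom (K := F) hD d = 1 := by
        rw [← hτ', hd]
        exact MonoidHom.mem_ker.mp z.2
      exact ⟨⟨d, MonoidHom.mem_ker.mpr hd1⟩, Subtype.ext hd⟩
    exact ⟨ρ.comp e.symm.toMonoidHom, hρ.comp e.symm.surjective⟩

end Cfsg.Agent.Lib.Helper18.StAbs
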