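import Cfsg.Agent.Lib.Helper18.StAbs
import Cfsg.Agent.Lib.Helper36.ChevAutC

/-!
# Injectivity of the map to the Chevalley group on unipotent subgroups

A product of root elements of distinct positive roots, in any order, determines its parameters;
hence a homomorphism `π : Γ → GL` mapping the root elements of a group `Γ` with the relations
(R1), (R2) to those of the Chevalley group is injective on the subgroup generated by an admissible
list of roots which a monomial element moves into the positive roots.
-/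

set_option autoImplicit false

namespace Cfsg.Agent.Lib.Helper18.StAbs

open Cfsg Cfsg.Lie Cfsg.Lie.ChevalleyDatum Cfsg.Agent.Lib.Helper17

/-- the parameters of a product of root elements of distinct positive roots vanish if the product
is trivial -/
theorem pos_word_unique {F : Type*} [Field F] (D : ChevalleyDatum)
    (hD : D ∈ [chevG2, chevB2, chevD4, chevF4, chevE6, chevE7, chevE8]) (O : List ℕ)
    (hO : O.Nodup) (hpos : ∀ r ∈ O, D.IsPosRoot r) (t : ℕ → F)
    (h : D.wordMat F (O.map fun r => (r, t r)) = 1) : ∀ r ∈ O, t r = 0 := by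
  classical
  obtain ⟨lam, H⟩ := exists_lamH D hD
  by_contra hcon
  push Not at hcon
  obtain ⟨r₁, hr₁, ht₁⟩ := hcon
  have hS : (O.toFinset.filter (fun r => t r ≠ 0)).Nonempty :=
    ⟨r₁, Finset.mem_filter.mpr ⟨List.mem_toFinset.mpr hr₁, ht₁⟩⟩
  obtain ⟨r₀, hr₀S, hmin⟩ := Finset.exists_min_image _ lam hS
  have hr₀ : r₀ ∈ O ∧ t r₀ ≠ 0 := by
    have := Finset.mem_filter.mp hr₀S
    exact ⟨List.mem_toFinset.mp this.1, this.2⟩
  have hlam₀ := H.hpos r₀ (hpos r₀ hr₀.1)
  have hx₀ : WRaise (lamWt D lam 2147483648) (lam r₀).toNat (D.x F r₀ (t r₀) - 1) :=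
    x_sub_one_lam H r₀ (hpos r₀ hr₀.1) (t r₀)
  have hA : ∀ r ∈ O, WRaise (lamWt D lam 2147483648) (lam r₀).toNat (D.x F r (t r) - 1) ∧
      (r ≠ r₀ → WRaise (lamWt D lam 2147483648) ((lam r₀).toNat + 1) (D.x F r (t r) - 1)) := by
    intro r hr
    by_cases ht : t r = 0
    · rw [ht, Cfsg.Agent.S1024.x_zero, sub_self]
      exact ⟨wRaise_zero _ _, fun _ => wRaise_zero _ _⟩
    · have hrS : r ∈ O.toFinset.filter (fun r => t r ≠ 0) :=
        Finset.mem_filter.mpr ⟨List.mem_toFinset.mpr hr, ht⟩
      have h1 := hmin r hrS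
      have h2 := x_sub_one_lam (F := F) H r (hpos r hr) (t r)
      refine ⟨h2.mono (by omega), fun hne => h2.mono ?_⟩
      have h3 : lam r ≠ lam r₀ := by
        intro e
        rcases Nat.lt_or_gt_of_ne hne with h4 | h4
        · have := H.hmono r r₀ (hpos r hr) (hpos r₀ hr₀.1) h4
          omega
        · have := H.hmono r₀ r (hpos r₀ hr₀.1) (hpos r hr) h4
          omega
      omega
  have key : ∀ O' : List ℕ, O'.Nodup → (∀ r ∈ O', r ∈ O) →
      WRaise (lamWt D lam 2147483648) ((lam r₀).toNat + 1)
        (D.wordMat F (O'.map fun r => (r, t r)) - 1 -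
          (if r₀ ∈ O' then D.x F r₀ (t r₀) - 1 else 0)) := by
    intro O'
    induction O' with
    | nil =>
      intro _ _
      rw [List.map_nil, wordMat_nil, if_neg List.not_mem_nil, sub_self, sub_zero]
      exact wRaise_zero _ _
    | cons r O'' ih =>
      intro hnd hsub
      have hnd' := (List.nodup_cons.mp hnd).2
      have hrn := (List.nodup_cons.mp hnd).1
      have IH := ih hnd' (fun r' hr' => hsub r' (List.mem_cons_of_mem _ hr'))
      have hrO := hsub r List.mem_cons_self
      obtain ⟨hA1, hA2⟩ := hA r hrO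
      have hP1 : WRaise (lamWt D lam 2147483648) (lam r₀).toNat
          (D.wordMat F (O''.map fun r => (r, t r)) - 1) := by
        have e : D.wordMat F (O''.map fun r => (r, t r)) - 1 =
            (D.wordMat F (O''.map fun r => (r, t r)) - 1 -
              (if r₀ ∈ O'' then D.x F r₀ (t r₀) - 1 else 0)) +
            (if r₀ ∈ O'' then D.x F r₀ (t r₀) - 1 else 0) := by abel
        rw [e]
        refine (IH.mono (by omega)).add ?_
        split_ifs
        · exact hx₀
        · exact wRaise_zero _ _
      have hAP : WRaise (lamWt D lam 2147483648) ((lam r₀).toNat + 1)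
          ((D.x F r (t r) - 1) * (D.wordMat F (O''.map fun r => (r, t r)) - 1)) :=
        (hA1.mul hP1).mono (by omega)
      rw [List.map_cons, wordMat_cons]
      by_cases hrr : r = r₀
      · have hr₀n : r₀ ∉ O'' := hrr ▸ hrn
        rw [if_neg hr₀n, sub_zero] at IH
        rw [if_pos (by rw [hrr]; exact List.mem_cons_self)]
        have e : D.x F r (t r) * D.wordMat F (O''.map fun r => (r, t r)) - 1 -
            (D.x F r₀ (t r₀) - 1) =
            (D.x F r (t r) - 1) * (D.wordMat F (O''.map fun r => (r, t r)) - 1) +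
            (D.wordMat F (O''.map fun r => (r, t r)) - 1) := by
          rw [hrr]
          noncomm_ring
        rw [e]
        exact hAP.add IH
      · have e1 : (r₀ ∈ r :: O'') ↔ r₀ ∈ O'' := by
          rw [List.mem_cons]
          exact ⟨fun h => h.resolve_left (fun e => hrr e.symm), Or.inr⟩
        have e : D.x F r (t r) * D.wordMat F (O''.map fun r => (r, t r)) - 1 -
            (if r₀ ∈ r :: O'' then D.x F r₀ (t r₀) - 1 else 0) =
            (D.x F r (t r) - 1) * (D.wordMat F (O''.map fun r => (r, t r)) - 1) +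
            (D.x F r (t r) - 1) +
            (D.wordMat F (O''.map fun r => (r, t r)) - 1 -
              (if r₀ ∈ O'' then D.x F r₀ (t r₀) - 1 else 0)) := by
          rw [if_congr e1 rfl rfl]
          noncomm_ring
        rw [e]
        exact (hAP.add (hA2 hrr)).add IH
  have h1 := key O hO (fun r hr => hr)
  rw [h, sub_self, if_pos hr₀.1, zero_sub] at h1
  have h2 : WRaise (lamWt D lam 2147483648) ((lam r₀).toNat + 1) (D.x F r₀ (t r₀) - 1) := by
    have := h1.neg
    rwa [neg_neg] at this
  exact hr₀.2 (x_eq_zero_of_wRaise D hD H r₀ (hpos r₀ hr₀.1) (t r₀) h2)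

variable {K : Type*} [Field K] {Γ : Type*} [Group Γ]

/-- conjugating a product of root elements by an element permuting the root subgroups -/
theorem rootAct_prod (D : ChevalleyDatum)
    (hD : D ∈ [chevG2, chevB2, chevD4, chevF4, chevE6, chevE7, chevE8]) (g : GL D.Idx K)
    (σ : Equiv.Perm ℕ) (c : ℕ → K)
    (hc : ∀ s < D.nroots, ∀ u : K, g * xU D hD s u = xU D hD (σ s) (c s * u) * g)
    (L : List ℕ) (hL : ∀ r ∈ L, r < D.nroots) (t : ℕ → K) :
    g * (L.map fun r => xU D hD r (t r)).prod =
      (L.map fun r => xU D hD (σ r) (c r * t r)).prod * g := by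
  induction L with
  | nil => simp
  | cons r L ih =>
    rw [List.map_cons, List.prod_cons, List.map_cons, List.prod_cons, ← mul_assoc,
      hc r (hL r List.mem_cons_self), mul_assoc, ih (fun r' hr' => hL r' (List.mem_cons_of_mem _ hr')),
      mul_assoc]

/-- the image under `π` of the subgroup generated by a set of roots -/
theorem pi_gen_le (D : ChevalleyDatum)
    (hD : D ∈ [chevG2, chevB2, chevD4, chevF4, chevE6, chevE7, chevE8]) (X : ℕ → K → Γ)
    (π : Γ →* GL D.Idx K) (hπ : ∀ r < D.nroots, ∀ t, π (X r t) = xU D hD r t) (S : Set ℕ)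
    (hS : ∀ r ∈ S, r < D.nroots) (H : Subgroup (GL D.Idx K))
    (hH : ∀ r ∈ S, ∀ t : K, xU D hD r t ∈ H) (x : Γ) (hx : x ∈ gen X S) : π x ∈ H := by
  have : gen X S ≤ H.comap π := by
    unfold gen
    rw [Subgroup.closure_le]
    rintro g ⟨r, hr, t, rfl⟩
    show π (X r t) ∈ H
    rw [hπ r (hS r hr)]
    exact hH r hr t
  exact this hx

/-- `π` is injective on the subgroup generated by an admissible list of roots which some element
permuting the root subgroups moves into the positive roots -/
theorem inj_of_adm {D : ChevalleyDatum}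
    (hD : D ∈ [chevG2, chevB2, chevD4, chevF4, chevE6, chevE7, chevE8]) {X : ℕ → K → Γ}
    (hX : Rel D X) (π : Γ →* GL D.Idx K) (hπ : ∀ r < D.nroots, ∀ t, π (X r t) = xU D hD r t)
    (L : List ℕ) (hL : Adm D L) (g : GL D.Idx K) (σ : Equiv.Perm ℕ) (hg : RootAct D hD g σ)
    (hpos : ∀ s ∈ L, D.IsPosRoot (σ s)) (x : Γ) (hx : x ∈ gen X {r | r ∈ L}) (h1 : π x = 1) :
    x = 1 := by
  classical
  obtain ⟨t, rfl⟩ := collect hX L hL x hx
  have hlt := hL.lt
  have e1 : π (oprod X L t) = (L.map fun r => xU D hD r (t r)).prod := by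
    unfold oprod
    rw [map_list_prod, List.map_map]
    congr 1
    apply List.map_congr_left
    intro r hr
    exact hπ r (hlt r hr) (t r)
  rw [e1] at h1
  let c : ℕ → K := fun s => if h : s < D.nroots then Classical.choose (hg.conj s h) else 1
  have hc : ∀ s < D.nroots, c s ≠ 0 ∧
      ∀ u, g * xU D hD s u = xU D hD (σ s) (c s * u) * g := by
    intro s hs
    have := Classical.choose_spec (hg.conj s hs)
    simp only [c, dif_pos hs]
    exact this
  have e2 := rootAct_prod D hD g σ c (fun s hs => (hc s hs).2) L hlt t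
  rw [h1, mul_one] at e2
  have e3 : (L.map fun r => xU D hD (σ r) (c r * t r)).prod = 1 := by
    have := e2.symm
    rwa [mul_eq_right] at this
  have e4 : D.wordMat K ((L.map σ).map fun a => (a, c (σ.symm a) * t (σ.symm a))) = 1 := by
    have e5 : ((L.map σ).map fun a => (a, c (σ.symm a) * t (σ.symm a))) =
        L.map fun r => (σ r, c r * t r) := by
      rw [List.map_map]
      apply List.map_congr_left
      intro r _
      simp
    rw [e5, ← coe_wordU D hD]
    have e6 : wordU D hD (L.map fun r => (σ r, c r * t r)) =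
        (L.map fun r => xU D hD (σ r) (c r * t r)).prod := by
      unfold wordU
      rw [List.map_map]
      rfl
    rw [e6, e3, Units.val_one]
  have e7 := pos_word_unique D hD (L.map σ) (hL.nodup.map σ.injective)
    (fun a ha => by
      obtain ⟨r, hr, rfl⟩ := List.mem_map.mp ha
      exact hpos r hr) _ e4
  apply oprod_zero hX
  intro r hr
  have e8 := e7 (σ r) (List.mem_map_of_mem hr)
  simp only [Equiv.symm_apply_apply] at e8
  exact (mul_eq_zero.mp e8).resolve_left (hc r (hlt r hr)).1

/-! ### The positive and the negative roots -/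

section lists

variable (D : ChevalleyDatum) (hD : D ∈ [chevG2, chevB2, chevD4, chevF4, chevE6, chevE7, chevE8])

include hD

theorem not_pos_of_neg (s : ℕ) (hs : D.IsNegRoot s) : ¬ D.IsPosRoot s := fun h =>
  (Cfsg.Agent.Lib.Helper36.sgnOK_all D hD).not_both s ⟨h, hs⟩

theorem neg_of_not_pos (s : ℕ) (hs : s < D.nroots) (h : ¬ D.IsPosRoot s) : D.IsNegRoot s :=
  ((Cfsg.Agent.Lib.Helper36.sgnOK_all D hD).pos_or_neg s hs).resolve_left h

theorem pos_neg_of_neg (s : ℕ) (hs : D.IsNegRoot s) : D.IsPosRoot (D.neg s) :=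
  (isPosRoot_neg_iff D hD s hs.1).mpr (not_pos_of_neg D hD s hs)

theorem neg_neg_of_pos (s : ℕ) (hs : D.IsPosRoot s) : D.IsNegRoot (D.neg s) := by
  have hlt := neg_lt_nroots D hD s hs.1
  apply neg_of_not_pos D hD _ hlt
  intro h
  exact (isPosRoot_neg_iff D hD s hs.1).mp h hs

theorem neg_neg_eq (s : ℕ) (hs : s < D.nroots) : D.neg (D.neg s) = s :=
  (neg_props D (negOK_of_mem D hD) s hs).2.2

/-- the commutator terms of two negative roots are negative roots of smaller index -/
theorem commTerms_neg (k s : ℕ) (hk : D.IsNegRoot k) (hs : D.IsNegRoot s)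
    (c : ℕ × ℤ × ℕ × ℕ) (hc : c ∈ D.commTerms k s) :
    D.IsNegRoot c.1 ∧ c.1 < k ∧ c.1 < s := by
  obtain ⟨lam, H⟩ := exists_lamH D hD
  have htab := tabOK_of_mem D hD
  have hlk : lam k < 0 := by
    have h1 := H.hpos _ (pos_neg_of_neg D hD k hk)
    rw [H.hneg k hk.1] at h1
    omega
  have hls : lam s < 0 := by
    have h1 := H.hpos _ (pos_neg_of_neg D hD s hs)
    rw [H.hneg s hs.1] at h1
    omega
  have hmul : ∀ (a : ℤ), a < 0 → ∀ i : ℕ, ((i : ℤ) + 1) * a ≤ a := by
    intro a ha i
    nlinarith
  have key : c.1 < D.nroots ∧ lam c.1 < lam k ∧ lam c.1 < lam s := by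
    rcases commTerms_root D k s c hc with ⟨p, hp, hpc⟩ | ⟨p, hp, hpc⟩ | ⟨p, hp, p', hp', hpc⟩ |
      ⟨p, hp, p', hp', hpc⟩
    · obtain ⟨i, hi⟩ := H.target k s p hp
      have h1 := hmul (lam k) hlk i
      rw [← hpc]
      exact ⟨((chain_valid htab k s).2 p hp).1, by omega, by omega⟩
    · obtain ⟨i, hi⟩ := H.target s k p hp
      have h1 := hmul (lam s) hls i
      rw [← hpc]
      exact ⟨((chain_valid htab s k).2 p hp).1, by omega, by omega⟩
    · obtain ⟨i, hi⟩ := H.target k s p hp
      obtain ⟨j, hj⟩ := H.target p.1 s p' hp'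
      have h1 := hmul (lam k) hlk i
      have h2 := hmul (lam p.1) (by omega) j
      rw [← hpc]
      exact ⟨((chain_valid htab p.1 s).2 p' hp').1, by omega, by omega⟩
    · obtain ⟨i, hi⟩ := H.target s k p hp
      obtain ⟨j, hj⟩ := H.target p.1 k p' hp'
      have h1 := hmul (lam s) hls i
      have h2 := hmul (lam p.1) (by omega) j
      rw [← hpc]
      exact ⟨((chain_valid htab p.1 k).2 p' hp').1, by omega, by omega⟩
  obtain ⟨h1, h2, h3⟩ := key
  have hneg : D.IsNegRoot c.1 := by
    apply neg_of_not_pos D hD _ h1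
    intro h
    have := H.hpos _ h
    omega
  have hlt : ∀ r, D.IsNegRoot r → lam c.1 < lam r → c.1 < r := by
    intro r hr hlam
    have h4 := H.lt_of_lam_lt (pos_neg_of_neg D hD r hr) (pos_neg_of_neg D hD c.1 hneg)
      (by rw [H.hneg r hr.1, H.hneg c.1 h1]; omega)
    rw [neg_eq D hD r hr.1, neg_eq D hD c.1 h1] at h4
    have := hr.1
    omega
  exact ⟨hneg, hlt k hk h2, hlt s hs h3⟩

/-- increasing lists of positive roots closed upwards are admissible -/
theorem adm_of_sorted : ∀ L : List ℕ, L.Pairwise (· < ·) → (∀ r ∈ L, D.IsPosRoot r) →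
    (∀ r ∈ L, ∀ s, D.IsPosRoot s → r < s → s ∈ L) → Adm D L := by
  obtain ⟨lam, H⟩ := exists_lamH D hD
  have htab := tabOK_of_mem D hD
  intro L
  induction L with
  | nil => intro _ _ _; trivial
  | cons r post ih =>
    intro hs hpos hup
    have hs' := List.pairwise_cons.mp hs
    have hrpos := hpos r List.mem_cons_self
    have hrn : r ∉ post := fun h => lt_irrefl _ (hs'.1 r h)
    refine ⟨hrpos.1, hrn, ?_, ?_⟩
    · intro s hs1
      have hspos := hpos s (List.mem_cons_of_mem _ hs1)
      refine ⟨hspos.1, ?_, ?_⟩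
      · intro e
        exact not_pos_of_neg D hD _ (neg_neg_of_pos D hD r hrpos) (e ▸ hspos)
      · intro c hc
        obtain ⟨h1, h2, h3⟩ := commTerms_pos H htab r s hrpos hspos c hc
        have h4 := hup r List.mem_cons_self c.1 h1 h2
        rcases List.mem_cons.mp h4 with h5 | h5
        · omega
        · exact h5
    · apply ih hs'.2 (fun r' hr' => hpos r' (List.mem_cons_of_mem _ hr'))
      intro r' hr' s hs1 hlt
      have h4 := hup r' (List.mem_cons_of_mem _ hr') s hs1 hlt
      rcases List.mem_cons.mp h4 with h5 | h5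
      · have := hs'.1 r' hr'
        omega
      · exact h5

/-- decreasing lists of negative roots closed downwards are admissible -/
theorem adm_of_sorted_neg : ∀ L : List ℕ, L.Pairwise (· > ·) → (∀ r ∈ L, D.IsNegRoot r) →
    (∀ r ∈ L, ∀ s, D.IsNegRoot s → s < r → s ∈ L) → Adm D L := by
  intro L
  induction L with
  | nil => intro _ _ _; trivial
  | cons r post ih =>
    intro hs hneg hup
    have hs' := List.pairwise_cons.mp hs
    have hrneg := hneg r List.mem_cons_self
    have hrn : r ∉ post := fun h => lt_irrefl _ (hs'.1 r h)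
    refine ⟨hrneg.1, hrn, ?_, ?_⟩
    · intro s hs1
      have hsneg := hneg s (List.mem_cons_of_mem _ hs1)
      refine ⟨hsneg.1, ?_, ?_⟩
      · intro e
        exact not_pos_of_neg D hD _ hsneg (e ▸ pos_neg_of_neg D hD r hrneg)
      · intro c hc
        obtain ⟨h1, h2, h3⟩ := commTerms_neg D hD r s hrneg hsneg c hc
        have h4 := hup r List.mem_cons_self c.1 h1 h2
        rcases List.mem_cons.mp h4 with h5 | h5
        · omega
        · exact h5
    · apply ih hs'.2 (fun r' hr' => hneg r' (List.mem_cons_of_mem _ hr'))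
      intro r' hr' s hs1 hlt
      have h4 := hup r' (List.mem_cons_of_mem _ hr') s hs1 hlt
      rcases List.mem_cons.mp h4 with h5 | h5
      · have := hs'.1 r' hr'
        omega
      · exact h5

theorem adm_pos : Adm D D.posRoots := by
  apply adm_of_sorted D hD
  · unfold ChevalleyDatum.posRoots
    exact List.Pairwise.filter _ List.pairwise_lt_range
  · intro r hr
    unfold ChevalleyDatum.posRoots at hr
    simpa using (List.mem_filter.mp hr).2
  · intro r _ s hs _
    unfold ChevalleyDatum.posRoots
    exact List.mem_filter.mpr ⟨List.mem_range.mpr hs.1, by simpa using hs⟩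

theorem adm_neg : Adm D D.negRoots.reverse := by
  apply adm_of_sorted_neg D hD
  · rw [List.pairwise_reverse]
    unfold ChevalleyDatum.negRoots
    exact List.Pairwise.filter _ List.pairwise_lt_range
  · intro r hr
    rw [List.mem_reverse] at hr
    unfold ChevalleyDatum.negRoots at hr
    simpa using (List.mem_filter.mp hr).2
  · intro r _ s hs _
    rw [List.mem_reverse]
    unfold ChevalleyDatum.negRoots
    exact List.mem_filter.mpr ⟨List.mem_range.mpr hs.1, by simpa using hs⟩

theorem mem_posRoots (r : ℕ) : r ∈ D.posRoots ↔ D.IsPosRoot r := by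
  unfold ChevalleyDatum.posRoots
  rw [List.mem_filter]
  constructor
  · intro h
    simpa using h.2
  · intro h
    exact ⟨List.mem_range.mpr h.1, by simpa using h⟩

theorem mem_negRoots (r : ℕ) : r ∈ D.negRoots.reverse ↔ D.IsNegRoot r := by
  rw [List.mem_reverse]
  unfold ChevalleyDatum.negRoots
  rw [List.mem_filter]
  constructor
  · intro h
    simpa using h.2
  · intro h
    exact ⟨List.mem_range.mpr h.1, by simpa using h⟩

/-- the permutation of a word of reflections, on the roots -/
theorem wordPerm_eq_wordF (l : List (Fin D.rank)) (s : ℕ) (hs : s < D.nroots) :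
    wordPerm D hD l s = Cfsg.Agent.Lib.Helper36.wordF D l s := by
  induction l with
  | nil => rfl
  | cons i l ih =>
    rw [wordPerm_cons, Equiv.Perm.mul_apply, ih,
      reflPerm_apply D hD i.val i.isLt _ (Cfsg.Agent.Lib.Helper36.wordF_lt D hD l s hs)]
    rfl

/-- an element permuting the root subgroups and mapping the negative roots to positive roots -/
theorem exists_w0 (K : Type*) [Field K] : ∃ (g : GL D.Idx K) (σ : Equiv.Perm ℕ),
    RootAct D hD g σ ∧ ∀ s, D.IsNegRoot s → D.IsPosRoot (σ s) := by
  obtain ⟨l, hl⟩ := Cfsg.Agent.Lib.Helper36.exists_w0Word D hD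
  have hact := rootAct_wordN (F := K) D hD l
  refine ⟨wordN D hD l, wordPerm D hD l, hact, ?_⟩
  intro s hs
  have hpos := pos_neg_of_neg D hD s hs
  have h1 := hl.neg _ hpos
  rw [← wordPerm_eq_wordF D hD l _ hpos.1] at h1
  have h2 := hact.neg (D.neg s) hpos.1
  rw [neg_neg_eq D hD s hs.1] at h2
  rw [h2]
  exact pos_neg_of_neg D hD _ h1

end lists

/-! ### Injectivity on the positive and the negative part -/

section inj

variable {D : ChevalleyDatum} (hD : D ∈ [chevG2, chevB2, chevD4, chevF4, chevE6, chevE7, chevE8])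
  {X : ℕ → K → Γ} (hX : Rel D X) (π : Γ →* GL D.Idx K)
  (hπ : ∀ r < D.nroots, ∀ t, π (X r t) = xU D hD r t)

include hX hπ

theorem inj_pos (x : Γ) (hx : x ∈ gen X {r | D.IsPosRoot r}) (h1 : π x = 1) : x = 1 := by
  apply inj_of_adm hD hX π hπ D.posRoots (adm_pos D hD) 1 1 RootAct.one
    (fun s hs => (mem_posRoots D hD s).mp hs) x _ h1
  have : {r | r ∈ D.posRoots} = {r | D.IsPosRoot r} := by
    ext r
    exact mem_posRoots D hD r
  rw [this]
  exact hx

theorem inj_neg (x : Γ) (hx : x ∈ gen X {r | D.IsNegRoot r}) (h1 : π x = 1) : x = 1 := by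
  obtain ⟨g, σ, hg, hσ⟩ := exists_w0 D hD K
  apply inj_of_adm hD hX π hπ D.negRoots.reverse (adm_neg D hD) g σ hg
    (fun s hs => hσ s ((mem_negRoots D hD s).mp hs)) x _ h1
  have : {r | r ∈ D.negRoots.reverse} = {r | D.IsNegRoot r} := by
    ext r
    exact mem_negRoots D hD r
  rw [this]
  exact hx

end inj

end Cfsg.Agent.Lib.Helper18.StAbs
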