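import Cfsg.Agent.Lib.Helper18.StCent
import Cfsg.Agent.Lib.Helper18.CentExt

/-!
# Lifting the relations (R1), (R2) through a central extension

Let `Γ` be a perfect group generated by root elements `X r t` with the relations (R1), (R2),
mapped to the Chevalley group by `π`, and let `ψ : E →* Γ` be onto with central kernel.  Following
Steinberg, the commutators of lifts `[h̃, x̃_γ(t/(c-1))]`, for a diagonal element `h` acting on
`X_γ` by the scalar `c ≠ 1`, are lifts `x̃_γ(t)` of the root elements which again satisfy (R1)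
and (R2), under conditions on the root system and the field which are isolated here as
hypotheses.
-/

set_option autoImplicit false

namespace Cfsg.Agent.Lib.Helper18.StAbs

open Cfsg Cfsg.Lie Cfsg.Lie.ChevalleyDatum Cfsg.Agent.Lib.Helper17

variable {K : Type*} [Field K] {Γ : Type*} [Group Γ]

/-- diagonal elements: they act on each root subgroup by a scalar -/
def Dg (D : ChevalleyDatum) (X : ℕ → K → Γ) (h : Γ) (χ : ℕ → K) : Prop :=
  ∀ s < D.nroots, χ s ≠ 0 ∧ ∀ u : K, h * X s u = X s (χ s * u) * h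

section dg

variable {D : ChevalleyDatum} {X : ℕ → K → Γ}

theorem Dg.conj {h : Γ} {χ : ℕ → K} (H : Dg D X h χ) (s : ℕ) (hs : s < D.nroots) (u : K) :
    h * X s u * h⁻¹ = X s (χ s * u) := by
  rw [(H s hs).2 u, mul_assoc, mul_inv_cancel, mul_one]

theorem Dg.mul {h h' : Γ} {χ χ' : ℕ → K} (H : Dg D X h χ) (H' : Dg D X h' χ') :
    Dg D X (h * h') (fun s => χ s * χ' s) := by
  intro s hs
  refine ⟨mul_ne_zero (H s hs).1 (H' s hs).1, fun u => ?_⟩
  show h * h' * X s u = X s (χ s * χ' s * u) * (h * h')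
  rw [mul_assoc h h', (H' s hs).2, ← mul_assoc h, (H s hs).2, mul_assoc (X s _), mul_assoc (χ s)]

theorem Dg.inv {h : Γ} {χ : ℕ → K} (H : Dg D X h χ) : Dg D X h⁻¹ (fun s => (χ s)⁻¹) := by
  intro s hs
  refine ⟨inv_ne_zero (H s hs).1, fun u => ?_⟩
  have h1 := (H s hs).2 ((χ s)⁻¹ * u)
  rw [← mul_assoc, mul_inv_cancel₀ (H s hs).1, one_mul] at h1
  have h2 : X s u = h * X s ((χ s)⁻¹ * u) * h⁻¹ := eq_mul_inv_of_mul_eq h1.symm
  show h⁻¹ * X s u = X s ((χ s)⁻¹ * u) * h⁻¹
  rw [h2]
  group

/-- an element commuting with the root elements is central -/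
theorem central_of_comm_X (hgen : ∀ x : Γ, x ∈ gen X {r | r < D.nroots}) (z : Γ)
    (hz : ∀ s < D.nroots, ∀ u : K, z * X s u = X s u * z) : z ∈ Subgroup.center Γ := by
  have h1 : gen X {r | r < D.nroots} ≤ Subgroup.centralizer {z} := by
    unfold gen
    rw [Subgroup.closure_le]
    rintro g ⟨r, hr, t, rfl⟩
    rw [SetLike.mem_coe, Subgroup.mem_centralizer_iff]
    intro h hh
    rw [Set.mem_singleton_iff.mp hh]
    exact hz r hr t
  rw [Subgroup.mem_center_iff]
  intro g
  have h2 := h1 (hgen g)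
  rw [Subgroup.mem_centralizer_iff] at h2
  exact (h2 z rfl).symm

/-- diagonal elements commute modulo the centre -/
theorem dg_comm_central (hgen : ∀ x : Γ, x ∈ gen X {r | r < D.nroots}) {h h' : Γ}
    {χ χ' : ℕ → K} (H : Dg D X h χ) (H' : Dg D X h' χ') :
    h⁻¹ * (h' * h * h'⁻¹) ∈ Subgroup.center Γ := by
  apply central_of_comm_X hgen
  intro s hs u
  have H3 := H.inv.mul ((H'.mul H).mul H'.inv)
  have h1 := (H3 s hs).2 u
  have h2 : (χ s)⁻¹ * (χ' s * χ s * (χ' s)⁻¹) = 1 := by
    have := (H s hs).1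
    have := (H' s hs).1
    field_simp
  beta_reduce at h1
  rw [h2, one_mul] at h1
  exact h1

end dg

/-! ### Partial relations -/

/-- the relations (R1), and (R2) for the pairs of roots satisfying `P` -/
structure RelP (D : ChevalleyDatum) (X : ℕ → K → Γ) (P : ℕ → ℕ → Prop) : Prop where
  add : ∀ (r : ℕ) (t u : K), X r t * X r u = X r (t + u)
  comm : ∀ r s, r < D.nroots → s < D.nroots → s ≠ r → s ≠ D.neg r → P r s → ∀ t u : K,
    X s u * X r t = X r t * X s u * wd X (D.commWord K r s t u)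

/-- `P` holds for the pairs of an earlier and a later entry of a list -/
def PairsP (P : ℕ → ℕ → Prop) : List ℕ → Prop
  | [] => True
  | r :: post => (∀ s ∈ post, P r s) ∧ PairsP P post

section relp

variable {D : ChevalleyDatum} {X : ℕ → K → Γ} {P : ℕ → ℕ → Prop}

theorem RelP.zero (h : RelP D X P) (r : ℕ) : X r 0 = 1 := by
  have h1 := h.add r 0 0
  rw [add_zero] at h1
  exact mul_eq_left.mp h1

theorem RelP.inv (h : RelP D X P) (r : ℕ) (t : K) : (X r t)⁻¹ = X r (-t) := by
  rw [inv_eq_iff_mul_eq_one, h.add, add_neg_cancel, h.zero]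

theorem RelP.conj (h : RelP D X P) (r s : ℕ) (hr : r < D.nroots) (hs : s < D.nroots)
    (hsr : s ≠ r) (hsn : s ≠ D.neg r) (hP : P r s) (a c : K) :
    (X r a)⁻¹ * X s c * X r a = X s c * wd X (D.commWord K r s a c) := by
  rw [mul_assoc, h.comm r s hr hs hsr hsn hP a c]
  group

theorem conj_mem_gen_P (h : RelP D X P) (S : Set ℕ) (r : ℕ) (hr : r < D.nroots)
    (hS : ∀ s ∈ S, s < D.nroots ∧ s ≠ r ∧ s ≠ D.neg r ∧ P r s ∧ ∀ c ∈ D.commTerms r s, c.1 ∈ S)
    (a : K) (g : Γ) (hg : g ∈ gen X S) : (X r a)⁻¹ * g * X r a ∈ gen X S := by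
  apply conj_closure _ _ _ _ g hg
  rintro x ⟨s, hs, c, rfl⟩
  obtain ⟨h1, h2, h3, h4, h5⟩ := hS s hs
  rw [h.conj r s hr h1 h2 h3 h4 a c]
  exact mul_mem (X_mem_gen X S s hs c) (commWord_mem_gen X S r s h5 a c)

theorem gen_insert_P (h : RelP D X P) (S : Set ℕ) (r : ℕ) (hr : r < D.nroots)
    (hS : ∀ s ∈ S, s < D.nroots ∧ s ≠ r ∧ s ≠ D.neg r ∧ P r s ∧ ∀ c ∈ D.commTerms r s, c.1 ∈ S)
    (g : Γ) (hg : g ∈ gen X (insert r S)) : ∃ a : K, ∃ s ∈ gen X S, g = X r a * s := by
  have step : ∀ (r' : ℕ), r' ∈ insert r S → ∀ (c : K) (y : Γ),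
      (∃ a : K, ∃ s ∈ gen X S, y = X r a * s) → ∃ a : K, ∃ s ∈ gen X S, X r' c * y = X r a * s := by
    rintro r' hr' c y ⟨a, s, hs, rfl⟩
    rcases Set.mem_insert_iff.mp hr' with rfl | hr'S
    · exact ⟨c + a, s, hs, by rw [← mul_assoc, h.add]⟩
    · refine ⟨a, (X r a)⁻¹ * X r' c * X r a * s,
        mul_mem (conj_mem_gen_P h S r hr hS a _ (X_mem_gen X S r' hr'S c)) hs, ?_⟩
      group
  unfold gen at hg
  induction hg using Subgroup.closure_induction_left with
  | one => exact ⟨0, 1, Subgroup.one_mem _, by rw [h.zero, one_mul]⟩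
  | mul_left x hx y _ ihy =>
    obtain ⟨r', hr', c, rfl⟩ := hx
    exact step r' hr' c y ihy
  | inv_mul_cancel x hx y _ ihy =>
    obtain ⟨r', hr', c, rfl⟩ := hx
    rw [h.inv]
    exact step r' hr' (-c) y ihy

theorem oprod_zero_P (h : RelP D X P) (L : List ℕ) (t : ℕ → K) (ht : ∀ r ∈ L, t r = 0) :
    oprod X L t = 1 := by
  unfold oprod
  apply List.prod_eq_one
  intro x hx
  obtain ⟨r, hr, rfl⟩ := List.mem_map.mp hx
  rw [ht r hr, h.zero]

/-- existence of the ordered factorisation along an admissible list -/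
theorem collect_P (h : RelP D X P) : ∀ (L : List ℕ), Adm D L → PairsP P L →
    ∀ g ∈ gen X {r | r ∈ L}, ∃ t : ℕ → K, g = oprod X L t := by
  intro L
  induction L with
  | nil =>
    intro _ _ g hg
    have : gen X {r | r ∈ ([] : List ℕ)} = ⊥ := by
      unfold gen
      rw [Subgroup.closure_eq_bot_iff]
      rintro g ⟨r, hr, -⟩
      simp at hr
    rw [this, Subgroup.mem_bot] at hg
    exact ⟨fun _ => 0, by rw [hg]; rfl⟩
  | cons r post ih =>
    intro hadm hP g hg
    obtain ⟨hr, hrn, hpost, hadm'⟩ := hadm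
    have hset : {r' | r' ∈ r :: post} = insert r {r' | r' ∈ post} := by
      ext x
      simp
    rw [hset] at hg
    obtain ⟨a, s, hs, rfl⟩ := gen_insert_P h {r' | r' ∈ post} r hr
      (fun s hs => ⟨(hpost s hs).1, fun e => hrn (e ▸ hs), (hpost s hs).2.1, hP.1 s hs,
        (hpost s hs).2.2⟩) g hg
    obtain ⟨t, rfl⟩ := ih hadm' hP.2 s hs
    refine ⟨Function.update t r a, ?_⟩
    rw [oprod_cons, Function.update_self]
    congr 1
    apply oprod_congr
    intro r' hr'
    have hne : r' ≠ r := fun e => hrn (e ▸ hr')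
    rw [Function.update_of_ne hne]

end relp

/-- the parameters of an ordered product in the kernel of `π` vanish, if the roots of the list
are moved into the positive roots by an element permuting the root subgroups -/
theorem params_zero {D : ChevalleyDatum}
    (hD : D ∈ [chevG2, chevB2, chevD4, chevF4, chevE6, chevE7, chevE8]) (X : ℕ → K → Γ)
    (π : Γ →* GL D.Idx K) (hπ : ∀ r < D.nroots, ∀ t, π (X r t) = xU D hD r t)
    (L : List ℕ) (hlt : ∀ r ∈ L, r < D.nroots) (hnd : L.Nodup) (g : GL D.Idx K)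
    (σ : Equiv.Perm ℕ) (hg : RootAct D hD g σ)
    (hpos : ∀ s ∈ L, D.IsPosRoot (σ s)) (t : ℕ → K) (h1 : π (oprod X L t) = 1) :
    ∀ r ∈ L, t r = 0 := by
  classical
  have e1 : π (oprod X L t) = (L.map fun r => xU D hD r (t r)).prod := by
    unfold oprod
    rw [map_list_prod, List.map_map]
    congr 1
    apply List.map_congr_left
    intro r hr
    exact hπ r (hlt r hr) (t r)
  rw [e1] at h1
  let c : ℕ → K := fun s => if h : s < D.nroots then Classical.choose (hg.conj s h) else 1
  have hc : ∀ s < D.nroots, c s ≠ 0 ∧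
      ∀ u, g * xU D hD s u = xU D hD (σ s) (c s * u) * g := by
    intro s hs
    have := Classical.choose_spec (hg.conj s hs)
    simp only [c, dif_pos hs]
    exact this
  have e2 := rootAct_prod D hD g σ c (fun s hs => (hc s hs).2) L hlt t
  rw [h1, mul_one] at e2
  have e3 : (L.map fun r => xU D hD (σ r) (c r * t r)).prod = 1 := by
    have := e2.symm
    rwa [mul_eq_right] at this
  have e4 : D.wordMat K ((L.map σ).map fun a => (a, c (σ.symm a) * t (σ.symm a))) = 1 := by
    have e5 : ((L.map σ).map fun a => (a, c (σ.symm a) * t (σ.symm a))) =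
        L.map fun r => (σ r, c r * t r) := by
      rw [List.map_map]
      apply List.map_congr_left
      intro r _
      simp
    rw [e5, ← coe_wordU D hD]
    have e6 : wordU D hD (L.map fun r => (σ r, c r * t r)) =
        (L.map fun r => xU D hD (σ r) (c r * t r)).prod := by
      unfold wordU
      rw [List.map_map]
      rfl
    rw [e6, e3, Units.val_one]
  have e7 := pos_word_unique D hD (L.map σ) (hnd.map σ.injective)
    (fun a ha => by
      obtain ⟨r, hr, rfl⟩ := List.mem_map.mp ha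
      exact hpos r hr) _ e4
  intro r hr
  have e8 := e7 (σ r) (List.mem_map_of_mem hr)
  simp only [Equiv.symm_apply_apply] at e8
  exact (mul_eq_zero.mp e8).resolve_left (hc r (hlt r hr)).1

end Cfsg.Agent.Lib.Helper18.StAbs
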