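import Cfsg.Agent.Lib.Helper18.StLift

/-!
# The lifted root elements

The elements `x̃_γ(t) = [h̃_γ, x̃_γ(t/(c_γ-1))]` of a central extension `ψ : E →* Γ` of a perfect
group `Γ` with the relations (R1), (R2): they lift the root elements, diagonal elements act on
them by the same scalars, and they satisfy (R1) and (R2).
-/

set_option autoImplicit false

namespace Cfsg.Agent.Lib.Helper18.StAbs

open Cfsg Cfsg.Lie Cfsg.Lie.ChevalleyDatum Cfsg.Agent.Lib.Helper17

variable {K : Type*} [Field K] {Γ : Type*} [Group Γ] {E : Type*} [Group E]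

/-- the lifted root elements -/
noncomputable def xt (D : ChevalleyDatum) (X : ℕ → K → Γ) (ψ : E →* Γ)
    (hs : Function.Surjective ψ) (H : ℕ → Γ) (c : ℕ → K) (γ : ℕ) (t : K) : E :=
  if γ < D.nroots then CExt.cc ψ hs (H γ) (X γ (t / (c γ - 1))) else 1

/-- the conditions on a pair of roots used for the relation (R2) of the lifts -/
structure PairOK {D : ChevalleyDatum}
    (hD : D ∈ [chevG2, chevB2, chevD4, chevF4, chevE6, chevE7, chevE8]) (X : ℕ → K → Γ)
    (r s : ℕ) : Prop where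
  adm : Adm D (s :: (D.commTerms r s).map Prod.fst)
  len : PairsP (fun γ δ => (D.commTerms γ δ).length < (D.commTerms r s).length)
    (s :: (D.commTerms r s).map Prod.fst)
  pos : ∃ (g : GL D.Idx K) (σ : Equiv.Perm ℕ), RootAct D hD g σ ∧
    ∀ γ ∈ s :: (D.commTerms r s).map Prod.fst, D.IsPosRoot (σ γ)
  tor : ∃ (h : Γ) (χ : ℕ → K), Dg D X h χ ∧ χ r = 1 ∧ χ s ≠ 1 ∧
    ∀ c ∈ D.commTerms r s, χ c.1 = χ s ^ c.2.2.2

section lift

variable {D : ChevalleyDatum}
  (hD : D ∈ [chevG2, chevB2, chevD4, chevF4, chevE6, chevE7, chevE8])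
  {X : ℕ → K → Γ} (hX : Rel D X) (π : Γ →* GL D.Idx K)
  (hπ : ∀ r < D.nroots, ∀ t, π (X r t) = xU D hD r t)
  (hgen : ∀ x : Γ, x ∈ gen X {r | r < D.nroots}) (hperf : commutator Γ = ⊤)
  (ψ : E →* Γ) (hs : Function.Surjective ψ) (hc : ψ.ker ≤ Subgroup.center E)
  (H : ℕ → Γ) (c : ℕ → K)
  (hH : ∀ γ < D.nroots, ∃ χ, Dg D X (H γ) χ ∧ χ γ = c γ) (hc1 : ∀ γ < D.nroots, c γ ≠ 1)

include hX hH hc1 in
theorem psi_xt (γ : ℕ) (hγ : γ < D.nroots) (t : K) : ψ (xt D X ψ hs H c γ t) = X γ t := by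
  obtain ⟨χ, hχ, hχγ⟩ := hH γ hγ
  have hne : c γ - 1 ≠ 0 := sub_ne_zero.mpr (hc1 γ hγ)
  unfold xt
  rw [if_pos hγ, CExt.psi_cc, hχ.conj γ hγ, hX.inv, hX.add, hχγ]
  congr 1
  field_simp
  ring

theorem xt_ge (γ : ℕ) (hγ : D.nroots ≤ γ) (t : K) : xt D X ψ hs H c γ t = 1 := by
  unfold xt
  rw [if_neg (not_lt.mpr hγ)]

include hgen hperf hc hH in
/-- lifts of diagonal elements act on the lifted root elements by the same scalars -/
theorem xt_conj (a : E) (χ' : ℕ → K) (ha : Dg D X (ψ a) χ') (γ : ℕ) (hγ : γ < D.nroots)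
    (t : K) : a * xt D X ψ hs H c γ t * a⁻¹ = xt D X ψ hs H c γ (χ' γ * t) := by
  obtain ⟨χ, hχ, -⟩ := hH γ hγ
  unfold xt
  rw [if_pos hγ, if_pos hγ, CExt.cc_conj ψ hs hc, ha.conj γ hγ]
  have e2 : ψ a * H γ * (ψ a)⁻¹ = H γ * ((H γ)⁻¹ * (ψ a * H γ * (ψ a)⁻¹)) := by group
  rw [e2, CExt.cc_mul_central ψ hs hc hperf _ _ _ (dg_comm_central hgen hχ ha), mul_div_assoc]

include hX hc in
/-- lifts of elements of a root subgroup commute, if the diagonal elements act on it by scalars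
`c` and `1 + c` with `c² + c + 1 ≠ 0` -/
theorem cc_XX_of_rich (γ : ℕ) (hγ : γ < D.nroots) (c₁ : K) (hc0 : c₁ ≠ 0)
    (hc2 : c₁ ^ 2 + c₁ + 1 ≠ 0)
    (h₁ : Γ) (χ₁ : ℕ → K) (H₁ : Dg D X h₁ χ₁) (e₁ : χ₁ γ = c₁)
    (h₂ : Γ) (χ₂ : ℕ → K) (H₂ : Dg D X h₂ χ₂) (e₂ : χ₂ γ = 1 + c₁) (t u : K) :
    CExt.cc ψ hs (X γ t) (X γ u) = 1 := by
  have hcm : ∀ t u : K, X γ t * X γ u = X γ u * X γ t := by
    intro t u
    rw [hX.add, hX.add, add_comm]
  have hR : ∀ t u u' : K, CExt.cc ψ hs (X γ t) (X γ (u + u')) =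
      CExt.cc ψ hs (X γ t) (X γ u) * CExt.cc ψ hs (X γ t) (X γ u') := by
    intro t u u'
    rw [← hX.add, CExt.cc_mul_right' ψ hs hc _ _ _ (hcm t u')]
  have hL : ∀ t t' u : K, CExt.cc ψ hs (X γ (t + t')) (X γ u) =
      CExt.cc ψ hs (X γ t') (X γ u) * CExt.cc ψ hs (X γ t) (X γ u) := by
    intro t t' u
    rw [← hX.add, CExt.cc_mul_left' ψ hs hc _ _ _ (hcm t' u)]
  have hZ : ∀ (t u : K) (e : E), CExt.cc ψ hs (X γ t) (X γ u) * e =
      e * CExt.cc ψ hs (X γ t) (X γ u) := fun t u e =>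
    CExt.cc_comm_of_comm ψ hs hc _ _ (hcm t u) e
  have hI : ∀ (h : Γ) (χ : ℕ → K), Dg D X h χ → ∀ t u : K,
      CExt.cc ψ hs (X γ (χ γ * t)) (X γ (χ γ * u)) = CExt.cc ψ hs (X γ t) (X γ u) := by
    intro h χ Hh t u
    have h1 := CExt.cc_conj ψ hs hc (CExt.lf ψ hs h) (X γ t) (X γ u)
    rw [CExt.psi_lf, Hh.conj γ hγ, Hh.conj γ hγ] at h1
    rw [← h1, ← hZ t u (CExt.lf ψ hs h)]
    group
  have hI1 : ∀ t u : K, CExt.cc ψ hs (X γ (c₁ * t)) (X γ (c₁ * u)) =
      CExt.cc ψ hs (X γ t) (X γ u) := by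
    intro t u
    have := hI h₁ χ₁ H₁ t u
    rwa [e₁] at this
  have hI2 : ∀ t u : K, CExt.cc ψ hs (X γ ((1 + c₁) * t)) (X γ ((1 + c₁) * u)) =
      CExt.cc ψ hs (X γ t) (X γ u) := by
    intro t u
    have := hI h₂ χ₂ H₂ t u
    rwa [e₂] at this
  have h3 : ∀ t u : K, CExt.cc ψ hs (X γ (c₁ * t)) (X γ u) * CExt.cc ψ hs (X γ t) (X γ u) *
      CExt.cc ψ hs (X γ t) (X γ (c₁ * u)) = 1 := by
    intro t u
    have h := hI2 t u
    rw [add_mul, one_mul, add_mul, one_mul, hL, hR, hR, hI1] at h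
    have hq := hZ t u (CExt.cc ψ hs (X γ (c₁ * t)) (X γ u))
    generalize CExt.cc ψ hs (X γ (c₁ * t)) (X γ u) = p at h hq ⊢
    generalize CExt.cc ψ hs (X γ t) (X γ u) = q at h hq ⊢
    generalize CExt.cc ψ hs (X γ t) (X γ (c₁ * u)) = r at h ⊢
    have h' : q * (p * q * r) = q := by
      calc q * (p * q * r) = (q * p) * q * r := by group
        _ = p * q * q * r := by rw [hq]
        _ = p * q * (q * r) := by group
        _ = q := h
    exact mul_eq_left.mp h'
  have hne : c₁⁻¹ + 1 + c₁ ≠ 0 := by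
    intro h0
    apply hc2
    have : c₁ ^ 2 + c₁ + 1 = c₁ * (c₁⁻¹ + 1 + c₁) := by
      rw [mul_add, mul_add, mul_inv_cancel₀ hc0]
      ring
    rw [this, h0, mul_zero]
  have h4 : ∀ t u : K, CExt.cc ψ hs (X γ t) (X γ ((c₁⁻¹ + 1 + c₁) * u)) = 1 := by
    intro t u
    have h5 := hI1 t (c₁⁻¹ * u)
    rw [← mul_assoc, mul_inv_cancel₀ hc0, one_mul] at h5
    have h6 := h3 t u
    rw [h5, ← hR, ← hR] at h6
    have : (c₁⁻¹ + 1 + c₁) * u = c₁⁻¹ * u + u + c₁ * u := by ring
    rw [this]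
    exact h6
  have h7 := h4 t (u / (c₁⁻¹ + 1 + c₁))
  have h8 : (c₁⁻¹ + 1 + c₁) * (u / (c₁⁻¹ + 1 + c₁)) = u := by
    rw [mul_comm, div_mul_cancel₀ _ hne]
  rwa [h8] at h7

include hX hc hH hc1 in
/-- (R1) for the lifts -/
theorem xt_add (hC : ∀ γ < D.nroots, ∀ t u : K, CExt.cc ψ hs (X γ t) (X γ u) = 1) (γ : ℕ)
    (t u : K) : xt D X ψ hs H c γ t * xt D X ψ hs H c γ u = xt D X ψ hs H c γ (t + u) := by
  by_cases hγ : γ < D.nroots
  · have hpu := psi_xt hX ψ hs H c hH hc1 γ hγ u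
    have ex : ∀ w : K, xt D X ψ hs H c γ w = CExt.cc ψ hs (H γ) (X γ (w / (c γ - 1))) := by
      intro w
      unfold xt
      rw [if_pos hγ]
    have hcomm : CExt.lf ψ hs (X γ (t / (c γ - 1))) * xt D X ψ hs H c γ u *
        (CExt.lf ψ hs (X γ (t / (c γ - 1))))⁻¹ = xt D X ψ hs H c γ u := by
      have h1 := CExt.cc_eq ψ hs hc (CExt.lf ψ hs (X γ (t / (c γ - 1)))) (xt D X ψ hs H c γ u)
        (X γ (t / (c γ - 1))) (X γ u) (CExt.psi_lf ψ hs _) hpu
      rw [hC γ hγ] at h1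
      exact mul_inv_eq_one.mp h1.symm
    rw [ex (t + u), add_div, ← hX.add, CExt.cc_mul_right ψ hs hc, ← ex t, ← ex u, hcomm]
  · simp only [xt, if_neg hγ, mul_one]

include hX hH hc1 in
theorem wd_psi (w : List (ℕ × K)) (hw : ∀ p ∈ w, p.1 < D.nroots) :
    ψ (wd (xt D X ψ hs H c) w) = wd X w := by
  induction w with
  | nil => rw [wd_nil, wd_nil, map_one]
  | cons p w ih =>
    rw [wd_cons, wd_cons, map_mul, psi_xt hX ψ hs H c hH hc1 p.1 (hw p List.mem_cons_self),
      ih (fun q hq => hw q (List.mem_cons_of_mem _ hq))]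

include hX hH hc1 in
theorem oprod_psi (L : List ℕ) (hL : ∀ r ∈ L, r < D.nroots) (p : ℕ → K) :
    ψ (oprod (xt D X ψ hs H c) L p) = oprod X L p := by
  induction L with
  | nil =>
    unfold oprod
    rw [List.map_nil, List.prod_nil, List.map_nil, List.prod_nil, map_one]
  | cons r L ih =>
    rw [oprod_cons, oprod_cons, map_mul, psi_xt hX ψ hs H c hH hc1 r (hL r List.mem_cons_self),
      ih (fun q hq => hL q (List.mem_cons_of_mem _ hq))]

include hgen hperf hc hH in
theorem wd_conj (a : E) (χ' : ℕ → K) (ha : Dg D X (ψ a) χ') (w : List (ℕ × K))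
    (hw : ∀ p ∈ w, p.1 < D.nroots) :
    a * wd (xt D X ψ hs H c) w * a⁻¹ =
      wd (xt D X ψ hs H c) (w.map fun p => (p.1, χ' p.1 * p.2)) := by
  induction w with
  | nil =>
    rw [List.map_nil, wd_nil]
    group
  | cons p w ih =>
    rw [List.map_cons, wd_cons, wd_cons, ← ih (fun q hq => hw q (List.mem_cons_of_mem _ hq)),
      ← xt_conj hgen hperf ψ hs hc H c hH a χ' ha p.1 (hw p List.mem_cons_self)]
    group

include hX hπ hgen hperf hc hH hc1 in
/-- (R2) for the lifts -/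
theorem xt_comm
    (hall : ∀ r s, r < D.nroots → s < D.nroots → s ≠ r → s ≠ D.neg r → PairOK hD X r s)
    (hC : ∀ γ < D.nroots, ∀ t u : K, CExt.cc ψ hs (X γ t) (X γ u) = 1) :
    ∀ n r s, r < D.nroots → s < D.nroots → s ≠ r → s ≠ D.neg r →
      (D.commTerms r s).length = n → ∀ t u : K,
      xt D X ψ hs H c s u * xt D X ψ hs H c r t =
        xt D X ψ hs H c r t * xt D X ψ hs H c s u *
          wd (xt D X ψ hs H c) (D.commWord K r s t u) := by
  intro n
  induction n using Nat.strong_induction_on with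
  | _ n ih =>
  intro r s hr hsl hsr hsn hlen
  obtain ⟨hadm, hlenP, ⟨g, σ, hg, hpos⟩, ⟨h, χ, hdg, hχr, hχs, hχc⟩⟩ := hall r s hr hsl hsr hsn
  have hpsi : ∀ γ < D.nroots, ∀ t, ψ (xt D X ψ hs H c γ t) = X γ t :=
    psi_xt hX ψ hs H c hH hc1
  generalize hY : xt D X ψ hs H c = Y at ih hpsi ⊢
  generalize hL : s :: (D.commTerms r s).map Prod.fst = L at hadm hlenP hpos
  have hRP : RelP D Y (fun γ δ => (D.commTerms γ δ).length < n) := by
    refine ⟨fun γ t u => ?_, fun γ δ hγ hδ h1 h2 hP t u => ih _ hP γ δ hγ hδ h1 h2 rfl t u⟩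
    rw [← hY]
    exact xt_add hX ψ hs hc H c hH hc1 hC γ t u
  have hLlt : ∀ γ ∈ L, γ < D.nroots := hadm.lt
  have hsL : s ∈ L := by
    rw [← hL]
    exact List.mem_cons_self
  have hcone : ∀ c' ∈ D.commTerms r s, c'.1 ∈ L := by
    intro c' hc'
    rw [← hL]
    exact List.mem_cons_of_mem _ (List.mem_map_of_mem hc')
  have hwlt : ∀ t u : K, ∀ p ∈ D.commWord K r s t u, p.1 < D.nroots := by
    intro t u p hp
    unfold ChevalleyDatum.commWord at hp
    obtain ⟨c', hc', rfl⟩ := List.mem_map.mp hp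
    exact hLlt _ (hcone c' hc')
  have hW : ∀ t u : K, ψ (wd Y (D.commWord K r s t u)) = wd X (D.commWord K r s t u) := by
    intro t u
    rw [← hY]
    exact wd_psi hX ψ hs H c hH hc1 _ (hwlt t u)
  have hinj : ∀ e ∈ gen Y {γ | γ ∈ L}, ψ e = 1 → e = 1 := by
    intro e he h1
    obtain ⟨p, rfl⟩ := collect_P hRP L hadm (by rw [← hlen]; exact hlenP) e he
    have h2 : ψ (oprod Y L p) = oprod X L p := by
      rw [← hY]
      exact oprod_psi hX ψ hs H c hH hc1 L hLlt p
    rw [h2] at h1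
    have h3 := params_zero hD X π hπ L hLlt hadm.nodup g σ hg hpos p (by rw [h1, map_one])
    exact oprod_zero_P hRP L p h3
  -- the central defect
  have hzex : ∃ z : K → K → E, (∀ (t u : K) (e : E), z t u * e = e * z t u) ∧
      ∀ t u : K, Y s u * Y r t = z t u * (Y r t * Y s u * wd Y (D.commWord K r s t u)) := by
    refine ⟨fun t u => Y s u * Y r t * (Y r t * Y s u * wd Y (D.commWord K r s t u))⁻¹,
      fun t u e => ?_, fun t u => by group⟩
    apply CExt.ker_comm ψ hc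
    rw [map_mul, map_mul, map_inv, map_mul, map_mul, hW, hpsi s hsl, hpsi r hr,
      hX.comm r s hr hsl hsr hsn t u, mul_inv_cancel]
  obtain ⟨z, hzc, hzd⟩ := hzex
  -- the transfer
  have hT : ∀ t u u' : K, wd Y (D.commWord K r s t u) * Y s u' * wd Y (D.commWord K r s t u') =
      Y s u' * wd Y (D.commWord K r s t (u + u')) := by
    intro t u u'
    have hm1 : ∀ v : K, wd Y (D.commWord K r s t v) ∈ gen Y {γ | γ ∈ L} := fun v =>
      commWord_mem_gen Y {γ | γ ∈ L} r s hcone t v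
    have hm2 : Y s u' ∈ gen Y {γ | γ ∈ L} := X_mem_gen Y _ s hsL u'
    have hmem : wd Y (D.commWord K r s t u) * Y s u' * wd Y (D.commWord K r s t u') *
        (Y s u' * wd Y (D.commWord K r s t (u + u')))⁻¹ ∈ gen Y {γ | γ ∈ L} :=
      mul_mem (mul_mem (mul_mem (hm1 u) hm2) (hm1 u')) (inv_mem (mul_mem hm2 (hm1 (u + u'))))
    have c1 := hX.comm r s hr hsl hsr hsn t u
    have c2 := hX.comm r s hr hsl hsr hsn t u'
    have c3 := hX.comm r s hr hsl hsr hsn t (u + u')
    have k1 : X r t * X s u * (wd X (D.commWord K r s t u) * X s u' *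
        wd X (D.commWord K r s t u')) =
        X r t * X s u * (X s u' * wd X (D.commWord K r s t (u + u'))) := by
      calc X r t * X s u * (wd X (D.commWord K r s t u) * X s u' *
            wd X (D.commWord K r s t u'))
          = (X r t * X s u * wd X (D.commWord K r s t u)) * X s u' *
            wd X (D.commWord K r s t u') := by group
        _ = X s u * X r t * X s u' * wd X (D.commWord K r s t u') := by rw [← c1]
        _ = X s u * (X r t * X s u' * wd X (D.commWord K r s t u')) := by group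
        _ = X s u * (X s u' * X r t) := by rw [← c2]
        _ = X s (u + u') * X r t := by rw [← mul_assoc, hX.add]
        _ = X r t * X s (u + u') * wd X (D.commWord K r s t (u + u')) := c3
        _ = X r t * X s u * (X s u' * wd X (D.commWord K r s t (u + u'))) := by
          rw [← hX.add]
          group
    have hker : ψ (wd Y (D.commWord K r s t u) * Y s u' * wd Y (D.commWord K r s t u') *
        (Y s u' * wd Y (D.commWord K r s t (u + u')))⁻¹) = 1 := by
      rw [map_mul, map_mul, map_mul, map_inv, map_mul, hW, hW, hW, hpsi s hsl,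
        mul_left_cancel k1, mul_inv_cancel]
    exact mul_inv_eq_one.mp (hinj _ hmem hker)
  -- additivity of the defect
  have hA : ∀ t u u' : K, z t (u + u') = z t u * z t u' := by
    intro t u u'
    have w1 : Y s u * Y s u' * Y r t = z t u' * z t u * (Y r t * Y s u *
        (wd Y (D.commWord K r s t u) * Y s u' * wd Y (D.commWord K r s t u'))) := by
      calc Y s u * Y s u' * Y r t = Y s u * (Y s u' * Y r t) := by group
        _ = Y s u * (z t u' * (Y r t * Y s u' * wd Y (D.commWord K r s t u'))) := by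
          rw [hzd t u']
        _ = z t u' * (Y s u * Y r t) * Y s u' * wd Y (D.commWord K r s t u') := by
          rw [← mul_assoc (Y s u), ← hzc t u' (Y s u)]
          group
        _ = z t u' * (z t u * (Y r t * Y s u * wd Y (D.commWord K r s t u))) * Y s u' *
            wd Y (D.commWord K r s t u') := by rw [hzd t u]
        _ = _ := by group
    have w2 : Y s u * Y s u' * Y r t = z t (u + u') * (Y r t * Y s u *
        (wd Y (D.commWord K r s t u) * Y s u' * wd Y (D.commWord K r s t u'))) := by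
      rw [hRP.add s u u', hzd t (u + u'), hT t u u', ← hRP.add s u u']
      group
    rw [w1] at w2
    rw [← mul_right_cancel w2, hzc t u']
  -- invariance under the torus
  have hB : ∀ t u : K, z t (χ s * u) = z t u := by
    intro t u
    have ha : Dg D X (ψ (CExt.lf ψ hs h)) χ := by
      rw [CExt.psi_lf]
      exact hdg
    generalize CExt.lf ψ hs h = a at ha
    have c1 : ∀ γ < D.nroots, ∀ w : K, a * Y γ w * a⁻¹ = Y γ (χ γ * w) := by
      intro γ hγ w
      rw [← hY]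
      exact xt_conj hgen hperf ψ hs hc H c hH a χ ha γ hγ w
    have c2 : a * wd Y (D.commWord K r s t u) * a⁻¹ = wd Y (D.commWord K r s t (χ s * u)) := by
      rw [← hY, wd_conj hgen hperf ψ hs hc H c hH a χ ha _ (hwlt t u)]
      congr 1
      unfold ChevalleyDatum.commWord
      rw [List.map_map]
      apply List.map_congr_left
      intro c' hc'
      refine Prod.ext rfl ?_
      show χ c'.1 * ((c'.2.1 : K) * (-t) ^ c'.2.2.1 * u ^ c'.2.2.2) =
        (c'.2.1 : K) * (-t) ^ c'.2.2.1 * (χ s * u) ^ c'.2.2.2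
      rw [hχc c' hc', mul_pow]
      ring
    have k1 : a * (Y s u * Y r t) * a⁻¹ = Y s (χ s * u) * Y r t := by
      have : a * (Y s u * Y r t) * a⁻¹ = (a * Y s u * a⁻¹) * (a * Y r t * a⁻¹) := by group
      rw [this, c1 s hsl, c1 r hr, hχr, one_mul]
    have k2 : a * (z t u * (Y r t * Y s u * wd Y (D.commWord K r s t u))) * a⁻¹ =
        z t u * (Y r t * Y s (χ s * u) * wd Y (D.commWord K r s t (χ s * u))) := by
      have : a * (z t u * (Y r t * Y s u * wd Y (D.commWord K r s t u))) * a⁻¹ =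
          (a * z t u) * a⁻¹ * ((a * Y r t * a⁻¹) * (a * Y s u * a⁻¹) *
            (a * wd Y (D.commWord K r s t u) * a⁻¹)) := by group
      rw [this, ← hzc t u a, c1 r hr, c1 s hsl, c2, hχr, one_mul]
      group
    have k4 : Y s (χ s * u) * Y r t =
        z t u * (Y r t * Y s (χ s * u) * wd Y (D.commWord K r s t (χ s * u))) := by
      rw [← k1, hzd t u, k2]
    have k5 := hzd t (χ s * u)
    rw [k4] at k5
    exact (mul_right_cancel k5).symm
  have hz0 : ∀ t : K, z t 0 = 1 := by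
    intro t
    have := hA t 0 0
    rw [add_zero] at this
    exact mul_eq_left.mp this.symm
  have hzneg : ∀ t u : K, z t u * z t (-u) = 1 := by
    intro t u
    rw [← hA, add_neg_cancel, hz0]
  have hne : χ s - 1 ≠ 0 := sub_ne_zero.mpr hχs
  have hz1 : ∀ t u : K, z t ((χ s - 1) * u) = 1 := by
    intro t u
    have : (χ s - 1) * u = χ s * u + (-u) := by ring
    rw [this, hA, hB, hzneg]
  intro t u
  have h9 := hz1 t (u / (χ s - 1))
  have h10 : (χ s - 1) * (u / (χ s - 1)) = u := by rw [mul_comm, div_mul_cancel₀ _ hne]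
  rw [h10] at h9
  rw [hzd t u, h9, one_mul]

include hX hπ hgen hperf hc hH hc1 in
/-- the lifts satisfy (R1), (R2) -/
theorem xt_rel
    (hall : ∀ r s, r < D.nroots → s < D.nroots → s ≠ r → s ≠ D.neg r → PairOK hD X r s)
    (hC : ∀ γ < D.nroots, ∀ t u : K, CExt.cc ψ hs (X γ t) (X γ u) = 1) :
    Rel D (xt D X ψ hs H c) :=
  ⟨fun r t u => xt_add hX ψ hs hc H c hH hc1 hC r t u,
   fun r s hr hsl hsr hsn t u =>
    xt_comm hD hX π hπ hgen hperf ψ hs hc H c hH hc1 hall hC _ r s hr hsl hsr hsn rfl t u⟩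

end lift

end Cfsg.Agent.Lib.Helper18.StAbs
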