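import Cfsg.Agent.Lib.Helper18.StLift2

/-!
# The relation (R2) for the lifted root elements, second version

The same as `xt_comm`, with more alternatives for the pairs of roots: for pairs with at most one
term in the commutator formula no element of the Weyl group is needed, and for pairs `(r, s)`
whose commutator formula is `x_{r+s}(C t u)` with `C` invertible it is enough to have a diagonal
element centralising `X_s` and acting nontrivially on `X_{r+s}`.
-/

set_option autoImplicit false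

namespace Cfsg.Agent.Lib.Helper18.StAbs

open Cfsg Cfsg.Lie Cfsg.Lie.ChevalleyDatum Cfsg.Agent.Lib.Helper17

variable {K : Type*} [Field K] {Γ : Type*} [Group Γ] {E : Type*} [Group E]

/-- the conditions on a pair of roots used for the relation (R2) of the lifts -/
structure PairOK2 {D : ChevalleyDatum}
    (hD : D ∈ [chevG2, chevB2, chevD4, chevF4, chevE6, chevE7, chevE8]) (X : ℕ → K → Γ)
    (r s : ℕ) : Prop where
  pos : D.commTerms r s = [] ∨
    (∃ (γ : ℕ) (C : ℤ), D.commTerms r s = [(γ, C, 1, 1)] ∧ γ < D.nroots ∧ (C : K) ≠ 0 ∧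
      (γ = s ∨ ∃ (h : Γ) (χ : ℕ → K), Dg D X h χ ∧ χ s = 1 ∧ χ γ ≠ 1)) ∨
    (Adm D (s :: (D.commTerms r s).map Prod.fst) ∧
      PairsP (fun γ δ => (D.commTerms γ δ).length < (D.commTerms r s).length)
        (s :: (D.commTerms r s).map Prod.fst) ∧
      ((∃ c₀, D.commTerms r s = [c₀] ∧ c₀.2.2.2 = 1) ∨
        ∃ (g : GL D.Idx K) (σ : Equiv.Perm ℕ), RootAct D hD g σ ∧
          ∀ γ ∈ s :: (D.commTerms r s).map Prod.fst, D.IsPosRoot (σ γ)))
  tor : ∃ (h : Γ) (χ : ℕ → K), Dg D X h χ ∧ χ r = 1 ∧ χ s ≠ 1 ∧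
    ∀ c ∈ D.commTerms r s, χ c.1 = χ s ^ c.2.2.2

section gen

variable {D : ChevalleyDatum}
  (hD : D ∈ [chevG2, chevB2, chevD4, chevF4, chevE6, chevE7, chevE8])
  {X : ℕ → K → Γ} (hX : Rel D X) (π : Γ →* GL D.Idx K)
  (hπ : ∀ r < D.nroots, ∀ t, π (X r t) = xU D hD r t)
  (ψ : E →* Γ) (hs : Function.Surjective ψ) (hc : ψ.ker ≤ Subgroup.center E)

include hX in
/-- the root elements of `r + s` and `s` commute if the commutator formula of `(r, s)` has the
single term `x_{r+s}(C t u)` with `C` invertible -/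
theorem X_comm_of_lin (r s γ : ℕ) (C : ℤ) (hr : r < D.nroots) (hsl : s < D.nroots) (hsr : s ≠ r)
    (hsn : s ≠ D.neg r) (hct : D.commTerms r s = [(γ, C, 1, 1)]) (hC0 : (C : K) ≠ 0)
    (a v : K) : X γ a * X s v = X s v * X γ a := by
  have hw : ∀ t u : K, D.commWord K r s t u = [(γ, (C : K) * (-t) ^ 1 * u ^ 1)] := by
    intro t u
    unfold ChevalleyDatum.commWord
    rw [hct]
    rfl
  have R : ∀ u : K, X s u * X r 1 = X r 1 * X s u * X γ ((C : K) * (-1) ^ 1 * u ^ 1) := by
    intro u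
    have h1 := hX.comm r s hr hsl hsr hsn 1 u
    rw [hw] at h1
    exact h1.trans (by rw [wd_cons, wd_nil, mul_one])
  have key : ∀ u u' : K, X γ ((C : K) * (-1) ^ 1 * u ^ 1) * X s u' =
      X s u' * X γ ((C : K) * (-1) ^ 1 * u ^ 1) := by
    intro u u'
    have c1 := R u
    have c2 := R u'
    have c3 := R (u + u')
    have k1 : X r 1 * X s u * (X γ ((C : K) * (-1) ^ 1 * u ^ 1) * X s u' *
        X γ ((C : K) * (-1) ^ 1 * u' ^ 1)) =
        X r 1 * X s u * (X s u' * X γ ((C : K) * (-1) ^ 1 * (u + u') ^ 1)) := by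
      calc X r 1 * X s u * (X γ ((C : K) * (-1) ^ 1 * u ^ 1) * X s u' *
            X γ ((C : K) * (-1) ^ 1 * u' ^ 1))
          = (X r 1 * X s u * X γ ((C : K) * (-1) ^ 1 * u ^ 1)) * X s u' *
            X γ ((C : K) * (-1) ^ 1 * u' ^ 1) := by group
        _ = X s u * X r 1 * X s u' * X γ ((C : K) * (-1) ^ 1 * u' ^ 1) := by rw [← c1]
        _ = X s u * (X r 1 * X s u' * X γ ((C : K) * (-1) ^ 1 * u' ^ 1)) := by group
        _ = X s u * (X s u' * X r 1) := by rw [← c2]
        _ = X s (u + u') * X r 1 := by rw [← mul_assoc, hX.add]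
        _ = X r 1 * X s (u + u') * X γ ((C : K) * (-1) ^ 1 * (u + u') ^ 1) := c3
        _ = X r 1 * X s u * (X s u' * X γ ((C : K) * (-1) ^ 1 * (u + u') ^ 1)) := by
          rw [← hX.add]
          group
    have k2 := mul_left_cancel k1
    have k3 : (C : K) * (-1) ^ 1 * (u + u') ^ 1 =
        (C : K) * (-1) ^ 1 * u ^ 1 + (C : K) * (-1) ^ 1 * u' ^ 1 := by ring
    rw [k3, ← hX.add, ← mul_assoc] at k2
    exact mul_right_cancel k2
  have h1 := key (-(a / C)) v
  have h2 : (C : K) * (-1) ^ 1 * (-(a / C)) ^ 1 = a := by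
    field_simp
  rw [h2] at h1
  exact h1

include hX hc in
/-- lifts of commuting root elements commute, if some diagonal element centralises one of the two
root subgroups and acts nontrivially on the other one -/
theorem cc_of_tor (γ s : ℕ) (hγ : γ < D.nroots) (hsl : s < D.nroots)
    (hXc : ∀ a v : K, X γ a * X s v = X s v * X γ a) (h : Γ) (χ : ℕ → K) (hdg : Dg D X h χ)
    (hχs : χ s = 1) (hχγ : χ γ ≠ 1) (a v : K) : CExt.cc ψ hs (X γ a) (X s v) = 1 := by
  have hL : ∀ a a' : K, CExt.cc ψ hs (X γ (a + a')) (X s v) =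
      CExt.cc ψ hs (X γ a') (X s v) * CExt.cc ψ hs (X γ a) (X s v) := by
    intro a a'
    rw [← hX.add, CExt.cc_mul_left' ψ hs hc _ _ _ (hXc a' v)]
  have hI : ∀ a : K, CExt.cc ψ hs (X γ (χ γ * a)) (X s v) = CExt.cc ψ hs (X γ a) (X s v) := by
    intro a
    have h1 := CExt.cc_conj ψ hs hc (CExt.lf ψ hs h) (X γ a) (X s v)
    rw [CExt.psi_lf, hdg.conj γ hγ, hdg.conj s hsl, hχs, one_mul] at h1
    rw [← h1, ← CExt.cc_comm_of_comm ψ hs hc _ _ (hXc a v) (CExt.lf ψ hs h)]
    group
  have h0 : CExt.cc ψ hs (X γ 0) (X s v) = 1 := by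
    have := hL 0 0
    rw [add_zero] at this
    exact mul_eq_left.mp this.symm
  have hneg : ∀ a : K, CExt.cc ψ hs (X γ (-a)) (X s v) * CExt.cc ψ hs (X γ a) (X s v) = 1 := by
    intro a
    rw [← hL, add_neg_cancel, h0]
  have hne : χ γ - 1 ≠ 0 := sub_ne_zero.mpr hχγ
  have h1 : ∀ a : K, CExt.cc ψ hs (X γ ((χ γ - 1) * a)) (X s v) = 1 := by
    intro a
    have : (χ γ - 1) * a = χ γ * a + (-a) := by ring
    rw [this, hL, hI, hneg]
  have h2 := h1 (a / (χ γ - 1))
  have h3 : (χ γ - 1) * (a / (χ γ - 1)) = a := by rw [mul_comm, div_mul_cancel₀ _ hne]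
  rwa [h3] at h2

theorem wd_psi_gen (Y : ℕ → K → E) (hpsi : ∀ γ < D.nroots, ∀ t, ψ (Y γ t) = X γ t)
    (w : List (ℕ × K)) (hw : ∀ p ∈ w, p.1 < D.nroots) : ψ (wd Y w) = wd X w := by
  induction w with
  | nil => rw [wd_nil, wd_nil, map_one]
  | cons p w ih =>
    rw [wd_cons, wd_cons, map_mul, hpsi p.1 (hw p List.mem_cons_self),
      ih (fun q hq => hw q (List.mem_cons_of_mem _ hq))]

theorem oprod_psi_gen (Y : ℕ → K → E) (hpsi : ∀ γ < D.nroots, ∀ t, ψ (Y γ t) = X γ t)
    (L : List ℕ) (hL : ∀ r ∈ L, r < D.nroots) (p : ℕ → K) :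
    ψ (oprod Y L p) = oprod X L p := by
  induction L with
  | nil =>
    unfold oprod
    rw [List.map_nil, List.prod_nil, List.map_nil, List.prod_nil, map_one]
  | cons r L ih =>
    rw [oprod_cons, oprod_cons, map_mul, hpsi r (hL r List.mem_cons_self),
      ih (fun q hq => hL q (List.mem_cons_of_mem _ hq))]

/-- the identity used for the additivity of the defect: no term -/
theorem lin0_T (Y : ℕ → K → E) (r s : ℕ) (hct : D.commTerms r s = []) (t u u' : K) :
    wd Y (D.commWord K r s t u) * Y s u' * wd Y (D.commWord K r s t u') =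
      Y s u' * wd Y (D.commWord K r s t (u + u')) := by
  have hw : ∀ v : K, D.commWord K r s t v = [] := by
    intro v
    unfold ChevalleyDatum.commWord
    rw [hct]
    rfl
  rw [hw, hw, hw, wd_nil]
  group

/-- the identity used for the additivity of the defect: one term, commuting with `Y s` -/
theorem lin1_T {Y : ℕ → K → E} {P : ℕ → ℕ → Prop} (hRP : RelP D Y P) (r s γ : ℕ) (C : ℤ)
    (hct : D.commTerms r s = [(γ, C, 1, 1)])
    (hcomm : ∀ a v : K, Y γ a * Y s v = Y s v * Y γ a) (t u u' : K) :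
    wd Y (D.commWord K r s t u) * Y s u' * wd Y (D.commWord K r s t u') =
      Y s u' * wd Y (D.commWord K r s t (u + u')) := by
  have hw : ∀ v : K, D.commWord K r s t v = [(γ, (C : K) * (-t) ^ 1 * v ^ 1)] := by
    intro v
    unfold ChevalleyDatum.commWord
    rw [hct]
    rfl
  rw [hw, hw, hw, wd_cons, wd_nil, wd_cons, wd_nil, wd_cons, wd_nil, mul_one, mul_one, mul_one,
    hcomm, mul_assoc, hRP.add]
  congr 2
  ring

/-- the identity used for the additivity of the defect: one term, from an admissible list -/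
theorem lin1old_T {Y : ℕ → K → E} {n : ℕ}
    (hRP : RelP D Y (fun γ δ => (D.commTerms γ δ).length < n)) (r s : ℕ) (hsl : s < D.nroots)
    (hlen : (D.commTerms r s).length = n)
    (hadm : Adm D (s :: (D.commTerms r s).map Prod.fst))
    (hlenP : PairsP (fun γ δ => (D.commTerms γ δ).length < (D.commTerms r s).length)
      (s :: (D.commTerms r s).map Prod.fst))
    (c₀ : ℕ × ℤ × ℕ × ℕ) (hct : D.commTerms r s = [c₀]) (hj : c₀.2.2.2 = 1) (t u u' : K) :
    wd Y (D.commWord K r s t u) * Y s u' * wd Y (D.commWord K r s t u') =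
      Y s u' * wd Y (D.commWord K r s t (u + u')) := by
  have hadm' := hadm
  have hlenP' := hlenP
  rw [hct] at hadm' hlenP'
  simp only [List.map_cons, List.map_nil] at hadm' hlenP'
  obtain ⟨-, hnot, hpost, -⟩ := hadm'
  obtain ⟨hγlt, hγn, -⟩ := hpost c₀.1 List.mem_cons_self
  have hγs : c₀.1 ≠ s := fun e => hnot (by rw [e]; exact List.mem_cons_self)
  have hP0 := hlenP'.1 c₀.1 List.mem_cons_self
  have hP : (D.commTerms s c₀.1).length < n := by
    rw [← hlen, hct]
    exact hP0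
  have hnil : D.commTerms s c₀.1 = [] := by
    apply List.eq_nil_of_length_eq_zero
    have : (D.commTerms s c₀.1).length < 1 := hP0
    omega
  have hcomm : ∀ a v : K, Y c₀.1 a * Y s v = Y s v * Y c₀.1 a := by
    intro a v
    have h1 := hRP.comm s c₀.1 hsl hγlt hγs hγn hP v a
    have hw0 : D.commWord K s c₀.1 v a = [] := by
      unfold ChevalleyDatum.commWord
      rw [hnil]
      rfl
    rw [hw0, wd_nil, mul_one] at h1
    exact h1
  have hw : ∀ v : K, D.commWord K r s t v =
      [(c₀.1, (c₀.2.1 : K) * (-t) ^ c₀.2.2.1 * v ^ c₀.2.2.2)] := by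
    intro v
    unfold ChevalleyDatum.commWord
    rw [hct]
    rfl
  rw [hw, hw, hw, wd_cons, wd_nil, wd_cons, wd_nil, wd_cons, wd_nil, mul_one, mul_one, mul_one,
    hcomm, mul_assoc, hRP.add, hj]
  congr 2
  ring

include hX hπ in
/-- the identity used for the additivity of the defect, transferred from `Γ` -/
theorem transfer_T (Y : ℕ → K → E) (hpsi : ∀ γ < D.nroots, ∀ t, ψ (Y γ t) = X γ t) (n : ℕ)
    (hRP : RelP D Y (fun γ δ => (D.commTerms γ δ).length < n)) (r s : ℕ) (hr : r < D.nroots)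
    (hsl : s < D.nroots) (hsr : s ≠ r) (hsn : s ≠ D.neg r)
    (hlen : (D.commTerms r s).length = n)
    (hadm : Adm D (s :: (D.commTerms r s).map Prod.fst))
    (hlenP : PairsP (fun γ δ => (D.commTerms γ δ).length < (D.commTerms r s).length)
      (s :: (D.commTerms r s).map Prod.fst))
    (g : GL D.Idx K) (σ : Equiv.Perm ℕ) (hg : RootAct D hD g σ)
    (hpos : ∀ γ ∈ s :: (D.commTerms r s).map Prod.fst, D.IsPosRoot (σ γ)) (t u u' : K) :
    wd Y (D.commWord K r s t u) * Y s u' * wd Y (D.commWord K r s t u') =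
      Y s u' * wd Y (D.commWord K r s t (u + u')) := by
  generalize hL : s :: (D.commTerms r s).map Prod.fst = L at hadm hlenP hpos
  have hLlt : ∀ γ ∈ L, γ < D.nroots := hadm.lt
  have hsL : s ∈ L := by
    rw [← hL]
    exact List.mem_cons_self
  have hcone : ∀ c' ∈ D.commTerms r s, c'.1 ∈ L := by
    intro c' hc'
    rw [← hL]
    exact List.mem_cons_of_mem _ (List.mem_map_of_mem hc')
  have hwlt : ∀ t u : K, ∀ p ∈ D.commWord K r s t u, p.1 < D.nroots := by
    intro t u p hp
    unfold ChevalleyDatum.commWord at hp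
    obtain ⟨c', hc', rfl⟩ := List.mem_map.mp hp
    exact hLlt _ (hcone c' hc')
  have hW : ∀ t u : K, ψ (wd Y (D.commWord K r s t u)) = wd X (D.commWord K r s t u) :=
    fun t u => wd_psi_gen ψ Y hpsi _ (hwlt t u)
  have hinj : ∀ e ∈ gen Y {γ | γ ∈ L}, ψ e = 1 → e = 1 := by
    intro e he h1
    obtain ⟨p, rfl⟩ := collect_P hRP L hadm (by rw [← hlen]; exact hlenP) e he
    rw [oprod_psi_gen ψ Y hpsi L hLlt p] at h1
    have h3 := params_zero hD X π hπ L hLlt hadm.nodup g σ hg hpos p (by rw [h1, map_one])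
    exact oprod_zero_P hRP L p h3
  have hm1 : ∀ v : K, wd Y (D.commWord K r s t v) ∈ gen Y {γ | γ ∈ L} := fun v =>
    commWord_mem_gen Y {γ | γ ∈ L} r s hcone t v
  have hm2 : Y s u' ∈ gen Y {γ | γ ∈ L} := X_mem_gen Y _ s hsL u'
  have hmem : wd Y (D.commWord K r s t u) * Y s u' * wd Y (D.commWord K r s t u') *
      (Y s u' * wd Y (D.commWord K r s t (u + u')))⁻¹ ∈ gen Y {γ | γ ∈ L} :=
    mul_mem (mul_mem (mul_mem (hm1 u) hm2) (hm1 u')) (inv_mem (mul_mem hm2 (hm1 (u + u'))))
  have c1 := hX.comm r s hr hsl hsr hsn t u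
  have c2 := hX.comm r s hr hsl hsr hsn t u'
  have c3 := hX.comm r s hr hsl hsr hsn t (u + u')
  have k1 : X r t * X s u * (wd X (D.commWord K r s t u) * X s u' *
      wd X (D.commWord K r s t u')) =
      X r t * X s u * (X s u' * wd X (D.commWord K r s t (u + u'))) := by
    calc X r t * X s u * (wd X (D.commWord K r s t u) * X s u' *
          wd X (D.commWord K r s t u'))
        = (X r t * X s u * wd X (D.commWord K r s t u)) * X s u' *
          wd X (D.commWord K r s t u') := by group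
      _ = X s u * X r t * X s u' * wd X (D.commWord K r s t u') := by rw [← c1]
      _ = X s u * (X r t * X s u' * wd X (D.commWord K r s t u')) := by group
      _ = X s u * (X s u' * X r t) := by rw [← c2]
      _ = X s (u + u') * X r t := by rw [← mul_assoc, hX.add]
      _ = X r t * X s (u + u') * wd X (D.commWord K r s t (u + u')) := c3
      _ = X r t * X s u * (X s u' * wd X (D.commWord K r s t (u + u'))) := by
        rw [← hX.add]
        group
  have hker : ψ (wd Y (D.commWord K r s t u) * Y s u' * wd Y (D.commWord K r s t u') *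
      (Y s u' * wd Y (D.commWord K r s t (u + u')))⁻¹) = 1 := by
    rw [map_mul, map_mul, map_mul, map_inv, map_mul, hW, hW, hW, hpsi s hsl,
      mul_left_cancel k1, mul_inv_cancel]
  exact mul_inv_eq_one.mp (hinj _ hmem hker)

end gen

section lift

variable {D : ChevalleyDatum}
  (hD : D ∈ [chevG2, chevB2, chevD4, chevF4, chevE6, chevE7, chevE8])
  {X : ℕ → K → Γ} (hX : Rel D X) (π : Γ →* GL D.Idx K)
  (hπ : ∀ r < D.nroots, ∀ t, π (X r t) = xU D hD r t)
  (hgen : ∀ x : Γ, x ∈ gen X {r | r < D.nroots}) (hperf : commutator Γ = ⊤)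
  (ψ : E →* Γ) (hs : Function.Surjective ψ) (hc : ψ.ker ≤ Subgroup.center E)
  (H : ℕ → Γ) (c : ℕ → K)
  (hH : ∀ γ < D.nroots, ∃ χ, Dg D X (H γ) χ ∧ χ γ = c γ) (hc1 : ∀ γ < D.nroots, c γ ≠ 1)

include hX hπ hgen hperf hc hH hc1 in
/-- (R2) for the lifts -/
theorem xt_comm2
    (hall : ∀ r s, r < D.nroots → s < D.nroots → s ≠ r → s ≠ D.neg r → PairOK2 hD X r s)
    (hC : ∀ γ < D.nroots, ∀ t u : K, CExt.cc ψ hs (X γ t) (X γ u) = 1) :
    ∀ n r s, r < D.nroots → s < D.nroots → s ≠ r → s ≠ D.neg r →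
      (D.commTerms r s).length = n → ∀ t u : K,
      xt D X ψ hs H c s u * xt D X ψ hs H c r t =
        xt D X ψ hs H c r t * xt D X ψ hs H c s u *
          wd (xt D X ψ hs H c) (D.commWord K r s t u) := by
  intro n
  induction n using Nat.strong_induction_on with
  | _ n ih =>
  intro r s hr hsl hsr hsn hlen
  obtain ⟨hposOr, ⟨h, χ, hdg, hχr, hχs, hχc⟩⟩ := hall r s hr hsl hsr hsn
  have hpsi : ∀ γ < D.nroots, ∀ t, ψ (xt D X ψ hs H c γ t) = X γ t :=
    psi_xt hX ψ hs H c hH hc1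
  have hclt : ∀ c' ∈ D.commTerms r s, c'.1 < D.nroots := by
    intro c' hc'
    rcases hposOr with h0 | ⟨γ, C, hct, hγ, -⟩ | ⟨hadm, -⟩
    · rw [h0] at hc'
      exact absurd hc' List.not_mem_nil
    · rw [hct, List.mem_singleton] at hc'
      rw [hc']
      exact hγ
    · exact hadm.lt _ (List.mem_cons_of_mem _ (List.mem_map_of_mem hc'))
  generalize hY : xt D X ψ hs H c = Y at ih hpsi ⊢
  have hRP : RelP D Y (fun γ δ => (D.commTerms γ δ).length < n) := by
    refine ⟨fun γ t u => ?_, fun γ δ hγ hδ h1 h2 hP t u => ih _ hP γ δ hγ hδ h1 h2 rfl t u⟩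
    rw [← hY]
    exact xt_add hX ψ hs hc H c hH hc1 hC γ t u
  have hwlt : ∀ t u : K, ∀ p ∈ D.commWord K r s t u, p.1 < D.nroots := by
    intro t u p hp
    unfold ChevalleyDatum.commWord at hp
    obtain ⟨c', hc', rfl⟩ := List.mem_map.mp hp
    exact hclt c' hc'
  have hW : ∀ t u : K, ψ (wd Y (D.commWord K r s t u)) = wd X (D.commWord K r s t u) :=
    fun t u => wd_psi_gen ψ Y hpsi _ (hwlt t u)
  -- the central defect
  have hzex : ∃ z : K → K → E, (∀ (t u : K) (e : E), z t u * e = e * z t u) ∧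
      ∀ t u : K, Y s u * Y r t = z t u * (Y r t * Y s u * wd Y (D.commWord K r s t u)) := by
    refine ⟨fun t u => Y s u * Y r t * (Y r t * Y s u * wd Y (D.commWord K r s t u))⁻¹,
      fun t u e => ?_, fun t u => by group⟩
    apply CExt.ker_comm ψ hc
    rw [map_mul, map_mul, map_inv, map_mul, map_mul, hW, hpsi s hsl, hpsi r hr,
      hX.comm r s hr hsl hsr hsn t u, mul_inv_cancel]
  obtain ⟨z, hzc, hzd⟩ := hzex
  -- the transfer
  have hT : ∀ t u u' : K, wd Y (D.commWord K r s t u) * Y s u' * wd Y (D.commWord K r s t u') =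
      Y s u' * wd Y (D.commWord K r s t (u + u')) := by
    rcases hposOr with h0 | ⟨γ, C, hct, hγ, hC0, hγs⟩ | ⟨hadm, hlenP, hlin | ⟨g, σ, hg, hpos⟩⟩
    · exact lin0_T Y r s h0
    · refine lin1_T hRP r s γ C hct ?_
      intro a v
      rcases hγs with hγs | ⟨h', χ', hdg', hχ's, hχ'γ⟩
      · rw [hγs, hRP.add, hRP.add, add_comm]
      · have hXc := X_comm_of_lin hX r s γ C hr hsl hsr hsn hct hC0
        have h1 := CExt.cc_eq ψ hs hc (Y γ a) (Y s v) (X γ a) (X s v) (hpsi γ hγ a)
          (hpsi s hsl v)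
        rw [cc_of_tor hX ψ hs hc γ s hγ hsl hXc h' χ' hdg' hχ's hχ'γ a v] at h1
        have h2 : Y γ a * Y s v = (Y γ a * Y s v * (Y γ a)⁻¹ * (Y s v)⁻¹) * (Y s v * Y γ a) := by
          group
        rw [h2, ← h1, one_mul]
    · obtain ⟨c₀, hct, hj⟩ := hlin
      exact lin1old_T hRP r s hsl hlen hadm hlenP c₀ hct hj
    · exact transfer_T hD hX π hπ ψ Y hpsi n hRP r s hr hsl hsr hsn hlen hadm hlenP g σ hg hpos
  -- additivity of the defect
  have hA : ∀ t u u' : K, z t (u + u') = z t u * z t u' := by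
    intro t u u'
    have w1 : Y s u * Y s u' * Y r t = z t u' * z t u * (Y r t * Y s u *
        (wd Y (D.commWord K r s t u) * Y s u' * wd Y (D.commWord K r s t u'))) := by
      calc Y s u * Y s u' * Y r t = Y s u * (Y s u' * Y r t) := by group
        _ = Y s u * (z t u' * (Y r t * Y s u' * wd Y (D.commWord K r s t u'))) := by
          rw [hzd t u']
        _ = z t u' * (Y s u * Y r t) * Y s u' * wd Y (D.commWord K r s t u') := by
          rw [← mul_assoc (Y s u), ← hzc t u' (Y s u)]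
          group
        _ = z t u' * (z t u * (Y r t * Y s u * wd Y (D.commWord K r s t u))) * Y s u' *
            wd Y (D.commWord K r s t u') := by rw [hzd t u]
        _ = _ := by group
    have w2 : Y s u * Y s u' * Y r t = z t (u + u') * (Y r t * Y s u *
        (wd Y (D.commWord K r s t u) * Y s u' * wd Y (D.commWord K r s t u'))) := by
      rw [hRP.add s u u', hzd t (u + u'), hT t u u', ← hRP.add s u u']
      group
    rw [w1] at w2
    rw [← mul_right_cancel w2, hzc t u']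
  -- invariance under the torus
  have hB : ∀ t u : K, z t (χ s * u) = z t u := by
    intro t u
    have ha : Dg D X (ψ (CExt.lf ψ hs h)) χ := by
      rw [CExt.psi_lf]
      exact hdg
    generalize CExt.lf ψ hs h = a at ha
    have c1 : ∀ γ < D.nroots, ∀ w : K, a * Y γ w * a⁻¹ = Y γ (χ γ * w) := by
      intro γ hγ w
      rw [← hY]
      exact xt_conj hgen hperf ψ hs hc H c hH a χ ha γ hγ w
    have c2 : a * wd Y (D.commWord K r s t u) * a⁻¹ = wd Y (D.commWord K r s t (χ s * u)) := by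
      rw [← hY, wd_conj hgen hperf ψ hs hc H c hH a χ ha _ (hwlt t u)]
      congr 1
      unfold ChevalleyDatum.commWord
      rw [List.map_map]
      apply List.map_congr_left
      intro c' hc'
      refine Prod.ext rfl ?_
      show χ c'.1 * ((c'.2.1 : K) * (-t) ^ c'.2.2.1 * u ^ c'.2.2.2) =
        (c'.2.1 : K) * (-t) ^ c'.2.2.1 * (χ s * u) ^ c'.2.2.2
      rw [hχc c' hc', mul_pow]
      ring
    have k1 : a * (Y s u * Y r t) * a⁻¹ = Y s (χ s * u) * Y r t := by
      have : a * (Y s u * Y r t) * a⁻¹ = (a * Y s u * a⁻¹) * (a * Y r t * a⁻¹) := by group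
      rw [this, c1 s hsl, c1 r hr, hχr, one_mul]
    have k2 : a * (z t u * (Y r t * Y s u * wd Y (D.commWord K r s t u))) * a⁻¹ =
        z t u * (Y r t * Y s (χ s * u) * wd Y (D.commWord K r s t (χ s * u))) := by
      have : a * (z t u * (Y r t * Y s u * wd Y (D.commWord K r s t u))) * a⁻¹ =
          (a * z t u) * a⁻¹ * ((a * Y r t * a⁻¹) * (a * Y s u * a⁻¹) *
            (a * wd Y (D.commWord K r s t u) * a⁻¹)) := by group
      rw [this, ← hzc t u a, c1 r hr, c1 s hsl, c2, hχr, one_mul]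
      group
    have k4 : Y s (χ s * u) * Y r t =
        z t u * (Y r t * Y s (χ s * u) * wd Y (D.commWord K r s t (χ s * u))) := by
      rw [← k1, hzd t u, k2]
    have k5 := hzd t (χ s * u)
    rw [k4] at k5
    exact (mul_right_cancel k5).symm
  have hz0 : ∀ t : K, z t 0 = 1 := by
    intro t
    have := hA t 0 0
    rw [add_zero] at this
    exact mul_eq_left.mp this.symm
  have hzneg : ∀ t u : K, z t u * z t (-u) = 1 := by
    intro t u
    rw [← hA, add_neg_cancel, hz0]
  have hne : χ s - 1 ≠ 0 := sub_ne_zero.mpr hχs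
  have hz1 : ∀ t u : K, z t ((χ s - 1) * u) = 1 := by
    intro t u
    have : (χ s - 1) * u = χ s * u + (-u) := by ring
    rw [this, hA, hB, hzneg]
  intro t u
  have h9 := hz1 t (u / (χ s - 1))
  have h10 : (χ s - 1) * (u / (χ s - 1)) = u := by rw [mul_comm, div_mul_cancel₀ _ hne]
  rw [h10] at h9
  rw [hzd t u, h9, one_mul]

include hX hπ hgen hperf hc hH hc1 in
/-- the lifts satisfy (R1), (R2) -/
theorem xt_rel2
    (hall : ∀ r s, r < D.nroots → s < D.nroots → s ≠ r → s ≠ D.neg r → PairOK2 hD X r s)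
    (hC : ∀ γ < D.nroots, ∀ t u : K, CExt.cc ψ hs (X γ t) (X γ u) = 1) :
    Rel D (xt D X ψ hs H c) :=
  ⟨fun r t u => xt_add hX ψ hs hc H c hH hc1 hC r t u,
   fun r s hr hsl hsr hsn t u =>
    xt_comm2 hD hX π hπ hgen hperf ψ hs hc H c hH hc1 hall hC _ r s hr hsl hsr hsn rfl t u⟩

end lift

end Cfsg.Agent.Lib.Helper18.StAbs
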