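import Cfsg.Agent.Lib.Helper18.StLiftChk2

/-!
# Lifts of the elements of a root subgroup commute

For a root with a certificate `RootCert`, the commutator of lifts of two elements of its root
subgroup through a central extension is trivial.
-/

set_option autoImplicit false

namespace Cfsg.Agent.Lib.Helper18.CExt

variable {E Γ : Type*} [Group E] [Group Γ]

/-- lifts of an element commute with lifts of commutators of elements commuting with it -/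
theorem cc_comm_elt (ψ : E →* Γ) (hs : Function.Surjective ψ) (hc : ψ.ker ≤ Subgroup.center E)
    (x y₁ y₂ : Γ) (h1 : x * y₁ = y₁ * x) (h2 : x * y₂ = y₂ * x) :
    cc ψ hs x (y₁ * y₂ * y₁⁻¹ * y₂⁻¹) = 1 := by
  have e1 : ψ (lf ψ hs x * lf ψ hs y₁ * (lf ψ hs x)⁻¹) = ψ (lf ψ hs y₁) := by
    rw [map_mul, map_mul, map_inv, psi_lf, psi_lf, h1]
    group
  have e2 : ψ (lf ψ hs x * lf ψ hs y₂ * (lf ψ hs x)⁻¹) = ψ (lf ψ hs y₂) := by
    rw [map_mul, map_mul, map_inv, psi_lf, psi_lf, h2]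
    group
  have h3 := comm_eq ψ hc _ _ _ _ e1 e2
  have h4 := cc_eq ψ hs hc (lf ψ hs x)
    (lf ψ hs y₁ * lf ψ hs y₂ * (lf ψ hs y₁)⁻¹ * (lf ψ hs y₂)⁻¹) x (y₁ * y₂ * y₁⁻¹ * y₂⁻¹)
    (psi_lf ψ hs x) (by
      rw [map_mul, map_mul, map_mul, map_inv, map_inv, psi_lf, psi_lf])
  rw [h4]
  have h5 : lf ψ hs x * (lf ψ hs y₁ * lf ψ hs y₂ * (lf ψ hs y₁)⁻¹ * (lf ψ hs y₂)⁻¹) *
      (lf ψ hs x)⁻¹ =
      (lf ψ hs x * lf ψ hs y₁ * (lf ψ hs x)⁻¹) * (lf ψ hs x * lf ψ hs y₂ * (lf ψ hs x)⁻¹) *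
        (lf ψ hs x * lf ψ hs y₁ * (lf ψ hs x)⁻¹)⁻¹ *
        (lf ψ hs x * lf ψ hs y₂ * (lf ψ hs x)⁻¹)⁻¹ := by group
  rw [h5, h3, mul_inv_cancel]

end Cfsg.Agent.Lib.Helper18.CExt

namespace Cfsg.Agent.Lib.Helper18.StAbs

open Cfsg Cfsg.Lie Cfsg.Lie.ChevalleyDatum Cfsg.Agent.Lib.Helper17

variable {K : Type*} [Field K] {Γ : Type*} [Group Γ] {E : Type*} [Group E]

section root

variable {D : ChevalleyDatum}
  (hD : D ∈ [chevG2, chevB2, chevD4, chevF4, chevE6, chevE7, chevE8])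
  {X : ℕ → K → Γ} (hX : Rel D X) (π : Γ →* GL D.Idx K)
  (hπ : ∀ r < D.nroots, ∀ t, π (X r t) = xU D hD r t)
  (ψ : E →* Γ) (hs : Function.Surjective ψ) (hc : ψ.ker ≤ Subgroup.center E)

include hX hc in
/-- the root `γ = a + b` with structure constant invertible in the field, the root elements of
`a` and `b` commuting with those of `γ` -/
theorem cc_XX_of_comm (γ a b : ℕ) (C : ℤ) (ha : a < D.nroots) (hb : b < D.nroots) (hba : b ≠ a)
    (hbn : b ≠ D.neg a) (hct : D.commTerms a b = [(γ, C, 1, 1)]) (hC0 : (C : K) ≠ 0)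
    (hγ : γ < D.nroots) (hγa : γ ≠ a) (hγna : γ ≠ D.neg a) (hγb : γ ≠ b) (hγnb : γ ≠ D.neg b)
    (hca : D.commTerms a γ = []) (hcb : D.commTerms b γ = []) (t u : K) :
    CExt.cc ψ hs (X γ t) (X γ u) = 1 := by
  have hw : ∀ v w : K, D.commWord K a b v w = [(γ, (C : K) * (-v) ^ 1 * w ^ 1)] := by
    intro v w
    unfold ChevalleyDatum.commWord
    rw [hct]
    rfl
  have hwa : ∀ v w : K, D.commWord K a γ v w = [] := by
    intro v w
    unfold ChevalleyDatum.commWord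
    rw [hca]
    rfl
  have hwb : ∀ v w : K, D.commWord K b γ v w = [] := by
    intro v w
    unfold ChevalleyDatum.commWord
    rw [hcb]
    rfl
  have hcomA : ∀ v : K, X γ t * X a v = X a v * X γ t := by
    intro v
    have := hX.comm a γ ha hγ hγa hγna v t
    rwa [hwa, wd_nil, mul_one] at this
  have hcomB : ∀ w : K, X γ t * X b w = X b w * X γ t := by
    intro w
    have := hX.comm b γ hb hγ hγb hγnb w t
    rwa [hwb, wd_nil, mul_one] at this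
  have hkey : X γ u = X b (-1) * X a (u / C) * (X b (-1))⁻¹ * (X a (u / C))⁻¹ := by
    have h1 := hX.comm a b ha hb hba hbn (-(u / C)) 1
    rw [hw, wd_cons, wd_nil, mul_one] at h1
    have h2 : (C : K) * (-(-(u / C))) ^ 1 * 1 ^ 1 = u := by
      field_simp
    rw [h2] at h1
    rw [hX.inv, hX.inv, neg_neg]
    have h3 : X γ u = (X a (-(u / C)) * X b 1)⁻¹ * (X b 1 * X a (-(u / C))) := by
      rw [h1]
      group
    rw [h3, mul_inv_rev, hX.inv, hX.inv, neg_neg]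
    group
  rw [hkey]
  exact CExt.cc_comm_elt ψ hs hc _ _ _ (hcomB (-1)) (hcomA (u / C))

include hX hπ hc in
/-- in characteristic 2: a root on which the diagonal elements act by all squares -/
theorem cc_XX_of_sq (hK5 : ∃ s : Finset K, 4 < s.card) (h2 : (2 : K) = 0) (γ : ℕ)
    (hγ : γ < D.nroots) (i : ℕ) (hi : i < D.rank)
    (hd : dotCA D (D.simple i) γ = 2 ∨ dotCA D (D.simple i) γ = -2) (t u : K) :
    CExt.cc ψ hs (X γ t) (X γ u) = 1 := by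
  obtain ⟨v, hv0, hv1, hv2⟩ := field_f2 hK5
  have hc2 : (v ^ 2) ^ 2 + v ^ 2 + 1 ≠ 0 := by
    have : (v ^ 2) ^ 2 + v ^ 2 + 1 = (v ^ 2 + v + 1) ^ 2 - 2 * (v ^ 3 + v ^ 2 + v) := by ring
    rw [this, h2, zero_mul, sub_zero]
    exact pow_ne_zero 2 hv2
  have hsq : (1 + v) * (1 + v) = 1 + v ^ 2 := by
    have : (1 + v) * (1 + v) = 1 + v ^ 2 + 2 * v := by ring
    rw [this, h2, zero_mul, add_zero]
  rcases hd with hd | hd
  · refine cc_XX_of_rich hX ψ hs hc γ hγ (v ^ 2) (pow_ne_zero 2 hv0) hc2 _ _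
      (dg_hG hD hX π hπ i hi v hv0) ?_ _ _ (dg_hG hD hX π hπ i hi (1 + v) hv1) ?_ t u
    · show v ^ dotCA D (D.simple i) γ = v ^ 2
      rw [hd, zpow_two, pow_two]
    · show (1 + v) ^ dotCA D (D.simple i) γ = 1 + v ^ 2
      rw [hd, zpow_two, hsq]
  · refine cc_XX_of_rich hX ψ hs hc γ hγ (v ^ 2) (pow_ne_zero 2 hv0) hc2 _ _
      (dg_hG hD hX π hπ i hi v⁻¹ (inv_ne_zero hv0)) ?_ _ _
      (dg_hG hD hX π hπ i hi (1 + v)⁻¹ (inv_ne_zero hv1)) ?_ t u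
    · show v⁻¹ ^ dotCA D (D.simple i) γ = v ^ 2
      rw [hd, zpow_neg, zpow_two, mul_inv_rev, inv_inv, pow_two]
    · show (1 + v)⁻¹ ^ dotCA D (D.simple i) γ = 1 + v ^ 2
      rw [hd, zpow_neg, zpow_two, mul_inv_rev, inv_inv, hsq]

include hX hπ in
/-- some diagonal element acts nontrivially on the root subgroup -/
theorem rootCert_nz (hK5 : ∃ s : Finset K, 4 < s.card) (γ : ℕ) (h : RootCert D γ) :
    ∃ (h : Γ) (χ : ℕ → K), Dg D X h χ ∧ χ γ ≠ 1 := by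
  rcases h with ⟨i, j, p, q, hi, hj, h1⟩ | ⟨⟨i, hi, hd⟩, -⟩
  · obtain ⟨c₀, hc₀, hc₁⟩ := field_f1 hK5
    refine ⟨hG D X (D.simple i) (c₀ ^ p) * hG D X (D.simple j) (c₀ ^ q), _,
      (dg_hG hD hX π hπ i hi (c₀ ^ p) (zpow_ne_zero p hc₀)).mul
        (dg_hG hD hX π hπ j hj (c₀ ^ q) (zpow_ne_zero q hc₀)), ?_⟩
    show (c₀ ^ p) ^ dotCA D (D.simple i) γ * (c₀ ^ q) ^ dotCA D (D.simple j) γ ≠ 1
    have h6 : (c₀ ^ p) ^ dotCA D (D.simple i) γ * (c₀ ^ q) ^ dotCA D (D.simple j) γ =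
        c₀ ^ torE D i j p q γ := by
      unfold torE
      rw [← zpow_mul, ← zpow_mul, ← zpow_add₀ hc₀]
    rw [h6, h1, zpow_one]
    exact hc₁
  · obtain ⟨a, ha, had⟩ := field_f3 hK5 (dotCA D (D.simple i) γ)
      (by rcases hd with hd | hd <;> rw [hd] <;> decide)
      (by rcases hd with hd | hd <;> rw [hd] <;> decide)
    exact ⟨_, _, dg_hG hD hX π hπ i hi a ha, had⟩

include hX hπ hc in
/-- lifts of the elements of a root subgroup commute -/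
theorem rootCert_cc (hK5 : ∃ s : Finset K, 4 < s.card) (γ : ℕ) (hγ : γ < D.nroots)
    (h : RootCert D γ) (t u : K) : CExt.cc ψ hs (X γ t) (X γ u) = 1 := by
  rcases h with ⟨i, j, p, q, hi, hj, h1⟩ | ⟨⟨i, hi, hd⟩, a, b, C, ha, hb, hba, hbn, hct, hC2, hγa,
    hγna, hγb, hγnb, hca, hcb⟩
  · obtain ⟨c₂, hc20, hc21, hc22⟩ := field_f2 hK5
    have hfull : ∀ c : K, c ≠ 0 → ∃ (h : Γ) (χ : ℕ → K), Dg D X h χ ∧ χ γ = c := by
      intro c hc0
      refine ⟨hG D X (D.simple i) (c ^ p) * hG D X (D.simple j) (c ^ q), _,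
        (dg_hG hD hX π hπ i hi (c ^ p) (zpow_ne_zero p hc0)).mul
          (dg_hG hD hX π hπ j hj (c ^ q) (zpow_ne_zero q hc0)), ?_⟩
      show (c ^ p) ^ dotCA D (D.simple i) γ * (c ^ q) ^ dotCA D (D.simple j) γ = c
      have h6 : (c ^ p) ^ dotCA D (D.simple i) γ * (c ^ q) ^ dotCA D (D.simple j) γ =
          c ^ torE D i j p q γ := by
        unfold torE
        rw [← zpow_mul, ← zpow_mul, ← zpow_add₀ hc0]
      rw [h6, h1, zpow_one]
    obtain ⟨h₁, χ₁, H₁, e₁⟩ := hfull c₂ hc20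
    obtain ⟨h₂, χ₂, H₂, e₂⟩ := hfull (1 + c₂) hc21
    exact cc_XX_of_rich hX ψ hs hc γ hγ c₂ hc20 hc22 h₁ χ₁ H₁ e₁ h₂ χ₂ H₂ e₂ t u
  · by_cases h2 : (2 : K) = 0
    · exact cc_XX_of_sq hD hX π hπ ψ hs hc hK5 h2 γ hγ i hi hd t u
    · have hC0 : (C : K) ≠ 0 := by
        rcases Int.natAbs_eq C with h | h
        · rw [h, hC2]
          exact_mod_cast h2
        · rw [h, hC2]
          push_cast
          exact neg_ne_zero.mpr h2
      exact cc_XX_of_comm hX ψ hs hc γ a b C ha hb hba hbn hct hC0 hγ hγa hγna hγb hγnb hca hcb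
        t u

end root

end Cfsg.Agent.Lib.Helper18.StAbs
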