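import Cfsg.Agent.Lib.Helper18.StLiftChk2

/-!
# Pair certificates for the simply laced types

When all chains have length at most one, the commutator formula of a pair `(r, s)` has at most one
term `x_{r+s}(± t u)`, read off the chain table, and the certificates `PairCert` for all pairs with
a given first root `r` follow from a check along the row of `r` in the chain table and a check
along the columns of the table of Cartan integers.
-/

set_option autoImplicit false

namespace Cfsg.Agent.Lib.Helper18.StAbs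

open Cfsg Cfsg.Lie Cfsg.Lie.ChevalleyDatum Cfsg.Agent.Lib.Helper17

/-- all chains have length at most one -/
def slB (D : ChevalleyDatum) : Bool :=
  D.chain.toList.all fun row => row.toList.all fun e => decide (e.2.size ≤ 1)

theorem chainEntry_len (D : ChevalleyDatum) (h : slB D = true) (a b : ℕ) :
    (D.chainEntry a b).length ≤ 1 := by
  unfold ChevalleyDatum.chainEntry
  split
  · simp
  · rename_i e he
    have hmem := List.mem_of_find?_eq_some he
    rw [Array.getD_eq_getD_getElem?] at hmem
    cases hrow : D.chain[a]? with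
    | none =>
      rw [hrow] at hmem
      simp at hmem
    | some row =>
      rw [hrow] at hmem
      have h1 : row ∈ D.chain.toList := Array.mem_toList_iff.mpr (Array.mem_of_getElem? hrow)
      have h2 := List.all_eq_true.mp (List.all_eq_true.mp h row h1) e hmem
      rw [Array.length_toList]
      exact of_decide_eq_true h2

/-- the commutator formula in the simply laced case -/
theorem commTerms_sl (D : ChevalleyDatum) (h : slB D = true) (r s : ℕ) :
    D.commTerms r s = (D.chainEntry r s).map fun g => (g.1, g.2, 1, 1) := by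
  have h1 := chainEntry_len D h r s
  have h2 := chainEntry_len D h s r
  unfold ChevalleyDatum.commTerms ChevalleyDatum.chainRoot ChevalleyDatum.chainM
  generalize D.chainEntry r s = l at h1
  generalize D.chainEntry s r = l' at h2
  rcases l with _ | ⟨a, _ | ⟨a', l⟩⟩
  · rcases l' with _ | ⟨b, _ | ⟨b', l'⟩⟩
    · rfl
    · rfl
    · simp at h2
  · rcases l' with _ | ⟨b, _ | ⟨b', l'⟩⟩
    · rfl
    · rfl
    · simp at h2
  · simp at h1

/-- the test for the exponents of the diagonal elements -/
def okE (x : ℤ) : Bool := x != 0 && decide (x.natAbs ≤ 3)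

/-- the columns of the table of Cartan integers -/
def colsOf (D : ChevalleyDatum) : List (ℕ × List Bool × List ℤ) :=
  (List.range D.nroots).map fun s =>
    (s, (List.range D.rank).map (fun i => okE (D.cartan i s)),
      (List.range D.rank).map (fun i => D.cartan i s))

theorem getD_map_range {α : Type*} (f : ℕ → α) (n i : ℕ) (hi : i < n) (d : α) :
    ((List.range n).map f).getD i d = f i := by
  rw [List.getD_eq_getElem?_getD, List.getElem?_map, List.getElem?_range hi]
  rfl

/-- the check of the diagonal elements for the pairs with first root `r`: `S` lists fundamental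
roots `i` with Cartan integer `0` on `r` and `M` lists elements `h_i(a^p) h_j(a^q)` -/
def torRowB (D : ChevalleyDatum) (cols : List (ℕ × List Bool × List ℤ)) (r : ℕ) (S : List ℕ)
    (M : List (ℕ × ℕ × ℤ × ℤ)) : Bool :=
  (S.all fun i => decide (i < D.rank) && D.cartan i r == 0) &&
  (M.all fun c => decide (c.1 < D.rank) && decide (c.2.1 < D.rank) &&
      torE2 D c.1 c.2.1 c.2.2.1 c.2.2.2 r == 0) &&
  (cols.all fun sc => sc.1 == r || sc.1 == D.neg r || (S.any fun i => sc.2.1.getD i false) ||
      M.any fun c => okE (c.2.2.1 * sc.2.2.getD c.1 0 + c.2.2.2 * sc.2.2.getD c.2.1 0))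

theorem torRowB_spec (D : ChevalleyDatum) (r : ℕ) (S : List ℕ) (M : List (ℕ × ℕ × ℤ × ℤ))
    (h : torRowB D (colsOf D) r S M = true) (s : ℕ) (hs : s < D.nroots) (hsr : s ≠ r)
    (hsn : s ≠ D.neg r) :
    ∃ (i j : ℕ) (p q : ℤ), i < D.rank ∧ j < D.rank ∧ torE2 D i j p q r = 0 ∧
      torE2 D i j p q s ≠ 0 ∧ (torE2 D i j p q s).natAbs ≤ 3 := by
  unfold torRowB at h
  rw [Bool.and_eq_true, Bool.and_eq_true] at h
  obtain ⟨⟨h1, h2⟩, h3⟩ := h
  have hmem : (s, (List.range D.rank).map (fun i => okE (D.cartan i s)),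
      (List.range D.rank).map (fun i => D.cartan i s)) ∈ colsOf D :=
    List.mem_map.mpr ⟨s, List.mem_range.mpr hs, rfl⟩
  have h4 := List.all_eq_true.mp h3 _ hmem
  simp only [Bool.or_eq_true, beq_iff_eq] at h4
  rcases h4 with ((h4 | h4) | h4) | h4
  · exact absurd h4 hsr
  · exact absurd h4 hsn
  · obtain ⟨i, hi, h5⟩ := List.any_eq_true.mp h4
    have h6 := List.all_eq_true.mp h1 i hi
    rw [Bool.and_eq_true] at h6
    have hi' : i < D.rank := of_decide_eq_true h6.1
    have h7 : D.cartan i r = 0 := by simpa using h6.2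
    rw [getD_map_range _ _ _ hi'] at h5
    unfold okE at h5
    rw [Bool.and_eq_true] at h5
    refine ⟨i, i, 1, 0, hi', hi', ?_, ?_, ?_⟩
    · unfold torE2
      rw [h7]
      ring
    · unfold torE2
      rw [one_mul, zero_mul, add_zero]
      simpa using h5.1
    · unfold torE2
      rw [one_mul, zero_mul, add_zero]
      exact of_decide_eq_true h5.2
  · obtain ⟨c, hc, h5⟩ := List.any_eq_true.mp h4
    have h6 := List.all_eq_true.mp h2 c hc
    rw [Bool.and_eq_true, Bool.and_eq_true] at h6
    have hi' : c.1 < D.rank := of_decide_eq_true h6.1.1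
    have hj' : c.2.1 < D.rank := of_decide_eq_true h6.1.2
    rw [getD_map_range _ _ _ hi', getD_map_range _ _ _ hj'] at h5
    unfold okE at h5
    rw [Bool.and_eq_true] at h5
    refine ⟨c.1, c.2.1, c.2.2.1, c.2.2.2, hi', hj', by simpa using h6.2, ?_, ?_⟩
    · unfold torE2
      simpa using h5.1
    · unfold torE2
      exact of_decide_eq_true h5.2

/-- the check along the row of `r` in the chain table -/
def chainRowB (D : ChevalleyDatum) (r : ℕ) : Bool :=
  (D.chain.getD r #[]).toList.all fun e =>
    match e.2.toList with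
    | [] => true
    | [g] => decide (g.1 < D.nroots) && g.1 != D.neg e.1 && (g.2 == 1 || g.2 == -1)
    | _ => false

theorem chainRowB_spec (D : ChevalleyDatum) (r : ℕ) (h : chainRowB D r = true) (s : ℕ) :
    D.chainEntry r s = [] ∨ ∃ g, D.chainEntry r s = [g] ∧ g.1 < D.nroots ∧
      g.1 ≠ D.neg s ∧ (g.2 = 1 ∨ g.2 = -1) := by
  unfold ChevalleyDatum.chainEntry
  split
  · left
    rfl
  · rename_i e he
    have hmem := List.mem_of_find?_eq_some he
    have hkey : e.1 = s := by simpa using List.find?_some he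
    have h1 := List.all_eq_true.mp h e hmem
    split at h1
    · left
      assumption
    · rename_i g hg
      right
      simp only [Bool.and_eq_true, Bool.or_eq_true, decide_eq_true_eq, bne_iff_ne, ne_eq,
        beq_iff_eq] at h1
      obtain ⟨⟨h2, h4⟩, h6⟩ := h1
      rw [hkey] at h4
      exact ⟨g, hg, h2, h4, h6⟩
    · exact absurd h1 (by simp)

/-- the conditions on the row of a root `r`: the chain table, and diagonal elements centralising
`X_r` and acting nontrivially on each other root subgroup -/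
def RowOK (D : ChevalleyDatum) (r : ℕ) : Prop :=
  chainRowB D r = true ∧ ∀ s < D.nroots, s ≠ r → s ≠ D.neg r →
    ∃ (i j : ℕ) (p q : ℤ), i < D.rank ∧ j < D.rank ∧ torE2 D i j p q r = 0 ∧
      torE2 D i j p q s ≠ 0 ∧ (torE2 D i j p q s).natAbs ≤ 3

/-- the certificate for a pair of roots in the simply laced case -/
theorem pairCert_sl (D : ChevalleyDatum) (hsl : slB D = true) (hcart : cartChk D = true)
    (hrows : ∀ r < D.nroots, RowOK D r) (r s : ℕ) (hr : r < D.nroots) (hs : s < D.nroots)
    (hsr : s ≠ r) (hsn : s ≠ D.neg r) : PairCert D r s := by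
  have key : ∀ a < D.nroots, ∀ b < D.nroots, b ≠ a → b ≠ D.neg a →
      ∃ (i j : ℕ) (p q : ℤ), i < D.rank ∧ j < D.rank ∧ torE D i j p q a = 0 ∧
        torE D i j p q b ≠ 0 ∧ (torE D i j p q b).natAbs ≤ 3 := by
    intro a ha b hb hba hbn
    obtain ⟨i, j, p, q, hi, hj, t1, t2, t3⟩ := (hrows a ha).2 b hb hba hbn
    rw [← torE_eq2 D hcart i j p q a hi hj ha] at t1
    rw [← torE_eq2 D hcart i j p q b hi hj hb] at t2 t3
    exact ⟨i, j, p, q, hi, hj, t1, t2, t3⟩
  obtain ⟨i, j, p, q, hi, hj, t1, t2, t3⟩ := key r hr s hs hsr hsn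
  have hct := commTerms_sl D hsl r s
  rcases chainRowB_spec D r (hrows r hr).1 s with h0 | ⟨g, h1, hg, hgn, hg2⟩
  · rw [h0, List.map_nil] at hct
    refine ⟨Or.inl hct, i, j, p, q, hi, hj, t1, t2, t3, Or.inl ?_⟩
    rw [hct]
    intro c hc
    exact absurd hc List.not_mem_nil
  · rw [h1, List.map_cons, List.map_nil] at hct
    refine ⟨Or.inr (Or.inl ⟨g.1, g.2, hct, hg, hg2, ?_⟩), i, j, p, q, hi, hj, t1, t2, t3,
      Or.inr ⟨g.1, g.2, hct, hg, hg2⟩⟩
    by_cases hgs : g.1 = s
    · exact Or.inl hgs
    · exact Or.inr (key s hs g.1 hg hgs hgn)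

/-- the check for the rows of a list -/
def slChunkB (D : ChevalleyDatum) (R : List (ℕ × List ℕ × List (ℕ × ℕ × ℤ × ℤ))) : Bool :=
  R.all fun x => chainRowB D x.1 && torRowB D (colsOf D) x.1 x.2.1 x.2.2

theorem rowOK_of_slChunk (D : ChevalleyDatum) (R : List (ℕ × List ℕ × List (ℕ × ℕ × ℤ × ℤ)))
    (h : slChunkB D R = true) (x : ℕ × List ℕ × List (ℕ × ℕ × ℤ × ℤ)) (hx : x ∈ R) :
    RowOK D x.1 := by
  have h1 := List.all_eq_true.mp h x hx
  rw [Bool.and_eq_true] at h1
  exact ⟨h1.1, fun s hs hsr hsn => torRowB_spec D x.1 x.2.1 x.2.2 h1.2 s hs hsr hsn⟩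

end Cfsg.Agent.Lib.Helper18.StAbs
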