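import Mathlib

/-!
# Lifting elements of `p`-power order through central extensions without `p`-torsion

Let `ψ : Γ → Δ` be a central extension of a finite perfect group whose kernel has no element of
order `p`.  Then the elements of a subgroup of `Δ` of exponent a power of `p` have unique lifts of
`p`-power order, and these lifts multiply.  (The lifts are obtained in the finite commutator
subgroup of `Γ`, using the transfer into the centre.)
-/

set_option autoImplicit false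

namespace Cfsg.Agent.Lib.Helper18.PLift

open scoped commutatorElement

/-- the commutator subgroup is finite when the centre has finite index -/
theorem finite_commutator_of_center {G : Type*} [Group G]
    (hfin : Finite (G ⧸ Subgroup.center G)) : Finite (commutator G) := by
  classical
  have key : ∀ a b a' b' : G, a'⁻¹ * a ∈ Subgroup.center G → b'⁻¹ * b ∈ Subgroup.center G →
      ⁅a', b'⁆ = ⁅a, b⁆ := by
    intro a b a' b' ha hb
    have hz : ∀ g : G, (a'⁻¹ * a) * g = g * (a'⁻¹ * a) :=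
      fun g => (Subgroup.mem_center_iff.mp ha g).symm
    have hw : ∀ g : G, (b'⁻¹ * b) * g = g * (b'⁻¹ * b) :=
      fun g => (Subgroup.mem_center_iff.mp hb g).symm
    have e1 : a * b * a⁻¹ = a' * b * a'⁻¹ := by
      calc a * b * a⁻¹ = a' * ((a'⁻¹ * a) * b) * (a'⁻¹ * a)⁻¹ * a'⁻¹ := by group
        _ = a' * (b * (a'⁻¹ * a)) * (a'⁻¹ * a)⁻¹ * a'⁻¹ := by rw [hz b]
        _ = a' * b * a'⁻¹ := by group
    have e3 := hw a'⁻¹
    rw [commutatorElement_def, commutatorElement_def, e1]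
    calc a' * b' * a'⁻¹ * b'⁻¹ = a' * b' * (a'⁻¹ * (b'⁻¹ * b)) * b⁻¹ := by group
      _ = a' * b' * ((b'⁻¹ * b) * a'⁻¹) * b⁻¹ := by rw [e3]
      _ = a' * b * a'⁻¹ * b⁻¹ := by group
  have hsub : commutatorSet G ⊆ Set.range
      (fun p : (G ⧸ Subgroup.center G) × (G ⧸ Subgroup.center G) => ⁅p.1.out, p.2.out⁆) := by
    rintro g ⟨a, b, rfl⟩
    refine ⟨((a : G ⧸ Subgroup.center G), (b : G ⧸ Subgroup.center G)), ?_⟩
    exact key a b _ _ (QuotientGroup.eq.mp (QuotientGroup.out_eq' _))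
      (QuotientGroup.eq.mp (QuotientGroup.out_eq' _))
  have hf : (commutatorSet G).Finite := (Set.finite_range _).subset hsub
  have hf' : Finite (commutatorSet G) := hf.to_subtype
  exact inferInstance

/-- powers modulo an exponent -/
theorem pow_mod_of_pow_eq_one {G : Type*} [Group G] (z : G) (b n : ℕ) (hz : z ^ b = 1) :
    z ^ n = z ^ (n % b) := by
  conv_lhs => rw [← Nat.mod_add_div n b]
  rw [pow_add, pow_mul, hz, one_pow, mul_one]

/-- an endomorphism of a finite central extension of a group of exponent `p ^ k` by a group without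
`p`-torsion, which picks the lifts of `p`-power order -/
theorem plift_hom {H Δ : Type*} [Group H] [Finite H] [Group Δ] (p : ℕ) [hp : Fact p.Prime]
    (ρ : H →* Δ) (hc : ρ.ker ≤ Subgroup.center H) (hT : ∀ z ∈ ρ.ker, z ^ p = 1 → z = 1) (k : ℕ)
    (hN : ∀ x : H, ρ x ^ (p ^ k) = 1) :
    ∃ s : H →* H, (∀ x, ρ (s x) = ρ x) ∧ (∀ z ∈ ρ.ker, s z = 1) ∧ (∀ x, s x ^ (p ^ k) = 1) := by
  classical
  have hpg : IsPGroup p (H ⧸ Subgroup.center H) := by
    intro g
    obtain ⟨x, rfl⟩ := QuotientGroup.mk_surjective g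
    refine ⟨k, ?_⟩
    rw [← QuotientGroup.mk_pow, QuotientGroup.eq_one_iff]
    apply hc
    rw [MonoidHom.mem_ker, map_pow]
    exact hN x
  obtain ⟨j, hj⟩ := (IsPGroup.iff_card).mp hpg
  have hidx : (Subgroup.center H).index = p ^ j := by
    rw [Subgroup.index_eq_card]
    exact hj
  have hb0 : 0 < Nat.card ρ.ker := Nat.card_pos
  have hpb : ¬ p ∣ Nat.card ρ.ker := by
    intro hdvd
    obtain ⟨z, hz⟩ := exists_prime_orderOf_dvd_card' p hdvd
    have h1 : z ^ p = 1 := by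
      rw [← hz]
      exact pow_orderOf_eq_one z
    have h2 : (z : H) = 1 := hT z z.2 (by
      have := congrArg Subtype.val h1
      simpa using this)
    have h3 : z = 1 := Subtype.ext h2
    rw [h3, orderOf_one] at hz
    exact hp.out.one_lt.ne hz
  have hcop : Nat.Coprime (p ^ (j + k)) (Nat.card ρ.ker) :=
    Nat.Coprime.pow_left _ ((Nat.Prime.coprime_iff_not_dvd hp.out).mpr hpb)
  obtain ⟨φ', hφ'⟩ : ∃ φ', Nat.totient (Nat.card ρ.ker) = φ' + 1 :=
    ⟨Nat.totient (Nat.card ρ.ker) - 1, by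
      have := Nat.totient_pos.mpr hb0
      omega⟩
  have he1 : (p ^ (j + k)) ^ (φ' + 1) ≡ 1 [MOD Nat.card ρ.ker] := by
    rw [← hφ']
    exact Nat.ModEq.pow_totient hcop
  have hm : (p ^ (j + k)) ^ (φ' + 1) = p ^ j * (p ^ k * (p ^ (j + k)) ^ φ') := by
    rw [pow_succ, pow_add]
    ring
  have hm' : (p ^ (j + k)) ^ (φ' + 1) = p ^ k * (p ^ j * (p ^ (j + k)) ^ φ') := by
    rw [hm]
    ring
  have hTn : ∀ x : H, x ^ p ^ j ∈ Subgroup.center H := by
    intro x
    have h1 := MonoidHom.transferCenterPow_apply (G := H) x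
    rw [hidx] at h1
    rw [← h1]
    exact (MonoidHom.transferCenterPow H x).2
  have hTmul : ∀ x y : H, (x * y) ^ p ^ j = x ^ p ^ j * y ^ p ^ j := by
    intro x y
    have h1 := congrArg Subtype.val (map_mul (MonoidHom.transferCenterPow H) x y)
    rw [Subgroup.coe_mul, MonoidHom.transferCenterPow_apply, MonoidHom.transferCenterPow_apply,
      MonoidHom.transferCenterPow_apply, hidx] at h1
    exact h1
  have hE : ∀ x : H, x ^ ((p ^ (j + k)) ^ (φ' + 1)) = (x ^ p ^ j) ^ (p ^ k * (p ^ (j + k)) ^ φ') := by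
    intro x
    rw [hm, pow_mul]
  have hcenE : ∀ x : H, x ^ ((p ^ (j + k)) ^ (φ' + 1)) ∈ Subgroup.center H := by
    intro x
    rw [hE]
    exact Subgroup.pow_mem _ (hTn x) _
  have hmulE : ∀ x y : H, (x * y) ^ ((p ^ (j + k)) ^ (φ' + 1)) =
      x ^ ((p ^ (j + k)) ^ (φ' + 1)) * y ^ ((p ^ (j + k)) ^ (φ' + 1)) := by
    intro x y
    rw [hE, hE, hE, hTmul]
    have hcm : Commute (x ^ p ^ j) (y ^ p ^ j) :=
      (Subgroup.mem_center_iff.mp (hTn x) (y ^ p ^ j)).symm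
    exact hcm.mul_pow _
  have hcen : ∀ x g : H, g * (x ^ ((p ^ (j + k)) ^ (φ' + 1)))⁻¹ =
      (x ^ ((p ^ (j + k)) ^ (φ' + 1)))⁻¹ * g := by
    intro x g
    have h1 : (x ^ ((p ^ (j + k)) ^ (φ' + 1)))⁻¹ ∈ Subgroup.center H :=
      Subgroup.inv_mem _ (hcenE x)
    exact Subgroup.mem_center_iff.mp h1 g
  let s : H →* H := MonoidHom.mk' (fun x => x * (x ^ ((p ^ (j + k)) ^ (φ' + 1)))⁻¹) (by
    intro x y
    show x * y * ((x * y) ^ ((p ^ (j + k)) ^ (φ' + 1)))⁻¹ =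
      x * (x ^ ((p ^ (j + k)) ^ (φ' + 1)))⁻¹ * (y * (y ^ ((p ^ (j + k)) ^ (φ' + 1)))⁻¹)
    rw [hmulE, mul_inv_rev]
    have h1 := hcen x (y * (y ^ ((p ^ (j + k)) ^ (φ' + 1)))⁻¹)
    calc x * y * ((y ^ ((p ^ (j + k)) ^ (φ' + 1)))⁻¹ * (x ^ ((p ^ (j + k)) ^ (φ' + 1)))⁻¹)
        = x * ((y * (y ^ ((p ^ (j + k)) ^ (φ' + 1)))⁻¹) *
            (x ^ ((p ^ (j + k)) ^ (φ' + 1)))⁻¹) := by group
      _ = x * ((x ^ ((p ^ (j + k)) ^ (φ' + 1)))⁻¹ *
            (y * (y ^ ((p ^ (j + k)) ^ (φ' + 1)))⁻¹)) := by rw [h1]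
      _ = x * (x ^ ((p ^ (j + k)) ^ (φ' + 1)))⁻¹ *
            (y * (y ^ ((p ^ (j + k)) ^ (φ' + 1)))⁻¹) := by group)
  have hs : ∀ x, s x = x * (x ^ ((p ^ (j + k)) ^ (φ' + 1)))⁻¹ := fun _ => rfl
  refine ⟨s, fun x => ?_, fun z hz => ?_, fun x => ?_⟩
  · rw [hs, map_mul, map_inv, map_pow, hm', pow_mul, hN, one_pow, inv_one, mul_one]
  · rw [hs]
    have hzb : z ^ Nat.card ρ.ker = 1 := by
      have h1 : (⟨z, hz⟩ : ρ.ker) ^ Nat.card ρ.ker = 1 := pow_card_eq_one'
      have := congrArg Subtype.val h1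
      simpa using this
    have h2 : z ^ ((p ^ (j + k)) ^ (φ' + 1)) = z := by
      rw [pow_mod_of_pow_eq_one z _ _ hzb, he1, ← pow_mod_of_pow_eq_one z _ _ hzb, pow_one]
    rw [h2, mul_inv_cancel]
  · rw [← map_pow]
    have hx : x ^ (p ^ k) ∈ ρ.ker := by
      rw [MonoidHom.mem_ker, map_pow]
      exact hN x
    rw [hs]
    have hzb : (x ^ (p ^ k)) ^ Nat.card ρ.ker = 1 := by
      have h1 : (⟨x ^ (p ^ k), hx⟩ : ρ.ker) ^ Nat.card ρ.ker = 1 := pow_card_eq_one'
      have := congrArg Subtype.val h1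
      simpa using this
    have h2 : (x ^ (p ^ k)) ^ ((p ^ (j + k)) ^ (φ' + 1)) = x ^ (p ^ k) := by
      rw [pow_mod_of_pow_eq_one (x ^ (p ^ k)) _ _ hzb, he1,
        ← pow_mod_of_pow_eq_one (x ^ (p ^ k)) _ _ hzb, pow_one]
    rw [h2, mul_inv_cancel]

/-- no `p`-power torsion in the kernel -/
theorem ker_tor {Γ Δ : Type*} [Group Γ] [Group Δ] (p : ℕ) (ψ : Γ →* Δ)
    (hT : ∀ z ∈ ψ.ker, z ^ p = 1 → z = 1) : ∀ (n : ℕ) (z : Γ), z ∈ ψ.ker → z ^ (p ^ n) = 1 → z = 1
  | 0, z, _, h => by simpa using h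
  | n + 1, z, hz, h => by
    apply ker_tor p ψ hT n z hz
    apply hT _ (Subgroup.pow_mem _ hz _)
    rw [← pow_mul, ← pow_succ]
    exact h

/-- uniqueness of the lifts of `p`-power order -/
theorem plift_unique {Γ Δ : Type*} [Group Γ] [Group Δ] (p : ℕ) (ψ : Γ →* Δ)
    (hc : ψ.ker ≤ Subgroup.center Γ) (hT : ∀ z ∈ ψ.ker, z ^ p = 1 → z = 1) (y y' : Γ) (a b : ℕ)
    (h : ψ y = ψ y') (hy : y ^ (p ^ a) = 1) (hy' : y' ^ (p ^ b) = 1) : y = y' := by
  have hz : y⁻¹ * y' ∈ ψ.ker := by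
    rw [MonoidHom.mem_ker, map_mul, map_inv, h, inv_mul_cancel]
  have hcomm : Commute y (y⁻¹ * y') := Subgroup.mem_center_iff.mp (hc hz) y
  have h1 : (y * (y⁻¹ * y')) ^ (p ^ (a + b)) = y ^ (p ^ (a + b)) * (y⁻¹ * y') ^ (p ^ (a + b)) :=
    hcomm.mul_pow _
  have h2 : y * (y⁻¹ * y') = y' := by group
  have h3 : y ^ (p ^ (a + b)) = 1 := by rw [pow_add, pow_mul, hy, one_pow]
  have h4 : y' ^ (p ^ (a + b)) = 1 := by rw [pow_add, mul_comm, pow_mul, hy', one_pow]
  rw [h2, h3, h4, one_mul] at h1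
  have h5 := ker_tor p ψ hT (a + b) _ hz h1.symm
  calc y = y * 1 := (mul_one y).symm
    _ = y * (y⁻¹ * y') := by rw [h5]
    _ = y' := h2

/-- lifts of `p`-power order of the elements of a subgroup of `p`-power exponent multiply -/
theorem plift_sub {Γ Δ : Type*} [Group Γ] [Group Δ] [Finite Δ] (p : ℕ) [hp : Fact p.Prime]
    (ψ : Γ →* Δ) (hs : Function.Surjective ψ) (hc : ψ.ker ≤ Subgroup.center Γ)
    (hT : ∀ z ∈ ψ.ker, z ^ p = 1 → z = 1) (hperf : commutator Δ = ⊤) (Q : Subgroup Δ) (k : ℕ)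
    (hQ : ∀ g ∈ Q, g ^ (p ^ k) = 1) :
    ∃ f : Δ → Γ, (∀ g ∈ Q, ψ (f g) = g ∧ f g ^ (p ^ k) = 1) ∧
      (∀ g ∈ Q, ∀ g' ∈ Q, f (g * g') = f g * f g') := by
  classical
  have hfi : (Subgroup.center Γ).FiniteIndex := by
    have h1 : ψ.ker.FiniteIndex := inferInstance
    exact Subgroup.finiteIndex_of_le hc
  have hfinC : Finite (commutator Γ) := finite_commutator_of_center inferInstance
  have hsurjC : ∀ g : Δ, ∃ y ∈ commutator Γ, ψ y = g := by
    intro g
    have h1 : (commutator Γ).map ψ = commutator Δ := by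
      rw [commutator_def, commutator_def, Subgroup.map_commutator, ← MonoidHom.range_eq_map,
        MonoidHom.range_eq_top.mpr hs]
    have h2 : g ∈ (commutator Γ).map ψ := by
      rw [h1, hperf]
      exact Subgroup.mem_top g
    exact h2
  let H : Subgroup Γ := commutator Γ ⊓ Q.comap ψ
  have hfinH : Finite H := Finite.of_injective (Subgroup.inclusion (inf_le_left : H ≤ commutator Γ))
    (Subgroup.inclusion_injective _)
  let ρ : H →* Δ := ψ.comp H.subtype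
  have hρ : ∀ x : H, ρ x = ψ (x : Γ) := fun _ => rfl
  have hρc : ρ.ker ≤ Subgroup.center H := by
    intro z hz
    have h1 : (z : Γ) ∈ ψ.ker := hz
    have h2 := Subgroup.mem_center_iff.mp (hc h1)
    rw [Subgroup.mem_center_iff]
    intro g
    apply Subtype.ext
    exact h2 (g : Γ)
  have hρT : ∀ z ∈ ρ.ker, z ^ p = 1 → z = 1 := by
    intro z hz hzp
    apply Subtype.ext
    have h1 : (z : Γ) ∈ ψ.ker := hz
    apply hT _ h1
    have := congrArg Subtype.val hzp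
    simpa using this
  have hρN : ∀ x : H, ρ x ^ (p ^ k) = 1 := fun x => hQ _ x.2.2
  obtain ⟨s, hs1, hs2, hs3⟩ := plift_hom p ρ hρc hρT k hρN
  have hex : ∀ g : Δ, g ∈ Q → ∃ y : H, ρ y = g := by
    intro g hg
    obtain ⟨y, hy, rfl⟩ := hsurjC g
    exact ⟨⟨y, hy, hg⟩, rfl⟩
  let f : Δ → Γ := fun g => if h : g ∈ Q then ((s (Classical.choose (hex g h)) : H) : Γ) else 1
  have hf : ∀ (y : H), f (ρ y) = (s y : Γ) := by
    intro y
    have hy : ρ y ∈ Q := y.2.2
    show (if h : ρ y ∈ Q then ((s (Classical.choose (hex (ρ y) h)) : H) : Γ) else 1) = _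
    rw [dif_pos hy]
    have h1 := Classical.choose_spec (hex (ρ y) hy)
    have h2 : (Classical.choose (hex (ρ y) hy))⁻¹ * y ∈ ρ.ker := by
      rw [MonoidHom.mem_ker, map_mul, map_inv, h1, inv_mul_cancel]
    have h3 := hs2 _ h2
    rw [map_mul, map_inv, inv_mul_eq_one] at h3
    rw [h3]
  refine ⟨f, fun g hg => ?_, fun g hg g' hg' => ?_⟩
  · obtain ⟨y, rfl⟩ := hex g hg
    rw [hf]
    refine ⟨?_, ?_⟩
    · rw [← hρ, hs1]
    · have := congrArg Subtype.val (hs3 y)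
      simpa using this
  · obtain ⟨y, rfl⟩ := hex g hg
    obtain ⟨y', rfl⟩ := hex g' hg'
    rw [← map_mul, hf, hf, hf, map_mul]
    rfl

end Cfsg.Agent.Lib.Helper18.PLift
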