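import Cfsg.Agent.Lib.Helper18.StPLiftCov

/-!
# Admissible lists for pairs of non-opposite roots

For two roots `r ≠ ±s` the list `r, s, (the roots i r + j s of the commutator formula)` is
admissible; checked here for the types G₂, B₂, D₄, F₄, E₆ (E₇ and E₈ are in `StPLiftCertE7`,
`StPLiftCertE8a`, `StPLiftCertE8b`).
-/

set_option autoImplicit false

namespace Cfsg.Agent.Lib.Helper18.StAbs

open Cfsg Cfsg.Lie Cfsg.Lie.ChevalleyDatum Cfsg.Agent.Lib.Helper18

/-- the list attached to a pair of roots -/
def pairL (D : ChevalleyDatum) (r s : ℕ) : List ℕ := r :: s :: (D.commTerms r s).map (·.1)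

/-- the test for the pairs of roots with a given first root -/
def rowB (D : ChevalleyDatum) (r : ℕ) : Bool :=
  (List.range D.nroots).all fun s => s == r || s == D.neg r || admB D (pairL D r s)

/-- the test for a range of first roots -/
def chunkRowB (D : ChevalleyDatum) (lo len : ℕ) : Bool := (List.range' lo len).all (rowB D)

theorem chunkRow_spec (D : ChevalleyDatum) (lo len : ℕ) (h : chunkRowB D lo len = true) (r : ℕ)
    (h1 : lo ≤ r) (h2 : r < lo + len) : rowB D r = true :=
  List.all_eq_true.mp h r (List.mem_range'_1.mpr ⟨h1, h2⟩)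

theorem rows_spec (D : ChevalleyDatum) (h : ∀ r < D.nroots, rowB D r = true) :
    ∀ r s, r < D.nroots → s < D.nroots → s ≠ r → s ≠ D.neg r →
      ∃ L : List ℕ, Adm D L ∧ r ∈ L ∧ s ∈ L ∧ ∀ c ∈ D.commTerms r s, c.1 ∈ L := by
  intro r s hr hs hsr hsn
  have h1 := List.all_eq_true.mp (h r hr) s (List.mem_range.mpr hs)
  rw [Bool.or_eq_true, Bool.or_eq_true] at h1
  rcases h1 with (h1 | h1) | h1
  · exact absurd (by simpa using h1) hsr
  · exact absurd (by simpa using h1) hsn
  · refine ⟨pairL D r s, admB_spec D _ h1, List.mem_cons_self, ?_, ?_⟩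
    · exact List.mem_cons_of_mem _ List.mem_cons_self
    · intro c hc
      exact List.mem_cons_of_mem _ (List.mem_cons_of_mem _ (List.mem_map.mpr ⟨c, hc, rfl⟩))

theorem rows_of_chunk (D : ChevalleyDatum) (h : chunkRowB D 0 D.nroots = true) :
    ∀ r < D.nroots, rowB D r = true :=
  fun r hr => chunkRow_spec D 0 D.nroots h r (Nat.zero_le r) (by omega)

theorem padm_G2 : chunkRowB chevG2 0 chevG2.nroots = true := by decide +kernel

theorem padm_B2 : chunkRowB chevB2 0 chevB2.nroots = true := by decide +kernel

theorem padm_D4 : chunkRowB chevD4 0 chevD4.nroots = true := by decide +kernel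

theorem padm_F4 : chunkRowB chevF4 0 chevF4.nroots = true := by decide +kernel

theorem padm_E6a : chunkRowB chevE6 0 24 = true := by decide +kernel

theorem padm_E6b : chunkRowB chevE6 24 24 = true := by decide +kernel

theorem padm_E6c : chunkRowB chevE6 48 24 = true := by decide +kernel

theorem prow_E6 (r : ℕ) (hr : r < chevE6.nroots) : rowB chevE6 r = true := by
  have hn : chevE6.nroots = 72 := by decide +kernel
  rw [hn] at hr
  rcases Nat.lt_or_ge r 24 with h | h
  · exact chunkRow_spec _ _ _ padm_E6a r (by omega) (by omega)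
  rcases Nat.lt_or_ge r 48 with h' | h'
  · exact chunkRow_spec _ _ _ padm_E6b r (by omega) (by omega)
  · exact chunkRow_spec _ _ _ padm_E6c r (by omega) (by omega)

end Cfsg.Agent.Lib.Helper18.StAbs
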