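import Cfsg.Agent.Lib.Helper18.StPLiftCert

/-!
# Admissible lists for pairs of non-opposite roots, type E7 (part 1 of 1)
-/

set_option autoImplicit false

namespace Cfsg.Agent.Lib.Helper18.StAbs

open Cfsg Cfsg.Lie Cfsg.Lie.ChevalleyDatum Cfsg.Agent.Lib.Helper18

theorem padm_E7_0 : chunkRowB chevE7 0 8 = true := by decide +kernel

theorem padm_E7_8 : chunkRowB chevE7 8 8 = true := by decide +kernel

theorem padm_E7_16 : chunkRowB chevE7 16 8 = true := by decide +kernel

theorem padm_E7_24 : chunkRowB chevE7 24 8 = true := by decide +kernel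

theorem padm_E7_32 : chunkRowB chevE7 32 8 = true := by decide +kernel

theorem padm_E7_40 : chunkRowB chevE7 40 8 = true := by decide +kernel

theorem padm_E7_48 : chunkRowB chevE7 48 8 = true := by decide +kernel

theorem padm_E7_56 : chunkRowB chevE7 56 8 = true := by decide +kernel

theorem padm_E7_64 : chunkRowB chevE7 64 8 = true := by decide +kernel

theorem padm_E7_72 : chunkRowB chevE7 72 8 = true := by decide +kernel

theorem padm_E7_80 : chunkRowB chevE7 80 8 = true := by decide +kernel

theorem padm_E7_88 : chunkRowB chevE7 88 8 = true := by decide +kernel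

theorem padm_E7_96 : chunkRowB chevE7 96 8 = true := by decide +kernel

theorem padm_E7_104 : chunkRowB chevE7 104 8 = true := by decide +kernel

theorem padm_E7_112 : chunkRowB chevE7 112 8 = true := by decide +kernel

theorem padm_E7_120 : chunkRowB chevE7 120 6 = true := by decide +kernel

theorem prow_E7 (r : ℕ) (hr : r < chevE7.nroots) : rowB chevE7 r = true := by
  have hn : chevE7.nroots = 126 := by decide +kernel
  rw [hn] at hr
  rcases Nat.lt_or_ge r 8 with h0 | h0
  · exact chunkRow_spec _ _ _ padm_E7_0 r (by omega) (by omega)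
  rcases Nat.lt_or_ge r 16 with h1 | h1
  · exact chunkRow_spec _ _ _ padm_E7_8 r (by omega) (by omega)
  rcases Nat.lt_or_ge r 24 with h2 | h2
  · exact chunkRow_spec _ _ _ padm_E7_16 r (by omega) (by omega)
  rcases Nat.lt_or_ge r 32 with h3 | h3
  · exact chunkRow_spec _ _ _ padm_E7_24 r (by omega) (by omega)
  rcases Nat.lt_or_ge r 40 with h4 | h4
  · exact chunkRow_spec _ _ _ padm_E7_32 r (by omega) (by omega)
  rcases Nat.lt_or_ge r 48 with h5 | h5
  · exact chunkRow_spec _ _ _ padm_E7_40 r (by omega) (by omega)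
  rcases Nat.lt_or_ge r 56 with h6 | h6
  · exact chunkRow_spec _ _ _ padm_E7_48 r (by omega) (by omega)
  rcases Nat.lt_or_ge r 64 with h7 | h7
  · exact chunkRow_spec _ _ _ padm_E7_56 r (by omega) (by omega)
  rcases Nat.lt_or_ge r 72 with h8 | h8
  · exact chunkRow_spec _ _ _ padm_E7_64 r (by omega) (by omega)
  rcases Nat.lt_or_ge r 80 with h9 | h9
  · exact chunkRow_spec _ _ _ padm_E7_72 r (by omega) (by omega)
  rcases Nat.lt_or_ge r 88 with h10 | h10
  · exact chunkRow_spec _ _ _ padm_E7_80 r (by omega) (by omega)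
  rcases Nat.lt_or_ge r 96 with h11 | h11
  · exact chunkRow_spec _ _ _ padm_E7_88 r (by omega) (by omega)
  rcases Nat.lt_or_ge r 104 with h12 | h12
  · exact chunkRow_spec _ _ _ padm_E7_96 r (by omega) (by omega)
  rcases Nat.lt_or_ge r 112 with h13 | h13
  · exact chunkRow_spec _ _ _ padm_E7_104 r (by omega) (by omega)
  rcases Nat.lt_or_ge r 120 with h14 | h14
  · exact chunkRow_spec _ _ _ padm_E7_112 r (by omega) (by omega)
  exact chunkRow_spec _ _ _ padm_E7_120 r (by omega) (by omega)

end Cfsg.Agent.Lib.Helper18.StAbs
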