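import Cfsg.Agent.Lib.Helper18.StPLiftCert

/-!
# Admissible lists for pairs of non-opposite roots, type E₈ (part 2 of 3)
-/

set_option autoImplicit false

namespace Cfsg.Agent.Lib.Helper18.StAbs

open Cfsg Cfsg.Lie Cfsg.Lie.ChevalleyDatum Cfsg.Agent.Lib.Helper18

theorem padm_E8_84 : chunkRowB chevE8 84 6 = true := by decide +kernel

theorem padm_E8_90 : chunkRowB chevE8 90 6 = true := by decide +kernel

theorem padm_E8_96 : chunkRowB chevE8 96 6 = true := by decide +kernel

theorem padm_E8_102 : chunkRowB chevE8 102 6 = true := by decide +kernel

theorem padm_E8_108 : chunkRowB chevE8 108 6 = true := by decide +kernel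

theorem padm_E8_114 : chunkRowB chevE8 114 6 = true := by decide +kernel

theorem padm_E8_120 : chunkRowB chevE8 120 6 = true := by decide +kernel

theorem padm_E8_126 : chunkRowB chevE8 126 6 = true := by decide +kernel

theorem padm_E8_132 : chunkRowB chevE8 132 6 = true := by decide +kernel

theorem padm_E8_138 : chunkRowB chevE8 138 6 = true := by decide +kernel

theorem padm_E8_144 : chunkRowB chevE8 144 6 = true := by decide +kernel

theorem padm_E8_150 : chunkRowB chevE8 150 6 = true := by decide +kernel

theorem padm_E8_156 : chunkRowB chevE8 156 6 = true := by decide +kernel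

theorem padm_E8_162 : chunkRowB chevE8 162 6 = true := by decide +kernel

end Cfsg.Agent.Lib.Helper18.StAbs
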