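import Cfsg.Agent.Lib.Helper18.StPLiftCert

/-!
# Admissible lists for pairs of non-opposite roots, type E₈ (part 3 of 3)
-/

set_option autoImplicit false

namespace Cfsg.Agent.Lib.Helper18.StAbs

open Cfsg Cfsg.Lie Cfsg.Lie.ChevalleyDatum Cfsg.Agent.Lib.Helper18

theorem padm_E8_168 : chunkRowB chevE8 168 6 = true := by decide +kernel

theorem padm_E8_174 : chunkRowB chevE8 174 6 = true := by decide +kernel

theorem padm_E8_180 : chunkRowB chevE8 180 6 = true := by decide +kernel

theorem padm_E8_186 : chunkRowB chevE8 186 6 = true := by decide +kernel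

theorem padm_E8_192 : chunkRowB chevE8 192 6 = true := by decide +kernel

theorem padm_E8_198 : chunkRowB chevE8 198 6 = true := by decide +kernel

theorem padm_E8_204 : chunkRowB chevE8 204 6 = true := by decide +kernel

theorem padm_E8_210 : chunkRowB chevE8 210 6 = true := by decide +kernel

theorem padm_E8_216 : chunkRowB chevE8 216 6 = true := by decide +kernel

theorem padm_E8_222 : chunkRowB chevE8 222 6 = true := by decide +kernel

theorem padm_E8_228 : chunkRowB chevE8 228 6 = true := by decide +kernel

theorem padm_E8_234 : chunkRowB chevE8 234 6 = true := by decide +kernel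

end Cfsg.Agent.Lib.Helper18.StAbs
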