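import Cfsg.Agent.Lib.Helper18.StPLiftCertE8a
import Cfsg.Agent.Lib.Helper18.StPLiftCertE8b
import Cfsg.Agent.Lib.Helper18.StPLiftCertE8c

/-!
# Admissible lists for pairs of non-opposite roots, type E₈
-/

set_option autoImplicit false

namespace Cfsg.Agent.Lib.Helper18.StAbs

open Cfsg Cfsg.Lie Cfsg.Lie.ChevalleyDatum Cfsg.Agent.Lib.Helper18

theorem prow_E8 (r : ℕ) (hr : r < chevE8.nroots) : rowB chevE8 r = true := by
  have hn : chevE8.nroots = 240 := by decide +kernel
  rw [hn] at hr
  rcases Nat.lt_or_ge r 6 with h0 | h0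
  · exact chunkRow_spec _ _ _ padm_E8_0 r (by omega) (by omega)
  rcases Nat.lt_or_ge r 12 with h1 | h1
  · exact chunkRow_spec _ _ _ padm_E8_6 r (by omega) (by omega)
  rcases Nat.lt_or_ge r 18 with h2 | h2
  · exact chunkRow_spec _ _ _ padm_E8_12 r (by omega) (by omega)
  rcases Nat.lt_or_ge r 24 with h3 | h3
  · exact chunkRow_spec _ _ _ padm_E8_18 r (by omega) (by omega)
  rcases Nat.lt_or_ge r 30 with h4 | h4
  · exact chunkRow_spec _ _ _ padm_E8_24 r (by omega) (by omega)
  rcases Nat.lt_or_ge r 36 with h5 | h5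
  · exact chunkRow_spec _ _ _ padm_E8_30 r (by omega) (by omega)
  rcases Nat.lt_or_ge r 42 with h6 | h6
  · exact chunkRow_spec _ _ _ padm_E8_36 r (by omega) (by omega)
  rcases Nat.lt_or_ge r 48 with h7 | h7
  · exact chunkRow_spec _ _ _ padm_E8_42 r (by omega) (by omega)
  rcases Nat.lt_or_ge r 54 with h8 | h8
  · exact chunkRow_spec _ _ _ padm_E8_48 r (by omega) (by omega)
  rcases Nat.lt_or_ge r 60 with h9 | h9
  · exact chunkRow_spec _ _ _ padm_E8_54 r (by omega) (by omega)
  rcases Nat.lt_or_ge r 66 with h10 | h10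
  · exact chunkRow_spec _ _ _ padm_E8_60 r (by omega) (by omega)
  rcases Nat.lt_or_ge r 72 with h11 | h11
  · exact chunkRow_spec _ _ _ padm_E8_66 r (by omega) (by omega)
  rcases Nat.lt_or_ge r 78 with h12 | h12
  · exact chunkRow_spec _ _ _ padm_E8_72 r (by omega) (by omega)
  rcases Nat.lt_or_ge r 84 with h13 | h13
  · exact chunkRow_spec _ _ _ padm_E8_78 r (by omega) (by omega)
  rcases Nat.lt_or_ge r 90 with h14 | h14
  · exact chunkRow_spec _ _ _ padm_E8_84 r (by omega) (by omega)
  rcases Nat.lt_or_ge r 96 with h15 | h15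
  · exact chunkRow_spec _ _ _ padm_E8_90 r (by omega) (by omega)
  rcases Nat.lt_or_ge r 102 with h16 | h16
  · exact chunkRow_spec _ _ _ padm_E8_96 r (by omega) (by omega)
  rcases Nat.lt_or_ge r 108 with h17 | h17
  · exact chunkRow_spec _ _ _ padm_E8_102 r (by omega) (by omega)
  rcases Nat.lt_or_ge r 114 with h18 | h18
  · exact chunkRow_spec _ _ _ padm_E8_108 r (by omega) (by omega)
  rcases Nat.lt_or_ge r 120 with h19 | h19
  · exact chunkRow_spec _ _ _ padm_E8_114 r (by omega) (by omega)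
  rcases Nat.lt_or_ge r 126 with h20 | h20
  · exact chunkRow_spec _ _ _ padm_E8_120 r (by omega) (by omega)
  rcases Nat.lt_or_ge r 132 with h21 | h21
  · exact chunkRow_spec _ _ _ padm_E8_126 r (by omega) (by omega)
  rcases Nat.lt_or_ge r 138 with h22 | h22
  · exact chunkRow_spec _ _ _ padm_E8_132 r (by omega) (by omega)
  rcases Nat.lt_or_ge r 144 with h23 | h23
  · exact chunkRow_spec _ _ _ padm_E8_138 r (by omega) (by omega)
  rcases Nat.lt_or_ge r 150 with h24 | h24
  · exact chunkRow_spec _ _ _ padm_E8_144 r (by omega) (by omega)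
  rcases Nat.lt_or_ge r 156 with h25 | h25
  · exact chunkRow_spec _ _ _ padm_E8_150 r (by omega) (by omega)
  rcases Nat.lt_or_ge r 162 with h26 | h26
  · exact chunkRow_spec _ _ _ padm_E8_156 r (by omega) (by omega)
  rcases Nat.lt_or_ge r 168 with h27 | h27
  · exact chunkRow_spec _ _ _ padm_E8_162 r (by omega) (by omega)
  rcases Nat.lt_or_ge r 174 with h28 | h28
  · exact chunkRow_spec _ _ _ padm_E8_168 r (by omega) (by omega)
  rcases Nat.lt_or_ge r 180 with h29 | h29
  · exact chunkRow_spec _ _ _ padm_E8_174 r (by omega) (by omega)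
  rcases Nat.lt_or_ge r 186 with h30 | h30
  · exact chunkRow_spec _ _ _ padm_E8_180 r (by omega) (by omega)
  rcases Nat.lt_or_ge r 192 with h31 | h31
  · exact chunkRow_spec _ _ _ padm_E8_186 r (by omega) (by omega)
  rcases Nat.lt_or_ge r 198 with h32 | h32
  · exact chunkRow_spec _ _ _ padm_E8_192 r (by omega) (by omega)
  rcases Nat.lt_or_ge r 204 with h33 | h33
  · exact chunkRow_spec _ _ _ padm_E8_198 r (by omega) (by omega)
  rcases Nat.lt_or_ge r 210 with h34 | h34
  · exact chunkRow_spec _ _ _ padm_E8_204 r (by omega) (by omega)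
  rcases Nat.lt_or_ge r 216 with h35 | h35
  · exact chunkRow_spec _ _ _ padm_E8_210 r (by omega) (by omega)
  rcases Nat.lt_or_ge r 222 with h36 | h36
  · exact chunkRow_spec _ _ _ padm_E8_216 r (by omega) (by omega)
  rcases Nat.lt_or_ge r 228 with h37 | h37
  · exact chunkRow_spec _ _ _ padm_E8_222 r (by omega) (by omega)
  rcases Nat.lt_or_ge r 234 with h38 | h38
  · exact chunkRow_spec _ _ _ padm_E8_228 r (by omega) (by omega)
  exact chunkRow_spec _ _ _ padm_E8_234 r (by omega) (by omega)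

end Cfsg.Agent.Lib.Helper18.StAbs
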