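import Cfsg.Agent.Lib.Helper18.StPLiftCert

/-!
# Admissible lists for pairs of non-opposite roots, type E₈ (part 1 of 3)
-/

set_option autoImplicit false

namespace Cfsg.Agent.Lib.Helper18.StAbs

open Cfsg Cfsg.Lie Cfsg.Lie.ChevalleyDatum Cfsg.Agent.Lib.Helper18

theorem padm_E8_0 : chunkRowB chevE8 0 6 = true := by decide +kernel

theorem padm_E8_6 : chunkRowB chevE8 6 6 = true := by decide +kernel

theorem padm_E8_12 : chunkRowB chevE8 12 6 = true := by decide +kernel

theorem padm_E8_18 : chunkRowB chevE8 18 6 = true := by decide +kernel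

theorem padm_E8_24 : chunkRowB chevE8 24 6 = true := by decide +kernel

theorem padm_E8_30 : chunkRowB chevE8 30 6 = true := by decide +kernel

theorem padm_E8_36 : chunkRowB chevE8 36 6 = true := by decide +kernel

theorem padm_E8_42 : chunkRowB chevE8 42 6 = true := by decide +kernel

theorem padm_E8_48 : chunkRowB chevE8 48 6 = true := by decide +kernel

theorem padm_E8_54 : chunkRowB chevE8 54 6 = true := by decide +kernel

theorem padm_E8_60 : chunkRowB chevE8 60 6 = true := by decide +kernel

theorem padm_E8_66 : chunkRowB chevE8 66 6 = true := by decide +kernel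

theorem padm_E8_72 : chunkRowB chevE8 72 6 = true := by decide +kernel

theorem padm_E8_78 : chunkRowB chevE8 78 6 = true := by decide +kernel

end Cfsg.Agent.Lib.Helper18.StAbs
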