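import Cfsg.Agent.Lib.Helper18.StBruhat
import Cfsg.Agent.Lib.Helper18.ChevSl2Hom
import Cfsg.Agent.Lib.Helper36.ChevCent
import Cfsg.Prelude.Def_Steinberg
import Cfsg.Prelude.Def_SteinbergCover

/-!
# Steinberg's presentations and the Chevalley group

The groups presented by Steinberg's relators ((R1), (R2) or (R1), (R2), (R3)) map onto the
Chevalley group, with kernel in the centre.
-/

set_option autoImplicit false

namespace Cfsg.Agent.Lib.Helper18.StAbs

open Cfsg Cfsg.Lie Cfsg.Lie.ChevalleyDatum

variable {K : Type*} [Field K] (D : ChevalleyDatum)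
  (hD : D ∈ [chevG2, chevB2, chevD4, chevF4, chevE6, chevE7, chevE8])

/-- the images of the generators in the Chevalley group -/
def genG : Fin D.nroots × K → ↥(D.group K) := fun p =>
  ⟨xU D hD p.1.val p.2, xU_mem_group D hD p.1.val p.2⟩

theorem lift_stX (r : ℕ) (t : K) :
    ((FreeGroup.lift (genG D hD) (D.stX r t) : ↥(D.group K)) : GL D.Idx K) = xU D hD r t := by
  unfold ChevalleyDatum.stX
  by_cases hr : r < D.nroots
  · rw [dif_pos hr, FreeGroup.lift_apply_of]
    rfl
  · rw [dif_neg hr, map_one]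
    apply Units.ext
    rw [coe_xU, ChevalleyDatum.x, dif_neg hr]
    rfl

theorem lift_stWord (w : List (ℕ × K)) :
    ((FreeGroup.lift (genG D hD) (D.stWord w) : ↥(D.group K)) : GL D.Idx K) = wordU D hD w := by
  unfold ChevalleyDatum.stWord wordU
  rw [map_list_prod, List.map_map]
  have : ∀ l : List (↥(D.group K)), ((l.prod : ↥(D.group K)) : GL D.Idx K) =
      (l.map (fun g : ↥(D.group K) => (g : GL D.Idx K))).prod := by
    intro l
    exact map_list_prod (D.group K).subtype l
  rw [this, List.map_map]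
  congr 1
  apply List.map_congr_left
  intro p _
  exact lift_stX D hD p.1 p.2

/-- the relators (R1), (R2) hold in the Chevalley group -/
theorem relsAB_lift (g : FreeGroup (Fin D.nroots × K)) (hg : g ∈ D.steinbergRelsAB K) :
    FreeGroup.lift (genG D hD) g = 1 := by
  apply Subtype.ext
  rcases hg with ⟨r, t₁, t₂, hr, rfl⟩ | ⟨r, s, t, u, hr, hs, hsr, hsn, rfl⟩
  · rw [map_mul, map_mul, map_inv, Subgroup.coe_mul, Subgroup.coe_mul, Subgroup.coe_inv,
      lift_stX, lift_stX, lift_stX, xU_mul, mul_inv_cancel]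
    rfl
  · rw [map_mul, map_mul, map_mul, map_mul, map_inv, map_inv, map_inv, Subgroup.coe_mul,
      Subgroup.coe_mul, Subgroup.coe_mul, Subgroup.coe_mul, Subgroup.coe_inv, Subgroup.coe_inv,
      Subgroup.coe_inv, lift_stX, lift_stX, lift_stWord]
    have hcf := Cfsg.Agent.Lib.Helper17.cf_of_mem (F := K) D hD r s hr hs hsr hsn t u
    have hU : xU D hD s u * xU D hD r t =
        xU D hD r t * xU D hD s u * wordU D hD (D.commWord K r s t u) :=
      Units.ext (by simpa only [Units.val_mul, coe_xU, coe_wordU] using hcf)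
    have e : (xU D hD s u)⁻¹ * (xU D hD r t)⁻¹ * xU D hD s u * xU D hD r t *
        (wordU D hD (D.commWord K r s t u))⁻¹ =
        (xU D hD s u)⁻¹ * (xU D hD r t)⁻¹ * (xU D hD s u * xU D hD r t) *
        (wordU D hD (D.commWord K r s t u))⁻¹ := by group
    rw [e, hU]
    show _ = (1 : GL D.Idx K)
    group

theorem lift_stH (r : ℕ) (t : K) :
    ((FreeGroup.lift (genG D hD) (D.stH r t) : ↥(D.group K)) : GL D.Idx K) = hU D hD r t :=
  lift_stWord D hD _

/-- the relators (R1), (R2), (R3) hold in the Chevalley group -/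
theorem rels_lift (g : FreeGroup (Fin D.nroots × K)) (hg : g ∈ D.steinbergRels K) :
    FreeGroup.lift (genG D hD) g = 1 := by
  rcases hg with hg | ⟨r, t₁, t₂, hr, ht₁, ht₂, rfl⟩
  · exact relsAB_lift D hD g hg
  · apply Subtype.ext
    rw [map_mul, map_mul, map_inv, Subgroup.coe_mul, Subgroup.coe_mul, Subgroup.coe_inv,
      lift_stH, lift_stH, lift_stH, hU_mul D hD r hr t₁ t₂ ht₁ ht₂, mul_inv_cancel]
    rfl

section pres

variable (rels : Set (FreeGroup (Fin D.nroots × K)))

/-- the generators of a group presented by relators on the symbols `x̄_r(t)` -/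
def XP (r : ℕ) (t : K) : PresentedGroup rels := PresentedGroup.mk rels (D.stX r t)

theorem mk_stWord (w : List (ℕ × K)) :
    PresentedGroup.mk rels (D.stWord w) = wd (XP D rels) w := by
  unfold ChevalleyDatum.stWord wd
  rw [map_list_prod, List.map_map]
  rfl

theorem pres_rel (h : D.steinbergRelsAB K ⊆ rels) : Rel D (XP D rels) where
  add := fun r t u => by
    by_cases hr : r < D.nroots
    · have h1 : PresentedGroup.mk rels (D.stX r t * D.stX r u * (D.stX r (t + u))⁻¹) = 1 :=
        PresentedGroup.one_of_mem (h (Or.inl ⟨r, t, u, hr, rfl⟩))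
      rw [map_mul, map_mul, map_inv, mul_inv_eq_one] at h1
      exact h1
    · unfold XP ChevalleyDatum.stX
      rw [dif_neg hr, dif_neg hr, dif_neg hr, map_one, one_mul]
  comm := fun r s hr hs hsr hsn t u => by
    have h1 : PresentedGroup.mk rels ((D.stX s u)⁻¹ * (D.stX r t)⁻¹ * D.stX s u * D.stX r t *
        (D.stWord (D.commWord K r s t u))⁻¹) = 1 :=
      PresentedGroup.one_of_mem (h (Or.inr ⟨r, s, t, u, hr, hs, hsr, hsn, rfl⟩))
    rw [map_mul, map_mul, map_mul, map_mul, map_inv, map_inv, map_inv, mk_stWord,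
      mul_inv_eq_one] at h1
    show PresentedGroup.mk rels (D.stX s u) * PresentedGroup.mk rels (D.stX r t) =
      PresentedGroup.mk rels (D.stX r t) * PresentedGroup.mk rels (D.stX s u) *
        wd (XP D rels) (D.commWord K r s t u)
    rw [← h1]
    group

theorem pres_gen (x : PresentedGroup rels) : x ∈ gen (XP D rels) {r | r < D.nroots} := by
  have h1 : (⊤ : Subgroup (PresentedGroup rels)) ≤ gen (XP D rels) {r | r < D.nroots} := by
    rw [← PresentedGroup.closure_range_of, Subgroup.closure_le]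
    rintro y ⟨p, rfl⟩
    apply Subgroup.subset_closure
    refine ⟨p.1.val, p.1.isLt, p.2, ?_⟩
    unfold XP ChevalleyDatum.stX
    rw [dif_pos p.1.isLt]
    rfl
  exact h1 (Subgroup.mem_top x)

variable {D rels}

/-- a homomorphism to the Chevalley group mapping the generators to the root elements is onto -/
theorem pres_surj (θ : PresentedGroup rels →* ↥(D.group K))
    (hθ : ∀ (r : ℕ) (t : K), r < D.nroots →
      ((θ (XP D rels r t) : GL D.Idx K) : Matrix D.Idx D.Idx K) = D.x K r t) :
    Function.Surjective θ := by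
  have h1 : D.group K ≤ θ.range.map (D.group K).subtype := by
    unfold ChevalleyDatum.group
    rw [Subgroup.closure_le]
    rintro g ⟨r, t, hg⟩
    refine ⟨θ (XP D rels r.val t), ⟨_, rfl⟩, ?_⟩
    apply Units.ext
    rw [hg]
    show ((θ (XP D rels r.val t) : GL D.Idx K) : Matrix D.Idx D.Idx K) = _
    rw [hθ r.val t r.isLt, ChevalleyDatum.x, dif_pos r.isLt]
  intro y
  obtain ⟨z, ⟨w, rfl⟩, hz⟩ := h1 y.2
  exact ⟨w, Subtype.ext hz⟩

include hD in
/-- the kernel of such a homomorphism lies in `N̂` and in the centre -/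
theorem pres_ker (h : D.steinbergRelsAB K ⊆ rels) (θ : PresentedGroup rels →* ↥(D.group K))
    (hθ : ∀ (r : ℕ) (t : K), r < D.nroots →
      ((θ (XP D rels r t) : GL D.Idx K) : Matrix D.Idx D.Idx K) = D.x K r t)
    (x : PresentedGroup rels) (hx : θ x = 1) :
    x ∈ NG D (XP D rels) ∧ x ∈ Subgroup.center (PresentedGroup rels) := by
  apply ker_mem hD (pres_rel D rels h) ((D.group K).subtype.comp θ) _ (pres_gen D rels) x
  · show ((θ x : ↥(D.group K)) : GL D.Idx K) = 1
    rw [hx]
    rfl
  · intro r hr t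
    apply Units.ext
    rw [coe_xU]
    exact hθ r t hr

include hD in
/-- the centre is mapped to the identity -/
theorem pres_center (θ : PresentedGroup rels →* ↥(D.group K))
    (hθ : ∀ (r : ℕ) (t : K), r < D.nroots →
      ((θ (XP D rels r t) : GL D.Idx K) : Matrix D.Idx D.Idx K) = D.x K r t)
    (x : PresentedGroup rels) (hx : x ∈ Subgroup.center (PresentedGroup rels)) : θ x = 1 := by
  apply Subtype.ext
  apply Cfsg.Agent.Lib.Helper36.eq_one_of_comm_root D hD _ (θ x).2
  intro s hs
  have h1 := (Subgroup.mem_center_iff.mp hx) (XP D rels s 1)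
  have h2 := congrArg (fun y => ((θ y : ↥(D.group K)) : GL D.Idx K)) h1
  simp only [map_mul, Subgroup.coe_mul] at h2
  have h3 : ((θ (XP D rels s 1) : ↥(D.group K)) : GL D.Idx K) = xU D hD s 1 := by
    apply Units.ext
    rw [coe_xU]
    exact hθ s 1 hs
  rw [h3] at h2
  exact h2.symm

end pres

end Cfsg.Agent.Lib.Helper18.StAbs
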