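import Cfsg.Agent.Lib.Helper18.StPLift
import Cfsg.Agent.Lib.Helper18.StUniv
import Cfsg.Agent.Lib.Helper18.StPres
import Cfsg.Agent.Lib.Helper18.CentExt

/-!
# Central extensions without `p`-torsion of the group presented by (R1), (R2) over a finite field

Over a finite field of characteristic `p`, a central extension of the (finite, perfect) group `Δ`
presented by (R1), (R2) whose kernel has no element of order `p` splits: the root elements have
unique lifts of order `p`, and these satisfy (R1), (R2), since any two non-opposite root subgroups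
generate a group of `p`-power exponent.
-/

set_option autoImplicit false

namespace Cfsg.Agent.Lib.Helper18.StAbs

open Cfsg Cfsg.Lie Cfsg.Lie.ChevalleyDatum Cfsg.Agent.Lib.Helper18

section exp

variable {K : Type*} [Field K] {Γ : Type*} [Group Γ] {D : ChevalleyDatum} {X : ℕ → K → Γ}

theorem Rel.npow (h : Rel D X) (r : ℕ) (t : K) (n : ℕ) : X r t ^ n = X r (n • t) := by
  induction n with
  | zero => rw [pow_zero, zero_smul, h.zero]
  | succ n ih => rw [pow_succ, ih, h.add, succ_nsmul]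

/-- powers of an element of `X_r · gen S` -/
theorem Rel.pow_insert (h : Rel D X) (S : Set ℕ) (r : ℕ) (hr : r < D.nroots)
    (hS : ∀ s ∈ S, s < D.nroots ∧ s ≠ r ∧ s ≠ D.neg r ∧ ∀ c ∈ D.commTerms r s, c.1 ∈ S)
    (a : K) (s : Γ) (hs : s ∈ gen X S) (n : ℕ) :
    ∃ s' ∈ gen X S, (X r a * s) ^ n = X r (n • a) * s' := by
  induction n with
  | zero => exact ⟨1, Subgroup.one_mem _, by rw [pow_zero, zero_smul, h.zero, one_mul]⟩
  | succ n ih =>
    obtain ⟨s', hs', e⟩ := ih
    refine ⟨(X r a)⁻¹ * s' * X r a * s, mul_mem (conj_mem_gen h S r hr hS a s' hs') hs, ?_⟩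
    rw [pow_succ, e, succ_nsmul, ← h.add]
    group

/-- in characteristic `p` the group generated by the root subgroups of an admissible list has
exponent dividing `p ^ length` -/
theorem adm_exp (h : Rel D X) (p : ℕ) (hp : (p : K) = 0) : ∀ (L : List ℕ), Adm D L →
    ∀ g ∈ gen X {r | r ∈ L}, g ^ (p ^ L.length) = 1 := by
  intro L
  induction L with
  | nil =>
    intro _ g hg
    have : gen X {r | r ∈ ([] : List ℕ)} = ⊥ := by
      unfold gen
      rw [Subgroup.closure_eq_bot_iff]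
      rintro g ⟨r, hr, -⟩
      simp at hr
    rw [this, Subgroup.mem_bot] at hg
    rw [hg, one_pow]
  | cons r post ih =>
    intro hadm g hg
    obtain ⟨hr, hrn, hpost, hadm'⟩ := hadm
    have hset : {r' | r' ∈ r :: post} = insert r {r' | r' ∈ post} := by
      ext x
      simp
    rw [hset] at hg
    have hS : ∀ s ∈ {r' | r' ∈ post}, s < D.nroots ∧ s ≠ r ∧ s ≠ D.neg r ∧
        ∀ c ∈ D.commTerms r s, c.1 ∈ {r' | r' ∈ post} :=
      fun s hs => ⟨(hpost s hs).1, fun e => hrn (e ▸ hs), (hpost s hs).2.1, (hpost s hs).2.2⟩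
    obtain ⟨a, s, hs, rfl⟩ := gen_insert h {r' | r' ∈ post} r hr hS g hg
    obtain ⟨s', hs', e⟩ := h.pow_insert {r' | r' ∈ post} r hr hS a s hs p
    have h0 : X r (p • a) = 1 := by rw [nsmul_eq_mul, hp, zero_mul, h.zero]
    rw [List.length_cons, pow_succ', pow_mul, e, h0, one_mul]
    exact ih hadm' s' hs'

end exp

section sec

variable {F : Type*} [Field F] {D : ChevalleyDatum}

/-- a central extension of `Δ` whose kernel has no element of order `p` splits -/
theorem cover_section_p (p : ℕ) [hpp : Fact p.Prime] (hp : (p : F) = 0)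
    (hperf : commutator (D.SteinbergCover F) = ⊤) (hfin : Finite (D.SteinbergCover F))
    (hpair : ∀ r s, r < D.nroots → s < D.nroots → s ≠ r → s ≠ D.neg r →
      ∃ L : List ℕ, Adm D L ∧ r ∈ L ∧ s ∈ L ∧ ∀ c ∈ D.commTerms r s, c.1 ∈ L)
    {Γ : Type*} [Group Γ] (ψ : Γ →* D.SteinbergCover F) (hsur : Function.Surjective ψ)
    (hc : ψ.ker ≤ Subgroup.center Γ) (hT : ∀ z ∈ ψ.ker, z ^ p = 1 → z = 1) :
    ∃ φ : D.SteinbergCover F →* Γ, ψ.comp φ = MonoidHom.id _ := by
  classical
  have hX : Rel D (XP D (D.steinbergRelsAB F)) := pres_rel D _ (le_refl _)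
  -- lifts of the single root elements
  have hex1 : ∀ r : ℕ, ∃ f : D.SteinbergCover F → Γ, r < D.nroots →
      ((∀ g ∈ gen (XP D (D.steinbergRelsAB F)) {r' | r' ∈ [r]},
          ψ (f g) = g ∧ f g ^ (p ^ [r].length) = 1) ∧
        (∀ g ∈ gen (XP D (D.steinbergRelsAB F)) {r' | r' ∈ [r]},
          ∀ g' ∈ gen (XP D (D.steinbergRelsAB F)) {r' | r' ∈ [r]}, f (g * g') = f g * f g')) := by
    intro r
    by_cases hr : r < D.nroots
    · have hadm : Adm D [r] :=
        ⟨hr, List.not_mem_nil, fun s hs => absurd hs List.not_mem_nil, trivial⟩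
      obtain ⟨f, hf⟩ := PLift.plift_sub p ψ hsur hc hT hperf
        (gen (XP D (D.steinbergRelsAB F)) {r' | r' ∈ [r]}) [r].length (adm_exp hX p hp [r] hadm)
      exact ⟨f, fun _ => hf⟩
    · exact ⟨fun _ => 1, fun h => absurd h hr⟩
  choose F1 hF1 using hex1
  let Y : ℕ → F → Γ := fun r t =>
    if r < D.nroots then F1 r (XP D (D.steinbergRelsAB F) r t) else 1
  have hYge : ∀ γ, D.nroots ≤ γ → ∀ t : F, Y γ t = 1 := by
    intro γ hγ t
    show (if γ < D.nroots then F1 γ (XP D (D.steinbergRelsAB F) γ t) else 1) = 1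
    rw [if_neg (not_lt.mpr hγ)]
  have hYlt : ∀ γ, γ < D.nroots → ∀ t : F, Y γ t = F1 γ (XP D (D.steinbergRelsAB F) γ t) := by
    intro γ hγ t
    show (if γ < D.nroots then F1 γ (XP D (D.steinbergRelsAB F) γ t) else 1) = _
    rw [if_pos hγ]
  have hmem1 : ∀ (γ : ℕ) (t : F), XP D (D.steinbergRelsAB F) γ t ∈
      gen (XP D (D.steinbergRelsAB F)) {r' | r' ∈ [γ]} :=
    fun γ t => X_mem_gen _ _ γ (by simp) t
  have hYψ : ∀ γ, γ < D.nroots → ∀ t : F, ψ (Y γ t) = XP D (D.steinbergRelsAB F) γ t := by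
    intro γ hγ t
    rw [hYlt γ hγ]
    exact ((hF1 γ hγ).1 _ (hmem1 γ t)).1
  have hYp : ∀ γ, γ < D.nroots → ∀ t : F, Y γ t ^ (p ^ 1) = 1 := by
    intro γ hγ t
    rw [hYlt γ hγ]
    exact ((hF1 γ hγ).1 _ (hmem1 γ t)).2
  have hY : Rel D Y := by
    refine ⟨fun r t u => ?_, fun r s hr hs hsr hsn t u => ?_⟩
    · by_cases hr : r < D.nroots
      · rw [hYlt r hr, hYlt r hr, hYlt r hr, ← (hF1 r hr).2 _ (hmem1 r t) _ (hmem1 r u), hX.add]
      · rw [hYge r (not_lt.mp hr), hYge r (not_lt.mp hr), hYge r (not_lt.mp hr), one_mul]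
    · obtain ⟨L, hadm, hrL, hsL, htL⟩ := hpair r s hr hs hsr hsn
      obtain ⟨f, hf1, hf2⟩ := PLift.plift_sub p ψ hsur hc hT hperf
        (gen (XP D (D.steinbergRelsAB F)) {r' | r' ∈ L}) L.length (adm_exp hX p hp L hadm)
      have hfY : ∀ γ ∈ L, ∀ v : F, f (XP D (D.steinbergRelsAB F) γ v) = Y γ v := by
        intro γ hγ v
        have hγlt := Adm.lt hadm γ hγ
        have h1 := hf1 _ (X_mem_gen (XP D (D.steinbergRelsAB F)) {r' | r' ∈ L} γ hγ v)
        exact PLift.plift_unique p ψ hc hT _ _ _ 1 (by rw [h1.1, hYψ γ hγlt]) h1.2 (hYp γ hγlt v)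
      have hf0 : f 1 = 1 := by
        have h1 := hf2 1 (Subgroup.one_mem _) 1 (Subgroup.one_mem _)
        rw [one_mul] at h1
        exact (mul_eq_left.mp h1.symm)
      have hfw : ∀ w : List (ℕ × F), (∀ q ∈ w, q.1 ∈ L) →
          f (wd (XP D (D.steinbergRelsAB F)) w) = wd Y w := by
        intro w
        induction w with
        | nil => intro _; exact hf0
        | cons q w ih =>
          intro hw
          rw [wd_cons, wd_cons,
            hf2 _ (X_mem_gen (XP D (D.steinbergRelsAB F)) {r' | r' ∈ L} q.1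
              (hw q List.mem_cons_self) q.2) _
            (wd_mem_gen (XP D (D.steinbergRelsAB F)) {r' | r' ∈ L} w
              (fun q' hq' => hw q' (List.mem_cons_of_mem _ hq'))),
            hfY q.1 (hw q List.mem_cons_self), ih (fun q' hq' => hw q' (List.mem_cons_of_mem _ hq'))]
      have hwL : ∀ q ∈ D.commWord F r s t u, q.1 ∈ L := by
        intro q hq
        unfold ChevalleyDatum.commWord at hq
        obtain ⟨c, hc', rfl⟩ := List.mem_map.mp hq
        exact htL c hc'
      have hmr := X_mem_gen (XP D (D.steinbergRelsAB F)) {r' | r' ∈ L} r hrL t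
      have hms := X_mem_gen (XP D (D.steinbergRelsAB F)) {r' | r' ∈ L} s hsL u
      have hmw := wd_mem_gen (XP D (D.steinbergRelsAB F)) {r' | r' ∈ L}
        (D.commWord F r s t u) hwL
      have h1 := congrArg f (hX.comm r s hr hs hsr hsn t u)
      rw [hf2 _ hms _ hmr, hf2 _ (mul_mem hmr hms) _ hmw, hf2 _ hmr _ hms, hfY r hrL, hfY s hsL,
        hfw _ hwL] at h1
      exact h1
  refine ⟨PresentedGroup.toGroup (relsAB_liftY _ hY hYge), ?_⟩
  apply PresentedGroup.ext
  intro q
  rw [MonoidHom.comp_apply, PresentedGroup.toGroup.of, MonoidHom.id_apply,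
    hYψ q.1.val q.1.isLt q.2]
  unfold XP ChevalleyDatum.stX
  rw [dif_pos q.1.isLt]
  rfl

/-- homomorphisms from `Δ` lift uniquely through central extensions whose kernel has no element of
order `p` -/
theorem cover_univ_p (p : ℕ) [hpp : Fact p.Prime] (hp : (p : F) = 0)
    (hperf : commutator (D.SteinbergCover F) = ⊤) (hfin : Finite (D.SteinbergCover F))
    (hpair : ∀ r s, r < D.nroots → s < D.nroots → s ≠ r → s ≠ D.neg r →
      ∃ L : List ℕ, Adm D L ∧ r ∈ L ∧ s ∈ L ∧ ∀ c ∈ D.commTerms r s, c.1 ∈ L)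
    {G₁ E : Type*} [Group G₁] [Group E] (π₁ : E →* G₁) (hπ : Function.Surjective π₁)
    (hc : π₁.ker ≤ Subgroup.center E) (hT : ∀ z ∈ π₁.ker, z ^ p = 1 → z = 1)
    (σ : D.SteinbergCover F →* G₁) : ∃! τ : D.SteinbergCover F →* E, π₁.comp τ = σ := by
  let P : Subgroup (E × D.SteinbergCover F) :=
    (π₁.comp (MonoidHom.fst E (D.SteinbergCover F))).eqLocus
      (σ.comp (MonoidHom.snd E (D.SteinbergCover F)))
  have hP : ∀ q : E × D.SteinbergCover F, q ∈ P ↔ π₁ q.1 = σ q.2 := fun q => Iff.rfl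
  let ψ : P →* D.SteinbergCover F := (MonoidHom.snd E (D.SteinbergCover F)).comp P.subtype
  have hψ : ∀ q : P, ψ q = (q : E × D.SteinbergCover F).2 := fun _ => rfl
  have hsurj : Function.Surjective ψ := by
    intro d
    obtain ⟨e, he⟩ := hπ (σ d)
    exact ⟨⟨(e, d), (hP _).mpr he⟩, rfl⟩
  have hk1 : ∀ q : P, q ∈ ψ.ker → (q : E × D.SteinbergCover F).1 ∈ π₁.ker := by
    intro q hq
    rw [MonoidHom.mem_ker, hψ] at hq
    rw [MonoidHom.mem_ker]
    have := (hP _).mp q.2
    rw [this, hq, map_one]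
  have hker : ψ.ker ≤ Subgroup.center P := by
    intro q hq
    have h2 : (q : E × D.SteinbergCover F).1 ∈ Subgroup.center E := hc (hk1 q hq)
    rw [MonoidHom.mem_ker, hψ] at hq
    rw [Subgroup.mem_center_iff]
    intro g
    apply Subtype.ext
    apply Prod.ext
    · exact Subgroup.mem_center_iff.mp h2 _
    · show (g : E × D.SteinbergCover F).2 * (q : E × D.SteinbergCover F).2 =
        (q : E × D.SteinbergCover F).2 * (g : E × D.SteinbergCover F).2
      rw [hq, mul_one, one_mul]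
  have hTP : ∀ z ∈ ψ.ker, z ^ p = 1 → z = 1 := by
    intro z hz hzp
    have h1 := hk1 z hz
    have h2 : ((z : E × D.SteinbergCover F).1) ^ p = 1 := by
      have := congrArg (fun y : P => (y : E × D.SteinbergCover F).1) hzp
      simpa using this
    have h3 := hT _ h1 h2
    rw [MonoidHom.mem_ker, hψ] at hz
    apply Subtype.ext
    apply Prod.ext
    · exact h3
    · exact hz
  obtain ⟨φ, hφ⟩ := cover_section_p p hp hperf hfin hpair ψ hsurj hker hTP
  have hτ : π₁.comp (((MonoidHom.fst E (D.SteinbergCover F)).comp P.subtype).comp φ) = σ := by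
    apply MonoidHom.ext
    intro d
    have h1 := (hP _).mp (φ d).2
    have h2 : ψ (φ d) = d := DFunLike.congr_fun hφ d
    rw [hψ] at h2
    show π₁ ((φ d : E × D.SteinbergCover F).1) = σ d
    rw [h1, h2]
  exact ⟨_, hτ, fun τ' hτ' => CExt.lift_unique hperf π₁ hc τ' _ (by rw [hτ', hτ])⟩

end sec

end Cfsg.Agent.Lib.Helper18.StAbs
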