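import Cfsg.Agent.Lib.Helper18.StCovCent

/-!
# Trivial Schur multiplier of the group presented by (R1), (R2), (R3) over a finite field

A perfect group whose centre has finite index is finite; hence the group presented by (R1), (R2)
over a finite field is finite.  If moreover homomorphisms from it lift through central extensions,
the group presented by (R1), (R2), (R3) has trivial Schur multiplier.
-/

set_option autoImplicit false

namespace Cfsg.Agent.Lib.Helper18.StAbs

open Cfsg Cfsg.Lie Cfsg.Lie.ChevalleyDatum Cfsg.Agent.Lib.Helper18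

open scoped commutatorElement

universe u

/-- a perfect group whose centre has finite index is finite -/
theorem finite_of_perfect_center {G : Type*} [Group G] (hperf : commutator G = ⊤)
    (hfin : Finite (G ⧸ Subgroup.center G)) : Finite G := by
  classical
  have key : ∀ a b a' b' : G, a'⁻¹ * a ∈ Subgroup.center G → b'⁻¹ * b ∈ Subgroup.center G →
      ⁅a', b'⁆ = ⁅a, b⁆ := by
    intro a b a' b' ha hb
    have hz : ∀ g : G, (a'⁻¹ * a) * g = g * (a'⁻¹ * a) :=
      fun g => (Subgroup.mem_center_iff.mp ha g).symm
    have hw : ∀ g : G, (b'⁻¹ * b) * g = g * (b'⁻¹ * b) :=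
      fun g => (Subgroup.mem_center_iff.mp hb g).symm
    have e1 := CExt.central_swap a' (a'⁻¹ * a) b hz
    have e2 : a' * (a'⁻¹ * a) = a := by group
    rw [e2] at e1
    have e3 := hw a'⁻¹
    rw [commutatorElement_def, commutatorElement_def, e1]
    calc a' * b' * a'⁻¹ * b'⁻¹ = a' * b' * (a'⁻¹ * (b'⁻¹ * b)) * b⁻¹ := by group
      _ = a' * b' * ((b'⁻¹ * b) * a'⁻¹) * b⁻¹ := by rw [e3]
      _ = a' * b * a'⁻¹ * b⁻¹ := by group
  have hsub : commutatorSet G ⊆ Set.range
      (fun p : (G ⧸ Subgroup.center G) × (G ⧸ Subgroup.center G) => ⁅p.1.out, p.2.out⁆) := by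
    rintro g ⟨a, b, rfl⟩
    refine ⟨((a : G ⧸ Subgroup.center G), (b : G ⧸ Subgroup.center G)), ?_⟩
    exact key a b _ _ (QuotientGroup.eq.mp (QuotientGroup.out_eq' _))
      (QuotientGroup.eq.mp (QuotientGroup.out_eq' _))
  have hf : (commutatorSet G).Finite := (Set.finite_range _).subset hsub
  have hf' : Finite (commutatorSet G) := hf.to_subtype
  have h1 : Finite (commutator G) := inferInstance
  rw [hperf] at h1
  exact Finite.of_equiv _ Subgroup.topEquiv.toEquiv

/-- over a finite field the group presented by (R1), (R2) is finite -/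
theorem cover_finite {F : Type*} [Field F] [Fintype F] {D : ChevalleyDatum}
    (hD : D ∈ [chevG2, chevB2, chevD4, chevF4, chevE6, chevE7, chevE8])
    (hperf : commutator (D.SteinbergCover F) = ⊤) : Finite (D.SteinbergCover F) := by
  classical
  apply finite_of_perfect_center hperf
  rw [← covHom_ker hD]
  exact Finite.of_equiv _
    (QuotientGroup.quotientKerEquivOfSurjective _ (covHom_surj hD)).symm.toEquiv

/-- the group presented by (R1), (R2), (R3) over a finite field has trivial Schur multiplier, if
homomorphisms from the group presented by (R1), (R2) lift through central extensions -/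
theorem schur_triv {F : Type u} [Field F] [Fintype F] {D : ChevalleyDatum}
    (hD : D ∈ [chevG2, chevB2, chevD4, chevF4, chevE6, chevE7, chevE8])
    (hperf : commutator (D.SteinbergCover F) = ⊤)
    (huniv : ∀ (Γ' : Type u) [Group Γ'] (σ : Γ' →* D.SteinbergGroup F), Function.Surjective σ →
      σ.ker ≤ Subgroup.center Γ' → ∀ θ : D.SteinbergCover F →* D.SteinbergGroup F,
      ∃ τ : D.SteinbergCover F →* Γ', σ.comp τ = θ) :
    HasCyclicSchurMultiplier (D.SteinbergGroup F) 1 := by
  classical
  obtain ⟨e, -⟩ := cover_equiv (K := F) hD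
  have hfinc := cover_finite hD hperf
  have hfin : Finite (D.SteinbergGroup F) := Finite.of_equiv _ e.toEquiv
  refine ⟨⟨D.SteinbergGroup F, inferInstance, hfin, MonoidHom.id _,
    ⟨Function.surjective_id, ?_, ?_⟩, ?_⟩, ?_⟩
  · intro x hx
    rw [MonoidHom.mem_ker, MonoidHom.id_apply] at hx
    rw [hx]
    exact one_mem _
  · intro x hx
    rw [MonoidHom.mem_ker, MonoidHom.id_apply] at hx
    rw [hx]
    exact one_mem _
  · exact ⟨{ toFun := fun _ => 1
             invFun := fun _ => 1
             left_inv := fun x => Subtype.ext (by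
               have := x.2
               rw [MonoidHom.mem_ker, MonoidHom.id_apply] at this
               exact this.symm)
             right_inv := fun y => Subsingleton.elim _ _
             map_mul' := fun _ _ => (mul_one 1).symm }⟩
  · intro Γ' _ _ σ hst
    obtain ⟨hs, hc, hcomm⟩ := hst
    obtain ⟨τ, hτ⟩ := huniv Γ' σ hs hc e.toMonoidHom
    have hker := CExt.stem_trivial e.toMonoidHom e.injective e.surjective σ hc hcomm τ hτ
    refine ⟨1, fun y => ⟨1, ?_⟩⟩
    apply Subtype.ext
    have h9 : (y : Γ') ∈ (⊥ : Subgroup Γ') := by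
      rw [← hker]
      exact y.2
    rw [Subgroup.mem_bot.mp h9]
    rfl

end Cfsg.Agent.Lib.Helper18.StAbs
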