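import Cfsg.Agent.Lib.Helper18.StPLiftCertE7
import Cfsg.Agent.Lib.Helper18.StPLiftCertE8
import Cfsg.Agent.Lib.Helper18.StCert.All
import Cfsg.Agent.Lib.Helper18.StSchurTriv

/-!
# Projective representations in the natural characteristic lift

Homomorphisms from the group presented by (R1), (R2) over a field `K` to `PGL_n(L)`, `L` a field
of the same characteristic as `K`, lift uniquely to `GL_n(L)`: for infinite `K` by the universality
of the presented group, for finite `K` since the centre of `GL_n(L)` has no element of order `p`.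
-/

set_option autoImplicit false

namespace Cfsg.Agent.Lib.Helper18.StAbs

open Cfsg Cfsg.Lie Cfsg.Lie.ChevalleyDatum Cfsg.Agent.Lib.Helper18

/-- the centre of `GL_n(L)` has no element of order `p` in characteristic `p` -/
theorem gl_center_tor {L : Type*} [Field L] (p : ℕ) [hp : Fact p.Prime] [CharP L p] (n : ℕ)
    (z : GL (Fin n) L) (hz : z ∈ Subgroup.center (GL (Fin n) L)) (hzp : z ^ p = 1) : z = 1 := by
  obtain ⟨c, hc⟩ := Matrix.GeneralLinearGroup.mem_center_iff_val_mem_range_scalar.mp hz
  have h1 : (z.val) ^ p = 1 := by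
    have := congrArg Units.val hzp
    simpa using this
  rw [← hc, ← map_pow] at h1
  apply Units.ext
  rw [← hc]
  rcases isEmpty_or_nonempty (Fin n) with hn | hn
  · exact Subsingleton.elim _ _
  · have h2 : c ^ p = 1 := Matrix.scalar_inj.mp (by rw [h1, map_one])
    have h3 : c = 1 := by
      have h4 : (c - 1) ^ p = 0 := by rw [sub_pow_char, h2, one_pow, sub_self]
      exact sub_eq_zero.mp ((pow_eq_zero_iff hp.out.ne_zero).mp h4)
    rw [h3, map_one]
    rfl

theorem rows_all (D : ChevalleyDatum)
    (hD : D ∈ [chevG2, chevB2, chevD4, chevF4, chevE6, chevE7, chevE8]) :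
    ∀ r < D.nroots, rowB D r = true := by
  simp only [List.mem_cons, List.mem_nil_iff, or_false] at hD
  rcases hD with rfl | rfl | rfl | rfl | rfl | rfl | rfl
  · exact rows_of_chunk _ padm_G2
  · exact rows_of_chunk _ padm_B2
  · exact rows_of_chunk _ padm_D4
  · exact rows_of_chunk _ padm_F4
  · exact prow_E6
  · exact prow_E7
  · exact prow_E8

/-- homomorphisms from the group presented by (R1), (R2) to `PGL_n(L)` lift uniquely to `GL_n(L)`
when `L` has the characteristic of `K` -/
theorem proj_lift {K : Type*} [Field K] (D : ChevalleyDatum)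
    (hD : D ∈ [chevG2, chevB2, chevD4, chevF4, chevE6, chevE7, chevE8])
    (hK : D ∈ [chevB2, chevG2] → ∃ x : K, x ≠ 0 ∧ x ≠ 1)
    {L : Type*} [Field L] (hL : ringChar L = ringChar K) {n : ℕ}
    (σ : D.SteinbergCover K →* GL (Fin n) L ⧸ Subgroup.center (GL (Fin n) L)) :
    ∃! ψ : D.SteinbergCover K →* GL (Fin n) L,
      (QuotientGroup.mk' (Subgroup.center (GL (Fin n) L))).comp ψ = σ := by
  classical
  have hπ : Function.Surjective (QuotientGroup.mk' (Subgroup.center (GL (Fin n) L))) :=
    QuotientGroup.mk'_surjective _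
  have hc : (QuotientGroup.mk' (Subgroup.center (GL (Fin n) L))).ker ≤
      Subgroup.center (GL (Fin n) L) := by
    rw [QuotientGroup.ker_mk']
  rcases finite_or_infinite K with hfinK | hinfK
  · haveI : Fintype K := Fintype.ofFinite K
    have : Fact (ringChar K).Prime := ⟨CharP.prime_ringChar K⟩
    have hp0 : ((ringChar K : ℕ) : K) = 0 := CharP.cast_eq_zero K (ringChar K)
    have : CharP L (ringChar K) := hL ▸ ringChar.charP L
    have hperf := StCov.cover_perfect (K := K) D hD hK
    have hfin := cover_finite hD hperf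
    exact cover_univ_p (ringChar K) hp0 hperf hfin (rows_spec D (rows_all D hD)) _ hπ hc
      (fun z hz hzp => gl_center_tor (ringChar K) n z (by rwa [QuotientGroup.ker_mk'] at hz) hzp) σ
  · have hK5 : ∃ s : Finset K, 4 < s.card := by
      obtain ⟨s, hs⟩ := Infinite.exists_subset_card_eq K 5
      exact ⟨s, by omega⟩
    exact univ_all hK5 D hD _ hπ hc σ

end Cfsg.Agent.Lib.Helper18.StAbs
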