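import Cfsg.Agent.Lib.Helper18.StLift4
import Cfsg.Agent.Lib.Helper18.StUniv2

/-!
# Central extensions of the group presented by (R1), (R2) over small fields

Tools for fields with three or four elements, where the diagonal elements do not separate all
pairs of root subgroups: lifts of the root elements of two orthogonal long roots commute when `2`
is invertible, by comparing two decompositions of one of the roots as a sum of two roots.
-/

set_option autoImplicit false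

namespace Cfsg.Agent.Lib.Helper18.CExt

variable {E Γ : Type*} [Group E] [Group Γ]

theorem cc_mul_swap (ψ : E →* Γ) (hs : Function.Surjective ψ) (x y : Γ) :
    cc ψ hs x y * cc ψ hs y x = 1 := by
  unfold cc
  group

/-- the commutator of lifts of `x` and of a commutator `[y₁, y₂]`, when `x` centralises `y₂` and
moves `y₁` to `y₁ w` with `w` centralising `y₂` -/
theorem cc_of_conj (ψ : E →* Γ) (hs : Function.Surjective ψ) (hc : ψ.ker ≤ Subgroup.center E)
    (x y₁ y₂ w : Γ) (h1 : x * y₂ = y₂ * x) (h2 : x * y₁ * x⁻¹ = y₁ * w)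
    (h3 : w * y₂ = y₂ * w) :
    cc ψ hs x (y₁ * y₂ * y₁⁻¹ * y₂⁻¹) = cc ψ hs w y₂ := by
  have e0 := cc_eq ψ hs hc (lf ψ hs x)
    (lf ψ hs y₁ * lf ψ hs y₂ * (lf ψ hs y₁)⁻¹ * (lf ψ hs y₂)⁻¹) x (y₁ * y₂ * y₁⁻¹ * y₂⁻¹)
    (psi_lf ψ hs x) (by rw [map_mul, map_mul, map_mul, map_inv, map_inv, psi_lf, psi_lf])
  have e1 : ψ (lf ψ hs x * lf ψ hs y₁ * (lf ψ hs x)⁻¹) = ψ (lf ψ hs y₁ * lf ψ hs w) := by
    rw [map_mul, map_mul, map_inv, map_mul, psi_lf, psi_lf, psi_lf, h2]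
  have e2 : ψ (lf ψ hs x * lf ψ hs y₂ * (lf ψ hs x)⁻¹) = ψ (lf ψ hs y₂) := by
    rw [map_mul, map_mul, map_inv, psi_lf, psi_lf, h1]
    group
  have e3 := comm_eq ψ hc _ _ _ _ e1 e2
  have hz : ∀ e : E, cc ψ hs w y₂ * e = e * cc ψ hs w y₂ := cc_comm_of_comm ψ hs hc w y₂ h3
  have e4 : lf ψ hs x * (lf ψ hs y₁ * lf ψ hs y₂ * (lf ψ hs y₁)⁻¹ * (lf ψ hs y₂)⁻¹) *
      (lf ψ hs x)⁻¹ =
      (lf ψ hs x * lf ψ hs y₁ * (lf ψ hs x)⁻¹) * (lf ψ hs x * lf ψ hs y₂ * (lf ψ hs x)⁻¹) *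
        (lf ψ hs x * lf ψ hs y₁ * (lf ψ hs x)⁻¹)⁻¹ *
        (lf ψ hs x * lf ψ hs y₂ * (lf ψ hs x)⁻¹)⁻¹ := by group
  have e5 : lf ψ hs y₁ * lf ψ hs w * lf ψ hs y₂ * (lf ψ hs y₁ * lf ψ hs w)⁻¹ * (lf ψ hs y₂)⁻¹ =
      lf ψ hs y₁ * cc ψ hs w y₂ * (lf ψ hs y₂ * (lf ψ hs y₁)⁻¹ * (lf ψ hs y₂)⁻¹) := by
    unfold cc
    group
  rw [e0, e4, e3, e5, ← hz (lf ψ hs y₁)]
  group

end Cfsg.Agent.Lib.Helper18.CExt

namespace Cfsg.Agent.Lib.Helper18.StAbs

open Cfsg Cfsg.Lie Cfsg.Lie.ChevalleyDatum Cfsg.Agent.Lib.Helper17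

variable {K : Type*} [Field K] {Γ : Type*} [Group Γ] {E : Type*} [Group E]

section swap

variable {D : ChevalleyDatum} {X : ℕ → K → Γ} (hX : Rel D X)
  (ψ : E →* Γ) (hs : Function.Surjective ψ) (hc : ψ.ker ≤ Subgroup.center E)

include hX in
theorem X_comm_of_nil (r a : ℕ) (hr : r < D.nroots) (ha : a < D.nroots) (har : a ≠ r)
    (harn : a ≠ D.neg r) (h : D.commTerms r a = []) (t u : K) :
    X r t * X a u = X a u * X r t := by
  have h1 := hX.comm r a hr ha har harn t u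
  have hw : D.commWord K r a t u = [] := by
    unfold ChevalleyDatum.commWord
    rw [h]
    rfl
  rw [hw, wd_nil, mul_one] at h1
  exact h1.symm

include hX hc in
/-- the commutator of lifts of `x_r(τ)` and `x_s(v)`, `s = a + b`, when `r + a` is not a root and
`r + b = c` -/
theorem cc_step (r s a b c : ℕ) (C C' : ℤ) (hr : r < D.nroots) (ha : a < D.nroots)
    (hb : b < D.nroots) (hcl : c < D.nroots) (hba : b ≠ a) (hban : b ≠ D.neg a) (har : a ≠ r)
    (harn : a ≠ D.neg r) (hbr : b ≠ r) (hbrn : b ≠ D.neg r) (hac : a ≠ c) (hacn : a ≠ D.neg c)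
    (hab : D.commTerms a b = [(s, C, 1, 1)]) (hra : D.commTerms r a = [])
    (hrb : D.commTerms r b = [(c, C', 1, 1)]) (hca : D.commTerms c a = []) (τ t u : K) :
    CExt.cc ψ hs (X r τ) (X s (-(C : K) * t * u)) =
      CExt.cc ψ hs (X c ((C' : K) * τ * u)) (X a t) := by
  have hwab : ∀ v w : K, D.commWord K a b v w = [(s, (C : K) * (-v) ^ 1 * w ^ 1)] := by
    intro v w
    unfold ChevalleyDatum.commWord
    rw [hab]
    rfl
  have hwrb : ∀ v w : K, D.commWord K r b v w = [(c, (C' : K) * (-v) ^ 1 * w ^ 1)] := by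
    intro v w
    unfold ChevalleyDatum.commWord
    rw [hrb]
    rfl
  have hkey : X s (-(C : K) * t * u) = X b u * X a t * (X b u)⁻¹ * (X a t)⁻¹ := by
    have h1 := hX.comm a b ha hb hba hban (-t) (-u)
    rw [hwab, wd_cons, wd_nil, mul_one] at h1
    have h2 : (C : K) * (-(-t)) ^ 1 * (-u) ^ 1 = -(C : K) * t * u := by ring
    rw [h2] at h1
    have h3 : X s (-(C : K) * t * u) = (X a (-t) * X b (-u))⁻¹ * (X b (-u) * X a (-t)) := by
      rw [h1]
      group
    rw [h3, ← hX.inv, ← hX.inv]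
    group
  have hconj : X r τ * X b u * (X r τ)⁻¹ = X b u * X c ((C' : K) * τ * u) := by
    have h1 := hX.comm r b hr hb hbr hbrn (-τ) u
    rw [hwrb, wd_cons, wd_nil, mul_one] at h1
    have h2 : (C' : K) * (-(-τ)) ^ 1 * u ^ 1 = (C' : K) * τ * u := by ring
    rw [h2, ← hX.inv] at h1
    have h3 : X r τ * X b u * (X r τ)⁻¹ = X r τ * (X b u * (X r τ)⁻¹) := by group
    rw [h3, h1]
    group
  rw [hkey]
  exact CExt.cc_of_conj ψ hs hc _ _ _ _ (X_comm_of_nil hX r a hr ha har harn hra τ t) hconj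
    (X_comm_of_nil hX c a hcl ha hac hacn hca _ t)

include hX hc in
/-- lifts of `x_r(τ)` and `x_s(v)` commute, if two decompositions of `s` lead to the same pair of
roots in the two orders, and `2` is invertible -/
theorem cc_of_swap (h2 : (2 : K) ≠ 0) (r s a c : ℕ) (e₁ e₁' e₂ e₂' : K) (he₁ : e₁ * e₁ = 1)
    (he₁' : e₁' * e₁' = 1) (hcase : (e₂ = e₁ ∧ e₂' = e₁') ∨ (e₂ = -e₁ ∧ e₂' = -e₁'))
    (hca : ∀ x y : K, X c x * X a y = X a y * X c x)
    (h1 : ∀ τ t u : K, CExt.cc ψ hs (X r τ) (X s (-e₁ * t * u)) =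
      CExt.cc ψ hs (X c (e₁' * τ * u)) (X a t))
    (h2' : ∀ τ t u : K, CExt.cc ψ hs (X r τ) (X s (-e₂ * t * u)) =
      CExt.cc ψ hs (X a (e₂' * τ * u)) (X c t)) (τ v : K) :
    CExt.cc ψ hs (X r τ) (X s v) = 1 := by
  -- the function `G`
  have hGz : ∀ (x y : K) (e : E), CExt.cc ψ hs (X c x) (X a y) * e =
      e * CExt.cc ψ hs (X c x) (X a y) :=
    fun x y e => CExt.cc_comm_of_comm ψ hs hc _ _ (hca x y) e
  have hGl : ∀ x x' y : K, CExt.cc ψ hs (X c (x + x')) (X a y) =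
      CExt.cc ψ hs (X c x) (X a y) * CExt.cc ψ hs (X c x') (X a y) := by
    intro x x' y
    rw [← hX.add, CExt.cc_mul_left' ψ hs hc _ _ _ (hca x' y), hGz]
  have hGr : ∀ x y y' : K, CExt.cc ψ hs (X c x) (X a (y + y')) =
      CExt.cc ψ hs (X c x) (X a y) * CExt.cc ψ hs (X c x) (X a y') := by
    intro x y y'
    rw [← hX.add, CExt.cc_mul_right' ψ hs hc _ _ _ (hca x y')]
  have hG0l : ∀ y : K, CExt.cc ψ hs (X c 0) (X a y) = 1 := by
    intro y
    have := hGl 0 0 y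
    rw [add_zero] at this
    exact mul_eq_left.mp this.symm
  have hG0r : ∀ x : K, CExt.cc ψ hs (X c x) (X a 0) = 1 := by
    intro x
    have := hGr x 0 0
    rw [add_zero] at this
    exact mul_eq_left.mp this.symm
  have hGnl : ∀ x y : K, CExt.cc ψ hs (X c (-x)) (X a y) =
      (CExt.cc ψ hs (X c x) (X a y))⁻¹ := by
    intro x y
    have := hGl x (-x) y
    rw [add_neg_cancel, hG0l] at this
    exact eq_inv_of_mul_eq_one_right this.symm
  have hGnr : ∀ x y : K, CExt.cc ψ hs (X c x) (X a (-y)) =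
      (CExt.cc ψ hs (X c x) (X a y))⁻¹ := by
    intro x y
    have := hGr x y (-y)
    rw [add_neg_cancel, hG0r] at this
    exact eq_inv_of_mul_eq_one_right this.symm
  -- the values of `F` in terms of `G`
  have hF1 : ∀ τ t : K, CExt.cc ψ hs (X r τ) (X s t) =
      CExt.cc ψ hs (X c (e₁' * τ)) (X a (-e₁ * t)) := by
    intro τ t
    have := h1 τ (-e₁ * t) 1
    have e : -e₁ * (-e₁ * t) * 1 = t := by linear_combination t * he₁
    rw [e, mul_one] at this
    exact this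
  -- `G` is balanced
  have hB : ∀ x t u : K, CExt.cc ψ hs (X c x) (X a (t * u)) =
      CExt.cc ψ hs (X c (x * u)) (X a t) := by
    intro x t u
    have k1 := h1 (e₁' * x) t u
    rw [hF1] at k1
    have e : e₁' * (e₁' * x) = x := by linear_combination x * he₁'
    have e' : -e₁ * (-e₁ * t * u) = t * u := by linear_combination t * u * he₁
    rw [e, e'] at k1
    exact k1
  -- `G` is symmetric
  have hS : ∀ x y : K, CExt.cc ψ hs (X c x) (X a y) = CExt.cc ψ hs (X c y) (X a x) := by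
    intro x y
    have k1 := hB x 1 y
    have k2 := hB y 1 x
    rw [one_mul] at k1 k2
    rw [k1, k2, mul_comm]
  -- the second decomposition
  have hF2 : ∀ τ t : K, CExt.cc ψ hs (X r τ) (X s t) =
      (CExt.cc ψ hs (X c (-e₂ * t)) (X a (e₂' * τ)))⁻¹ := by
    intro τ t
    have he₂ : e₂ * e₂ = 1 := by
      rcases hcase with ⟨h, -⟩ | ⟨h, -⟩
      · rw [h, he₁]
      · rw [h, neg_mul_neg, he₁]
    have := h2' τ (-e₂ * t) 1
    have e : -e₂ * (-e₂ * t) * 1 = t := by linear_combination t * he₂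
    rw [e, mul_one] at this
    rw [this]
    exact eq_inv_of_mul_eq_one_right (CExt.cc_mul_swap ψ hs _ _)
  -- `G` has order two
  have hsq : ∀ x y : K, CExt.cc ψ hs (X c x) (X a y) * CExt.cc ψ hs (X c x) (X a y) = 1 := by
    intro x y
    have k1 := hF1 (e₁' * x) (-e₁ * y)
    have k2 := hF2 (e₁' * x) (-e₁ * y)
    have e : e₁' * (e₁' * x) = x := by linear_combination x * he₁'
    have e' : -e₁ * (-e₁ * y) = y := by linear_combination y * he₁
    rw [e, e'] at k1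
    rw [k1] at k2
    rcases hcase with ⟨ha, hb⟩ | ⟨ha, hb⟩
    · rw [ha, hb, e, e', hS y x] at k2
      exact mul_eq_one_iff_eq_inv.mpr k2
    · rw [ha, hb] at k2
      have e2 : -(-e₁) * (-e₁ * y) = -y := by linear_combination -y * he₁
      have e3 : -e₁' * (e₁' * x) = -x := by linear_combination -x * he₁'
      rw [e2, e3, hGnl, hGnr, inv_inv, hS y x] at k2
      exact mul_eq_one_iff_eq_inv.mpr k2
  have hG1 : ∀ x y : K, CExt.cc ψ hs (X c x) (X a y) = 1 := by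
    intro x y
    have k := hGl (x / 2) (x / 2) y
    have e : x / 2 + x / 2 = x := by
      field_simp
      ring
    rw [e, hsq] at k
    exact k
  rw [hF1, hG1]

end swap

/-! ### Boolean checks -/

/-- the torus condition with the exponent on the second root nonzero modulo `m`, from the table -/
def torFM (D : ChevalleyDatum) (m : ℤ) (i j : ℕ) (p q : ℤ) (r s : ℕ) : Bool :=
  decide (i < D.rank) && decide (j < D.rank) && decide (torE2 D i j p q r = 0) &&
    decide (torE2 D i j p q s % m ≠ 0) &&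
    (D.commTerms r s).all fun c => decide (torE2 D i j p q c.1 = (c.2.2.2 : ℤ) * torE2 D i j p q s)

/-- the diagonal element for a pair of roots, found by search -/
def findTorM (D : ChevalleyDatum) (m : ℤ) (r s : ℕ) : ℕ × ℕ × ℤ × ℤ :=
  match (List.range D.rank).find? (fun i => D.cartan i r == 0 && D.cartan i s % m != 0) with
  | some i => (i, i, 1, 0)
  | none =>
    match ((List.range D.rank).flatMap fun i => (List.range D.rank).filterMap fun j =>
        if i < j then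
          some (i, j, D.cartan j r / (Int.gcd (D.cartan i r) (D.cartan j r) : ℤ),
            - (D.cartan i r / (Int.gcd (D.cartan i r) (D.cartan j r) : ℤ)))
        else none).find? (fun c => torE2 D c.1 c.2.1 c.2.2.1 c.2.2.2 s % m != 0) with
    | some c => c
    | none => (0, 0, 0, 0)

/-- a certificate for a pair of roots `(r, s)` with commuting root elements: two decompositions
`s = a + b = c + b'` with `r + b = c`, `r + b' = a` -/
def swapB (D : ChevalleyDatum) (x : ℕ × ℕ × ℕ × ℕ × ℕ × ℕ × ℤ × ℤ × ℤ × ℤ) : Bool :=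
  match x with
  | (r, s, a, b, c, b', C₁, C₁', C₂, C₂') =>
    decide (r < D.nroots) && decide (a < D.nroots) && decide (b < D.nroots) &&
    decide (c < D.nroots) && decide (b' < D.nroots) &&
    decide (b ≠ a) && decide (b ≠ D.neg a) && decide (a ≠ r) && decide (a ≠ D.neg r) &&
    decide (b ≠ r) && decide (b ≠ D.neg r) && decide (a ≠ c) && decide (a ≠ D.neg c) &&
    decide (b' ≠ c) && decide (b' ≠ D.neg c) && decide (c ≠ r) && decide (c ≠ D.neg r) &&
    decide (b' ≠ r) && decide (b' ≠ D.neg r) && decide (c ≠ a) && decide (c ≠ D.neg a) &&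
    decide (D.commTerms r s = []) &&
    decide (D.commTerms a b = [(s, C₁, 1, 1)]) && decide (D.commTerms r a = []) &&
    decide (D.commTerms r b = [(c, C₁', 1, 1)]) && decide (D.commTerms c a = []) &&
    decide (D.commTerms c b' = [(s, C₂, 1, 1)]) && decide (D.commTerms r c = []) &&
    decide (D.commTerms r b' = [(a, C₂', 1, 1)]) && decide (D.commTerms a c = []) &&
    decide (C₁ = 1 ∨ C₁ = -1) && decide (C₁' = 1 ∨ C₁' = -1) &&
    decide ((C₂ = C₁ ∧ C₂' = C₁') ∨ (C₂ = -C₁ ∧ C₂' = -C₁'))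

/-- the check of the torus conditions for the pairs of roots with first root in a list -/
def chunkM (D : ChevalleyDatum) (m : ℤ) (swaps : List (ℕ × ℕ × ℕ × ℕ × ℕ × ℕ × ℤ × ℤ × ℤ × ℤ))
    (R : List ℕ) : Bool :=
  R.all fun r => (List.range D.nroots).all fun s => s == r || s == D.neg r ||
    torFM D m (findTorM D m r s).1 (findTorM D m r s).2.1 (findTorM D m r s).2.2.1
      (findTorM D m r s).2.2.2 r s ||
    swaps.any fun x => x.1 == r && x.2.1 == s && swapB D x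

/-- a decomposition `γ = a + b` with structure constant `±1`, the root elements of `a` and `b`
commuting with those of `γ` -/
def decB (D : ChevalleyDatum) (x : ℕ × ℕ × ℕ × ℤ) : Bool :=
  match x with
  | (γ, a, b, C) =>
    decide (a < D.nroots) && decide (b < D.nroots) && decide (b ≠ a) && decide (b ≠ D.neg a) &&
    decide (D.commTerms a b = [(γ, C, 1, 1)]) && decide (C = 1 ∨ C = -1) &&
    decide (γ < D.nroots) && decide (γ ≠ a) && decide (γ ≠ D.neg a) && decide (γ ≠ b) &&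
    decide (γ ≠ D.neg b) && decide (D.commTerms a γ = []) && decide (D.commTerms b γ = [])

/-- every root has a decomposition in the list -/
def decAllB (D : ChevalleyDatum) (decs : List (ℕ × ℕ × ℕ × ℤ)) : Bool :=
  (List.range D.nroots).all fun γ => decs.any fun x => x.1 == γ && decB D x

section chk

variable {D : ChevalleyDatum}
  (hD : D ∈ [chevG2, chevB2, chevD4, chevF4, chevE6, chevE7, chevE8])
  {X : ℕ → K → Γ} (hX : Rel D X) (π : Γ →* GL D.Idx K)
  (hπ : ∀ r < D.nroots, ∀ t, π (X r t) = xU D hD r t)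
  (ψ : E →* Γ) (hs : Function.Surjective ψ) (hc : ψ.ker ≤ Subgroup.center E)

include hX hπ in
theorem torFM_spec (hcart : cartChk D = true) (m : ℤ)
    (hm : ∀ d : ℤ, d % m ≠ 0 → ∃ a : K, a ≠ 0 ∧ a ^ d ≠ 1) (i j : ℕ) (p q : ℤ) (r s : ℕ)
    (hr : r < D.nroots) (hsl : s < D.nroots) (hlt : ∀ c ∈ D.commTerms r s, c.1 < D.nroots)
    (h : torFM D m i j p q r s = true) :
    ∃ (h : Γ) (χ : ℕ → K), Dg D X h χ ∧ χ r = 1 ∧ χ s ≠ 1 ∧
      ∀ c ∈ D.commTerms r s, χ c.1 = χ s ^ c.2.2.2 := by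
  unfold torFM at h
  rw [Bool.and_eq_true, Bool.and_eq_true, Bool.and_eq_true, Bool.and_eq_true] at h
  obtain ⟨⟨⟨⟨h1, h2⟩, h3⟩, h4⟩, h6⟩ := h
  have hi : i < D.rank := of_decide_eq_true h1
  have hj : j < D.rank := of_decide_eq_true h2
  have hr0 : torE D i j p q r = 0 := by
    rw [torE_eq2 D hcart i j p q r hi hj hr]
    exact of_decide_eq_true h3
  have hs0 : torE D i j p q s % m ≠ 0 := by
    rw [torE_eq2 D hcart i j p q s hi hj hsl]
    exact of_decide_eq_true h4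
  obtain ⟨a, ha, had⟩ := hm _ hs0
  refine ⟨_, _, dg_tor hD hX π hπ i j p q hi hj a ha, ?_, had, ?_⟩
  · show a ^ torE D i j p q r = 1
    rw [hr0, zpow_zero]
  · intro c hc'
    show a ^ torE D i j p q c.1 = (a ^ torE D i j p q s) ^ c.2.2.2
    rw [torE_eq2 D hcart i j p q c.1 hi hj (hlt c hc'), torE_eq2 D hcart i j p q s hi hj hsl,
      of_decide_eq_true (List.all_eq_true.mp h6 c hc'), mul_comm, zpow_mul, zpow_natCast]

include hX hc in
theorem swapB_spec (h2 : (2 : K) ≠ 0) (x : ℕ × ℕ × ℕ × ℕ × ℕ × ℕ × ℤ × ℤ × ℤ × ℤ)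
    (h : swapB D x = true) :
    D.commTerms x.1 x.2.1 = [] ∧ ∀ t u : K, CExt.cc ψ hs (X x.1 t) (X x.2.1 u) = 1 := by
  obtain ⟨r, s, a, b, c, b', C₁, C₁', C₂, C₂'⟩ := x
  simp only [swapB, Bool.and_eq_true, decide_eq_true_eq] at h
  obtain ⟨⟨⟨⟨⟨⟨⟨⟨⟨⟨⟨⟨⟨⟨⟨⟨⟨⟨⟨⟨⟨⟨⟨⟨⟨⟨⟨⟨⟨⟨⟨⟨k1, k2⟩, k3⟩, k4⟩, k5⟩, k6⟩, k7⟩, k8⟩, k9⟩, k10⟩, k11⟩, k12⟩, k13⟩, k14⟩, k15⟩, k16⟩, k17⟩, k18⟩, k19⟩, k20⟩, k21⟩, k22⟩, k23⟩, k24⟩, k25⟩, k26⟩, k27⟩, k28⟩, k29⟩, k30⟩, k31⟩, k32⟩, k33⟩ := h
  refine ⟨k22, fun t u => ?_⟩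
  have he₁ : ((C₁ : ℤ) : K) * (C₁ : K) = 1 := by
    rcases k31 with rfl | rfl <;> simp
  have he₁' : ((C₁' : ℤ) : K) * (C₁' : K) = 1 := by
    rcases k32 with rfl | rfl <;> simp
  have hcase : ((C₂ : K) = (C₁ : K) ∧ (C₂' : K) = (C₁' : K)) ∨
      ((C₂ : K) = -(C₁ : K) ∧ (C₂' : K) = -(C₁' : K)) := by
    rcases k33 with ⟨rfl, rfl⟩ | ⟨rfl, rfl⟩
    · exact Or.inl ⟨rfl, rfl⟩
    · exact Or.inr ⟨by push_cast; rfl, by push_cast; rfl⟩
  exact cc_of_swap hX ψ hs hc h2 r s a c (C₁ : K) (C₁' : K) (C₂ : K) (C₂' : K) he₁ he₁' hcase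
    (X_comm_of_nil hX c a k4 k2 k12 k13 k26)
    (fun τ t u => cc_step hX ψ hs hc r s a b c C₁ C₁' k1 k2 k3 k4 k6 k7 k8 k9 k10 k11 k12 k13
      k23 k24 k25 k26 τ t u)
    (fun τ t u => cc_step hX ψ hs hc r s c b' a C₂ C₂' k1 k4 k5 k2 k14 k15 k16 k17 k18 k19 k20
      k21 k27 k28 k29 k30 τ t u) t u

include hX hc in
theorem decAllB_spec (decs : List (ℕ × ℕ × ℕ × ℤ)) (h : decAllB D decs = true) (γ : ℕ)
    (hγ : γ < D.nroots) (t u : K) : CExt.cc ψ hs (X γ t) (X γ u) = 1 := by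
  obtain ⟨⟨γ', a, b, C⟩, -, hx⟩ :=
    List.any_eq_true.mp (List.all_eq_true.mp h γ (List.mem_range.mpr hγ))
  simp only [decB, Bool.and_eq_true, decide_eq_true_eq, beq_iff_eq] at hx
  obtain ⟨rfl, ⟨⟨⟨⟨⟨⟨⟨⟨⟨⟨⟨⟨d1, d2⟩, d3⟩, d4⟩, d5⟩, d6⟩, d7⟩, d8⟩, d9⟩, d10⟩, d11⟩, d12⟩, d13⟩⟩ := hx
  have hC0 : ((C : ℤ) : K) ≠ 0 := by
    rcases d6 with rfl | rfl <;> simp
  exact cc_XX_of_comm hX ψ hs hc γ' a b C d1 d2 d3 d4 d5 hC0 d7 d8 d9 d10 d11 d12 d13 t u

end chk

theorem bz_of_rootB_nil (D : ChevalleyDatum) (cands : List (ℕ × ℕ × ℤ × ℤ))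
    (h : rootB D cands [] = true) : bzB D cands = true := by
  unfold rootB at h
  unfold bzB
  simpa using h

/-- odd powers of `-1` when `2` is invertible -/
theorem field_m2 (h2 : (2 : K) ≠ 0) (d : ℤ) (hd : d % 2 ≠ 0) : ∃ a : K, a ≠ 0 ∧ a ^ d ≠ 1 := by
  refine ⟨-1, neg_ne_zero.mpr one_ne_zero, ?_⟩
  have hodd : Odd d := by
    rw [Int.odd_iff]
    rcases Int.emod_two_eq_zero_or_one d with h | h
    · exact absurd h hd
    · exact h
  rw [hodd.neg_one_zpow]
  intro h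
  apply h2
  have h3 : (2 : K) = 1 - (-1) := by ring
  rw [h3, h, sub_self]

/-- powers of a primitive cube root of unity -/
theorem field_m3 (a : K) (ha0 : a ≠ 0) (ha1 : a ≠ 1) (ha3 : a ^ 3 = 1) (d : ℤ)
    (hd : d % 3 ≠ 0) : ∃ a : K, a ≠ 0 ∧ a ^ d ≠ 1 := by
  refine ⟨a, ha0, fun h => ?_⟩
  have h1 : a ^ d = a ^ (d % 3) := by
    conv_lhs => rw [← Int.mul_ediv_add_emod d 3]
    rw [zpow_add₀ ha0, zpow_mul, show (3 : ℤ) = ((3 : ℕ) : ℤ) from rfl, zpow_natCast, ha3,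
      one_zpow, one_mul]
  rw [h1] at h
  have h2 : 0 ≤ d % 3 := Int.emod_nonneg d (by norm_num)
  have h3 : d % 3 < 3 := Int.emod_lt_of_pos d (by norm_num)
  have h4 : d % 3 = 1 ∨ d % 3 = 2 := by omega
  rcases h4 with h4 | h4
  · rw [h4, zpow_one] at h
    exact ha1 h
  · rw [h4] at h
    have h5 : a ^ (2 : ℤ) = a ^ 2 := zpow_natCast a 2
    rw [h5] at h
    apply ha1
    have h6 : a ^ 3 = a ^ 2 * a := pow_succ a 2
    rw [ha3, h] at h6
    rw [one_mul] at h6
    exact h6.symm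

section univ

variable {D : ChevalleyDatum}
  (hD : D ∈ [chevG2, chevB2, chevD4, chevF4, chevE6, chevE7, chevE8])

include hD in
/-- every central extension of `Δ` splits, from the certificates for small fields -/
theorem cover_section3 (m : ℤ) (hm : ∀ d : ℤ, d % m ≠ 0 → ∃ a : K, a ≠ 0 ∧ a ^ d ≠ 1)
    (hK : ∃ c : K, c ≠ 0 ∧ c ≠ 1) (swaps : List (ℕ × ℕ × ℕ × ℕ × ℕ × ℕ × ℤ × ℤ × ℤ × ℤ))
    (h2 : swaps = [] ∨ (2 : K) ≠ 0) (hcart : cartChk D = true) (ws : List (List ℕ))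
    (hpos : chunkF D ws (List.range D.nroots) = true)
    (htor : chunkM D m swaps (List.range D.nroots) = true) (cands : List (ℕ × ℕ × ℤ × ℤ))
    (hbz : bzB D cands = true) (decs : List (ℕ × ℕ × ℕ × ℤ)) (hdec : decAllB D decs = true)
    {E : Type*} [Group E] (ψ : E →* D.SteinbergCover K) (hs : Function.Surjective ψ)
    (hc : ψ.ker ≤ Subgroup.center E) :
    ∃ φ : D.SteinbergCover K →* E, ψ.comp φ = MonoidHom.id _ := by
  classical
  obtain ⟨c₀, hc₀, hc₁⟩ := hK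
  have hX : Rel D (XP D (D.steinbergRelsAB K)) := pres_rel D _ (fun g hg => hg)
  let θ : D.SteinbergCover K →* ↥(D.group K) :=
    PresentedGroup.toGroup (relsAB_lift (K := K) D hD)
  let π : D.SteinbergCover K →* GL D.Idx K := (D.group K).subtype.comp θ
  have hπ : ∀ r < D.nroots, ∀ t, π (XP D (D.steinbergRelsAB K) r t) = xU D hD r t :=
    fun r _ t => lift_stX (K := K) D hD r t
  have hgen := pres_gen D (D.steinbergRelsAB K)
  have hperf : commutator (D.SteinbergCover K) = ⊤ :=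
    StCov.cover_perfect D hD (fun _ => ⟨c₀, hc₀, hc₁⟩)
  have hex : ∀ γ < D.nroots, ∃ (h : D.SteinbergCover K) (χ : ℕ → K),
      Dg D (XP D (D.steinbergRelsAB K)) h χ ∧ χ γ ≠ 1 := by
    intro γ hγ
    obtain ⟨h, χ, hdg, hχ⟩ := full_of_bz hD hX π hπ cands hbz γ hγ c₀ hc₀
    exact ⟨h, χ, hdg, by rw [hχ]; exact hc₁⟩
  let H : ℕ → D.SteinbergCover K := fun γ =>
    if hγ : γ < D.nroots then Classical.choose (hex γ hγ) else 1
  let c : ℕ → K := fun γ =>
    if hγ : γ < D.nroots then Classical.choose (Classical.choose_spec (hex γ hγ)) γ else 0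
  have hH : ∀ γ < D.nroots, ∃ χ, Dg D (XP D (D.steinbergRelsAB K)) (H γ) χ ∧ χ γ = c γ := by
    intro γ hγ
    simp only [H, c, dif_pos hγ]
    exact ⟨_, (Classical.choose_spec (Classical.choose_spec (hex γ hγ))).1, rfl⟩
  have hc1 : ∀ γ < D.nroots, c γ ≠ 1 := by
    intro γ hγ
    simp only [c, dif_pos hγ]
    exact (Classical.choose_spec (Classical.choose_spec (hex γ hγ))).2
  have hC : ∀ γ < D.nroots, ∀ t u : K, CExt.cc ψ hs (XP D (D.steinbergRelsAB K) γ t)
      (XP D (D.steinbergRelsAB K) γ u) = 1 :=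
    fun γ hγ t u => decAllB_spec hX ψ hs hc decs hdec γ hγ t u
  have hall : ∀ r s, r < D.nroots → s < D.nroots → s ≠ r → s ≠ D.neg r →
      PairOK2 (K := K) hD (XP D (D.steinbergRelsAB K)) r s ∨
      (D.commTerms r s = [] ∧ ∀ t u : K, CExt.cc ψ hs (XP D (D.steinbergRelsAB K) r t)
        (XP D (D.steinbergRelsAB K) s u) = 1) := by
    intro r s hr hsl hsr hsn
    have hp := List.all_eq_true.mp (List.all_eq_true.mp hpos r (List.mem_range.mpr hr)) s
      (List.mem_range.mpr hsl)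
    rw [Bool.or_eq_true, Bool.or_eq_true] at hp
    have ht := List.all_eq_true.mp (List.all_eq_true.mp htor r (List.mem_range.mpr hr)) s
      (List.mem_range.mpr hsl)
    rw [Bool.or_eq_true, Bool.or_eq_true, Bool.or_eq_true] at ht
    rcases ht with ((ht | ht) | ht) | ht
    · exact absurd (by simpa using ht) hsr
    · exact absurd (by simpa using ht) hsn
    · left
      rcases hp with (hp | hp) | hp
      · exact absurd (by simpa using hp) hsr
      · exact absurd (by simpa using hp) hsn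
      · unfold pairF at hp
        rw [Bool.and_eq_true, Bool.and_eq_true, Bool.and_eq_true, Bool.or_eq_true] at hp
        obtain ⟨⟨⟨k2, k3⟩, k4⟩, -⟩ := hp
        have hadm := admB_spec D _ k2
        refine ⟨?_, torFM_spec hD hX π hπ hcart m hm _ _ _ _ r s hr hsl
          (fun c' hc' => hadm.lt _ (List.mem_cons_of_mem _ (List.mem_map_of_mem hc'))) ht⟩
        rcases k4 with k4 | k4
        · rcases linB_spec D r s k4 with k6 | k6
          · exact Or.inl k6
          · exact Or.inr (Or.inr ⟨hadm, lenB_spec D _ _ k3, Or.inl k6⟩)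
        · exact Or.inr (Or.inr ⟨hadm, lenB_spec D _ _ k3,
            Or.inr (posB_spec hD ws _ hadm.lt k4)⟩)
    · right
      obtain ⟨x, hx, hx'⟩ := List.any_eq_true.mp ht
      rcases h2 with h2 | h2
      · rw [h2] at hx
        exact absurd hx List.not_mem_nil
      · rw [Bool.and_eq_true, Bool.and_eq_true] at hx'
        obtain ⟨⟨e1, e2⟩, e3⟩ := hx'
        have e1' : x.1 = r := by simpa using e1
        have e2' : x.2.1 = s := by simpa using e2
        have := swapB_spec hX ψ hs hc h2 x e3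
        rw [e1', e2'] at this
        exact this
  have hY := xt_rel3 hD hX π hπ hgen hperf ψ hs hc H c hH hc1 hall hC
  have hge : ∀ γ, D.nroots ≤ γ → ∀ t : K,
      xt D (XP D (D.steinbergRelsAB K)) ψ hs H c γ t = 1 :=
    fun γ hγ t => xt_ge ψ hs H c γ hγ t
  refine ⟨PresentedGroup.toGroup (relsAB_liftY _ hY hge), ?_⟩
  apply PresentedGroup.ext
  intro p
  rw [MonoidHom.comp_apply, PresentedGroup.toGroup.of, MonoidHom.id_apply,
    psi_xt hX ψ hs H c hH hc1 p.1.val p.1.isLt p.2]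
  unfold XP ChevalleyDatum.stX
  rw [dif_pos p.1.isLt]
  rfl

include hD in
/-- homomorphisms from `Δ` lift uniquely through central extensions, from the certificates for
small fields -/
theorem cover_univ3 (m : ℤ) (hm : ∀ d : ℤ, d % m ≠ 0 → ∃ a : K, a ≠ 0 ∧ a ^ d ≠ 1)
    (hK : ∃ c : K, c ≠ 0 ∧ c ≠ 1) (swaps : List (ℕ × ℕ × ℕ × ℕ × ℕ × ℕ × ℤ × ℤ × ℤ × ℤ))
    (h2 : swaps = [] ∨ (2 : K) ≠ 0) (hcart : cartChk D = true) (ws : List (List ℕ))
    (hpos : chunkF D ws (List.range D.nroots) = true)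
    (htor : chunkM D m swaps (List.range D.nroots) = true) (cands : List (ℕ × ℕ × ℤ × ℤ))
    (hbz : bzB D cands = true) (decs : List (ℕ × ℕ × ℕ × ℤ)) (hdec : decAllB D decs = true)
    {G₁ E : Type*} [Group G₁] [Group E] (π₁ : E →* G₁) (hπ₁ : Function.Surjective π₁)
    (hc : π₁.ker ≤ Subgroup.center E) (σ : D.SteinbergCover K →* G₁) :
    ∃! τ : D.SteinbergCover K →* E, π₁.comp τ = σ := by
  have hperf : commutator (D.SteinbergCover K) = ⊤ :=
    StCov.cover_perfect D hD (fun _ => hK)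
  obtain ⟨τ, hτ⟩ := CExt.lift_of_section
    (fun P ψ hs hc' => cover_section3 hD m hm hK swaps h2 hcart ws hpos htor cands hbz decs hdec
      ψ hs hc') π₁ hπ₁ hc σ
  exact ⟨τ, hτ, fun τ' hτ' => CExt.lift_unique hperf π₁ hc τ' τ (by rw [hτ', hτ])⟩

end univ

end Cfsg.Agent.Lib.Helper18.StAbs
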