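import Cfsg.Agent.Lib.Helper18.StSmall

/-!
# Central extensions of the group presented by (R1), (R2) over small fields, second part

Lifts of the elements of a root subgroup commute, if the root occurs in a commutator formula with
two terms and suitable diagonal elements exist; and a version of `cover_section3` in which the
commutativity of the lifts of the elements of each root subgroup is a hypothesis.
-/

set_option autoImplicit false

namespace Cfsg.Agent.Lib.Helper18.StAbs

open Cfsg Cfsg.Lie Cfsg.Lie.ChevalleyDatum Cfsg.Agent.Lib.Helper17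

variable {K : Type*} [Field K] {Γ : Type*} [Group Γ] {E : Type*} [Group E]

section two

variable {D : ChevalleyDatum} {X : ℕ → K → Γ} (hX : Rel D X)
  (ψ : E →* Γ) (hs : Function.Surjective ψ) (hc : ψ.ker ≤ Subgroup.center E)

include hX in
/-- the commutator formula with two terms, as a commutator -/
theorem X_two (r lam s lam' : ℕ) (C1 C2 : ℤ) (hr : r < D.nroots) (hl : lam < D.nroots)
    (hlr : lam ≠ r) (hln : lam ≠ D.neg r)
    (hct : D.commTerms r lam = [(s, C1, 1, 1), (lam', C2, 2, 1)]) (t u : K) :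
    (X lam u)⁻¹ * (X r t)⁻¹ * ((X lam u)⁻¹)⁻¹ * ((X r t)⁻¹)⁻¹ =
      X s ((C1 : K) * (-t) ^ 1 * u ^ 1) * X lam' ((C2 : K) * (-t) ^ 2 * u ^ 1) := by
  have hw : D.commWord K r lam t u =
      [(s, (C1 : K) * (-t) ^ 1 * u ^ 1), (lam', (C2 : K) * (-t) ^ 2 * u ^ 1)] := by
    unfold ChevalleyDatum.commWord
    rw [hct]
    rfl
  have R := hX.comm r lam hr hl hlr hln t u
  rw [hw, wd_cons, wd_cons, wd_nil, mul_one] at R
  dsimp only at R
  rw [inv_inv, inv_inv, mul_assoc, mul_assoc, R]
  group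

include hX hc in
/-- lifts of the elements of the root subgroup of `s` commute, if `s` is the first root of a
commutator formula with two terms, and the root elements of `s` commute with those of the other
roots involved -/
theorem ccXX_two_fst (r lam s lam' : ℕ) (C1 C2 C3 : ℤ) (hr : r < D.nroots) (hl : lam < D.nroots)
    (hlr : lam ≠ r) (hln : lam ≠ D.neg r)
    (hct : D.commTerms r lam = [(s, C1, 1, 1), (lam', C2, 2, 1)])
    (hC1 : (C1 : K) * (C1 : K) = 1) (hs' : s < D.nroots) (hls : lam ≠ s) (hlsn : lam ≠ D.neg s)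
    (hsl : D.commTerms s lam = []) (hrs : r ≠ s) (hrsn : r ≠ D.neg s)
    (hsr : D.commTerms s r = [(lam', C3, 1, 1)]) (hC3 : (C3 : K) = 0) (hl' : lam' < D.nroots)
    (hl's : lam' ≠ s) (hl'sn : lam' ≠ D.neg s) (hsl' : D.commTerms s lam' = [])
    (hT : ∀ τ w : K, CExt.cc ψ hs (X s τ) (X lam' w) = 1) (τ v : K) :
    CExt.cc ψ hs (X s τ) (X s v) = 1 := by
  have key := X_two hX r lam s lam' C1 C2 hr hl hlr hln hct (-(C1 : K) * v) 1
  have e : (C1 : K) * (-(-(C1 : K) * v)) ^ 1 * 1 ^ 1 = v := by linear_combination v * hC1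
  rw [e] at key
  have h1 : X s τ * (X lam 1)⁻¹ = (X lam 1)⁻¹ * X s τ := by
    rw [hX.inv]
    exact X_comm_of_nil hX s lam hs' hl hls hlsn hsl τ _
  have h2 : X s τ * (X r (-(C1 : K) * v))⁻¹ = (X r (-(C1 : K) * v))⁻¹ * X s τ := by
    rw [hX.inv]
    have R := hX.comm s r hs' hr hrs hrsn τ (-(-(C1 : K) * v))
    have hw : D.commWord K s r τ (-(-(C1 : K) * v)) =
        [(lam', (C3 : K) * (-τ) ^ 1 * (-(-(C1 : K) * v)) ^ 1)] := by
      unfold ChevalleyDatum.commWord
      rw [hsr]
      rfl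
    rw [hw, wd_cons, wd_nil, mul_one, hC3, zero_mul, zero_mul] at R
    dsimp only at R
    rw [hX.zero, mul_one] at R
    exact R.symm
  have h3 := CExt.cc_comm_elt ψ hs hc (X s τ) (X lam 1)⁻¹ (X r (-(C1 : K) * v))⁻¹ h1 h2
  rw [key, CExt.cc_mul_right' ψ hs hc _ _ _ (X_comm_of_nil hX s lam' hs' hl' hl's hl'sn hsl' τ _),
    hT, mul_one] at h3
  exact h3

include hX hc in
/-- lifts of the elements of the root subgroup of `lam'` commute, if `lam'` is the second root of
a commutator formula with two terms, and the root elements of `lam'` commute with those of the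
other roots involved -/
theorem ccXX_two_snd (r lam s lam' : ℕ) (C1 C2 : ℤ) (hr : r < D.nroots) (hl : lam < D.nroots)
    (hlr : lam ≠ r) (hln : lam ≠ D.neg r)
    (hct : D.commTerms r lam = [(s, C1, 1, 1), (lam', C2, 2, 1)])
    (hC2 : (C2 : K) * (C2 : K) = 1) (hl' : lam' < D.nroots) (hll : lam ≠ lam')
    (hlln : lam ≠ D.neg lam') (hl'l : D.commTerms lam' lam = []) (hrl : r ≠ lam')
    (hrln : r ≠ D.neg lam') (hl'r : D.commTerms lam' r = [])
    (hT : ∀ τ w : K, CExt.cc ψ hs (X lam' τ) (X s w) = 1) (τ v : K) :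
    CExt.cc ψ hs (X lam' τ) (X lam' v) = 1 := by
  have key := X_two hX r lam s lam' C1 C2 hr hl hlr hln hct 1 ((C2 : K) * v)
  have e : (C2 : K) * (-1) ^ 2 * ((C2 : K) * v) ^ 1 = v := by linear_combination v * hC2
  rw [e] at key
  have h1 : X lam' τ * (X lam ((C2 : K) * v))⁻¹ = (X lam ((C2 : K) * v))⁻¹ * X lam' τ := by
    rw [hX.inv]
    exact X_comm_of_nil hX lam' lam hl' hl hll hlln hl'l τ _
  have h2 : X lam' τ * (X r 1)⁻¹ = (X r 1)⁻¹ * X lam' τ := by
    rw [hX.inv]
    exact X_comm_of_nil hX lam' r hl' hr hrl hrln hl'r τ _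
  have h3 := CExt.cc_comm_elt ψ hs hc (X lam' τ) (X lam ((C2 : K) * v))⁻¹ (X r 1)⁻¹ h1 h2
  have h4 : X lam' τ * X lam' v = X lam' v * X lam' τ := by
    rw [hX.add, hX.add, add_comm]
  rw [key, CExt.cc_mul_right' ψ hs hc _ _ _ h4, hT, one_mul] at h3
  exact h3

include hX hc in
/-- lifts of commuting root elements commute, from the diagonal element of the pair of roots -/
theorem cc_of_pairOK (hD : D ∈ [chevG2, chevB2, chevD4, chevF4, chevE6, chevE7, chevE8])
    (r s : ℕ) (hr : r < D.nroots) (hsl : s < D.nroots) (p : PairOK2 (K := K) hD X r s)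
    (hXc : ∀ a v : K, X s a * X r v = X r v * X s a) (a v : K) :
    CExt.cc ψ hs (X s a) (X r v) = 1 := by
  obtain ⟨h, χ, hdg, hχr, hχs, -⟩ := p.tor
  exact cc_of_tor hX ψ hs hc s r hsl hr hXc h χ hdg hχr hχs a v

end two

section univ

variable {D : ChevalleyDatum}
  (hD : D ∈ [chevG2, chevB2, chevD4, chevF4, chevE6, chevE7, chevE8])

include hD in
/-- every central extension of `Δ` splits, from the certificates for small fields and the
commutativity of the lifts of the elements of each root subgroup -/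
theorem cover_section4 (m : ℤ) (hm : ∀ d : ℤ, d % m ≠ 0 → ∃ a : K, a ≠ 0 ∧ a ^ d ≠ 1)
    (hK : ∃ c : K, c ≠ 0 ∧ c ≠ 1) (hcart : cartChk D = true) (ws : List (List ℕ))
    (hpos : chunkF D ws (List.range D.nroots) = true)
    (htor : chunkM D m [] (List.range D.nroots) = true)
    (hexr : ∀ γ < D.nroots, ∃ r < D.nroots, γ ≠ r ∧ γ ≠ D.neg r)
    {E : Type*} [Group E] (ψ : E →* D.SteinbergCover K) (hs : Function.Surjective ψ)
    (hc : ψ.ker ≤ Subgroup.center E)
    (hC : (∀ r s, r < D.nroots → s < D.nroots → s ≠ r → s ≠ D.neg r →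
        PairOK2 (K := K) hD (XP D (D.steinbergRelsAB K)) r s) →
      ∀ γ < D.nroots, ∀ t u : K, CExt.cc ψ hs (XP D (D.steinbergRelsAB K) γ t)
        (XP D (D.steinbergRelsAB K) γ u) = 1) :
    ∃ φ : D.SteinbergCover K →* E, ψ.comp φ = MonoidHom.id _ := by
  classical
  obtain ⟨c₀, hc₀, hc₁⟩ := hK
  have hX : Rel D (XP D (D.steinbergRelsAB K)) := pres_rel D _ (fun g hg => hg)
  let θ : D.SteinbergCover K →* ↥(D.group K) :=
    PresentedGroup.toGroup (relsAB_lift (K := K) D hD)
  let π : D.SteinbergCover K →* GL D.Idx K := (D.group K).subtype.comp θ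
  have hπ : ∀ r < D.nroots, ∀ t, π (XP D (D.steinbergRelsAB K) r t) = xU D hD r t :=
    fun r _ t => lift_stX (K := K) D hD r t
  have hgen := pres_gen D (D.steinbergRelsAB K)
  have hperf : commutator (D.SteinbergCover K) = ⊤ :=
    StCov.cover_perfect D hD (fun _ => ⟨c₀, hc₀, hc₁⟩)
  have hall0 : ∀ r s, r < D.nroots → s < D.nroots → s ≠ r → s ≠ D.neg r →
      PairOK2 (K := K) hD (XP D (D.steinbergRelsAB K)) r s := by
    intro r s hr hsl hsr hsn
    have hp := List.all_eq_true.mp (List.all_eq_true.mp hpos r (List.mem_range.mpr hr)) s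
      (List.mem_range.mpr hsl)
    rw [Bool.or_eq_true, Bool.or_eq_true] at hp
    have ht := List.all_eq_true.mp (List.all_eq_true.mp htor r (List.mem_range.mpr hr)) s
      (List.mem_range.mpr hsl)
    rw [Bool.or_eq_true, Bool.or_eq_true, Bool.or_eq_true] at ht
    rcases ht with ((ht | ht) | ht) | ht
    · exact absurd (by simpa using ht) hsr
    · exact absurd (by simpa using ht) hsn
    · rcases hp with (hp | hp) | hp
      · exact absurd (by simpa using hp) hsr
      · exact absurd (by simpa using hp) hsn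
      · unfold pairF at hp
        rw [Bool.and_eq_true, Bool.and_eq_true, Bool.and_eq_true, Bool.or_eq_true] at hp
        obtain ⟨⟨⟨k2, k3⟩, k4⟩, -⟩ := hp
        have hadm := admB_spec D _ k2
        refine ⟨?_, torFM_spec hD hX π hπ hcart m hm _ _ _ _ r s hr hsl
          (fun c' hc' => hadm.lt _ (List.mem_cons_of_mem _ (List.mem_map_of_mem hc'))) ht⟩
        rcases k4 with k4 | k4
        · rcases linB_spec D r s k4 with k6 | k6
          · exact Or.inl k6
          · exact Or.inr (Or.inr ⟨hadm, lenB_spec D _ _ k3, Or.inl k6⟩)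
        · exact Or.inr (Or.inr ⟨hadm, lenB_spec D _ _ k3,
            Or.inr (posB_spec hD ws _ hadm.lt k4)⟩)
    · simp at ht
  have hall : ∀ r s, r < D.nroots → s < D.nroots → s ≠ r → s ≠ D.neg r →
      PairOK2 (K := K) hD (XP D (D.steinbergRelsAB K)) r s ∨
      (D.commTerms r s = [] ∧ ∀ t u : K, CExt.cc ψ hs (XP D (D.steinbergRelsAB K) r t)
        (XP D (D.steinbergRelsAB K) s u) = 1) :=
    fun r s hr hsl hsr hsn => Or.inl (hall0 r s hr hsl hsr hsn)
  have hex : ∀ γ < D.nroots, ∃ (h : D.SteinbergCover K) (χ : ℕ → K),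
      Dg D (XP D (D.steinbergRelsAB K)) h χ ∧ χ γ ≠ 1 := by
    intro γ hγ
    obtain ⟨r, hr, h1, h2⟩ := hexr γ hγ
    obtain ⟨h, χ, hdg, -, hχ, -⟩ := (hall0 r γ hr hγ h1 h2).tor
    exact ⟨h, χ, hdg, hχ⟩
  let H : ℕ → D.SteinbergCover K := fun γ =>
    if hγ : γ < D.nroots then Classical.choose (hex γ hγ) else 1
  let c : ℕ → K := fun γ =>
    if hγ : γ < D.nroots then Classical.choose (Classical.choose_spec (hex γ hγ)) γ else 0
  have hH : ∀ γ < D.nroots, ∃ χ, Dg D (XP D (D.steinbergRelsAB K)) (H γ) χ ∧ χ γ = c γ := by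
    intro γ hγ
    simp only [H, c, dif_pos hγ]
    exact ⟨_, (Classical.choose_spec (Classical.choose_spec (hex γ hγ))).1, rfl⟩
  have hc1 : ∀ γ < D.nroots, c γ ≠ 1 := by
    intro γ hγ
    simp only [c, dif_pos hγ]
    exact (Classical.choose_spec (Classical.choose_spec (hex γ hγ))).2
  have hY := xt_rel3 hD hX π hπ hgen hperf ψ hs hc H c hH hc1 hall (hC hall0)
  have hge : ∀ γ, D.nroots ≤ γ → ∀ t : K,
      xt D (XP D (D.steinbergRelsAB K)) ψ hs H c γ t = 1 :=
    fun γ hγ t => xt_ge ψ hs H c γ hγ t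
  refine ⟨PresentedGroup.toGroup (relsAB_liftY _ hY hge), ?_⟩
  apply PresentedGroup.ext
  intro p
  rw [MonoidHom.comp_apply, PresentedGroup.toGroup.of, MonoidHom.id_apply,
    psi_xt hX ψ hs H c hH hc1 p.1.val p.1.isLt p.2]
  unfold XP ChevalleyDatum.stX
  rw [dif_pos p.1.isLt]
  rfl

end univ

end Cfsg.Agent.Lib.Helper18.StAbs
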