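import Cfsg.Agent.Lib.Helper18.StSmall2
import Cfsg.Agent.Lib.Helper18.StB2F3b
import Cfsg.Agent.Lib.Helper18.StFin

/-!
# Type B₂ over the fields with three and four elements

Homomorphisms from the group presented by (R1), (R2) of type `B₂` over a finite field with at
least three elements lift uniquely through central extensions.  Over the field with four
elements this follows from the certificates for the diagonal elements, with the commutativity
of the lifts of the elements of a root subgroup read off the commutator formulas with two terms;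
over the field with three elements the lifts are those of `StB2F3b`.
-/

set_option autoImplicit false

namespace Cfsg.Agent.Lib.Helper18.StAbs

open Cfsg Cfsg.Lie Cfsg.Lie.ChevalleyDatum Cfsg.Agent.Lib.Helper17

theorem tor3_B2 : chunkM chevB2 3 [] (List.range chevB2.nroots) = true := by decide +kernel

theorem hexr_B2 : ∀ γ < chevB2.nroots, ∃ r < chevB2.nroots, γ ≠ r ∧ γ ≠ chevB2.neg r := by
  intro γ hγ
  rw [B2F3.nr8] at hγ
  interval_cases γ
  · exact ⟨2, by decide +kernel, by decide +kernel, by decide +kernel⟩
  · exact ⟨3, by decide +kernel, by decide +kernel, by decide +kernel⟩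
  · exact ⟨4, by decide +kernel, by decide +kernel, by decide +kernel⟩
  · exact ⟨5, by decide +kernel, by decide +kernel, by decide +kernel⟩
  · exact ⟨6, by decide +kernel, by decide +kernel, by decide +kernel⟩
  · exact ⟨7, by decide +kernel, by decide +kernel, by decide +kernel⟩
  · exact ⟨0, by decide +kernel, by decide +kernel, by decide +kernel⟩
  · exact ⟨1, by decide +kernel, by decide +kernel, by decide +kernel⟩

/-- in characteristic 2 lifts of the elements of a root subgroup of type `B₂` commute, if the
diagonal elements for the pairs of roots exist -/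
theorem ccXX_B2_two {K : Type*} [Field K] {Γ : Type*} [Group Γ] {E : Type*} [Group E]
    {X : ℕ → K → Γ} (hX : Rel chevB2 X) (ψ : E →* Γ) (hs : Function.Surjective ψ)
    (hc : ψ.ker ≤ Subgroup.center E) (h2 : (2 : K) = 0)
    (hD : chevB2 ∈ [chevG2, chevB2, chevD4, chevF4, chevE6, chevE7, chevE8])
    (hall : ∀ r s, r < chevB2.nroots → s < chevB2.nroots → s ≠ r → s ≠ chevB2.neg r →
      PairOK2 (K := K) hD X r s) (γ : ℕ) (hγ : γ < chevB2.nroots) (t u : K) :
    CExt.cc ψ hs (X γ t) (X γ u) = 1 := by
  rw [B2F3.nr8] at hγ
  interval_cases γ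
  · exact ccXX_two_snd hX ψ hs hc 1 4 2 0 1 1 (by decide +kernel) (by decide +kernel) (by decide +kernel) (by decide +kernel) (by decide +kernel)
      (by push_cast; ring) (by decide +kernel) (by decide +kernel) (by decide +kernel) (by decide +kernel) (by decide +kernel) (by decide +kernel) (by decide +kernel)
      (fun τ w => cc_of_pairOK hX ψ hs hc hD 2 0 (by decide +kernel) (by decide +kernel) (hall 2 0 (by decide +kernel) (by decide +kernel) (by decide +kernel) (by decide +kernel))
        (fun a v => X_comm_of_nil hX 0 2 (by decide +kernel) (by decide +kernel) (by decide +kernel) (by decide +kernel) (by decide +kernel) a v) τ w) t u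
  · exact ccXX_two_fst hX ψ hs hc 2 3 1 0 1 (-1) 2 (by decide +kernel) (by decide +kernel) (by decide +kernel) (by decide +kernel) (by decide +kernel)
      (by push_cast; ring) (by decide +kernel) (by decide +kernel) (by decide +kernel) (by decide +kernel) (by decide +kernel) (by decide +kernel) (by decide +kernel)
      (by push_cast; linear_combination (1 : K) * h2) (by decide +kernel) (by decide +kernel) (by decide +kernel) (by decide +kernel)
      (fun τ w => cc_of_pairOK hX ψ hs hc hD 0 1 (by decide +kernel) (by decide +kernel) (hall 0 1 (by decide +kernel) (by decide +kernel) (by decide +kernel) (by decide +kernel))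
        (fun a v => X_comm_of_nil hX 1 0 (by decide +kernel) (by decide +kernel) (by decide +kernel) (by decide +kernel) (by decide +kernel) a v) τ w) t u
  · exact ccXX_two_fst hX ψ hs hc 1 4 2 0 1 1 (-2) (by decide +kernel) (by decide +kernel) (by decide +kernel) (by decide +kernel) (by decide +kernel)
      (by push_cast; ring) (by decide +kernel) (by decide +kernel) (by decide +kernel) (by decide +kernel) (by decide +kernel) (by decide +kernel) (by decide +kernel)
      (by push_cast; linear_combination (-1 : K) * h2) (by decide +kernel) (by decide +kernel) (by decide +kernel) (by decide +kernel)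
      (fun τ w => cc_of_pairOK hX ψ hs hc hD 0 2 (by decide +kernel) (by decide +kernel) (hall 0 2 (by decide +kernel) (by decide +kernel) (by decide +kernel) (by decide +kernel))
        (fun a v => X_comm_of_nil hX 2 0 (by decide +kernel) (by decide +kernel) (by decide +kernel) (by decide +kernel) (by decide +kernel) a v) τ w) t u
  · exact ccXX_two_snd hX ψ hs hc 1 7 5 3 (-1) 1 (by decide +kernel) (by decide +kernel) (by decide +kernel) (by decide +kernel) (by decide +kernel)
      (by push_cast; ring) (by decide +kernel) (by decide +kernel) (by decide +kernel) (by decide +kernel) (by decide +kernel) (by decide +kernel) (by decide +kernel)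
      (fun τ w => cc_of_pairOK hX ψ hs hc hD 5 3 (by decide +kernel) (by decide +kernel) (hall 5 3 (by decide +kernel) (by decide +kernel) (by decide +kernel) (by decide +kernel))
        (fun a v => X_comm_of_nil hX 3 5 (by decide +kernel) (by decide +kernel) (by decide +kernel) (by decide +kernel) (by decide +kernel) a v) τ w) t u
  · exact ccXX_two_snd hX ψ hs hc 2 7 6 4 1 (-1) (by decide +kernel) (by decide +kernel) (by decide +kernel) (by decide +kernel) (by decide +kernel)
      (by push_cast; ring) (by decide +kernel) (by decide +kernel) (by decide +kernel) (by decide +kernel) (by decide +kernel) (by decide +kernel) (by decide +kernel)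
      (fun τ w => cc_of_pairOK hX ψ hs hc hD 6 4 (by decide +kernel) (by decide +kernel) (hall 6 4 (by decide +kernel) (by decide +kernel) (by decide +kernel) (by decide +kernel))
        (fun a v => X_comm_of_nil hX 4 6 (by decide +kernel) (by decide +kernel) (by decide +kernel) (by decide +kernel) (by decide +kernel) a v) τ w) t u
  · exact ccXX_two_fst hX ψ hs hc 1 7 5 3 (-1) 1 2 (by decide +kernel) (by decide +kernel) (by decide +kernel) (by decide +kernel) (by decide +kernel)
      (by push_cast; ring) (by decide +kernel) (by decide +kernel) (by decide +kernel) (by decide +kernel) (by decide +kernel) (by decide +kernel) (by decide +kernel)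
      (by push_cast; linear_combination (1 : K) * h2) (by decide +kernel) (by decide +kernel) (by decide +kernel) (by decide +kernel)
      (fun τ w => cc_of_pairOK hX ψ hs hc hD 3 5 (by decide +kernel) (by decide +kernel) (hall 3 5 (by decide +kernel) (by decide +kernel) (by decide +kernel) (by decide +kernel))
        (fun a v => X_comm_of_nil hX 5 3 (by decide +kernel) (by decide +kernel) (by decide +kernel) (by decide +kernel) (by decide +kernel) a v) τ w) t u
  · exact ccXX_two_fst hX ψ hs hc 2 7 6 4 1 (-1) 2 (by decide +kernel) (by decide +kernel) (by decide +kernel) (by decide +kernel) (by decide +kernel)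
      (by push_cast; ring) (by decide +kernel) (by decide +kernel) (by decide +kernel) (by decide +kernel) (by decide +kernel) (by decide +kernel) (by decide +kernel)
      (by push_cast; linear_combination (1 : K) * h2) (by decide +kernel) (by decide +kernel) (by decide +kernel) (by decide +kernel)
      (fun τ w => cc_of_pairOK hX ψ hs hc hD 4 6 (by decide +kernel) (by decide +kernel) (hall 4 6 (by decide +kernel) (by decide +kernel) (by decide +kernel) (by decide +kernel))
        (fun a v => X_comm_of_nil hX 6 4 (by decide +kernel) (by decide +kernel) (by decide +kernel) (by decide +kernel) (by decide +kernel) a v) τ w) t u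
  · exact ccXX_two_snd hX ψ hs hc 5 4 6 7 (-1) (-1) (by decide +kernel) (by decide +kernel) (by decide +kernel) (by decide +kernel) (by decide +kernel)
      (by push_cast; ring) (by decide +kernel) (by decide +kernel) (by decide +kernel) (by decide +kernel) (by decide +kernel) (by decide +kernel) (by decide +kernel)
      (fun τ w => cc_of_pairOK hX ψ hs hc hD 6 7 (by decide +kernel) (by decide +kernel) (hall 6 7 (by decide +kernel) (by decide +kernel) (by decide +kernel) (by decide +kernel))
        (fun a v => X_comm_of_nil hX 7 6 (by decide +kernel) (by decide +kernel) (by decide +kernel) (by decide +kernel) (by decide +kernel) a v) τ w) t u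

/-- every central extension of the group presented by (R1), (R2) of type `B₂` splits, if the
field has characteristic 2 and a primitive cube root of unity -/
theorem section_B2_cube {K : Type*} [Field K] (h2 : (2 : K) = 0) (a : K) (ha0 : a ≠ 0)
    (ha1 : a ≠ 1) (ha3 : a ^ 3 = 1) {E : Type*} [Group E] (ψ : E →* chevB2.SteinbergCover K)
    (hs : Function.Surjective ψ) (hc : ψ.ker ≤ Subgroup.center E) :
    ∃ φ : chevB2.SteinbergCover K →* E, ψ.comp φ = MonoidHom.id _ :=
  cover_section4 (by simp) 3 (field_m3 a ha0 ha1 ha3) ⟨a, ha0, ha1⟩ cart_B2 wsB2 chunk_B2 tor3_B2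
    hexr_B2 ψ hs hc (fun hall γ hγ t u =>
      ccXX_B2_two (pres_rel chevB2 _ (fun g hg => hg)) ψ hs hc h2 _ hall γ hγ t u)

theorem dotB2_0 : dotCA chevB2 (chevB2.simple 1) 0 = 0 := by decide +kernel
theorem dotB2_1 : dotCA chevB2 (chevB2.simple 1) 1 = -1 := by decide +kernel
theorem dotB2_2 : dotCA chevB2 (chevB2.simple 1) 2 = 1 := by decide +kernel
theorem dotB2_3 : dotCA chevB2 (chevB2.simple 1) 3 = -2 := by decide +kernel
theorem dotB2_4 : dotCA chevB2 (chevB2.simple 1) 4 = 2 := by decide +kernel
theorem dotB2_5 : dotCA chevB2 (chevB2.simple 1) 5 = -1 := by decide +kernel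
theorem dotB2_6 : dotCA chevB2 (chevB2.simple 1) 6 = 1 := by decide +kernel
theorem dotB2_7 : dotCA chevB2 (chevB2.simple 1) 7 = 0 := by decide +kernel

/-- every central extension of the group presented by (R1), (R2) of type `B₂` over the field
with three elements splits -/
theorem section_B2_three {K : Type*} [Field K] [Fintype K] (hK : Fintype.card K = 3)
    {E : Type*} [Group E] (ψ : E →* chevB2.SteinbergCover K) (hs : Function.Surjective ψ)
    (hc : ψ.ker ≤ Subgroup.center E) :
    ∃ φ : chevB2.SteinbergCover K →* E, ψ.comp φ = MonoidHom.id _ := by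
  classical
  have hD : chevB2 ∈ [chevG2, chevB2, chevD4, chevF4, chevE6, chevE7, chevE8] := by simp
  have hX : Rel chevB2 (XP chevB2 (chevB2.steinbergRelsAB K)) :=
    pres_rel chevB2 _ (fun g hg => hg)
  let θ : chevB2.SteinbergCover K →* ↥(chevB2.group K) :=
    PresentedGroup.toGroup (relsAB_lift (K := K) chevB2 hD)
  let π : chevB2.SteinbergCover K →* GL chevB2.Idx K := (chevB2.group K).subtype.comp θ
  have hπ : ∀ r < chevB2.nroots, ∀ t,
      π (XP chevB2 (chevB2.steinbergRelsAB K) r t) = xU chevB2 hD r t :=
    fun r _ t => lift_stX (K := K) chevB2 hD r t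
  have hgen := pres_gen chevB2 (chevB2.steinbergRelsAB K)
  have h3 : (3 : K) = 0 := by
    have h := Nat.cast_card_eq_zero K
    rw [hK] at h
    exact_mod_cast h
  have hm0 : (-1 : K) ≠ 0 := neg_ne_zero.mpr one_ne_zero
  have hm1 : (-1 : K) ≠ 1 := by
    intro hm
    have h1 : (1 : K) = 0 := by linear_combination hm + h3
    exact one_ne_zero h1
  have hcases : ∀ t : K, t = 0 ∨ t = 1 ∨ t = -1 := by
    have hcard : ({0, 1, -1} : Finset K).card = 3 := by
      rw [Finset.card_insert_of_notMem, Finset.card_insert_of_notMem, Finset.card_singleton]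
      · simp [hm1.symm]
      · simp [hm0.symm]
    have huniv : ({0, 1, -1} : Finset K) = Finset.univ :=
      Finset.eq_univ_of_card _ (by rw [hcard, hK])
    intro t
    have h := Finset.mem_univ t
    rw [← huniv] at h
    simpa using h
  have hdg := dg_hG hD hX π hπ 1 (by decide +kernel) (-1) hm0
  have hh : hG chevB2 (XP chevB2 (chevB2.steinbergRelsAB K)) (chevB2.simple 1) (-1) *
      hG chevB2 (XP chevB2 (chevB2.steinbergRelsAB K)) (chevB2.simple 1) (-1) = 1 := by
    rw [hG_mul_of_finite hD hX π hπ hgen 1 (by decide +kernel) (-1) (-1) hm0 hm0, neg_mul_neg,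
      mul_one, hG_one hX]
  have e1 : ((-1 : K)) ^ (-1 : ℤ) = -1 := by rw [zpow_neg_one, inv_neg_one]
  have e2 : ((-1 : K)) ^ (1 : ℤ) = -1 := zpow_one _
  have e3 : ((-1 : K)) ^ (0 : ℤ) = 1 := zpow_zero _
  have e4 : ((-1 : K)) ^ (2 : ℤ) = 1 := by norm_num
  have e5 : ((-1 : K)) ^ (-2 : ℤ) = 1 := by
    rw [zpow_neg, e4, inv_one]
  have c : B2F3.Ctx (XP chevB2 (chevB2.steinbergRelsAB K)) ψ
      (hG chevB2 (XP chevB2 (chevB2.steinbergRelsAB K)) (chevB2.simple 1) (-1))
      (fun s => (-1 : K) ^ dotCA chevB2 (chevB2.simple 1) s) :=
    { hX := hX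
      hc := hc
      h3 := h3
      hcases := hcases
      hdg := hdg
      hχ1 := by
        show (-1 : K) ^ dotCA chevB2 (chevB2.simple 1) 1 = -1
        rw [dotB2_1, e1]
      hχ2 := by
        show (-1 : K) ^ dotCA chevB2 (chevB2.simple 1) 2 = -1
        rw [dotB2_2, e2]
      hχ5 := by
        show (-1 : K) ^ dotCA chevB2 (chevB2.simple 1) 5 = -1
        rw [dotB2_5, e1]
      hχ6 := by
        show (-1 : K) ^ dotCA chevB2 (chevB2.simple 1) 6 = -1
        rw [dotB2_6, e2]
      hχ0 := by
        show (-1 : K) ^ dotCA chevB2 (chevB2.simple 1) 0 = 1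
        rw [dotB2_0, e3]
      hχ3 := by
        show (-1 : K) ^ dotCA chevB2 (chevB2.simple 1) 3 = 1
        rw [dotB2_3, e5]
      hχ4 := by
        show (-1 : K) ^ dotCA chevB2 (chevB2.simple 1) 4 = 1
        rw [dotB2_4, e4]
      hχ7 := by
        show (-1 : K) ^ dotCA chevB2 (chevB2.simple 1) 7 = 1
        rw [dotB2_7, e3]
      hh := hh }
  have hY := B2F3.rel_yB ψ hs c
  have hge : ∀ γ, chevB2.nroots ≤ γ → ∀ t : K,
      B2F3.yB (XP chevB2 (chevB2.steinbergRelsAB K)) ψ hs
        (hG chevB2 (XP chevB2 (chevB2.steinbergRelsAB K)) (chevB2.simple 1) (-1)) γ t = 1 := by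
    intro γ hγ t
    rw [B2F3.nr8] at hγ
    exact B2F3.yB_ge _ ψ hs _ γ hγ t
  refine ⟨PresentedGroup.toGroup (relsAB_liftY _ hY hge), ?_⟩
  apply PresentedGroup.ext
  intro p
  have hp : p.1.val < 8 := lt_of_lt_of_eq p.1.isLt B2F3.nr8
  rw [MonoidHom.comp_apply, PresentedGroup.toGroup.of, MonoidHom.id_apply,
    B2F3.ypsi ψ hs c p.1.val hp p.2]
  unfold XP ChevalleyDatum.stX
  rw [dif_pos p.1.isLt]
  rfl

/-- homomorphisms from the group presented by (R1), (R2) of type `B₂` over a finite field with at
least three elements lift uniquely through central extensions -/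
theorem univ_B2_fin {F : Type*} [Field F] [Fintype F] (h3 : 3 ≤ Fintype.card F)
    {G₁ E : Type*} [Group G₁] [Group E] (π₁ : E →* G₁) (hπ₁ : Function.Surjective π₁)
    (hc : π₁.ker ≤ Subgroup.center E) (σ : chevB2.SteinbergCover F →* G₁) :
    ∃! τ : chevB2.SteinbergCover F →* E, π₁.comp τ = σ := by
  classical
  have hD : chevB2 ∈ [chevG2, chevB2, chevD4, chevF4, chevE6, chevE7, chevE8] := by simp
  by_cases h4 : 4 < Fintype.card F
  · exact cover_univ2 hD ⟨Finset.univ, by rw [Finset.card_univ]; exact h4⟩ pair_B2
      rootc_B2 π₁ hπ₁ hc σ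
  have hex : ∃ a : F, a ≠ 0 ∧ a ≠ 1 := by
    by_contra hcon
    push Not at hcon
    have hsub : (Finset.univ : Finset F) ⊆ {0, 1} := by
      intro a _
      by_cases ha : a = 0
      · simp [ha]
      · simp [hcon a ha]
    have := Finset.card_le_card hsub
    rw [Finset.card_univ] at this
    have h5 : ({0, 1} : Finset F).card ≤ 2 := Finset.card_le_two
    omega
  have hperf : commutator (chevB2.SteinbergCover F) = ⊤ :=
    StCov.cover_perfect chevB2 hD (fun _ => hex)
  have hsec : ∀ (P : Subgroup (E × chevB2.SteinbergCover F)) (ψ : P →* chevB2.SteinbergCover F),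
      Function.Surjective ψ → ψ.ker ≤ Subgroup.center P →
      ∃ φ : chevB2.SteinbergCover F →* P, ψ.comp φ = MonoidHom.id _ := by
    intro P ψ hs hc'
    by_cases h2 : (2 : F) = 0
    · have hchar : ringChar F = 2 := CharP.ringChar_of_prime_eq_zero Nat.prime_two h2
      have heven := FiniteField.even_card_iff_char_two.mp hchar
      have hcard : Fintype.card F = 4 := by omega
      obtain ⟨a, ha0, ha1⟩ := hex
      have ha3 : a ^ 3 = 1 := by
        have := FiniteField.pow_card_sub_one_eq_one a ha0
        rwa [hcard] at this
      exact section_B2_cube h2 a ha0 ha1 ha3 ψ hs hc'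
    · have hcard : Fintype.card F = 3 := by
        by_contra hne
        have h44 : Fintype.card F = 4 := by omega
        have hchar : ringChar F = 2 :=
          FiniteField.even_card_iff_char_two.mpr (by rw [h44])
        have h0 := ringChar.Nat.cast_ringChar (R := F)
        rw [hchar] at h0
        exact h2 (by exact_mod_cast h0)
      exact section_B2_three hcard ψ hs hc'
  obtain ⟨τ, hτ⟩ := CExt.lift_of_section hsec π₁ hπ₁ hc σ
  exact ⟨τ, hτ, fun τ' hτ' => CExt.lift_unique hperf π₁ hc τ' τ (by rw [hτ', hτ])⟩

end Cfsg.Agent.Lib.Helper18.StAbs
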