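import Cfsg.Agent.Lib.Helper18.StSmall
import Cfsg.Agent.Lib.Helper18.StCert.D4

/-!
# Type D₄: certificates for the fields with three and four elements

Over a field in which `2` is invertible, or which has a primitive cube root of unity, homomorphisms
from the group presented by (R1), (R2) of type D₄ lift uniquely through central extensions.
-/

set_option autoImplicit false

namespace Cfsg.Agent.Lib.Helper18.StAbs

open Cfsg Cfsg.Lie Cfsg.Lie.ChevalleyDatum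

set_option maxRecDepth 100000 in
set_option maxHeartbeats 4000000 in
/-- for the pairs of orthogonal long roots `(r, s)`: two decompositions `s = a + b = c + b'` with
`r + b = c`, `r + b' = a`, and the four structure constants -/
def swapsD4 : List (ℕ × ℕ × ℕ × ℕ × ℕ × ℕ × ℤ × ℤ × ℤ × ℤ) :=
  [(0, 5, 1, 17, 4, 14, 1, 1, 1, 1), (0, 10, 1, 20, 7, 14, -1, 1, -1, 1), (0, 11, 1, 21, 8, 14, -1, 1, -1, 1),
  (0, 12, 2, 22, 9, 15, -1, -1, -1, -1), (0, 13, 3, 22, 9, 16, -1, -1, -1, -1), (0, 18, 6, 22, 9, 19, 1, -1, 1, -1),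
  (1, 4, 0, 17, 5, 9, 1, 1, 1, 1), (1, 7, 0, 20, 10, 9, 1, -1, -1, 1), (1, 8, 0, 21, 11, 9, 1, -1, -1, 1),
  (1, 15, 2, 23, 14, 12, 1, -1, -1, 1), (1, 16, 3, 23, 14, 13, 1, -1, -1, 1), (1, 19, 6, 23, 14, 18, 1, -1, 1, -1),
  (2, 3, 0, 16, 5, 8, -1, 1, 1, -1), (2, 6, 0, 19, 10, 8, -1, -1, -1, -1), (2, 9, 0, 22, 12, 8, -1, -1, -1, -1),
  (2, 14, 1, 23, 15, 11, -1, 1, -1, 1), (2, 17, 4, 23, 15, 13, -1, 1, -1, 1), (2, 20, 7, 23, 15, 18, -1, 1, 1, -1),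
  (3, 2, 0, 15, 5, 7, -1, 1, 1, -1), (3, 6, 0, 19, 11, 7, -1, -1, -1, -1), (3, 9, 0, 22, 13, 7, -1, -1, -1, -1),
  (3, 14, 1, 23, 16, 10, -1, 1, -1, 1), (3, 17, 4, 23, 16, 12, -1, 1, -1, 1), (3, 21, 8, 23, 16, 18, -1, 1, 1, -1),
  (4, 1, 0, 14, 5, 6, 1, 1, 1, 1), (4, 7, 0, 20, 12, 6, 1, -1, -1, 1), (4, 8, 0, 21, 13, 6, 1, -1, -1, 1),
  (4, 15, 2, 23, 17, 10, 1, -1, -1, 1), (4, 16, 3, 23, 17, 11, 1, -1, -1, 1), (4, 22, 9, 23, 17, 18, 1, -1, 1, -1),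
  (5, 0, 1, 9, 4, 6, 1, 1, 1, 1), (5, 10, 1, 20, 15, 6, -1, -1, 1, 1), (5, 11, 1, 21, 16, 6, -1, -1, 1, 1),
  (5, 12, 2, 22, 17, 7, -1, -1, 1, 1), (5, 13, 3, 22, 17, 8, -1, -1, 1, 1), (5, 23, 14, 22, 17, 19, 1, -1, 1, -1),
  (6, 2, 0, 15, 10, 4, -1, -1, -1, -1), (6, 3, 0, 16, 11, 4, -1, -1, -1, -1), (6, 9, 0, 22, 18, 4, -1, 1, 1, -1),
  (6, 14, 1, 23, 19, 5, -1, 1, 1, -1), (6, 20, 7, 23, 19, 12, -1, 1, -1, 1), (6, 21, 8, 23, 19, 13, -1, 1, -1, 1),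
  (7, 1, 0, 14, 10, 3, 1, -1, -1, 1), (7, 4, 0, 17, 12, 3, 1, -1, -1, 1), (7, 8, 0, 21, 18, 3, 1, 1, 1, 1),
  (7, 15, 2, 23, 20, 5, 1, -1, 1, -1), (7, 19, 6, 23, 20, 11, 1, -1, -1, 1), (7, 22, 9, 23, 20, 13, 1, -1, -1, 1),
  (8, 1, 0, 14, 11, 2, 1, -1, -1, 1), (8, 4, 0, 17, 13, 2, 1, -1, -1, 1), (8, 7, 0, 20, 18, 2, 1, 1, 1, 1),
  (8, 16, 3, 23, 21, 5, 1, -1, 1, -1), (8, 19, 6, 23, 21, 10, 1, -1, -1, 1), (8, 22, 9, 23, 21, 12, 1, -1, -1, 1),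
  (9, 2, 0, 15, 12, 1, -1, -1, -1, -1), (9, 3, 0, 16, 13, 1, -1, -1, -1, -1), (9, 6, 0, 19, 18, 1, -1, 1, 1, -1),
  (9, 17, 4, 23, 22, 5, -1, 1, 1, -1), (9, 20, 7, 23, 22, 10, -1, 1, -1, 1), (9, 21, 8, 23, 22, 11, -1, 1, -1, 1),
  (10, 0, 1, 9, 7, 3, 1, -1, 1, -1), (10, 5, 1, 17, 15, 3, 1, 1, -1, -1), (10, 11, 1, 21, 19, 3, -1, 1, 1, -1),
  (10, 12, 2, 22, 20, 4, -1, 1, 1, -1), (10, 18, 6, 22, 20, 8, 1, 1, -1, -1), (10, 23, 14, 22, 20, 16, 1, 1, 1, 1),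
  (11, 0, 1, 9, 8, 2, 1, -1, 1, -1), (11, 5, 1, 17, 16, 2, 1, 1, -1, -1), (11, 10, 1, 20, 19, 2, -1, 1, 1, -1),
  (11, 13, 3, 22, 21, 4, -1, 1, 1, -1), (11, 18, 6, 22, 21, 7, 1, 1, -1, -1), (11, 23, 14, 22, 21, 15, 1, 1, 1, 1),
  (12, 0, 2, 8, 9, 1, -1, -1, -1, -1), (12, 5, 2, 16, 17, 1, 1, 1, -1, -1), (12, 10, 2, 19, 20, 1, -1, 1, 1, -1),
  (12, 13, 4, 21, 22, 3, -1, 1, 1, -1), (12, 18, 7, 21, 22, 6, 1, 1, -1, -1), (12, 23, 15, 21, 22, 14, -1, 1, -1, 1),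
  (13, 0, 3, 7, 9, 1, -1, -1, -1, -1), (13, 5, 3, 15, 17, 1, 1, 1, -1, -1), (13, 11, 3, 19, 21, 1, -1, 1, 1, -1),
  (13, 12, 4, 20, 22, 2, -1, 1, 1, -1), (13, 18, 8, 20, 22, 6, 1, 1, -1, -1), (13, 23, 16, 20, 22, 14, -1, 1, -1, 1),
  (14, 2, 1, 12, 15, 0, 1, -1, 1, -1), (14, 3, 1, 13, 16, 0, 1, -1, 1, -1), (14, 6, 1, 18, 19, 0, -1, 1, 1, -1),
  (14, 17, 5, 22, 23, 4, -1, 1, 1, -1), (14, 20, 10, 22, 23, 7, 1, 1, 1, 1), (14, 21, 11, 22, 23, 8, 1, 1, 1, 1),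
  (15, 1, 2, 11, 14, 0, 1, -1, -1, 1), (15, 4, 2, 13, 17, 0, 1, -1, -1, 1), (15, 7, 2, 18, 20, 0, -1, 1, -1, 1),
  (15, 16, 5, 21, 23, 3, -1, -1, -1, -1), (15, 19, 10, 21, 23, 6, 1, -1, -1, 1), (15, 22, 12, 21, 23, 9, 1, -1, -1, 1),
  (16, 1, 3, 10, 14, 0, 1, -1, -1, 1), (16, 4, 3, 12, 17, 0, 1, -1, -1, 1), (16, 8, 3, 18, 21, 0, -1, 1, -1, 1),
  (16, 15, 5, 20, 23, 2, -1, -1, -1, -1), (16, 19, 11, 20, 23, 6, 1, -1, -1, 1), (16, 22, 13, 20, 23, 9, 1, -1, -1, 1),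
  (17, 2, 4, 10, 15, 0, 1, -1, 1, -1), (17, 3, 4, 11, 16, 0, 1, -1, 1, -1), (17, 9, 4, 18, 22, 0, -1, 1, 1, -1),
  (17, 14, 5, 19, 23, 1, -1, 1, 1, -1), (17, 20, 12, 19, 23, 7, 1, 1, 1, 1), (17, 21, 13, 19, 23, 8, 1, 1, 1, 1),
  (18, 0, 6, 4, 9, 1, -1, 1, -1, 1), (18, 10, 6, 15, 20, 1, -1, -1, 1, 1), (18, 11, 6, 16, 21, 1, -1, -1, 1, 1),
  (18, 12, 7, 17, 22, 2, -1, -1, 1, 1), (18, 13, 8, 17, 22, 3, -1, -1, 1, 1), (18, 23, 19, 17, 22, 14, -1, -1, -1, -1),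
  (19, 1, 6, 5, 14, 0, -1, 1, -1, 1), (19, 7, 6, 12, 20, 0, 1, -1, -1, 1), (19, 8, 6, 13, 21, 0, 1, -1, -1, 1),
  (19, 15, 10, 17, 23, 2, 1, -1, -1, 1), (19, 16, 11, 17, 23, 3, 1, -1, -1, 1), (19, 22, 18, 17, 23, 9, -1, -1, -1, -1),
  (20, 2, 7, 5, 15, 0, -1, 1, 1, -1), (20, 6, 7, 11, 19, 0, 1, -1, 1, -1), (20, 9, 7, 13, 22, 0, 1, -1, 1, -1),
  (20, 14, 10, 16, 23, 1, 1, 1, 1, 1), (20, 17, 12, 16, 23, 4, 1, 1, 1, 1), (20, 21, 18, 16, 23, 8, -1, 1, 1, -1),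
  (21, 3, 8, 5, 16, 0, -1, 1, 1, -1), (21, 6, 8, 10, 19, 0, 1, -1, 1, -1), (21, 9, 8, 12, 22, 0, 1, -1, 1, -1),
  (21, 14, 11, 15, 23, 1, 1, 1, 1, 1), (21, 17, 13, 15, 23, 4, 1, 1, 1, 1), (21, 20, 18, 15, 23, 7, -1, 1, 1, -1),
  (22, 4, 9, 5, 17, 0, -1, 1, -1, 1), (22, 7, 9, 10, 20, 0, 1, -1, -1, 1), (22, 8, 9, 11, 21, 0, 1, -1, -1, 1),
  (22, 15, 12, 14, 23, 2, 1, -1, -1, 1), (22, 16, 13, 14, 23, 3, 1, -1, -1, 1), (22, 19, 18, 14, 23, 6, -1, -1, -1, -1),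
  (23, 5, 14, 4, 17, 1, -1, 1, -1, 1), (23, 10, 14, 7, 20, 1, 1, 1, 1, 1), (23, 11, 14, 8, 21, 1, 1, 1, 1, 1),
  (23, 12, 15, 9, 22, 2, 1, -1, 1, -1), (23, 13, 16, 9, 22, 3, 1, -1, 1, -1), (23, 18, 19, 9, 22, 6, -1, -1, -1, -1)]

/-- for each root: a decomposition as a sum of two roots, with the structure constant -/
def decsD4 : List (ℕ × ℕ × ℕ × ℤ) :=
  [(0, 1, 9, 1), (1, 0, 14, 1), (2, 0, 15, -1), (3, 0, 16, -1), (4, 0, 17, 1), (5, 1, 17, 1),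
  (6, 0, 19, -1), (7, 0, 20, 1), (8, 0, 21, 1), (9, 0, 22, -1), (10, 1, 20, -1), (11, 1, 21, -1),
  (12, 2, 22, -1), (13, 3, 22, -1), (14, 1, 23, -1), (15, 2, 23, 1), (16, 3, 23, 1), (17, 4, 23, -1),
  (18, 6, 22, 1), (19, 6, 23, 1), (20, 7, 23, -1), (21, 8, 23, -1), (22, 9, 23, 1), (23, 14, 22, 1)]

/-- no elements of the Weyl group are needed for type D₄ -/
def wsD4 : List (List ℕ) := []

set_option maxRecDepth 100000 in
theorem chunk_D4 : chunkF chevD4 wsD4 (List.range chevD4.nroots) = true := by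
  decide +kernel

set_option maxRecDepth 100000 in
theorem tor2_D4 : chunkM chevD4 2 swapsD4 (List.range chevD4.nroots) = true := by
  decide +kernel

set_option maxRecDepth 100000 in
theorem tor3_D4 : chunkM chevD4 3 [] (List.range chevD4.nroots) = true := by decide +kernel

set_option maxRecDepth 100000 in
theorem dec_D4 : decAllB chevD4 decsD4 = true := by decide +kernel

theorem bz_D4 : bzB chevD4 (bzCands chevD4) = true := bz_of_rootB_nil _ _ root_D4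

/-- homomorphisms from the group presented by (R1), (R2) of type D₄ lift uniquely through central
extensions, if `2` is invertible in the field -/
theorem univ_D4_odd {K : Type*} [Field K] (h2 : (2 : K) ≠ 0) {G₁ E : Type*} [Group G₁] [Group E]
    (π₁ : E →* G₁) (hπ₁ : Function.Surjective π₁) (hc : π₁.ker ≤ Subgroup.center E)
    (σ : chevD4.SteinbergCover K →* G₁) :
    ∃! τ : chevD4.SteinbergCover K →* E, π₁.comp τ = σ := by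
  have hK : ∃ c : K, c ≠ 0 ∧ c ≠ 1 := by
    refine ⟨-1, neg_ne_zero.mpr one_ne_zero, fun h => h2 ?_⟩
    have h3 : (2 : K) = 1 - (-1) := by ring
    rw [h3, h, sub_self]
  exact cover_univ3 (by simp) 2 (field_m2 h2) hK swapsD4 (Or.inr h2) cart_D4 wsD4 chunk_D4 tor2_D4
    _ bz_D4 decsD4 dec_D4 π₁ hπ₁ hc σ

/-- homomorphisms from the group presented by (R1), (R2) of type D₄ lift uniquely through central
extensions, if the field has a primitive cube root of unity -/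
theorem univ_D4_cube {K : Type*} [Field K] (a : K) (ha0 : a ≠ 0) (ha1 : a ≠ 1) (ha3 : a ^ 3 = 1)
    {G₁ E : Type*} [Group G₁] [Group E] (π₁ : E →* G₁) (hπ₁ : Function.Surjective π₁)
    (hc : π₁.ker ≤ Subgroup.center E) (σ : chevD4.SteinbergCover K →* G₁) :
    ∃! τ : chevD4.SteinbergCover K →* E, π₁.comp τ = σ :=
  cover_univ3 (by simp) 3 (field_m3 a ha0 ha1 ha3) ⟨a, ha0, ha1⟩ [] (Or.inl rfl) cart_D4 wsD4
    chunk_D4 tor3_D4 _ bz_D4 decsD4 dec_D4 π₁ hπ₁ hc σ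

/-- homomorphisms from the group presented by (R1), (R2) of type D₄ over a finite field with at
least three elements lift uniquely through central extensions -/
theorem univ_D4_fin {F : Type*} [Field F] [Fintype F] (h3 : 3 ≤ Fintype.card F)
    {G₁ E : Type*} [Group G₁] [Group E] (π₁ : E →* G₁) (hπ₁ : Function.Surjective π₁)
    (hc : π₁.ker ≤ Subgroup.center E) (σ : chevD4.SteinbergCover F →* G₁) :
    ∃! τ : chevD4.SteinbergCover F →* E, π₁.comp τ = σ := by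
  classical
  by_cases h2 : (2 : F) = 0
  · by_cases h4 : 4 < Fintype.card F
    · exact cover_univ2 (by simp) ⟨Finset.univ, by rw [Finset.card_univ]; exact h4⟩ pair_D4
        rootc_D4 π₁ hπ₁ hc σ
    · have hchar : ringChar F = 2 := CharP.ringChar_of_prime_eq_zero Nat.prime_two h2
      have heven := FiniteField.even_card_iff_char_two.mp hchar
      have hcard : Fintype.card F = 4 := by omega
      have hex : ∃ a : F, a ≠ 0 ∧ a ≠ 1 := by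
        by_contra hcon
        push Not at hcon
        have hsub : (Finset.univ : Finset F) ⊆ {0, 1} := by
          intro a _
          by_cases ha : a = 0
          · simp [ha]
          · simp [hcon a ha]
        have := Finset.card_le_card hsub
        rw [Finset.card_univ, hcard] at this
        have h5 : ({0, 1} : Finset F).card ≤ 2 := Finset.card_le_two
        omega
      obtain ⟨a, ha0, ha1⟩ := hex
      have ha3 : a ^ 3 = 1 := by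
        have := FiniteField.pow_card_sub_one_eq_one a ha0
        rwa [hcard] at this
      exact univ_D4_cube a ha0 ha1 ha3 π₁ hπ₁ hc σ
  · exact univ_D4_odd h2 π₁ hπ₁ hc σ

end Cfsg.Agent.Lib.Helper18.StAbs
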