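import Cfsg.Agent.Lib.Helper18.StSmall
import Cfsg.Agent.Lib.Helper18.StCert.F4

/-!
# Type F₄: certificates for the fields with three and four elements

Over a field in which `2` is invertible, or which has a primitive cube root of unity, homomorphisms
from the group presented by (R1), (R2) of type F₄ lift uniquely through central extensions.
-/

set_option autoImplicit false

namespace Cfsg.Agent.Lib.Helper18.StAbs

open Cfsg Cfsg.Lie Cfsg.Lie.ChevalleyDatum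

set_option maxRecDepth 100000 in
set_option maxHeartbeats 4000000 in
/-- for the pairs of orthogonal long roots `(r, s)`: two decompositions `s = a + b = c + b'` with
`r + b = c`, `r + b' = a`, and the four structure constants -/
def swapsF4 : List (ℕ × ℕ × ℕ × ℕ × ℕ × ℕ × ℤ × ℤ × ℤ × ℤ) :=
  [(0, 6, 1, 32, 5, 24, 1, 1, 1, 1), (0, 17, 1, 43, 16, 24, 1, 1, 1, 1), (0, 22, 1, 45, 21, 24, -1, -1, 1, 1),
  (0, 25, 2, 46, 23, 26, -1, -1, 1, 1), (0, 30, 4, 46, 23, 31, 1, -1, 1, -1), (0, 41, 15, 46, 23, 42, 1, -1, 1, -1),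
  (1, 5, 0, 32, 6, 23, 1, 1, 1, 1), (1, 16, 0, 43, 17, 23, 1, 1, 1, 1), (1, 21, 0, 45, 22, 23, -1, -1, 1, 1),
  (1, 26, 2, 47, 24, 25, -1, -1, 1, 1), (1, 31, 4, 47, 24, 30, 1, -1, 1, -1), (1, 42, 15, 47, 24, 41, 1, -1, 1, -1),
  (2, 4, 0, 31, 6, 21, -1, 1, -1, 1), (2, 15, 0, 42, 17, 21, -1, 1, -1, 1), (2, 23, 0, 46, 25, 21, -1, -1, 1, 1),
  (2, 24, 1, 47, 26, 22, -1, -1, 1, 1), (2, 32, 5, 47, 26, 30, -1, -1, -1, -1), (2, 43, 16, 47, 26, 41, -1, -1, -1, -1),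
  (4, 2, 0, 26, 6, 16, 1, -1, 1, -1), (4, 15, 0, 42, 22, 16, -1, -1, -1, -1), (4, 23, 0, 46, 30, 16, -1, 1, 1, -1),
  (4, 24, 1, 47, 31, 17, -1, 1, 1, -1), (4, 32, 5, 47, 31, 25, -1, 1, -1, 1), (4, 45, 21, 47, 31, 41, 1, 1, 1, 1),
  (5, 1, 0, 24, 6, 15, 1, 1, 1, 1), (5, 16, 0, 43, 25, 15, 1, -1, -1, 1), (5, 21, 0, 45, 30, 15, -1, 1, -1, 1),
  (5, 26, 2, 47, 32, 17, -1, -1, -1, -1), (5, 31, 4, 47, 32, 22, 1, -1, -1, 1), (5, 46, 23, 47, 32, 41, 1, -1, 1, -1),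
  (6, 0, 1, 23, 5, 15, 1, 1, 1, 1), (6, 17, 1, 43, 26, 15, 1, 1, 1, 1), (6, 22, 1, 45, 31, 15, -1, -1, 1, 1),
  (6, 25, 2, 46, 32, 16, -1, -1, 1, 1), (6, 30, 4, 46, 32, 21, 1, -1, 1, -1), (6, 47, 24, 46, 32, 42, 1, -1, 1, -1),
  (15, 2, 0, 26, 17, 5, 1, -1, 1, -1), (15, 4, 0, 31, 22, 5, -1, -1, -1, -1), (15, 23, 0, 46, 41, 5, -1, 1, 1, -1),
  (15, 24, 1, 47, 42, 6, -1, 1, 1, -1), (15, 43, 16, 47, 42, 25, -1, 1, -1, 1), (15, 45, 21, 47, 42, 30, 1, 1, 1, 1),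
  (16, 1, 0, 24, 17, 4, 1, 1, 1, 1), (16, 5, 0, 32, 25, 4, 1, -1, -1, 1), (16, 21, 0, 45, 41, 4, -1, 1, -1, 1),
  (16, 26, 2, 47, 43, 6, -1, -1, -1, -1), (16, 42, 15, 47, 43, 22, 1, -1, -1, 1), (16, 46, 23, 47, 43, 30, 1, -1, 1, -1),
  (17, 0, 1, 23, 16, 4, 1, 1, 1, 1), (17, 6, 1, 32, 26, 4, 1, 1, 1, 1), (17, 22, 1, 45, 42, 4, -1, -1, 1, 1),
  (17, 25, 2, 46, 43, 5, -1, -1, 1, 1), (17, 41, 15, 46, 43, 21, 1, -1, 1, -1), (17, 47, 24, 46, 43, 31, 1, -1, 1, -1),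
  (21, 1, 0, 24, 22, 2, 1, 1, -1, -1), (21, 5, 0, 32, 30, 2, 1, -1, 1, -1), (21, 16, 0, 43, 41, 2, 1, -1, 1, -1),
  (21, 31, 4, 47, 45, 6, 1, 1, 1, 1), (21, 42, 15, 47, 45, 17, 1, 1, 1, 1), (21, 46, 23, 47, 45, 25, 1, 1, -1, -1),
  (22, 0, 1, 23, 21, 2, 1, 1, -1, -1), (22, 6, 1, 32, 31, 2, 1, 1, -1, -1), (22, 17, 1, 43, 42, 2, 1, 1, -1, -1),
  (22, 30, 4, 46, 45, 5, 1, 1, -1, -1), (22, 41, 15, 46, 45, 16, 1, 1, -1, -1), (22, 47, 24, 46, 45, 26, 1, 1, -1, -1),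
  (23, 2, 0, 26, 25, 1, 1, 1, -1, -1), (23, 4, 0, 31, 30, 1, -1, 1, 1, -1), (23, 15, 0, 42, 41, 1, -1, 1, 1, -1),
  (23, 32, 5, 47, 46, 6, -1, 1, 1, -1), (23, 43, 16, 47, 46, 17, -1, 1, 1, -1), (23, 45, 21, 47, 46, 22, 1, 1, -1, -1),
  (24, 2, 1, 25, 26, 0, 1, 1, -1, -1), (24, 4, 1, 30, 31, 0, -1, 1, 1, -1), (24, 15, 1, 41, 42, 0, -1, 1, 1, -1),
  (24, 32, 6, 46, 47, 5, -1, 1, 1, -1), (24, 43, 17, 46, 47, 16, -1, 1, 1, -1), (24, 45, 22, 46, 47, 21, 1, 1, -1, -1),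
  (25, 0, 2, 21, 23, 1, 1, 1, -1, -1), (25, 6, 2, 31, 32, 1, 1, 1, -1, -1), (25, 17, 2, 42, 43, 1, 1, 1, -1, -1),
  (25, 30, 5, 45, 46, 4, 1, 1, -1, -1), (25, 41, 16, 45, 46, 15, 1, 1, -1, -1), (25, 47, 26, 45, 46, 24, 1, 1, -1, -1),
  (26, 1, 2, 22, 24, 0, 1, 1, -1, -1), (26, 5, 2, 30, 32, 0, -1, -1, -1, -1), (26, 16, 2, 41, 43, 0, -1, -1, -1, -1),
  (26, 31, 6, 45, 47, 4, -1, 1, -1, 1), (26, 42, 17, 45, 47, 15, -1, 1, -1, 1), (26, 46, 25, 45, 47, 23, 1, 1, -1, -1),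
  (30, 0, 4, 16, 23, 1, -1, 1, -1, 1), (30, 6, 4, 26, 32, 1, -1, 1, -1, 1), (30, 22, 4, 42, 45, 1, -1, -1, 1, 1),
  (30, 25, 5, 43, 46, 2, -1, -1, 1, 1), (30, 41, 21, 43, 46, 15, -1, -1, -1, -1), (30, 47, 31, 43, 46, 24, -1, -1, -1, -1),
  (31, 1, 4, 17, 24, 0, -1, 1, -1, 1), (31, 5, 4, 25, 32, 0, 1, -1, -1, 1), (31, 21, 4, 41, 45, 0, 1, 1, 1, 1),
  (31, 26, 6, 43, 47, 2, 1, -1, 1, -1), (31, 42, 22, 43, 47, 15, 1, -1, -1, 1), (31, 46, 30, 43, 47, 23, -1, -1, -1, -1),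
  (32, 2, 5, 17, 26, 0, -1, -1, -1, -1), (32, 4, 5, 22, 31, 0, 1, -1, 1, -1), (32, 23, 5, 41, 46, 0, -1, 1, 1, -1),
  (32, 24, 6, 42, 47, 1, -1, 1, 1, -1), (32, 43, 25, 42, 47, 16, 1, 1, 1, 1), (32, 45, 30, 42, 47, 21, -1, 1, -1, 1),
  (41, 0, 15, 5, 23, 1, -1, 1, -1, 1), (41, 17, 15, 26, 43, 1, -1, 1, -1, 1), (41, 22, 15, 31, 45, 1, -1, -1, 1, 1),
  (41, 25, 16, 32, 46, 2, -1, -1, 1, 1), (41, 30, 21, 32, 46, 4, -1, -1, -1, -1), (41, 47, 42, 32, 46, 24, -1, -1, -1, -1),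
  (42, 1, 15, 6, 24, 0, -1, 1, -1, 1), (42, 16, 15, 25, 43, 0, 1, -1, -1, 1), (42, 21, 15, 30, 45, 0, 1, 1, 1, 1),
  (42, 26, 17, 32, 47, 2, 1, -1, 1, -1), (42, 31, 22, 32, 47, 4, 1, -1, -1, 1), (42, 46, 41, 32, 47, 23, -1, -1, -1, -1),
  (43, 2, 16, 6, 26, 0, -1, -1, -1, -1), (43, 15, 16, 22, 42, 0, 1, -1, 1, -1), (43, 23, 16, 30, 46, 0, -1, 1, 1, -1),
  (43, 24, 17, 31, 47, 1, -1, 1, 1, -1), (43, 32, 25, 31, 47, 5, 1, 1, 1, 1), (43, 45, 41, 31, 47, 21, -1, 1, -1, 1),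
  (45, 4, 21, 6, 31, 0, 1, 1, 1, 1), (45, 15, 21, 17, 42, 0, 1, 1, 1, 1), (45, 23, 21, 25, 46, 0, -1, -1, 1, 1),
  (45, 24, 22, 26, 47, 1, -1, -1, 1, 1), (45, 32, 30, 26, 47, 5, 1, -1, 1, -1), (45, 43, 41, 26, 47, 16, 1, -1, 1, -1),
  (46, 5, 23, 6, 32, 0, -1, 1, -1, 1), (46, 16, 23, 17, 43, 0, -1, 1, -1, 1), (46, 21, 23, 22, 45, 0, -1, -1, 1, 1),
  (46, 26, 25, 24, 47, 2, -1, -1, 1, 1), (46, 31, 30, 24, 47, 4, -1, -1, -1, -1), (46, 42, 41, 24, 47, 15, -1, -1, -1, -1),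
  (47, 6, 24, 5, 32, 1, -1, 1, -1, 1), (47, 17, 24, 16, 43, 1, -1, 1, -1, 1), (47, 22, 24, 21, 45, 1, -1, -1, 1, 1),
  (47, 25, 26, 23, 46, 2, -1, -1, 1, 1), (47, 30, 31, 23, 46, 4, -1, -1, -1, -1), (47, 41, 42, 23, 46, 15, -1, -1, -1, -1)]

/-- for each root: a decomposition as a sum of two roots, with the structure constant -/
def decsF4 : List (ℕ × ℕ × ℕ × ℤ) :=
  [(0, 1, 23, 1), (1, 0, 24, 1), (2, 0, 26, 1), (3, 7, 14, 1), (4, 0, 31, -1), (5, 0, 32, 1),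
  (6, 1, 32, 1), (7, 3, 33, 1), (8, 3, 34, 1), (9, 3, 35, -1), (10, 3, 36, 1), (11, 3, 37, -1),
  (12, 3, 38, 1), (13, 3, 39, -1), (14, 3, 40, -1), (15, 0, 42, -1), (16, 0, 43, 1), (17, 1, 43, 1),
  (18, 7, 37, -1), (19, 7, 38, 1), (20, 7, 39, -1), (21, 0, 45, -1), (22, 1, 45, -1), (23, 0, 46, -1),
  (24, 1, 47, -1), (25, 2, 46, -1), (26, 2, 47, -1), (27, 8, 40, -1), (28, 9, 40, 1), (29, 10, 40, -1),
  (30, 4, 46, 1), (31, 4, 47, 1), (32, 5, 47, -1), (33, 7, 44, -1), (34, 8, 44, -1), (35, 9, 44, 1),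
  (36, 10, 44, -1), (37, 11, 44, 1), (38, 12, 44, -1), (39, 13, 44, 1), (40, 14, 44, 1), (41, 15, 46, 1),
  (42, 15, 47, 1), (43, 16, 47, -1), (44, 33, 40, 1), (45, 21, 47, 1), (46, 23, 47, 1), (47, 24, 46, 1)]

set_option maxRecDepth 100000 in
theorem tor2_F4 : chunkM chevF4 2 swapsF4 (List.range chevF4.nroots) = true := by
  decide +kernel

set_option maxRecDepth 100000 in
theorem tor3_F4 : chunkM chevF4 3 [] (List.range chevF4.nroots) = true := by decide +kernel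

set_option maxRecDepth 100000 in
theorem dec_F4 : decAllB chevF4 decsF4 = true := by decide +kernel

theorem bz_F4 : bzB chevF4 (bzCands chevF4) = true := bz_of_rootB_nil _ _ root_F4

/-- homomorphisms from the group presented by (R1), (R2) of type F₄ lift uniquely through central
extensions, if `2` is invertible in the field -/
theorem univ_F4_odd {K : Type*} [Field K] (h2 : (2 : K) ≠ 0) {G₁ E : Type*} [Group G₁] [Group E]
    (π₁ : E →* G₁) (hπ₁ : Function.Surjective π₁) (hc : π₁.ker ≤ Subgroup.center E)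
    (σ : chevF4.SteinbergCover K →* G₁) :
    ∃! τ : chevF4.SteinbergCover K →* E, π₁.comp τ = σ := by
  have hK : ∃ c : K, c ≠ 0 ∧ c ≠ 1 := by
    refine ⟨-1, neg_ne_zero.mpr one_ne_zero, fun h => h2 ?_⟩
    have h3 : (2 : K) = 1 - (-1) := by ring
    rw [h3, h, sub_self]
  exact cover_univ3 (by simp) 2 (field_m2 h2) hK swapsF4 (Or.inr h2) cart_F4 wsF4 chunk_F4 tor2_F4
    _ bz_F4 decsF4 dec_F4 π₁ hπ₁ hc σ

/-- homomorphisms from the group presented by (R1), (R2) of type F₄ lift uniquely through central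
extensions, if the field has a primitive cube root of unity -/
theorem univ_F4_cube {K : Type*} [Field K] (a : K) (ha0 : a ≠ 0) (ha1 : a ≠ 1) (ha3 : a ^ 3 = 1)
    {G₁ E : Type*} [Group G₁] [Group E] (π₁ : E →* G₁) (hπ₁ : Function.Surjective π₁)
    (hc : π₁.ker ≤ Subgroup.center E) (σ : chevF4.SteinbergCover K →* G₁) :
    ∃! τ : chevF4.SteinbergCover K →* E, π₁.comp τ = σ :=
  cover_univ3 (by simp) 3 (field_m3 a ha0 ha1 ha3) ⟨a, ha0, ha1⟩ [] (Or.inl rfl) cart_F4 wsF4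
    chunk_F4 tor3_F4 _ bz_F4 decsF4 dec_F4 π₁ hπ₁ hc σ

/-- homomorphisms from the group presented by (R1), (R2) of type F₄ over a finite field with at
least three elements lift uniquely through central extensions -/
theorem univ_F4_fin {F : Type*} [Field F] [Fintype F] (h3 : 3 ≤ Fintype.card F)
    {G₁ E : Type*} [Group G₁] [Group E] (π₁ : E →* G₁) (hπ₁ : Function.Surjective π₁)
    (hc : π₁.ker ≤ Subgroup.center E) (σ : chevF4.SteinbergCover F →* G₁) :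
    ∃! τ : chevF4.SteinbergCover F →* E, π₁.comp τ = σ := by
  classical
  by_cases h2 : (2 : F) = 0
  · by_cases h4 : 4 < Fintype.card F
    · exact cover_univ2 (by simp) ⟨Finset.univ, by rw [Finset.card_univ]; exact h4⟩ pair_F4
        rootc_F4 π₁ hπ₁ hc σ
    · have hchar : ringChar F = 2 := CharP.ringChar_of_prime_eq_zero Nat.prime_two h2
      have heven := FiniteField.even_card_iff_char_two.mp hchar
      have hcard : Fintype.card F = 4 := by omega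
      have hex : ∃ a : F, a ≠ 0 ∧ a ≠ 1 := by
        by_contra hcon
        push Not at hcon
        have hsub : (Finset.univ : Finset F) ⊆ {0, 1} := by
          intro a _
          by_cases ha : a = 0
          · simp [ha]
          · simp [hcon a ha]
        have := Finset.card_le_card hsub
        rw [Finset.card_univ, hcard] at this
        have h5 : ({0, 1} : Finset F).card ≤ 2 := Finset.card_le_two
        omega
      obtain ⟨a, ha0, ha1⟩ := hex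
      have ha3 : a ^ 3 = 1 := by
        have := FiniteField.pow_card_sub_one_eq_one a ha0
        rwa [hcard] at this
      exact univ_F4_cube a ha0 ha1 ha3 π₁ hπ₁ hc σ
  · exact univ_F4_odd h2 π₁ hπ₁ hc σ

end Cfsg.Agent.Lib.Helper18.StAbs
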