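import Cfsg.Agent.Lib.Helper18.StLiftSL
import Cfsg.Agent.Lib.Helper18.StUniv

/-!
# Central extensions of the group presented by (R1), (R2): simply laced types of large rank

For a simply laced root system in which every pair of roots with commuting root subgroups admits a
decomposition of the second root into two roots commuting with the first, lifts of the root
elements to a central extension can be defined as commutators of lifts, over an arbitrary field.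
They do not depend on the decomposition used when the decompositions of each root are connected
by elementary moves, and then they satisfy the relations (R1), (R2).
-/

set_option autoImplicit false

namespace Cfsg.Agent.Lib.Helper18.StAbs

open Cfsg Cfsg.Lie Cfsg.Lie.ChevalleyDatum Cfsg.Agent.Lib.Helper17

/-- the root elements of `a` and `b` commute by (R1), (R2) -/
def ComP (D : ChevalleyDatum) (a b : ℕ) : Prop :=
  a < D.nroots ∧ b < D.nroots ∧ (b = a ∨ (b ≠ D.neg a ∧ D.chainEntry a b = []))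

/-- `g = a + b`, with structure constant `C = ±1` -/
def SumP (D : ChevalleyDatum) (a b g : ℕ) (C : ℤ) : Prop :=
  a < D.nroots ∧ b < D.nroots ∧ g < D.nroots ∧ b ≠ a ∧ b ≠ D.neg a ∧
    D.chainEntry a b = [(g, C)] ∧ (C = 1 ∨ C = -1)

/-- a configuration `a = a₁ + a₂`, `h = a₂ + b`, `g = a + b = a₁ + h` -/
def CfgP (D : ChevalleyDatum) (g a b a₁ a₂ h : ℕ) (C₁ C₂ C₃ : ℤ) : Prop :=
  SumP D a₁ a₂ a C₁ ∧ SumP D a₂ b h C₂ ∧ SumP D a₁ h g C₃ ∧ ComP D a₁ b ∧ ComP D a h ∧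
    ComP D a g

/-- the decompositions of `g` reachable from the base decomposition -/
inductive Reach (D : ChevalleyDatum) (base : ℕ → ℕ × ℕ × ℤ) (g : ℕ) : ℕ → ℕ → Prop
  | base : Reach D base g (base g).1 (base g).2.1
  | move (a b a₁ a₂ h : ℕ) (C₁ C₂ C₃ : ℤ) : Reach D base g a b →
      CfgP D g a b a₁ a₂ h C₁ C₂ C₃ → Reach D base g a₁ h

theorem sq_of_pm {K : Type*} [Field K] (C : ℤ) (hC : C = 1 ∨ C = -1) : (C : K) * (C : K) = 1 := by
  rcases hC with rfl | rfl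
  · simp
  · simp

variable {K : Type*} [Field K] {Γ : Type*} [Group Γ] {E : Type*} [Group E]

/-! ### In the group with the relations -/

section gamma

variable {D : ChevalleyDatum} {X : ℕ → K → Γ}

theorem ComP.comm (hsl : slB D = true) (hX : Rel D X) {a b : ℕ} (h : ComP D a b) (t u : K) :
    X a t * X b u = X b u * X a t := by
  obtain ⟨ha, hb, h1⟩ := h
  by_cases hba : b = a
  · subst hba
    rw [hX.add, hX.add, add_comm]
  · rcases h1 with h1 | ⟨hne, hch⟩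
    · exact absurd h1 hba
    · have h2 := hX.comm a b ha hb hba hne t u
      have hw : D.commWord K a b t u = [] := by
        unfold ChevalleyDatum.commWord
        rw [commTerms_sl D hsl a b, hch]
        rfl
      rw [hw, wd_nil, mul_one] at h2
      exact h2.symm

theorem SumP.comm (hsl : slB D = true) (hX : Rel D X) {a b g : ℕ} {C : ℤ} (h : SumP D a b g C)
    (t u : K) : X b u * X a t * (X b u)⁻¹ * (X a t)⁻¹ = X g (-((C : K) * t * u)) := by
  obtain ⟨ha, hb, hg, hba, hbn, hch, hC⟩ := h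
  have h1 := hX.comm a b ha hb hba hbn (-t) (-u)
  have hw : D.commWord K a b (-t) (-u) = [(g, (C : K) * (-(-t)) ^ 1 * (-u) ^ 1)] := by
    unfold ChevalleyDatum.commWord
    rw [commTerms_sl D hsl a b, hch]
    rfl
  rw [hw, wd_cons, wd_nil, mul_one, ← hX.inv, ← hX.inv] at h1
  have h2 : X g ((C : K) * (-(-t)) ^ 1 * (-u) ^ 1) =
      X b u * X a t * (X b u)⁻¹ * (X a t)⁻¹ := by
    have h3 : X g ((C : K) * (-(-t)) ^ 1 * (-u) ^ 1) =
        ((X a t)⁻¹ * (X b u)⁻¹)⁻¹ * ((X b u)⁻¹ * (X a t)⁻¹) := by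
      rw [h1]
      group
    rw [h3]
    group
  rw [← h2]
  congr 1
  ring

end gamma

/-! ### In a central extension -/

section ext

variable {D : ChevalleyDatum} {X : ℕ → K → Γ}
  (ψ : E →* Γ) (hs : Function.Surjective ψ) (hc : ψ.ker ≤ Subgroup.center E)

/-- lifts of the root elements of `a` and `b` commute -/
def Cm (X : ℕ → K → Γ) (ψ : E →* Γ) (hs : Function.Surjective ψ) (a b : ℕ) : Prop :=
  ∀ t u : K, CExt.cc ψ hs (X a t) (X b u) = 1

omit [Field K] in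
include hc in
theorem Cm.lift {a b : ℕ} (h : Cm X ψ hs a b) (t u : K) (p q : E) (hp : ψ p = X a t)
    (hq : ψ q = X b u) : p * q = q * p := by
  have h1 := CExt.cc_eq ψ hs hc p q (X a t) (X b u) hp hq
  rw [h t u] at h1
  have h2 : p * q = (p * q * p⁻¹ * q⁻¹) * (q * p) := by group
  rw [h2, ← h1, one_mul]

omit [Field K] in
include hc in
theorem Cm.symm {a b : ℕ} (h : Cm X ψ hs a b) : Cm X ψ hs b a := by
  intro t u
  have h1 := h.lift ψ hs hc u t (CExt.lf ψ hs (X a u)) (CExt.lf ψ hs (X b t))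
    (CExt.psi_lf ψ hs _) (CExt.psi_lf ψ hs _)
  unfold CExt.cc
  rw [← h1]
  group

include hc in
/-- an element commuting with `y` and `z` has lifts commuting with the lifts of `[y, z]` -/
theorem cc_comm_eq_one (x y z : Γ) (hxy : x * y = y * x) (hxz : x * z = z * x) :
    CExt.cc ψ hs x (y * z * y⁻¹ * z⁻¹) = 1 := by
  have h1 := CExt.cc_eq ψ hs hc (CExt.lf ψ hs x) (CExt.cc ψ hs y z) x (y * z * y⁻¹ * z⁻¹)
    (CExt.psi_lf ψ hs x) (CExt.psi_cc ψ hs y z)
  have h2 := CExt.cc_conj ψ hs hc (CExt.lf ψ hs x) y z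
  rw [CExt.psi_lf] at h2
  have e1 : x * y * x⁻¹ = y := by rw [hxy]; group
  have e2 : x * z * x⁻¹ = z := by rw [hxz]; group
  rw [e1, e2] at h2
  rw [h1, h2, mul_inv_cancel]

include hc in
theorem cm_of_sum (hsl : slB D = true) (hX : Rel D X) {α β a b : ℕ} {C : ℤ}
    (h1 : ComP D α a) (h2 : ComP D α b) (h3 : SumP D a b β C) : Cm X ψ hs α β := by
  intro s v
  have h4 := h3.comm hsl hX (-((C : K) * v)) 1
  have h5 : -((C : K) * (-((C : K) * v)) * 1) = v := by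
    have := sq_of_pm (K := K) C h3.2.2.2.2.2.2
    calc -((C : K) * (-((C : K) * v)) * 1) = ((C : K) * (C : K)) * v := by ring
      _ = v := by rw [this, one_mul]
  rw [h5] at h4
  rw [← h4]
  exact cc_comm_eq_one ψ hs hc _ _ _ (h2.comm hsl hX s 1) (h1.comm hsl hX s _)

/-- a commutator identity -/
theorem comm_aux (x y z : E) (hxz : x * z = z * x)
    (hwc : (x * y * x⁻¹ * y⁻¹) * (y * z * y⁻¹ * z⁻¹) = (y * z * y⁻¹ * z⁻¹) * (x * y * x⁻¹ * y⁻¹))
    (hdc : ((x * y * x⁻¹ * y⁻¹) * z * (x * y * x⁻¹ * y⁻¹)⁻¹ * z⁻¹) * (y * z * y⁻¹ * z⁻¹) =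
      (y * z * y⁻¹ * z⁻¹) * ((x * y * x⁻¹ * y⁻¹) * z * (x * y * x⁻¹ * y⁻¹)⁻¹ * z⁻¹)) :
    x * (y * z * y⁻¹ * z⁻¹) * x⁻¹ * (y * z * y⁻¹ * z⁻¹)⁻¹ =
      (x * y * x⁻¹ * y⁻¹) * z * (x * y * x⁻¹ * y⁻¹)⁻¹ * z⁻¹ := by
  have hz : x * z * x⁻¹ = z := by rw [hxz]; group
  have e0 : x * (y * z * y⁻¹ * z⁻¹) * x⁻¹ =
      (x * y * x⁻¹) * (x * z * x⁻¹) * (x * y * x⁻¹)⁻¹ * (x * z * x⁻¹)⁻¹ := by group
  rw [hz] at e0
  have e1 : (x * y * x⁻¹) * z * (x * y * x⁻¹)⁻¹ * z⁻¹ =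
      (x * y * x⁻¹ * y⁻¹) * (y * z * y⁻¹ * z⁻¹) * (x * y * x⁻¹ * y⁻¹)⁻¹ *
        ((x * y * x⁻¹ * y⁻¹) * z * (x * y * x⁻¹ * y⁻¹)⁻¹ * z⁻¹) := by group
  rw [e0, e1, hwc]
  generalize x * y * x⁻¹ * y⁻¹ = w at hdc ⊢
  generalize y * z * y⁻¹ * z⁻¹ = c at hdc ⊢
  generalize w * z * w⁻¹ * z⁻¹ = d at hdc ⊢
  have e2 : c * w * w⁻¹ * d * c⁻¹ = (c * d) * c⁻¹ := by group
  rw [e2, ← hdc]
  group

include hc in
/-- the elementary move between decompositions -/
theorem cc_move (hsl : slB D = true) (hX : Rel D X) {g a b a₁ a₂ h : ℕ} {C₁ C₂ C₃ : ℤ}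
    (S1 : SumP D a₁ a₂ a C₁) (S2 : SumP D a₂ b h C₂) (S3 : SumP D a₁ h g C₃)
    (c1 : Cm X ψ hs b a₁) (c2 : Cm X ψ hs h a) (c3 : Cm X ψ hs g a) (t' u' u : K) :
    CExt.cc ψ hs (X b u) (X a (-((C₁ : K) * t' * u'))) =
      CExt.cc ψ hs (X h (-((C₂ : K) * u' * u))) (X a₁ t') := by
  set x := CExt.lf ψ hs (X b u) with hx
  set y := CExt.lf ψ hs (X a₂ u') with hy
  set z := CExt.lf ψ hs (X a₁ t') with hz
  have px : ψ x = X b u := CExt.psi_lf ψ hs _
  have py : ψ y = X a₂ u' := CExt.psi_lf ψ hs _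
  have pz : ψ z = X a₁ t' := CExt.psi_lf ψ hs _
  have pc : ψ (y * z * y⁻¹ * z⁻¹) = X a (-((C₁ : K) * t' * u')) := by
    rw [map_mul, map_mul, map_mul, map_inv, map_inv, py, pz]
    exact S1.comm hsl hX t' u'
  have pw : ψ (x * y * x⁻¹ * y⁻¹) = X h (-((C₂ : K) * u' * u)) := by
    rw [map_mul, map_mul, map_mul, map_inv, map_inv, px, py]
    exact S2.comm hsl hX u' u
  have pd : ψ ((x * y * x⁻¹ * y⁻¹) * z * (x * y * x⁻¹ * y⁻¹)⁻¹ * z⁻¹) =
      X g (-((C₃ : K) * t' * (-((C₂ : K) * u' * u)))) := by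
    rw [map_mul, map_mul, map_mul, map_inv, map_inv, pw, pz]
    exact S3.comm hsl hX t' _
  have hxz : x * z = z * x := c1.lift ψ hs hc u t' x z px pz
  have hwc := c2.lift ψ hs hc _ _ _ _ pw pc
  have hdc := c3.lift ψ hs hc _ _ _ _ pd pc
  rw [CExt.cc_eq ψ hs hc x (y * z * y⁻¹ * z⁻¹) _ _ px pc,
    CExt.cc_eq ψ hs hc (x * y * x⁻¹ * y⁻¹) z _ _ pw pz]
  exact comm_aux x y z hxz hwc hdc

include hc in
/-- additivity in the first root -/
theorem cc_add (hsl : slB D = true) (hX : Rel D X) {a b g : ℕ} {C : ℤ} (S : SumP D a b g C)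
    (c : Cm X ψ hs a g) (t t' u : K) :
    CExt.cc ψ hs (X b u) (X a t) * CExt.cc ψ hs (X b u) (X a t') =
      CExt.cc ψ hs (X b u) (X a (t + t')) := by
  rw [← hX.add a t t', CExt.cc_mul_right ψ hs hc]
  have pq : ψ (CExt.cc ψ hs (X b u) (X a t')) = X g (-((C : K) * t' * u)) := by
    rw [CExt.psi_cc]
    exact S.comm hsl hX t' u
  have h1 := c.lift ψ hs hc t _ (CExt.lf ψ hs (X a t)) _ (CExt.psi_lf ψ hs _) pq
  rw [h1]
  group

/-- the lifts of the root elements -/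
noncomputable def xs (D : ChevalleyDatum) (X : ℕ → K → Γ) (ψ : E →* Γ)
    (hs : Function.Surjective ψ) (base : ℕ → ℕ × ℕ × ℤ) (g : ℕ) (v : K) : E :=
  if g < D.nroots then
    CExt.cc ψ hs (X (base g).2.1 1) (X (base g).1 (-(((base g).2.2 : ℤ) : K) * v))
  else 1

theorem xs_ge (base : ℕ → ℕ × ℕ × ℤ) (g : ℕ) (hg : D.nroots ≤ g) (v : K) :
    xs D X ψ hs base g v = 1 := by
  unfold xs
  rw [if_neg (not_lt.mpr hg)]

variable (base : ℕ → ℕ × ℕ × ℤ)

theorem psi_xs (hsl : slB D = true) (hX : Rel D X) (g : ℕ) (hg : g < D.nroots)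
    (hb : SumP D (base g).1 (base g).2.1 g (base g).2.2) (v : K) :
    ψ (xs D X ψ hs base g v) = X g v := by
  unfold xs
  rw [if_pos hg, CExt.psi_cc, hb.comm hsl hX]
  congr 1
  have := sq_of_pm (K := K) _ hb.2.2.2.2.2.2
  calc -((((base g).2.2 : ℤ) : K) * (-(((base g).2.2 : ℤ) : K) * v) * 1) =
      ((((base g).2.2 : ℤ) : K) * (((base g).2.2 : ℤ) : K)) * v := by ring
    _ = v := by rw [this, one_mul]

include hc in
theorem xs_add (hsl : slB D = true) (hX : Rel D X) (g : ℕ)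
    (hb : g < D.nroots → SumP D (base g).1 (base g).2.1 g (base g).2.2 ∧
      Cm X ψ hs (base g).1 g) (v v' : K) :
    xs D X ψ hs base g v * xs D X ψ hs base g v' = xs D X ψ hs base g (v + v') := by
  unfold xs
  by_cases hg : g < D.nroots
  · rw [if_pos hg, if_pos hg, if_pos hg, cc_add ψ hs hc hsl hX (hb hg).1 (hb hg).2]
    congr 2
    ring
  · rw [if_neg hg, if_neg hg, if_neg hg, one_mul]

/-- the decomposition `(a, b)` of `g` gives the same lifts as the base decomposition -/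
def GoodP (D : ChevalleyDatum) (X : ℕ → K → Γ) (ψ : E →* Γ) (hs : Function.Surjective ψ)
    (base : ℕ → ℕ × ℕ × ℤ) (g a b : ℕ) : Prop :=
  ∃ C : ℤ, SumP D a b g C ∧ ∀ t u : K,
    CExt.cc ψ hs (X b u) (X a t) = xs D X ψ hs base g (-((C : K) * t * u))

include hc in
theorem good_of_reach (hsl : slB D = true) (hX : Rel D X)
    (hinj : ∀ g < D.nroots, ∀ v v' : K, X g v = X g v' → v = v')
    (hCm : ∀ α β, ComP D α β → Cm X ψ hs α β)
    (g : ℕ) (hg : g < D.nroots)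
    (hbase : SumP D (base g).1 (base g).2.1 g (base g).2.2 ∧ ∃ a₁ a₂ h C₁ C₂ C₃,
      CfgP D g (base g).1 (base g).2.1 a₁ a₂ h C₁ C₂ C₃)
    (a b : ℕ) (hr : Reach D base g a b) : GoodP D X ψ hs base g a b := by
  induction hr with
  | base =>
    obtain ⟨hS, a₁, a₂, h, C₁, C₂, C₃, S1, S2, S3, k1, k2, k3⟩ := hbase
    refine ⟨_, hS, fun t u => ?_⟩
    have hM := cc_move ψ hs hc hsl hX S1 S2 S3 (Cm.symm ψ hs hc (hCm _ _ k1))
      (Cm.symm ψ hs hc (hCm _ _ k2)) (Cm.symm ψ hs hc (hCm _ _ k3))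
    have q1 := sq_of_pm (K := K) C₁ S1.2.2.2.2.2.2
    have q0 := sq_of_pm (K := K) _ hS.2.2.2.2.2.2
    unfold xs
    rw [if_pos hg]
    have e1 : t = -((C₁ : K) * (-((C₁ : K) * t)) * 1) := by
      calc t = ((C₁ : K) * (C₁ : K)) * t := by rw [q1, one_mul]
        _ = _ := by ring
    have e2 : -(((base g).2.2 : ℤ) : K) * -((((base g).2.2 : ℤ) : K) * t * u) =
        -((C₁ : K) * (-((C₁ : K) * t)) * u) := by
      calc -(((base g).2.2 : ℤ) : K) * -((((base g).2.2 : ℤ) : K) * t * u) =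
          ((((base g).2.2 : ℤ) : K) * (((base g).2.2 : ℤ) : K)) * (t * u) := by ring
        _ = ((C₁ : K) * (C₁ : K)) * (t * u) := by rw [q0, q1]
        _ = _ := by ring
    rw [e2, hM (-((C₁ : K) * t)) u 1]
    have h3 := hM (-((C₁ : K) * t)) 1 u
    rw [← e1] at h3
    rw [h3]
    congr 2
    ring
  | move a b a₁ a₂ h C₁ C₂ C₃ _ hcfg ih =>
    obtain ⟨S1, S2, S3, k1, k2, k3⟩ := hcfg
    obtain ⟨C, hS, hgood⟩ := ih
    have hM := cc_move ψ hs hc hsl hX S1 S2 S3 (Cm.symm ψ hs hc (hCm _ _ k1))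
      (Cm.symm ψ hs hc (hCm _ _ k2)) (Cm.symm ψ hs hc (hCm _ _ k3))
    have q2 := sq_of_pm (K := K) C₂ S2.2.2.2.2.2.2
    have key : ∀ t u : K, CExt.cc ψ hs (X h u) (X a₁ t) =
        xs D X ψ hs base g (-(((C : K) * (C₁ : K) * (C₂ : K)) * t * u)) := by
      intro t u
      have h1 := hM t 1 (-((C₂ : K) * u))
      have e1 : -((C₂ : K) * 1 * -((C₂ : K) * u)) = u := by
        calc -((C₂ : K) * 1 * -((C₂ : K) * u)) = ((C₂ : K) * (C₂ : K)) * u := by ring
          _ = u := by rw [q2, one_mul]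
      rw [e1] at h1
      rw [← h1, hgood]
      congr 1
      ring
    have hsign : (C₃ : K) = (C : K) * (C₁ : K) * (C₂ : K) := by
      have h1 := congrArg ψ (key 1 1)
      rw [CExt.psi_cc, S3.comm hsl hX, psi_xs ψ hs base hsl hX g hg hbase.1] at h1
      have h2 := hinj g hg _ _ h1
      have h3 : (C₃ : K) = -(-((C₃ : K) * 1 * 1)) := by ring
      rw [h3, h2]
      ring
    refine ⟨C₃, S3, fun t u => ?_⟩
    rw [key, hsign]

include hc in
/-- the lifts satisfy the relations (R1), (R2) -/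
theorem stein_rel (hsl : slB D = true) (hX : Rel D X)
    (hinj : ∀ g < D.nroots, ∀ v v' : K, X g v = X g v' → v = v')
    (hH1 : ∀ α β, ComP D α β → ∃ a b C, SumP D a b β C ∧ ComP D α a ∧ ComP D α b)
    (hbase : ∀ g < D.nroots, SumP D (base g).1 (base g).2.1 g (base g).2.2 ∧
      ∃ a₁ a₂ h C₁ C₂ C₃, CfgP D g (base g).1 (base g).2.1 a₁ a₂ h C₁ C₂ C₃)
    (hreach : ∀ r s g C, r < D.nroots → s < D.nroots → s ≠ r → s ≠ D.neg r →
      D.chainEntry r s = [(g, C)] → g < D.nroots ∧ Reach D base g r s) :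
    Rel D (xs D X ψ hs base) ∧
      ∀ g < D.nroots, ∀ v : K, ψ (xs D X ψ hs base g v) = X g v := by
  have hCm : ∀ α β, ComP D α β → Cm X ψ hs α β := by
    intro α β h
    obtain ⟨a, b, C, h3, h1, h2⟩ := hH1 α β h
    exact cm_of_sum ψ hs hc hsl hX h1 h2 h3
  have hpsi : ∀ g < D.nroots, ∀ v : K, ψ (xs D X ψ hs base g v) = X g v :=
    fun g hg v => psi_xs ψ hs base hsl hX g hg (hbase g hg).1 v
  have hadd : ∀ (g : ℕ) (v v' : K),
      xs D X ψ hs base g v * xs D X ψ hs base g v' = xs D X ψ hs base g (v + v') := by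
    intro g v v'
    apply xs_add ψ hs hc base hsl hX g
    intro hg
    obtain ⟨hS, a₁, a₂, h, C₁, C₂, C₃, S1, S2, S3, k1, k2, k3⟩ := hbase g hg
    exact ⟨hS, hCm _ _ k3⟩
  have hzero : ∀ g : ℕ, xs D X ψ hs base g (0 : K) = 1 := by
    intro g
    have h1 := hadd g 0 0
    rw [add_zero] at h1
    exact mul_eq_left.mp h1
  have hinv : ∀ (g : ℕ) (v : K), (xs D X ψ hs base g v)⁻¹ = xs D X ψ hs base g (-v) := by
    intro g v
    rw [inv_eq_iff_mul_eq_one, hadd, add_neg_cancel, hzero]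
  refine ⟨⟨hadd, ?_⟩, hpsi⟩
  intro r s hr hsl' hsr hsn t u
  have hlen := chainEntry_len D hsl r s
  have hw : D.commWord K r s t u =
      (D.chainEntry r s).map fun gc => (gc.1, ((gc.2 : ℤ) : K) * (-t) ^ 1 * u ^ 1) := by
    unfold ChevalleyDatum.commWord
    rw [commTerms_sl D hsl r s, List.map_map]
    rfl
  rw [hw]
  rcases hch : D.chainEntry r s with _ | ⟨⟨g, C⟩, _ | ⟨gc', l⟩⟩
  · rw [List.map_nil, wd_nil, mul_one]
    have hcm := hCm r s ⟨hr, hsl', Or.inr ⟨hsn, hch⟩⟩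
    exact (hcm.lift ψ hs hc t u _ _ (hpsi r hr t) (hpsi s hsl' u)).symm
  · rw [List.map_cons, List.map_nil, wd_cons, wd_nil, mul_one]
    obtain ⟨hg, hre⟩ := hreach r s g C hr hsl' hsr hsn hch
    obtain ⟨C', hS, hgood⟩ := good_of_reach ψ hs hc base hsl hX hinj hCm g hg (hbase g hg) r s hre
    have hCC : C' = C := by
      have h1 := hS.2.2.2.2.2.1
      rw [hch] at h1
      simpa using h1.symm
    subst hCC
    have h1 := hgood (-t) (-u)
    have p1 : ψ ((xs D X ψ hs base s u)⁻¹) = X s (-u) := by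
      rw [map_inv, hpsi s hsl' u, hX.inv]
    have p2 : ψ ((xs D X ψ hs base r t)⁻¹) = X r (-t) := by
      rw [map_inv, hpsi r hr t, hX.inv]
    rw [CExt.cc_eq ψ hs hc _ _ _ _ p1 p2, inv_inv, inv_inv] at h1
    have e1 : -((C' : K) * -t * -u) = (C' : K) * (-t) ^ 1 * u ^ 1 := by ring
    rw [e1] at h1
    show xs D X ψ hs base s u * xs D X ψ hs base r t = xs D X ψ hs base r t *
      xs D X ψ hs base s u * xs D X ψ hs base g ((C' : K) * (-t) ^ 1 * u ^ 1)
    rw [← h1]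
    group
  · rw [hch] at hlen
    simp at hlen

end ext

end Cfsg.Agent.Lib.Helper18.StAbs
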