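import Cfsg.Agent.Lib.Helper18.StStein

/-!
# Boolean checks for the conditions of `stein_rel`

Checks along the rows of the chain table, for certificates listing decompositions of roots.
-/

set_option autoImplicit false

namespace Cfsg.Agent.Lib.Helper18.StAbs

open Cfsg Cfsg.Lie Cfsg.Lie.ChevalleyDatum Cfsg.Agent.Lib.Helper17

/-- the entry of a root in a row of the chain table -/
def rowEntry (row : List (ℕ × Array (ℕ × ℤ))) (s : ℕ) : List (ℕ × ℤ) :=
  match row.find? (fun e => e.1 = s) with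
  | none => []
  | some e => e.2.toList

theorem rowEntry_eq (D : ChevalleyDatum) (r s : ℕ) :
    rowEntry (D.chain.getD r #[]).toList s = D.chainEntry r s := rfl

/-- the root elements of `a` and `c` commute -/
def comB (row : List (ℕ × Array (ℕ × ℤ))) (na a c : ℕ) : Bool :=
  c == a || (c != na && (rowEntry row c).isEmpty)

theorem comB_iff (D : ChevalleyDatum) (a c : ℕ) :
    comB (D.chain.getD a #[]).toList (D.neg a) a c = true ↔
      (c = a ∨ (c ≠ D.neg a ∧ D.chainEntry a c = [])) := by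
  unfold comB
  rw [rowEntry_eq]
  simp [List.isEmpty_iff]

/-- the sum of the roots `a` and `b`, with its structure constant -/
def sumB (row : List (ℕ × Array (ℕ × ℤ))) (na a b : ℕ) : Option (ℕ × ℤ) :=
  if b != a && b != na then
    match rowEntry row b with
    | [gc] => if gc.2 == 1 || gc.2 == -1 then some gc else none
    | _ => none
  else none

theorem sumB_spec (D : ChevalleyDatum) (a b : ℕ) (gc : ℕ × ℤ)
    (h : sumB (D.chain.getD a #[]).toList (D.neg a) a b = some gc) :
    b ≠ a ∧ b ≠ D.neg a ∧ D.chainEntry a b = [gc] ∧ (gc.2 = 1 ∨ gc.2 = -1) := by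
  unfold sumB at h
  rw [rowEntry_eq] at h
  split at h
  · rename_i h1
    rw [Bool.and_eq_true] at h1
    split at h
    · rename_i gc' h2
      split at h
      · rename_i h3
        have h4 : gc' = gc := by simpa using h
        subst h4
        refine ⟨by simpa using h1.1, by simpa using h1.2, h2, by simpa using h3⟩
      · exact absurd h (by simp)
    · exact absurd h (by simp)
  · exact absurd h (by simp)

/-! ### Decompositions commuting with a root -/

/-- the roots `a + b` for the pairs `(a, b)` of the certificate, with `a`, `b` commuting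
with `α` -/
def h1Outs (D : ChevalleyDatum) (α : ℕ) (cert : List (ℕ × List ℕ)) : List ℕ :=
  cert.flatMap fun ab =>
    if decide (ab.1 < D.nroots) && comB (D.chain.getD α #[]).toList (D.neg α) α ab.1 then
      ab.2.filterMap fun b =>
        if decide (b < D.nroots) && comB (D.chain.getD α #[]).toList (D.neg α) α b then
          match sumB (D.chain.getD ab.1 #[]).toList (D.neg ab.1) ab.1 b with
          | some gc => if decide (gc.1 < D.nroots) then some gc.1 else none
          | none => none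
        else none
    else []

/-- every root commuting with `α` is the sum of two roots commuting with `α` -/
def h1B (D : ChevalleyDatum) (α : ℕ) (cert : List (ℕ × List ℕ)) : Bool :=
  (List.range D.nroots).all fun β =>
    !(comB (D.chain.getD α #[]).toList (D.neg α) α β) || (h1Outs D α cert).contains β

theorem h1B_spec (D : ChevalleyDatum) (α : ℕ) (cert : List (ℕ × List ℕ))
    (h : h1B D α cert = true) (β : ℕ) (hαβ : ComP D α β) :
    ∃ a b C, SumP D a b β C ∧ ComP D α a ∧ ComP D α b := by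
  obtain ⟨hα, hβ, h0⟩ := hαβ
  have h1 := List.all_eq_true.mp h β (List.mem_range.mpr hβ)
  rw [Bool.or_eq_true] at h1
  have h2 : comB (D.chain.getD α #[]).toList (D.neg α) α β = true := (comB_iff D α β).mpr h0
  rcases h1 with h1 | h1
  · rw [h2] at h1
    exact absurd h1 (by simp)
  · have h3 : β ∈ h1Outs D α cert := by simpa using h1
    unfold h1Outs at h3
    obtain ⟨ab, -, h4⟩ := List.mem_flatMap.mp h3
    split at h4
    · rename_i h5
      rw [Bool.and_eq_true] at h5
      obtain ⟨b, -, h6⟩ := List.mem_filterMap.mp h4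
      split at h6
      · rename_i h7
        rw [Bool.and_eq_true] at h7
        split at h6
        · rename_i gc h8
          split at h6
          · rename_i h9
            have h10 : gc.1 = β := by simpa using h6
            obtain ⟨s1, s2, s3, s4⟩ := sumB_spec D ab.1 b gc h8
            have ha : ab.1 < D.nroots := of_decide_eq_true h5.1
            have hb : b < D.nroots := of_decide_eq_true h7.1
            refine ⟨ab.1, b, gc.2, ⟨ha, hb, hβ, s1, s2, ?_, s4⟩, ⟨hα, ha, (comB_iff D α _).mp h5.2⟩,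
              ⟨hα, hb, (comB_iff D α _).mp h7.2⟩⟩
            rw [s3, ← h10]
          · exact absurd h6 (by simp)
        · exact absurd h6 (by simp)
      · exact absurd h6 (by simp)
    · exact absurd h4 List.not_mem_nil

/-- the check for the roots of a list -/
def h1ChunkB (D : ChevalleyDatum) (L : List (ℕ × List (ℕ × List ℕ))) : Bool :=
  L.all fun x => h1B D x.1 x.2

theorem h1_of_chunk (D : ChevalleyDatum) (L : List (ℕ × List (ℕ × List ℕ)))
    (h : h1ChunkB D L = true) (x : ℕ × List (ℕ × List ℕ)) (hx : x ∈ L) (β : ℕ)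
    (hαβ : ComP D x.1 β) : ∃ a b C, SumP D a b β C ∧ ComP D x.1 a ∧ ComP D x.1 b :=
  h1B_spec D x.1 x.2 (List.all_eq_true.mp h x hx) β hαβ

theorem cover_of_eq' {α : Type*} (n : ℕ) (tab : List (ℕ × α))
    (h : tab.map Prod.fst = List.range n) (r : ℕ) (hr : r < n) : ∃ x ∈ tab, x.1 = r := by
  have h1 : r ∈ tab.map Prod.fst := by
    rw [h]
    exact List.mem_range.mpr hr
  obtain ⟨x, hx, hxr⟩ := List.mem_map.mp h1
  exact ⟨x, hx, hxr⟩

/-! ### Configurations -/

/-- the check of a configuration `a = a₁ + a₂`, `h = a₂ + b`, `g = a + b = a₁ + h` -/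
def cfgB (D : ChevalleyDatum) (g a b a₁ a₂ h : ℕ) : Bool :=
  decide (g < D.nroots) && decide (a < D.nroots) && decide (b < D.nroots) &&
  decide (a₁ < D.nroots) && decide (a₂ < D.nroots) && decide (h < D.nroots) &&
  (match sumB (D.chain.getD a₁ #[]).toList (D.neg a₁) a₁ a₂ with
    | some gc => gc.1 == a
    | none => false) &&
  (match sumB (D.chain.getD a₂ #[]).toList (D.neg a₂) a₂ b with
    | some gc => gc.1 == h
    | none => false) &&
  (match sumB (D.chain.getD a₁ #[]).toList (D.neg a₁) a₁ h with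
    | some gc => gc.1 == g
    | none => false) &&
  comB (D.chain.getD a₁ #[]).toList (D.neg a₁) a₁ b &&
  comB (D.chain.getD a #[]).toList (D.neg a) a h &&
  comB (D.chain.getD a #[]).toList (D.neg a) a g

theorem sum_of_match (D : ChevalleyDatum) (a b g : ℕ) (ha : a < D.nroots) (hb : b < D.nroots)
    (hg : g < D.nroots)
    (h : (match sumB (D.chain.getD a #[]).toList (D.neg a) a b with
      | some gc => gc.1 == g
      | none => false) = true) : ∃ C, SumP D a b g C := by
  split at h
  · rename_i gc h1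
    obtain ⟨s1, s2, s3, s4⟩ := sumB_spec D a b gc h1
    have h2 : gc.1 = g := by simpa using h
    refine ⟨gc.2, ha, hb, hg, s1, s2, ?_, s4⟩
    rw [s3, ← h2]
  · exact absurd h (by simp)

theorem cfgB_spec (D : ChevalleyDatum) (g a b a₁ a₂ h : ℕ) (hB : cfgB D g a b a₁ a₂ h = true) :
    ∃ C₁ C₂ C₃, CfgP D g a b a₁ a₂ h C₁ C₂ C₃ := by
  unfold cfgB at hB
  simp only [Bool.and_eq_true] at hB
  obtain ⟨⟨⟨⟨⟨⟨⟨⟨⟨⟨⟨b1, b2⟩, b3⟩, b4⟩, b5⟩, b6⟩, m1⟩, m2⟩, m3⟩, k1⟩, k2⟩, k3⟩ := hB
  have hg := of_decide_eq_true b1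
  have ha := of_decide_eq_true b2
  have hb := of_decide_eq_true b3
  have ha1 := of_decide_eq_true b4
  have ha2 := of_decide_eq_true b5
  have hh := of_decide_eq_true b6
  obtain ⟨C₁, S1⟩ := sum_of_match D a₁ a₂ a ha1 ha2 ha m1
  obtain ⟨C₂, S2⟩ := sum_of_match D a₂ b h ha2 hb hh m2
  obtain ⟨C₃, S3⟩ := sum_of_match D a₁ h g ha1 hh hg m3
  exact ⟨C₁, C₂, C₃, S1, S2, S3, ⟨ha1, hb, (comB_iff D a₁ b).mp k1⟩,
    ⟨ha, hh, (comB_iff D a h).mp k2⟩, ⟨ha, hg, (comB_iff D a g).mp k3⟩⟩

/-- the check of a list of moves, given the decompositions reached so far -/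
def reachB (D : ChevalleyDatum) (g : ℕ) :
    List (ℕ × ℕ) → List (ℕ × ℕ × ℕ × ℕ × ℕ) → Bool
  | _, [] => true
  | done, m :: ms => done.contains (m.1, m.2.1) &&
      cfgB D g m.1 m.2.1 m.2.2.1 m.2.2.2.1 m.2.2.2.2 &&
      reachB D g ((m.2.2.1, m.2.2.2.2) :: done) ms

theorem reachB_spec (D : ChevalleyDatum) (base : ℕ → ℕ × ℕ × ℤ) (g : ℕ)
    (ms : List (ℕ × ℕ × ℕ × ℕ × ℕ)) :
    ∀ done : List (ℕ × ℕ), (∀ p ∈ done, Reach D base g p.1 p.2) → reachB D g done ms = true →
      ∀ p ∈ done ++ ms.map (fun m => (m.2.2.1, m.2.2.2.2)), Reach D base g p.1 p.2 := by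
  induction ms with
  | nil =>
    intro done hd _ p hp
    rw [List.map_nil, List.append_nil] at hp
    exact hd p hp
  | cons m ms ih =>
    intro done hd hB p hp
    unfold reachB at hB
    rw [Bool.and_eq_true, Bool.and_eq_true] at hB
    obtain ⟨⟨h1, h2⟩, h3⟩ := hB
    have h4 : (m.1, m.2.1) ∈ done := by simpa using h1
    obtain ⟨C₁, C₂, C₃, hcfg⟩ := cfgB_spec D g _ _ _ _ _ h2
    have h5 : Reach D base g m.2.2.1 m.2.2.2.2 :=
      Reach.move m.1 m.2.1 m.2.2.1 m.2.2.2.1 m.2.2.2.2 C₁ C₂ C₃ (hd _ h4) hcfg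
    have h6 := ih ((m.2.2.1, m.2.2.2.2) :: done) (by
      intro q hq
      rcases List.mem_cons.mp hq with rfl | hq
      · exact h5
      · exact hd q hq) h3
    apply h6
    rw [List.map_cons] at hp
    rcases List.mem_append.mp hp with hp | hp
    · exact List.mem_append_left _ (List.mem_cons_of_mem _ hp)
    · rcases List.mem_cons.mp hp with rfl | hp
      · exact List.mem_append_left _ List.mem_cons_self
      · exact List.mem_append_right _ hp

/-- a certificate for a root `g`: the base decomposition `(a₀, b₀)` with its structure constant,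
a configuration for it, and a list of moves -/
abbrev GCert := ℕ × (ℕ × ℕ × ℤ) × (ℕ × ℕ × ℕ) × List (ℕ × ℕ × ℕ × ℕ × ℕ)

/-- the decompositions reached by a certificate -/
def targetsOf (c : GCert) : List (ℕ × ℕ) :=
  (c.2.1.1, c.2.1.2.1) :: c.2.2.2.map (fun m => (m.2.2.1, m.2.2.2.2))

/-- the check of a certificate -/
def gB (D : ChevalleyDatum) (c : GCert) : Bool :=
  decide (c.1 < D.nroots) && decide (c.2.1.1 < D.nroots) && decide (c.2.1.2.1 < D.nroots) &&
  (sumB (D.chain.getD c.2.1.1 #[]).toList (D.neg c.2.1.1) c.2.1.1 c.2.1.2.1 ==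
    some (c.1, c.2.1.2.2)) &&
  cfgB D c.1 c.2.1.1 c.2.1.2.1 c.2.2.1.1 c.2.2.1.2.1 c.2.2.1.2.2 &&
  reachB D c.1 [(c.2.1.1, c.2.1.2.1)] c.2.2.2

theorem gB_spec (D : ChevalleyDatum) (base : ℕ → ℕ × ℕ × ℤ) (c : GCert) (h : gB D c = true)
    (hb : base c.1 = c.2.1) :
    (SumP D (base c.1).1 (base c.1).2.1 c.1 (base c.1).2.2 ∧ ∃ a₁ a₂ h C₁ C₂ C₃,
      CfgP D c.1 (base c.1).1 (base c.1).2.1 a₁ a₂ h C₁ C₂ C₃) ∧
    ∀ p ∈ targetsOf c, Reach D base c.1 p.1 p.2 := by
  unfold gB at h
  simp only [Bool.and_eq_true] at h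
  obtain ⟨⟨⟨⟨⟨b1, b2⟩, b3⟩, b4⟩, b5⟩, b6⟩ := h
  have hg := of_decide_eq_true b1
  have ha := of_decide_eq_true b2
  have hb' := of_decide_eq_true b3
  have b4' : sumB (D.chain.getD c.2.1.1 #[]).toList (D.neg c.2.1.1) c.2.1.1 c.2.1.2.1 =
      some (c.1, c.2.1.2.2) := by simpa using b4
  obtain ⟨s1, s2, s3, s4⟩ := sumB_spec D _ _ _ b4'
  obtain ⟨C₁, C₂, C₃, hcfg⟩ := cfgB_spec D _ _ _ _ _ _ b5
  rw [hb]
  refine ⟨⟨⟨ha, hb', hg, s1, s2, s3, s4⟩, _, _, _, C₁, C₂, C₃, hcfg⟩, ?_⟩
  have h1 := reachB_spec D base c.1 c.2.2.2 [(c.2.1.1, c.2.1.2.1)] (by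
    intro p hp
    rw [List.mem_singleton] at hp
    subst hp
    have := Reach.base (D := D) (base := base) (g := c.1)
    rw [hb] at this
    exact this) b6
  intro p hp
  apply h1
  unfold targetsOf at hp
  exact hp

/-- the check for the certificates of a list -/
def gChunkB (D : ChevalleyDatum) (L : List GCert) : Bool := L.all fun c => gB D c

/-- the base decompositions of a list of certificates -/
def baseF (cert : List GCert) (g : ℕ) : ℕ × ℕ × ℤ :=
  (cert.getD g (0, (0, 0, 0), (0, 0, 0), [])).2.1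

/-- every decomposition in the row of `r` is reached -/
def covRowB (D : ChevalleyDatum) (cert : List GCert) (r : ℕ) : Bool :=
  (D.chain.getD r #[]).toList.all fun e =>
    match e.2.toList with
    | [] => true
    | [gc] => decide (gc.1 < D.nroots) &&
        (targetsOf (cert.getD gc.1 (0, (0, 0, 0), (0, 0, 0), []))).contains (r, e.1)
    | _ => false

theorem covRowB_spec (D : ChevalleyDatum) (cert : List GCert) (r : ℕ)
    (h : covRowB D cert r = true) (s g : ℕ) (C : ℤ) (hch : D.chainEntry r s = [(g, C)]) :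
    g < D.nroots ∧ (r, s) ∈ targetsOf (cert.getD g (0, (0, 0, 0), (0, 0, 0), [])) := by
  unfold ChevalleyDatum.chainEntry at hch
  split at hch
  · exact absurd hch (by simp)
  · rename_i e he
    have hmem := List.mem_of_find?_eq_some he
    have hkey : e.1 = s := by simpa using List.find?_some he
    have h1 := List.all_eq_true.mp h e hmem
    rw [hch] at h1
    rw [Bool.and_eq_true] at h1
    refine ⟨of_decide_eq_true h1.1, ?_⟩
    rw [← hkey]
    simpa using h1.2

theorem getD_mem_of_cover (cert : List GCert) (n : ℕ)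
    (hcov : cert.map Prod.fst = List.range n) (g : ℕ) (hg : g < n) :
    cert.getD g (0, (0, 0, 0), (0, 0, 0), []) ∈ cert ∧
      (cert.getD g (0, (0, 0, 0), (0, 0, 0), [])).1 = g := by
  have hlen : cert.length = n := by
    have := congrArg List.length hcov
    rwa [List.length_map, List.length_range] at this
  have hg' : g < cert.length := by rw [hlen]; exact hg
  rw [List.getD_eq_getElem _ _ hg']
  refine ⟨List.getElem_mem hg', ?_⟩
  have h1 : (cert.map Prod.fst)[g]'(by rw [List.length_map]; exact hg') = cert[g].1 :=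
    List.getElem_map _
  rw [← h1]
  simp [hcov]

/-- the conditions of `stein_rel` from the checks -/
theorem stein_hyps (D : ChevalleyDatum) (cert : List GCert)
    (hcov : cert.map Prod.fst = List.range D.nroots)
    (hgood : ∀ c ∈ cert, gB D c = true)
    (hrow : ∀ r < D.nroots, covRowB D cert r = true) :
    (∀ g < D.nroots, SumP D (baseF cert g).1 (baseF cert g).2.1 g (baseF cert g).2.2 ∧
      ∃ a₁ a₂ h C₁ C₂ C₃, CfgP D g (baseF cert g).1 (baseF cert g).2.1 a₁ a₂ h C₁ C₂ C₃) ∧
    (∀ r s g C, r < D.nroots → s < D.nroots → s ≠ r → s ≠ D.neg r →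
      D.chainEntry r s = [(g, C)] → g < D.nroots ∧ Reach D (baseF cert) g r s) := by
  have key : ∀ g < D.nroots, (SumP D (baseF cert g).1 (baseF cert g).2.1 g (baseF cert g).2.2 ∧
      ∃ a₁ a₂ h C₁ C₂ C₃, CfgP D g (baseF cert g).1 (baseF cert g).2.1 a₁ a₂ h C₁ C₂ C₃) ∧
      ∀ p ∈ targetsOf (cert.getD g (0, (0, 0, 0), (0, 0, 0), [])),
        Reach D (baseF cert) g p.1 p.2 := by
    intro g hg
    obtain ⟨hmem, h1⟩ := getD_mem_of_cover cert D.nroots hcov g hg
    have h2 := gB_spec D (baseF cert) _ (hgood _ hmem) (by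
      rw [h1]
      rfl)
    rw [h1] at h2
    exact h2
  refine ⟨fun g hg => (key g hg).1, ?_⟩
  intro r s g C hr _ _ _ hch
  obtain ⟨hg, hmem⟩ := covRowB_spec D cert r (hrow r hr) s g C hch
  exact ⟨hg, (key g hg).2 _ hmem⟩

end Cfsg.Agent.Lib.Helper18.StAbs
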