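import Cfsg.Agent.Lib.Helper18.StSteinChk

/-!
# Faster forms of the checks of `StSteinChk`

The rows of the chain table used repeatedly are evaluated once.
-/

set_option autoImplicit false

namespace Cfsg.Agent.Lib.Helper18.StAbs

open Cfsg Cfsg.Lie Cfsg.Lie.ChevalleyDatum Cfsg.Agent.Lib.Helper17

/-- evaluate a row before using it -/
def forceRow {β : Type} (row : List (ℕ × Array (ℕ × ℤ)))
    (k : List (ℕ × Array (ℕ × ℤ)) → β) : β :=
  match row with
  | [] => k []
  | e :: es => k (e :: es)

theorem forceRow_eq {β : Type} (row : List (ℕ × Array (ℕ × ℤ)))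
    (k : List (ℕ × Array (ℕ × ℤ)) → β) : forceRow row k = k row := by
  cases row <;> rfl

/-- evaluate a number before using it -/
def forceNat {β : Type} (n : ℕ) (k : ℕ → β) : β :=
  match n with
  | 0 => k 0
  | m + 1 => k (m + 1)

theorem forceNat_eq {β : Type} (n : ℕ) (k : ℕ → β) : forceNat n k = k n := by
  cases n <;> rfl

/-- evaluate a list of numbers before using it -/
def forceList {β : Type} : List ℕ → (List ℕ → β) → β
  | [], k => k []
  | x :: xs, k => forceNat x fun x' => forceList xs fun xs' => k (x' :: xs')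

theorem forceList_eq {β : Type} (l : List ℕ) : ∀ k : List ℕ → β, forceList l k = k l := by
  induction l with
  | nil => intro k; rfl
  | cons x xs ih =>
    intro k
    unfold forceList
    rw [forceNat_eq, ih]

/-- evaluate the spine of a list before using it -/
def forceSpine {α β : Type} : List α → (List α → β) → β
  | [], k => k []
  | x :: xs, k => forceSpine xs fun xs' => k (x :: xs')

theorem forceSpine_eq {α β : Type} (l : List α) : ∀ k : List α → β, forceSpine l k = k l := by
  induction l with
  | nil => intro k; rfl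
  | cons x xs ih =>
    intro k
    unfold forceSpine
    rw [ih]

/-! ### Decompositions commuting with a root -/

/-- `h1Outs` with the rows evaluated once -/
def h1OutsF (D : ChevalleyDatum) (row : List (ℕ × Array (ℕ × ℤ))) (nα α : ℕ)
    (cert : List (ℕ × List ℕ)) : List ℕ :=
  cert.flatMap fun ab =>
    if decide (ab.1 < D.nroots) && comB row nα α ab.1 then
      forceRow (D.chain.getD ab.1 #[]).toList fun rowa =>
      forceNat (D.neg ab.1) fun na =>
      ab.2.filterMap fun b =>
        if decide (b < D.nroots) && comB row nα α b then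
          match sumB rowa na ab.1 b with
          | some gc => if decide (gc.1 < D.nroots) then some gc.1 else none
          | none => none
        else none
    else []

/-- `h1B` with the rows evaluated once -/
def h1F (D : ChevalleyDatum) (α : ℕ) (cert : List (ℕ × List ℕ)) : Bool :=
  forceRow (D.chain.getD α #[]).toList fun row =>
  forceNat (D.neg α) fun nα =>
  forceList (h1OutsF D row nα α cert) fun outs =>
  (List.range D.nroots).all fun β => !(comB row nα α β) || outs.contains β

theorem h1F_eq (D : ChevalleyDatum) (α : ℕ) (cert : List (ℕ × List ℕ)) :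
    h1F D α cert = h1B D α cert := by
  unfold h1F h1B h1Outs h1OutsF
  simp only [forceRow_eq, forceNat_eq, forceList_eq]
  rfl

/-- the check for the roots of a list -/
def h1ChunkF (D : ChevalleyDatum) (L : List (ℕ × List (ℕ × List ℕ))) : Bool :=
  L.all fun x => h1F D x.1 x.2

theorem h1_of_chunkF (D : ChevalleyDatum) (L : List (ℕ × List (ℕ × List ℕ)))
    (h : h1ChunkF D L = true) (x : ℕ × List (ℕ × List ℕ)) (hx : x ∈ L) (β : ℕ)
    (hαβ : ComP D x.1 β) : ∃ a b C, SumP D a b β C ∧ ComP D x.1 a ∧ ComP D x.1 b := by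
  have h1 := List.all_eq_true.mp h x hx
  rw [h1F_eq] at h1
  exact h1B_spec D x.1 x.2 h1 β hαβ

/-! ### Configurations -/

/-- `cfgB` with the rows evaluated once -/
def cfgF (D : ChevalleyDatum) (g a b a₁ a₂ h : ℕ) : Bool :=
  decide (g < D.nroots) && decide (a < D.nroots) && decide (b < D.nroots) &&
  decide (a₁ < D.nroots) && decide (a₂ < D.nroots) && decide (h < D.nroots) &&
  (forceRow (D.chain.getD a₁ #[]).toList fun row1 =>
    forceNat (D.neg a₁) fun n1 =>
      (match sumB row1 n1 a₁ a₂ with
        | some gc => gc.1 == a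
        | none => false) &&
      (match sumB row1 n1 a₁ h with
        | some gc => gc.1 == g
        | none => false) &&
      comB row1 n1 a₁ b) &&
  (match sumB (D.chain.getD a₂ #[]).toList (D.neg a₂) a₂ b with
    | some gc => gc.1 == h
    | none => false) &&
  (forceRow (D.chain.getD a #[]).toList fun row =>
    forceNat (D.neg a) fun n => comB row n a h && comB row n a g)

theorem cfgF_imp (D : ChevalleyDatum) (g a b a₁ a₂ h : ℕ) (hF : cfgF D g a b a₁ a₂ h = true) :
    cfgB D g a b a₁ a₂ h = true := by
  unfold cfgF at hF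
  unfold cfgB
  simp only [forceRow_eq, forceNat_eq, Bool.and_eq_true] at hF ⊢
  tauto

/-- `reachB` with the rows evaluated once -/
def reachF (D : ChevalleyDatum) (g : ℕ) :
    List (ℕ × ℕ) → List (ℕ × ℕ × ℕ × ℕ × ℕ) → Bool
  | _, [] => true
  | done, m :: ms => done.contains (m.1, m.2.1) &&
      cfgF D g m.1 m.2.1 m.2.2.1 m.2.2.2.1 m.2.2.2.2 &&
      reachF D g ((m.2.2.1, m.2.2.2.2) :: done) ms

theorem reachF_imp (D : ChevalleyDatum) (g : ℕ) (ms : List (ℕ × ℕ × ℕ × ℕ × ℕ)) :
    ∀ done : List (ℕ × ℕ), reachF D g done ms = true → reachB D g done ms = true := by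
  induction ms with
  | nil => intro done _; rfl
  | cons m ms ih =>
    intro done h
    unfold reachF at h
    unfold reachB
    rw [Bool.and_eq_true, Bool.and_eq_true] at h ⊢
    exact ⟨⟨h.1.1, cfgF_imp D _ _ _ _ _ _ h.1.2⟩, ih _ h.2⟩

/-- `gB` with the rows evaluated once -/
def gF (D : ChevalleyDatum) (c : GCert) : Bool :=
  decide (c.1 < D.nroots) && decide (c.2.1.1 < D.nroots) && decide (c.2.1.2.1 < D.nroots) &&
  (sumB (D.chain.getD c.2.1.1 #[]).toList (D.neg c.2.1.1) c.2.1.1 c.2.1.2.1 ==
    some (c.1, c.2.1.2.2)) &&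
  cfgF D c.1 c.2.1.1 c.2.1.2.1 c.2.2.1.1 c.2.2.1.2.1 c.2.2.1.2.2 &&
  reachF D c.1 [(c.2.1.1, c.2.1.2.1)] c.2.2.2

theorem gF_imp (D : ChevalleyDatum) (c : GCert) (h : gF D c = true) : gB D c = true := by
  unfold gF at h
  unfold gB
  simp only [Bool.and_eq_true] at h ⊢
  exact ⟨⟨h.1.1, cfgF_imp D _ _ _ _ _ _ h.1.2⟩, reachF_imp D _ _ _ h.2⟩

/-- the check for the certificates of a list -/
def gChunkF (D : ChevalleyDatum) (L : List GCert) : Bool := L.all fun c => gF D c

theorem g_of_chunkF (D : ChevalleyDatum) (L : List GCert) (h : gChunkF D L = true) (c : GCert)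
    (hc : c ∈ L) : gB D c = true :=
  gF_imp D c (List.all_eq_true.mp h c hc)

/-- the coverage check for the rows of a list -/
def covF (D : ChevalleyDatum) (cert : List GCert) (R : List ℕ) : Bool :=
  forceSpine cert fun cert' => R.all fun r => covRowB D cert' r

theorem cov_of_chunkF (D : ChevalleyDatum) (cert : List GCert) (R : List ℕ)
    (h : covF D cert R = true) (r : ℕ) (hr : r ∈ R) : covRowB D cert r = true := by
  unfold covF at h
  rw [forceSpine_eq] at h
  exact List.all_eq_true.mp h r hr

end Cfsg.Agent.Lib.Helper18.StAbs
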