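import Cfsg.Agent.Lib.Helper18.StBruhat
import Cfsg.Agent.Lib.Helper18.ChevSl2Hom
import Cfsg.Agent.Lib.Helper36.ChevNAll

/-!
# The elements `h_r(t)` of a group with the relations (R1), (R2)

In a group `Γ` generated by root elements with the relations (R1) and (R2), mapped to the Chevalley
group by `π`, the elements `h_p(t) = n_p(t) n_p(-1)` for the fundamental roots `p` generate a
subgroup `Ĥ` normalised by `N̂`, and it contains `h_r(t)` for every root `r`.
-/

set_option autoImplicit false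

namespace Cfsg.Agent.Lib.Helper18.StAbs

open Cfsg Cfsg.Lie Cfsg.Lie.ChevalleyDatum Cfsg.Agent.Lib.Helper17

variable {K : Type*} [Field K] {Γ : Type*} [Group Γ]

/-- the element `h_r(t) = n_r(t) n_r(-1)` -/
def hG (D : ChevalleyDatum) (X : ℕ → K → Γ) (r : ℕ) (t : K) : Γ :=
  nG D X r t * nG D X r (-1)

/-- the subgroup generated by the `h_p(t)`, `p` fundamental -/
def H0 (D : ChevalleyDatum) (X : ℕ → K → Γ) : Subgroup Γ :=
  Subgroup.closure {h | ∃ i < D.rank, ∃ t : K, t ≠ 0 ∧ h = hG D X (D.simple i) t}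

theorem xU_inj {F : Type*} [Field F] (D : ChevalleyDatum)
    (hD : D ∈ [chevG2, chevB2, chevD4, chevF4, chevE6, chevE7, chevE8]) (s : ℕ) (hs : s < D.nroots)
    (a b : F) (h : xU D hD s a = xU D hD s b) : a = b := by
  have h2 : xU D hD s (a - b) = 1 := by
    have h3 : xU D hD s (a - b) = xU D hD s a * (xU D hD s b)⁻¹ := by
      rw [xU_inv, xU_mul, sub_eq_add_neg]
    rw [h3, h, mul_inv_cancel]
  have h4 := congrArg Units.val h2
  rw [coe_xU, Units.val_one] at h4
  exact sub_eq_zero.mp ((Cfsg.Agent.S1024.result D hD s hs (a - b)).mp h4)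

theorem nT_inv {F : Type*} [Field F] (D : ChevalleyDatum)
    (hD : D ∈ [chevG2, chevB2, chevD4, chevF4, chevE6, chevE7, chevE8]) (r : ℕ) (t : F) :
    (nT D hD r t)⁻¹ = nT D hD r (-t) := by
  rw [nT_eq, nT_eq, mul_inv_rev, mul_inv_rev, xU_inv, xU_inv, inv_neg, mul_assoc]

theorem list_sum_neg_of {α : Type*} (l : List α) (f g : α → ℤ) (h : ∀ i ∈ l, f i = - g i) :
    (l.map f).sum = - (l.map g).sum := by
  induction l with
  | nil => simp
  | cons a l ih =>
    rw [List.map_cons, List.map_cons, List.sum_cons, List.sum_cons, h a List.mem_cons_self,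
      ih (fun i hi => h i (List.mem_cons_of_mem _ hi)), neg_add]

theorem dotCA_neg (D : ChevalleyDatum)
    (hD : D ∈ [chevG2, chevB2, chevD4, chevF4, chevE6, chevE7, chevE8]) (r s : ℕ)
    (hs : s < D.nroots) : dotCA D r (D.neg s) = - dotCA D r s := by
  unfold dotCA
  apply list_sum_neg_of
  intro i hi
  rw [cartan_neg D hD s hs i (List.mem_range.mp hi), mul_neg]

theorem nG_mul_inv (D : ChevalleyDatum) (X : ℕ → K → Γ) (r : ℕ) (a b : K) :
    nG D X r a * (nG D X r b)⁻¹ = hG D X r a * (hG D X r b)⁻¹ := by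
  unfold hG
  group

/-- conjugating `n_s(v)` by an element acting by the scalars `c`, `c⁻¹` on `x_s`, `x_{-s}` -/
theorem conj_nG_of (D : ChevalleyDatum) (X : ℕ → K → Γ) (g : Γ) (s s' : ℕ) (c : K)
    (h1 : ∀ u, g * X s u = X s' (c * u) * g)
    (h2 : ∀ u, g * X (D.neg s) u = X (D.neg s') (c⁻¹ * u) * g) (v : K) :
    g * nG D X s v = nG D X s' (c * v) * g := by
  have e1 := h1 v
  have e2 := h2 (-v⁻¹)
  have e3 : c⁻¹ * -v⁻¹ = -(c * v)⁻¹ := by rw [mul_inv, mul_neg]
  rw [e3] at e2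
  unfold nG
  calc g * (X s v * (X (D.neg s) (-v⁻¹) * X s v))
      = (g * X s v) * X (D.neg s) (-v⁻¹) * X s v := by simp only [mul_assoc]
    _ = X s' (c * v) * (g * X (D.neg s) (-v⁻¹)) * X s v := by rw [e1]; simp only [mul_assoc]
    _ = X s' (c * v) * X (D.neg s') (-(c * v)⁻¹) * (g * X s v) := by
        rw [e2]; simp only [mul_assoc]
    _ = _ := by rw [e1]; simp only [mul_assoc]

section torus

variable {D : ChevalleyDatum} (hD : D ∈ [chevG2, chevB2, chevD4, chevF4, chevE6, chevE7, chevE8])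
  {X : ℕ → K → Γ} (hX : Rel D X) (π : Γ →* GL D.Idx K)
  (hπ : ∀ r < D.nroots, ∀ t, π (X r t) = xU D hD r t)

include hπ in
theorem pi_hG (r : ℕ) (hr : r < D.nroots) (t : K) : π (hG D X r t) = hU D hD r t := by
  unfold hG
  rw [map_mul, pi_nG hD π hπ r hr, pi_nG hD π hπ r hr, ← nT_inv, nT_one,
    nT_eq_hU_mul D hD r hr t, mul_assoc, mul_inv_cancel, mul_one]

include hπ in
/-- the constants of a monomial element of `Γ` are those of its image -/
theorem mon_const {n : Γ} {σ : Equiv.Perm ℕ} (h : Mon hD X π n σ) (s : ℕ) (hs : s < D.nroots)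
    (c₀ : K) (hG : ∀ u : K, π n * xU D hD s u = xU D hD (σ s) (c₀ * u) * π n) :
    ∀ u : K, n * X s u = X (σ s) (c₀ * u) * n := by
  obtain ⟨c, hc, e⟩ := h.conj s hs
  have h1 := congrArg π (e 1)
  rw [map_mul, map_mul, hπ s hs, hπ _ (h.act.lt s hs), hG 1, mul_one, mul_one] at h1
  have h2 := xU_inj D hD _ (h.act.lt s hs) _ _ (mul_right_cancel h1)
  intro u
  rw [h2]
  exact e u

include hX hπ

theorem mon_hG (i : ℕ) (hi : i < D.rank) (t : K) (ht : t ≠ 0) :
    Mon hD X π (hG D X (D.simple i) t) 1 := by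
  have h1 := (mon_nG hD hX π hπ i hi t ht).mul
    (mon_nG hD hX π hπ i hi (-1) (neg_ne_zero.mpr one_ne_zero))
  have h2 : reflPerm D hD i hi * reflPerm D hD i hi = 1 := by
    have h3 := h1.act
    rw [show nG D X (D.simple i) t * nG D X (D.simple i) (-1) = hG D X (D.simple i) t from rfl,
      pi_hG hD π hπ _ (simple_lt_nroots D hD i hi)] at h3
    exact RootAct.unique h3 (rootAct_of_mem_diagonal D hD _
      (hU_mem D hD _ (simple_lt_nroots D hD i hi) t ht))
  rw [h2] at h1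
  exact h1

/-- `h_p(t) x_s(u) = x_s(t^{⟨s, p^∨⟩} u) h_p(t)` -/
theorem hG_mul_X (i : ℕ) (hi : i < D.rank) (t : K) (ht : t ≠ 0) (s : ℕ) (hs : s < D.nroots)
    (u : K) : hG D X (D.simple i) t * X s u =
      X s (t ^ dotCA D (D.simple i) s * u) * hG D X (D.simple i) t := by
  have h1 := mon_const hD π hπ (mon_hG hD hX π hπ i hi t ht) s hs (t ^ dotCA D (D.simple i) s)
    (fun u => by
      rw [pi_hG hD π hπ _ (simple_lt_nroots D hD i hi), Equiv.Perm.one_apply]
      exact hU_mul_xU D hD _ (simple_lt_nroots D hD i hi) s hs t ht u) u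
  rwa [Equiv.Perm.one_apply] at h1

/-- `h_p(t) n_s(v) = n_s(t^{⟨s, p^∨⟩} v) h_p(t)` -/
theorem hG_mul_nG (i : ℕ) (hi : i < D.rank) (t : K) (ht : t ≠ 0) (s : ℕ) (hs : s < D.nroots)
    (v : K) : hG D X (D.simple i) t * nG D X s v =
      nG D X s (t ^ dotCA D (D.simple i) s * v) * hG D X (D.simple i) t :=
  conj_nG_of D X (hG D X (D.simple i) t) s s (t ^ dotCA D (D.simple i) s)
    (fun u => hG_mul_X hD hX π hπ i hi t ht s hs u)
    (fun u => by
      have := hG_mul_X hD hX π hπ i hi t ht _ (neg_lt_nroots D hD s hs) u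
      rwa [dotCA_neg D hD _ _ hs, zpow_neg] at this) v

/-- `n_p(v) h_q(t) n_p(v)⁻¹ ∈ Ĥ` -/
theorem nG_conj_hG (i j : ℕ) (hi : i < D.rank) (hj : j < D.rank) (t : K) (ht : t ≠ 0) (v : K)
    (hv : v ≠ 0) :
    nG D X (D.simple i) v * hG D X (D.simple j) t * (nG D X (D.simple i) v)⁻¹ ∈ H0 D X := by
  have hc0 : t ^ dotCA D (D.simple j) (D.simple i) ≠ 0 := zpow_ne_zero _ ht
  have h1 := hG_mul_nG hD hX π hπ j hj t ht _ (simple_lt_nroots D hD i hi) v
  have h2 : hG D X (D.simple j) t * (nG D X (D.simple i) v)⁻¹ =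
      (nG D X (D.simple i) (t ^ dotCA D (D.simple j) (D.simple i) * v))⁻¹ *
        hG D X (D.simple j) t := by
    rw [eq_inv_mul_iff_mul_eq, ← mul_assoc, ← h1, mul_assoc, mul_inv_cancel, mul_one]
  rw [mul_assoc, h2, ← mul_assoc, nG_mul_inv]
  have hmem : ∀ a : K, a ≠ 0 → hG D X (D.simple i) a ∈ H0 D X := fun a ha =>
    Subgroup.subset_closure ⟨i, hi, a, ha, rfl⟩
  exact mul_mem (mul_mem (hmem v hv) (inv_mem (hmem _ (mul_ne_zero hc0 hv))))
    (Subgroup.subset_closure ⟨j, hj, t, ht, rfl⟩)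

/-- `Ĥ` is normalised by `N̂` -/
theorem NG_conj_H0 (n : Γ) (hn : n ∈ NG D X) :
    ∀ g ∈ H0 D X, n * g * n⁻¹ ∈ H0 D X ∧ n⁻¹ * g * n ∈ H0 D X := by
  unfold NG at hn
  induction hn using Subgroup.closure_induction with
  | mem x hx =>
    obtain ⟨i, hi, v, hv, rfl⟩ := hx
    intro g hg
    refine ⟨?_, ?_⟩
    · refine conj_closure' _ (H0 D X) _ ?_ g hg
      rintro y ⟨j, hj, t, ht, rfl⟩
      exact nG_conj_hG hD hX π hπ i j hi hj t ht v hv
    · have h1 : ∀ y ∈ H0 D X, nG D X (D.simple i) (-v) * y * (nG D X (D.simple i) (-v))⁻¹ ∈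
          H0 D X := by
        refine conj_closure' _ (H0 D X) _ ?_
        rintro y ⟨j, hj, t, ht, rfl⟩
        exact nG_conj_hG hD hX π hπ i j hi hj t ht (-v) (neg_ne_zero.mpr hv)
      have h2 := h1 g hg
      rwa [← nG_inv hX, inv_inv] at h2
  | one =>
    intro g hg
    simpa using hg
  | mul x y _ _ ihx ihy =>
    intro g hg
    refine ⟨?_, ?_⟩
    · have := (ihx _ (ihy g hg).1).1
      rw [mul_inv_rev]
      simpa only [mul_assoc] using this
    · have := (ihy _ (ihx g hg).2).2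
      rw [mul_inv_rev]
      simpa only [mul_assoc] using this
  | inv x _ ih =>
    intro g hg
    rw [inv_inv]
    exact ⟨(ih g hg).2, (ih g hg).1⟩

/-- the constants of `n_p(1)` on a root and its negative are inverse to each other -/
theorem nG_one_mul_X (i : ℕ) (hi : i < D.rank) (s : ℕ) (hs : s < D.nroots) :
    ∃ c : K, c ≠ 0 ∧
      (∀ u, nG D X (D.simple i) 1 * X s u =
        X (D.reflectRoot i s) (c * u) * nG D X (D.simple i) 1) ∧
      (∀ u, nG D X (D.simple i) 1 * X (D.neg s) u =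
        X (D.neg (D.reflectRoot i s)) (c⁻¹ * u) * nG D X (D.simple i) 1) := by
  obtain ⟨c, c', hcc, e1, e2⟩ := nU_mul_xU_pair (F := K) D hD i hi s hs
  have hm := mon_nG hD hX π hπ i hi 1 one_ne_zero
  have hp : π (nG D X (D.simple i) 1) = nU D hD (D.simple i) := by
    rw [pi_nG hD π hπ _ (simple_lt_nroots D hD i hi), nT_one]
  have hns := neg_lt_nroots D hD s hs
  obtain ⟨hlt, hinv, hneg⟩ := reflect_facts D hD i hi
  refine ⟨c, left_ne_zero_of_mul_eq_one hcc, fun u => ?_, fun u => ?_⟩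
  · have := mon_const hD π hπ hm s hs c (fun u => by
      rw [hp, reflPerm_apply D hD i hi s hs]; exact e1 u) u
    rwa [reflPerm_apply D hD i hi s hs] at this
  · have := mon_const hD π hπ hm (D.neg s) hns c' (fun u => by
      rw [hp, reflPerm_apply D hD i hi _ hns, hneg s hs]; exact e2 u) u
    rwa [reflPerm_apply D hD i hi _ hns, hneg s hs, eq_inv_of_mul_eq_one_right hcc] at this

/-- `n_p(1) n_s(v) n_p(1)⁻¹ = n_{w_p s}(c v)` -/
theorem nG_one_conj_nG (i : ℕ) (hi : i < D.rank) (s : ℕ) (hs : s < D.nroots) :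
    ∃ c : K, c ≠ 0 ∧ ∀ v : K, nG D X (D.reflectRoot i s) (c * v) =
      nG D X (D.simple i) 1 * nG D X s v * (nG D X (D.simple i) 1)⁻¹ := by
  obtain ⟨c, hc, e1, e2⟩ := nG_one_mul_X hD hX π hπ i hi s hs
  refine ⟨c, hc, fun v => ?_⟩
  rw [conj_nG_of D X (nG D X (D.simple i) 1) s (D.reflectRoot i s) c e1 e2 v,
    mul_inv_cancel_right]

/-- every `n_r(t)` lies in `N̂` and every `h_r(t)` in `Ĥ` -/
theorem reach_mem (r : ℕ) (hr : r < D.nroots) (t : K) (ht : t ≠ 0) :
    nG D X r t ∈ NG D X ∧ hG D X r t ∈ H0 D X := by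
  have hstep : ∀ i < D.rank, ∀ s < D.nroots,
      (∀ t : K, t ≠ 0 → nG D X s t ∈ NG D X ∧ hG D X s t ∈ H0 D X) →
      ∀ t : K, t ≠ 0 → nG D X (D.reflectRoot i s) t ∈ NG D X ∧
        hG D X (D.reflectRoot i s) t ∈ H0 D X := by
    intro i hi s hs ih t ht
    obtain ⟨c, hc, hconj⟩ := nG_one_conj_nG hD hX π hπ i hi s hs
    have hn1 := nG_mem_NG hD hX π hπ i hi 1 one_ne_zero
    have hv : ∀ v : K, nG D X (D.reflectRoot i s) v =
        nG D X (D.simple i) 1 * nG D X s (c⁻¹ * v) * (nG D X (D.simple i) 1)⁻¹ := by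
      intro v
      rw [← hconj, mul_inv_cancel_left₀ hc]
    refine ⟨?_, ?_⟩
    · rw [hv]
      exact mul_mem (mul_mem hn1 (ih _ (mul_ne_zero (inv_ne_zero hc) ht)).1) (inv_mem hn1)
    · unfold hG
      rw [hv t, hv (-1)]
      have e1 : nG D X (D.simple i) 1 * nG D X s (c⁻¹ * t) * (nG D X (D.simple i) 1)⁻¹ *
          (nG D X (D.simple i) 1 * nG D X s (c⁻¹ * -1) * (nG D X (D.simple i) 1)⁻¹) =
          nG D X (D.simple i) 1 * (nG D X s (c⁻¹ * t) * (nG D X s c⁻¹)⁻¹) *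
            (nG D X (D.simple i) 1)⁻¹ := by
        have e0 : nG D X s (c⁻¹ * -1) = (nG D X s c⁻¹)⁻¹ := by rw [nG_inv hX, mul_neg_one]
        rw [e0]
        group
      rw [e1, nG_mul_inv]
      exact (NG_conj_H0 hD hX π hπ _ hn1 _ (mul_mem
        (ih _ (mul_ne_zero (inv_ne_zero hc) ht)).2 (inv_mem (ih _ (inv_ne_zero hc)).2))).1
  have hsimple : ∀ j < D.rank, ∀ t : K, t ≠ 0 →
      nG D X (D.simple j) t ∈ NG D X ∧ hG D X (D.simple j) t ∈ H0 D X := fun j hj t ht =>
    ⟨nG_mem_NG hD hX π hπ j hj t ht, Subgroup.subset_closure ⟨j, hj, t, ht, rfl⟩⟩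
  have key : ∀ r, Cfsg.Agent.Lib.Helper36.Reach D r → r < D.nroots →
      ∀ t : K, t ≠ 0 → nG D X r t ∈ NG D X ∧ hG D X r t ∈ H0 D X := by
    intro r hr
    induction hr with
    | simple j hj => exact fun _ => hsimple j hj
    | negSimple j hj =>
      intro _
      rw [← reflectRoot_simple]
      exact hstep j hj _ (simple_lt_nroots D hD j hj) (hsimple j hj)
    | refl i hi s hs h ih => exact fun _ => hstep i hi s hs (ih hs)
  exact key r (Cfsg.Agent.Lib.Helper36.reach_all D hD r hr) hr t ht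

theorem H0_le_NG : H0 D X ≤ NG D X := by
  unfold H0
  rw [Subgroup.closure_le]
  rintro h ⟨i, hi, t, ht, rfl⟩
  exact mul_mem (nG_mem_NG hD hX π hπ i hi t ht)
    (nG_mem_NG hD hX π hπ i hi (-1) (neg_ne_zero.mpr one_ne_zero))

omit hX in
theorem pi_H0_mem (h : Γ) (hh : h ∈ H0 D X) : π h ∈ D.diagonalSubgroup K := by
  have : H0 D X ≤ (D.diagonalSubgroup K).comap π := by
    unfold H0
    rw [Subgroup.closure_le]
    rintro g ⟨i, hi, t, ht, rfl⟩
    show π (hG D X (D.simple i) t) ∈ D.diagonalSubgroup K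
    rw [pi_hG hD π hπ _ (simple_lt_nroots D hD i hi)]
    exact hU_mem D hD _ (simple_lt_nroots D hD i hi) t ht
  exact this hh

end torus

end Cfsg.Agent.Lib.Helper18.StAbs
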